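import Cfsg.Agent.Lib.Char.FTSylow
import Cfsg.Agent.Lib.Char.Galois
import Cfsg.Agent.S0185

/-!
# Blichfeldt: the abelian Hall subgroup for the primes above `n + 1`

The heart is an orthogonality argument with Galois conjugates: if `f = ψ - ψ^σ` vanishes on the
elements with central `p`-part and `f' = ψ - ψ^τ` vanishes on the elements with central `r`-part,
and no element has non-central `p`- and `r`-parts, then `⟨f, f'⟩ = 0`, which is impossible unless
`ψ^σ = ψ` or `ψ^τ = ψ`.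
-/

set_option autoImplicit false
set_option linter.unusedSectionVars false

namespace Cfsg.Agent.Lib.Char.Blich

open Cfsg Cfsg.Agent.Lib.Char
open scoped ComplexConjugate

universe u

/-- The power map parameter. -/
theorem exists_param (p : ℕ) [hp : Fact p.Prime] (hp3 : 3 ≤ p) (m : ℕ) (hm : m ≠ 0) :
    ∃ k : ℕ, 2 ≤ k ∧ k.Coprime m ∧ k.Coprime p ∧ ¬ p ∣ (k - 1) ∧ (m ∣ (k - 1) * ordProj[p] m) ∧
      ∀ i, 0 < i → i < p - 1 → ¬ (k ^ i ≡ 1 [MOD p]) := by
  classical
  obtain ⟨t, ht⟩ := IsCyclic.exists_generator (α := (ZMod p)ˣ)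
  have hord : orderOf t = p - 1 := by
    rw [orderOf_eq_card_of_forall_mem_zpowers ht, Nat.card_eq_fintype_card, ZMod.card_units]
  let t₀ : ℕ := ((t : ZMod p)).val
  have ht₀ : ((t₀ : ℕ) : ZMod p) = (t : ZMod p) := ZMod.natCast_zmod_val _
  set m' := ordCompl[p] m with hm'
  have hco : m'.Coprime p := (Nat.coprime_ordCompl hp.out hm).symm
  let K := Nat.chineseRemainder hco 1 t₀
  have hK1 : (K : ℕ) ≡ 1 [MOD m'] := K.2.1
  have hK2 : (K : ℕ) ≡ t₀ [MOD p] := K.2.2
  have hK2' : (((K : ℕ)) : ZMod p) = (t : ZMod p) := by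
    rw [← ht₀]; exact (ZMod.natCast_eq_natCast_iff _ _ _).mpr hK2
  have hne0 : (t : ZMod p) ≠ 0 := t.ne_zero
  have ht1 : (t : ZMod p) ≠ 1 := by
    intro h
    have : t = 1 := Units.ext h
    rw [this, orderOf_one] at hord
    omega
  have hKco : (K : ℕ).Coprime p := by
    apply Nat.Coprime.symm
    rw [Nat.Prime.coprime_iff_not_dvd hp.out, ← ZMod.natCast_eq_zero_iff, hK2']
    exact hne0
  have hK0 : (K : ℕ) ≠ 0 := by
    intro h
    rw [h] at hK2'
    apply hne0
    rw [← hK2']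
    simp
  have hK1' : (K : ℕ) ≠ 1 := by
    intro h
    rw [h] at hK2'
    apply ht1
    rw [← hK2']
    simp
  have hKge : 2 ≤ (K : ℕ) := by omega
  refine ⟨K, hKge, ?_, hKco, ?_, ?_, ?_⟩
  · have hcm' : (K : ℕ).Coprime m' := by
      have := (hK1.gcd_eq)
      rw [Nat.Coprime, this]
      simp
    have hfac : m = ordProj[p] m * m' := (Nat.ordProj_mul_ordCompl_eq_self m p).symm
    rw [hfac]
    exact Nat.Coprime.mul_right (Nat.Coprime.pow_right _ hKco) hcm'
  · intro hd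
    have h1 : (((K : ℕ) - 1 : ℕ) : ZMod p) = 0 := (ZMod.natCast_eq_zero_iff _ _).mpr hd
    rw [Nat.cast_sub (by omega), hK2'] at h1
    simp only [Nat.cast_one, sub_eq_zero] at h1
    exact ht1 h1
  · have hfac : m = ordProj[p] m * m' := (Nat.ordProj_mul_ordCompl_eq_self m p).symm
    have h1 : m' ∣ (K : ℕ) - 1 := (Nat.modEq_iff_dvd' (by omega)).mp hK1.symm
    conv_lhs => rw [hfac, mul_comm]
    exact Nat.mul_dvd_mul h1 dvd_rfl
  · intro i hi hi2 hmod
    have h1 : (((K : ℕ) ^ i : ℕ) : ZMod p) = ((1 : ℕ) : ZMod p) :=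
      (ZMod.natCast_eq_natCast_iff _ _ _).mpr hmod
    push_cast at h1
    rw [hK2'] at h1
    have h2 : t ^ i = 1 := Units.ext (by simpa using h1)
    have h3 := orderOf_dvd_of_pow_eq_one h2
    rw [hord] at h3
    exact absurd (Nat.le_of_dvd hi h3) (by omega)

section Kill

variable {A : Type u} [Group A] [Fintype A]

/-- A character of degree `< p - 1` of an abelian `p`-group that is invariant under the
power map by a primitive root is trivial. -/
theorem kill_aux (hab : ∀ a b : A, a * b = b * a) {β : A → ℂ} (hβ : IsCharacter A β)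
    {p : ℕ} [hp : Fact p.Prime] (hpA : IsPGroup p A) {k : ℕ} (hk : k.Coprime p)
    (hk2 : ∀ i, 0 < i → i < p - 1 → ¬ (k ^ i ≡ 1 [MOD p])) (hinv : ∀ y, β (y ^ k) = β y)
    {d : ℕ} (hd1 : β 1 = d) (hdp : d < p - 1) (y : A) : β y = β 1 := by
  classical
  by_contra hne
  obtain ⟨m, hm, hs⟩ := IsCharacter.exists_eq_sum hβ
  have hone : ∀ θ : IrrCharacter A, (θ : A → ℂ) 1 = 1 := (comm_iff_irr_degree_one (G := A)).mp hab
  obtain ⟨θ, hθm, hθy⟩ : ∃ θ : IrrCharacter A, m θ ≠ 0 ∧ (θ : A → ℂ) y ≠ 1 := by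
    by_contra hcon
    push Not at hcon
    apply hne
    rw [hs]
    simp only [Finset.sum_apply, Pi.smul_apply]
    refine Finset.sum_congr rfl fun θ _ => ?_
    by_cases h0 : m θ = 0
    · simp [h0]
    · rw [hcon θ h0, hone]
  have hcard : k.Coprime (Nat.card A) := by
    obtain ⟨c, hc⟩ := IsPGroup.iff_card.mp hpA
    rw [hc]
    exact Nat.Coprime.pow_right _ hk
  let Θ : ℕ → IrrCharacter A := fun i =>
    ⟨fun x => (θ : A → ℂ) (x ^ (k ^ i)), isIrrCharacter_pow θ.2 (hcard.pow_left i)⟩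
  have hinvp : ∀ i y, β (y ^ (k ^ i)) = β y := by
    intro i
    induction i with
    | zero => intro y; simp
    | succ i ih =>
      intro y
      rw [pow_succ', pow_mul, ih, hinv]
  have hmΘ : ∀ i, m (Θ i) = m θ := by
    intro i
    have h1 := hm (Θ i)
    have h2 := hm θ
    have h3 : classInner β ((Θ i : IrrCharacter A) : A → ℂ) = classInner β (θ : A → ℂ) := by
      simp only [classInner]
      congr 1
      rw [← sum_pow_eq (hcard.pow_left i) (fun x => β x * conj ((θ : A → ℂ) x))]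
      refine Finset.sum_congr rfl fun x _ => ?_
      simp only [Θ]
      rw [hinvp]
    rw [h1, h2] at h3
    exact_mod_cast h3
  obtain ⟨lam, hlam⟩ := IsCharacter.exists_monoidHom (IsIrrCharacter.isCharacter θ.2) (hone θ)
  have hlamy : ∀ x, (θ : A → ℂ) x = (lam x : ℂ) := fun x => congrFun hlam x
  have hζ : lam y ≠ 1 := by
    intro h
    apply hθy
    rw [hlamy, h]
    simp
  obtain ⟨b, hb⟩ : ∃ b, y ^ (p ^ b) = 1 := by
    obtain ⟨b, hb⟩ := (IsPGroup.iff_orderOf.mp hpA) y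
    exact ⟨b, by rw [← hb]; exact pow_orderOf_eq_one y⟩
  have hζp : lam y ^ (p ^ b) = 1 := by rw [← map_pow, hb, map_one]
  have hone_of : ∀ (ξ : ℂˣ) (c : ℕ), ξ ^ (p ^ b) = 1 → ξ ^ c = 1 → c.Coprime p → ξ = 1 := by
    intro ξ c h1 h2 hco
    have h3 := orderOf_dvd_of_pow_eq_one h1
    have h4 := orderOf_dvd_of_pow_eq_one h2
    have h5 : orderOf ξ ∣ Nat.gcd (p ^ b) c := Nat.dvd_gcd h3 h4
    have h6 : Nat.gcd (p ^ b) c = 1 := (Nat.Coprime.pow_left b hco.symm)
    rw [h6] at h5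
    exact orderOf_eq_one_iff.mp (Nat.dvd_one.mp h5)
  have key : ∀ i j, i < j → j < p - 1 → Θ i ≠ Θ j := by
    intro i j hij hj heq
    have h1 : (θ : A → ℂ) (y ^ k ^ i) = (θ : A → ℂ) (y ^ k ^ j) :=
      congrFun (congrArg Subtype.val heq) y
    rw [hlamy, hlamy, map_pow, map_pow] at h1
    have h2 : lam y ^ k ^ i = lam y ^ k ^ j := by exact_mod_cast h1
    obtain ⟨s, rfl⟩ : ∃ s, j = i + s := ⟨j - i, by omega⟩
    have hs0 : 0 < s := by omega
    have hs1 : s < p - 1 := by omega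
    set ξ := lam y ^ k ^ i with hξ
    have hξp : ξ ^ (p ^ b) = 1 := by
      rw [hξ, ← pow_mul, mul_comm, pow_mul, hζp, one_pow]
    have h3 : ξ ^ (k ^ s) = ξ := by
      rw [hξ, ← pow_mul, ← pow_add, ← h2]
    have hK : 1 ≤ k ^ s := by
      have : k ≠ 0 := by
        rintro rfl
        have := Nat.Coprime.symm hk
        rw [Nat.coprime_zero_right] at this
        exact hp.out.one_lt.ne' this
      exact Nat.one_le_iff_ne_zero.mpr (pow_ne_zero _ this)
    have h4 : ξ ^ (k ^ s - 1) = 1 := by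
      have h5 : ξ ^ (k ^ s - 1) * ξ = ξ := by
        rw [← pow_succ, Nat.sub_add_cancel hK, h3]
      exact mul_eq_right.mp h5
    have hco : (k ^ s - 1).Coprime p := by
      apply Nat.Coprime.symm
      rw [Nat.Prime.coprime_iff_not_dvd hp.out]
      intro hd
      exact hk2 s hs0 hs1 ((Nat.modEq_iff_dvd' hK).mpr hd).symm
    have hξ1 : ξ = 1 := hone_of ξ _ hξp h4 hco
    exact hζ (hone_of (lam y) (k ^ i) hζp hξ1 (hk.pow_left i))
  have hinj : Set.InjOn Θ (Finset.range (p - 1) : Set ℕ) := by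
    intro i hi j hj hij
    by_contra hne
    rw [Finset.mem_coe, Finset.mem_range] at hi hj
    rcases lt_or_gt_of_ne hne with h | h
    · exact key i j h hj hij
    · exact key j i h hi hij.symm
  have hdeg : (d : ℂ) = ∑ φ : IrrCharacter A, (m φ : ℂ) := by
    rw [← hd1, hs]
    simp [Finset.sum_apply, hone]
  have hdn : d = ∑ φ : IrrCharacter A, m φ := by exact_mod_cast hdeg
  have h1 : ∑ i ∈ Finset.range (p - 1), m (Θ i) ≤ ∑ φ : IrrCharacter A, m φ := by
    rw [← Finset.sum_image (f := m) hinj]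
    exact Finset.sum_le_sum_of_subset (Finset.subset_univ _)
  simp only [hmΘ, Finset.sum_const, Finset.card_range, smul_eq_mul] at h1
  rw [← hdn] at h1
  have h2 : 1 ≤ m θ := Nat.one_le_iff_ne_zero.mpr hθm
  nlinarith

end Kill

section Twist

variable {G : Type u} [Group G] [Fintype G]

theorem conj_coe_hom {H : Type u} [Group H] [Finite H] (lam : H →* ℂˣ) (y : H) :
    conj (lam y : ℂ) = ((lam y)⁻¹ : ℂˣ) := by
  have h := IsCharacter.apply_inv (IsIrrCharacter.isCharacter (isIrrCharacter_of_monoidHom lam)) y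
  simp only [map_inv] at h
  exact h.symm

/-- A linear constituent of the restriction to `P` agrees with the central character. -/
theorem apply_center_eq {ψ : G → ℂ} (hψ : IsIrrCharacter G ψ) (P : Subgroup G) [Fintype P]
    (lam : P →* ℂˣ) (hc : classInner (fun y : P => ψ y) (fun y => (lam y : ℂ)) ≠ 0)
    {z : G} (hz : z ∈ Subgroup.center G) (hzP : z ∈ P) : ψ z = ψ 1 * (lam ⟨z, hzP⟩ : ℂ) := by
  classical
  set z₀ : P := ⟨z, hzP⟩ with hz₀
  have hsum : ∑ y : P, ψ y * conj (lam y : ℂ) ≠ 0 := by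
    intro h
    apply hc
    simp only [classInner]
    rw [h, mul_zero]
  have h1 : ψ 1 * ∑ y : P, ψ y * conj (lam y : ℂ) =
      ψ z * conj (lam z₀ : ℂ) * ∑ y : P, ψ y * conj (lam y : ℂ) := by
    conv_lhs => rw [← Equiv.sum_comp (Equiv.mulRight z₀) (fun y : P => ψ y * conj (lam y : ℂ))]
    rw [Finset.mul_sum, Finset.mul_sum]
    refine Finset.sum_congr rfl fun y _ => ?_
    have h2 := apply_mul_of_mem_center hψ hz (y : G)
    simp only [Equiv.coe_mulRight, Subgroup.coe_mul, map_mul, Units.val_mul, map_mul]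
    rw [show ((z₀ : P) : G) = z from rfl]
    calc ψ 1 * (ψ (↑y * z) * (conj (lam y : ℂ) * conj (lam z₀ : ℂ)))
        = (ψ 1 * ψ (↑y * z)) * (conj (lam y : ℂ) * conj (lam z₀ : ℂ)) := by ring
      _ = _ := by rw [h2]; ring
  have h3 : ψ 1 = ψ z * conj (lam z₀ : ℂ) := mul_right_cancel₀ hsum h1
  rw [h3, mul_assoc]
  have h4 : conj (lam z₀ : ℂ) * (lam z₀ : ℂ) = 1 := by
    rw [conj_coe_hom]
    simp
  rw [h4, mul_one]

/-- The twist: a linear character of `p`-power order agreeing with `ψ` on the central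
`p`-elements, when the Sylow `p`-subgroups are abelian. -/
theorem exists_twist {ψ : G → ℂ} (hψ : IsIrrCharacter G ψ) {p : ℕ} [hp : Fact p.Prime]
    (P : Sylow p G) (hP : ∀ a ∈ (P : Subgroup G), ∀ b ∈ (P : Subgroup G), a * b = b * a) :
    ∃ ν : G →* ℂˣ, (∀ g, (ν g) ^ (Nat.card (P : Subgroup G)) = 1) ∧
      ∀ z ∈ Subgroup.center G, z ∈ (P : Subgroup G) → ψ z = ψ 1 * (ν z : ℂ) := by
  classical
  let _ : Fintype (P : Subgroup G) := Fintype.ofFinite _
  have habP : ∀ a b : (P : Subgroup G), a * b = b * a := fun a b =>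
    Subtype.ext (hP a a.2 b b.2)
  have hβ : IsCharacter (P : Subgroup G) (fun y => ψ y) :=
    IsCharacter.comp (IsIrrCharacter.isCharacter hψ) (P : Subgroup G).subtype
  obtain ⟨m, hm, hs⟩ := IsCharacter.exists_eq_sum hβ
  have hone : ∀ θ : IrrCharacter (P : Subgroup G), (θ : ↥(P : Subgroup G) → ℂ) 1 = 1 :=
    (comm_iff_irr_degree_one (G := (P : Subgroup G))).mp habP
  obtain ⟨θ, hθ⟩ : ∃ θ, m θ ≠ 0 := by
    by_contra hcon
    push Not at hcon
    apply IsIrrCharacter.apply_one_ne_zero hψ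
    have := congrFun hs 1
    simp only [hcon, Finset.sum_apply, Pi.smul_apply, zero_smul, Finset.sum_const_zero] at this
    simpa using this
  obtain ⟨lam, hlam⟩ := IsCharacter.exists_monoidHom (IsIrrCharacter.isCharacter θ.2) (hone θ)
  have hc : classInner (fun y : (P : Subgroup G) => ψ y) (fun y => (lam y : ℂ)) ≠ 0 := by
    rw [← hlam, hm]
    exact_mod_cast hθ
  set q := Nat.card (P : Subgroup G) with hq
  set e := (P : Subgroup G).index with he
  have hcop : e.Coprime q := (P.card_coprime_index).symm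
  have hqp : 1 < q * p := by
    have : 0 < q := Nat.card_pos
    have := hp.out.one_lt
    nlinarith
  have hcop2 : (e * e).Coprime (q * p) := by
    apply Nat.Coprime.mul_left <;> apply Nat.Coprime.mul_right hcop
    · exact (Sylow.not_dvd_index P |> (Nat.Prime.coprime_iff_not_dvd hp.out).mpr).symm
    · exact (Sylow.not_dvd_index P |> (Nat.Prime.coprime_iff_not_dvd hp.out).mpr).symm
  obtain ⟨c', -, hc'⟩ := Nat.exists_mul_mod_eq_one_of_coprime hcop2 hqp
  let ν₀ : G →* ℂˣ := lam.transfer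
  let ν : G →* ℂˣ := (powMonoidHom (e * c')).comp ν₀
  refine ⟨ν, fun g => ?_, fun z hz hzP => ?_⟩
  · show ((ν₀ g) ^ (e * c')) ^ q = 1
    rw [← pow_mul, show e * c' * q = (e * q) * c' by ring]
    have h1 : e * q = Nat.card G := (P : Subgroup G).index_mul_card
    rw [h1, pow_mul, ← map_pow, pow_card_eq_one', map_one, one_pow]
  · rw [apply_center_eq hψ (P : Subgroup G) lam hc hz hzP]
    congr 2
    show _ = (ν₀ z) ^ (e * c')
    have hkey : ∀ (k : ℕ) (g₀ : G), g₀⁻¹ * z ^ k * g₀ ∈ (P : Subgroup G) →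
        g₀⁻¹ * z ^ k * g₀ = z ^ k := by
      intro k g₀ _
      have h1 : z ^ k ∈ Subgroup.center G := Subgroup.pow_mem _ hz k
      rw [Subgroup.mem_center_iff.mp h1 g₀⁻¹]
      group
    have h1 : ν₀ z = lam ⟨z ^ e, MonoidHom.transfer_eq_pow_aux z hkey⟩ :=
      MonoidHom.transfer_eq_pow lam z hkey
    have h2 : (⟨z ^ e, MonoidHom.transfer_eq_pow_aux z hkey⟩ : (P : Subgroup G)) = ⟨z, hzP⟩ ^ e := rfl
    rw [h1, h2, map_pow, ← pow_mul]
    have h3 : (lam ⟨z, hzP⟩) ^ q = 1 := by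
      rw [← map_pow, hq, pow_card_eq_one', map_one]
    have h4 : e * (e * c') = (e * e) * c' := by ring
    rw [h4]
    have h5 := Nat.div_add_mod ((e * e) * c') (q * p)
    rw [hc'] at h5
    rw [← h5, pow_add, pow_mul, mul_assoc, pow_mul, h3, one_pow, one_pow, one_mul, pow_one]

end Twist

section Main

variable {G : Type u} [Group G] [Fintype G]

/-- A central `p`-element lies in every Sylow `p`-subgroup. -/
theorem central_mem_sylow {p : ℕ} [Fact p.Prime] (P : Sylow p G) {z : G}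
    (hz : z ∈ Subgroup.center G) {i : ℕ} (hzi : z ^ (p ^ i) = 1) : z ∈ (P : Subgroup G) := by
  have hpg : IsPGroup p (Subgroup.zpowers z) := by
    rw [IsPGroup.iff_orderOf]
    rintro ⟨x, hx⟩
    obtain ⟨j, rfl⟩ := Subgroup.mem_zpowers_iff.mp hx
    have h1 : orderOf (⟨z ^ j, hx⟩ : Subgroup.zpowers z) ∣ p ^ i := by
      apply orderOf_dvd_of_pow_eq_one
      apply Subtype.ext
      show (z ^ j) ^ p ^ i = 1
      rw [← zpow_natCast, ← zpow_mul, mul_comm, zpow_mul, zpow_natCast, hzi, one_zpow]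
    obtain ⟨c, _, hc⟩ := (Nat.dvd_prime_pow Fact.out).mp h1
    exact ⟨c, hc⟩
  have h2 := hpg.inf_normalizer_sylow P
  have h3 : Subgroup.zpowers z ≤ Subgroup.normalizer (P : Set G) := by
    intro x hx
    obtain ⟨j, rfl⟩ := Subgroup.mem_zpowers_iff.mp hx
    have hc : z ^ j ∈ Subgroup.center G := Subgroup.zpow_mem _ hz j
    exact Subgroup.center_le_normalizer _ hc
  rw [inf_eq_left.mpr h3] at h2
  have h4 : z ∈ Subgroup.zpowers z := Subgroup.mem_zpowers z
  rw [h2] at h4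
  exact h4.2

/-- **Two primes above `n + 1`**: a non-central `p`-element and a non-central `r`-element yield
a commuting such pair. -/
theorem exists_comm_noncentral {χ : G → ℂ} (hχ : IsCharacter G χ)
    (hf : ∀ g, χ g = χ 1 → g = 1) {n : ℕ} (h1 : χ 1 = n) {p r : ℕ} [hp : Fact p.Prime]
    [hr : Fact r.Prime] (hpr : p ≠ r) (hnp : n + 1 < p) (hnr : n + 1 < r) {w u : G} {a b : ℕ}
    (hw : w ^ (p ^ a) = 1) (hu : u ^ (r ^ b) = 1) (hwz : w ∉ Subgroup.center G)
    (huz : u ∉ Subgroup.center G) :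
    ∃ w' u' : G, (∃ a, w' ^ (p ^ a) = 1) ∧ (∃ b, u' ^ (r ^ b) = 1) ∧ w' ∉ Subgroup.center G ∧
      u' ∉ Subgroup.center G ∧ w' * u' = u' * w' := by
  classical
  by_contra hno
  push Not at hno
  have hc1 : w * u * w⁻¹ * u⁻¹ ≠ 1 := by
    intro h
    have h2 : w * u * w⁻¹ = u := mul_inv_eq_one.mp h
    have h3 : w * u = u * w := mul_inv_eq_iff_eq_mul.mp h2
    exact hno w u ⟨a, hw⟩ ⟨b, hu⟩ hwz huz h3
  obtain ⟨ψ, hψ, hcψ, hψc⟩ := FT.exists_constituent_ne hχ hf hc1
  have hψch := IsIrrCharacter.isCharacter hψ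
  obtain ⟨d, hd⟩ := IsCharacter.apply_one hψch
  have hdle : d ≤ n := by
    have h2 := IsCharacter.degree_ge_of_classInner_ne_zero hχ hψ hcψ
    rw [hd, h1] at h2
    simpa using h2
  have hd0 : d ≠ 0 := by
    rintro rfl
    apply IsIrrCharacter.apply_one_ne_zero hψ
    rw [hd]
    simp
  have hp3 : 3 ≤ p := by omega
  have hr3 : 3 ≤ r := by omega
  obtain ⟨P⟩ : Nonempty (Sylow p G) := Sylow.nonempty
  obtain ⟨R⟩ : Nonempty (Sylow r G) := Sylow.nonempty
  have hPc := FT.pgroup_comm (p := p) (by omega) hχ hf h1 P.isPGroup'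
  have hRc := FT.pgroup_comm (p := r) (by omega) hχ hf h1 R.isPGroup'
  obtain ⟨νp, hνp1, hνp2⟩ := exists_twist hψ P hPc
  obtain ⟨νr, hνr1, hνr2⟩ := exists_twist hψ R hRc
  -- the twisted character
  let κ : G →* ℂˣ := (νp * νr)⁻¹
  let ψ₁ : G → ℂ := fun g => ψ g * (κ g : ℂ)
  have hκc : ∀ g, (κ g : ℂ) * conj (κ g : ℂ) = 1 := by
    intro g
    rw [conj_coe_hom]
    simp
  have hψ₁ : IsIrrCharacter G ψ₁ := by
    apply isIrrCharacter_of_classInner_self
      (IsCharacter.mul hψch (IsIrrCharacter.isCharacter (isIrrCharacter_of_monoidHom κ)))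
    have h := classInner_irr_self hψ
    simp only [classInner] at h ⊢
    rw [← h]
    congr 1
    refine Finset.sum_congr rfl fun g _ => ?_
    show ψ g * (κ g : ℂ) * conj (ψ g * (κ g : ℂ)) = _
    rw [map_mul]
    calc ψ g * (κ g : ℂ) * (conj (ψ g) * conj (κ g : ℂ))
        = ψ g * conj (ψ g) * ((κ g : ℂ) * conj (κ g : ℂ)) := by ring
      _ = _ := by rw [hκc, mul_one]
  have hψ₁ch := IsIrrCharacter.isCharacter hψ₁
  have hψ₁1 : ψ₁ 1 = d := by
    simp only [ψ₁, map_one, Units.val_one, mul_one]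
    exact hd
  have hone_of : ∀ (ξ : ℂˣ) (c c' : ℕ), ξ ^ c = 1 → ξ ^ c' = 1 → c.Coprime c' → ξ = 1 := by
    intro ξ c c' h1 h2 hco
    have h5 : orderOf ξ ∣ Nat.gcd c c' :=
      Nat.dvd_gcd (orderOf_dvd_of_pow_eq_one h1) (orderOf_dvd_of_pow_eq_one h2)
    rw [hco] at h5
    exact orderOf_eq_one_iff.mp (Nat.dvd_one.mp h5)
  have hcardP : Nat.card (P : Subgroup G) = p ^ (Nat.card G).factorization p := P.card_eq_multiplicity
  have hcardR : Nat.card (R : Subgroup G) = r ^ (Nat.card G).factorization r := R.card_eq_multiplicity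
  have hpr' : p.Coprime r := (Nat.coprime_primes hp.out hr.out).mpr hpr
  -- central `p`- and `r`-elements are in the kernel of `ψ₁`
  have hzp : ∀ z ∈ Subgroup.center G, ∀ i, z ^ (p ^ i) = 1 → ψ₁ z = ψ₁ 1 := by
    intro z hz i hzi
    have hzP := central_mem_sylow P hz hzi
    have h2 : νr z = 1 := by
      apply hone_of _ _ _ (by rw [← map_pow, hzi, map_one]) (hνr1 z)
      rw [hcardR]
      exact Nat.Coprime.pow _ _ hpr'
    simp only [ψ₁, map_one, Units.val_one, mul_one]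
    rw [hνp2 z hz hzP]
    have h3 : (κ z : ℂ) = ((νp z)⁻¹ : ℂˣ) := by
      simp [κ, h2]
    rw [h3, mul_assoc, ← Units.val_mul, mul_inv_cancel, Units.val_one, mul_one]
  have hzr : ∀ z ∈ Subgroup.center G, ∀ i, z ^ (r ^ i) = 1 → ψ₁ z = ψ₁ 1 := by
    intro z hz i hzi
    have hzR := central_mem_sylow R hz hzi
    have h2 : νp z = 1 := by
      apply hone_of _ _ _ (by rw [← map_pow, hzi, map_one]) (hνp1 z)
      rw [hcardP]
      exact Nat.Coprime.pow _ _ hpr'.symm
    simp only [ψ₁, map_one, Units.val_one, mul_one]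
    rw [hνr2 z hz hzR]
    have h3 : (κ z : ℂ) = ((νr z)⁻¹ : ℂˣ) := by
      simp [κ, h2]
    rw [h3, mul_assoc, ← Units.val_mul, mul_inv_cancel, Units.val_one, mul_one]
  have hker : ∀ z ∈ Subgroup.center G, ψ₁ z = ψ₁ 1 → ∀ g, ψ₁ (g * z) = ψ₁ g := by
    intro z hz hz1 g
    have h2 := apply_mul_of_mem_center hψ₁ hz g
    rw [hz1, mul_comm] at h2
    exact mul_right_cancel₀ (IsIrrCharacter.apply_one_ne_zero hψ₁) h2
  -- the parameters
  have hGpos : Nat.card G ≠ 0 := Nat.card_pos.ne'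
  obtain ⟨k, hk2, hkc, hkp, hkd, hkm, hkpow⟩ := exists_param p hp3 (Nat.card G) hGpos
  obtain ⟨l, hl2, hlc, hlp, hld, hlm, hlpow⟩ := exists_param r hr3 (Nat.card G) hGpos
  let φp : G → ℂ := fun g => ψ₁ (g ^ k)
  let φr : G → ℂ := fun g => ψ₁ (g ^ l)
  have hφp : IsIrrCharacter G φp := isIrrCharacter_pow hψ₁ hkc
  have hφr : IsIrrCharacter G φr := isIrrCharacter_pow hψ₁ hlc
  -- termwise vanishing
  have hterm : ∀ g, (ψ₁ g - φp g) * conj (ψ₁ g - φr g) = 0 := by
    intro g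
    have hw' : (g ^ (k - 1)) ^ (p ^ (Nat.card G).factorization p) = 1 := by
      rw [← pow_mul]
      obtain ⟨c, hc⟩ := hkm
      rw [hc, pow_mul, pow_card_eq_one', one_pow]
    have hu' : (g ^ (l - 1)) ^ (r ^ (Nat.card G).factorization r) = 1 := by
      rw [← pow_mul]
      obtain ⟨c, hc⟩ := hlm
      rw [hc, pow_mul, pow_card_eq_one', one_pow]
    by_cases h2 : g ^ (k - 1) ∈ Subgroup.center G
    · have h3 : φp g = ψ₁ g := by
        show ψ₁ (g ^ k) = _
        have h4 : g ^ k = g * g ^ (k - 1) := by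
          rw [← pow_succ', Nat.sub_add_cancel (by omega)]
        rw [h4]
        exact hker _ h2 (hzp _ h2 _ hw') g
      rw [h3, sub_self, zero_mul]
    · by_cases h4 : g ^ (l - 1) ∈ Subgroup.center G
      · have h3 : φr g = ψ₁ g := by
          show ψ₁ (g ^ l) = _
          have h5 : g ^ l = g * g ^ (l - 1) := by
            rw [← pow_succ', Nat.sub_add_cancel (by omega)]
          rw [h5]
          exact hker _ h4 (hzr _ h4 _ hu') g
        rw [h3, sub_self, map_zero, mul_zero]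
      · exact absurd (Commute.pow_pow_self g _ _).eq (hno _ _ ⟨_, hw'⟩ ⟨_, hu'⟩ h2 h4)
  have hinner : classInner (ψ₁ - φp) (ψ₁ - φr) = 0 := by
    simp only [classInner, Pi.sub_apply]
    rw [Finset.sum_eq_zero (fun g _ => hterm g), mul_zero]
  -- one of the conjugates is trivial
  have hcases : φp = ψ₁ ∨ φr = ψ₁ := by
    by_contra hcon
    push Not at hcon
    obtain ⟨hc1', hc2'⟩ := hcon
    rw [classInner_sub_left, classInner_sub_right, classInner_sub_right, classInner_irr_self hψ₁,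
      classInner_irr_of_ne hψ₁ hφr hc2'.symm, classInner_irr_of_ne hφp hψ₁ hc1',
      classInner_irr hφp hφr] at hinner
    split_ifs at hinner <;> norm_num at hinner
  -- conclusion: the commutator is in the kernel of `ψ₁`
  obtain ⟨m₁, ρ, hρ⟩ := hψ₁ch
  have hρ1 : ρ.character 1 = (Module.finrank ℂ (Fin m₁ → ℂ) : ℂ) := by
    rw [Representation.char_one]
  have hpelt : ∀ {q : ℕ} [Fact q.Prime] {x : G} {e : ℕ}, x ^ (q ^ e) = 1 →
      IsPGroup q (Subgroup.zpowers x) := by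
    intro q _ x e hx
    rw [IsPGroup.iff_orderOf]
    rintro ⟨y, hy⟩
    obtain ⟨j, rfl⟩ := Subgroup.mem_zpowers_iff.mp hy
    have h1 : orderOf (⟨x ^ j, hy⟩ : Subgroup.zpowers x) ∣ q ^ e := by
      apply orderOf_dvd_of_pow_eq_one
      apply Subtype.ext
      show (x ^ j) ^ q ^ e = 1
      rw [← zpow_natCast, ← zpow_mul, mul_comm, zpow_mul, zpow_natCast, hx, one_zpow]
    obtain ⟨c, _, hc⟩ := (Nat.dvd_prime_pow Fact.out).mp h1
    exact ⟨c, hc⟩
  have hkill : ∀ {q : ℕ} [Fact q.Prime] {x : G} {e K : ℕ}, x ^ (q ^ e) = 1 → K.Coprime q →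
      (∀ i, 0 < i → i < q - 1 → ¬ (K ^ i ≡ 1 [MOD q])) → (∀ g, ψ₁ (g ^ K) = ψ₁ g) → d < q - 1 →
      ψ₁ x = ψ₁ 1 := by
    intro q _ x e K hx hKq hKpow hinv hdq
    letI : Fintype (Subgroup.zpowers x) := Fintype.ofFinite _
    have hab : ∀ a b : Subgroup.zpowers x, a * b = b * a := by
      rintro ⟨a, ha⟩ ⟨b, hb⟩
      obtain ⟨i, rfl⟩ := Subgroup.mem_zpowers_iff.mp ha
      obtain ⟨j, rfl⟩ := Subgroup.mem_zpowers_iff.mp hb
      apply Subtype.ext
      show x ^ i * x ^ j = x ^ j * x ^ i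
      rw [← zpow_add, add_comm, zpow_add]
    have := kill_aux hab (β := fun y => ψ₁ y)
      (IsCharacter.comp (IsIrrCharacter.isCharacter hψ₁) (Subgroup.zpowers x).subtype)
      (hpelt hx) hKq hKpow (fun y => by
        show ψ₁ ((y ^ K : Subgroup.zpowers x) : G) = ψ₁ y
        rw [Subgroup.coe_pow, hinv]) (d := d) (by simpa using hψ₁1) hdq
      ⟨x, Subgroup.mem_zpowers x⟩
    simpa using this
  have hfin : ψ₁ (w * u * w⁻¹ * u⁻¹) = ψ₁ 1 := by
    rw [← hρ]
    rw [hρ1, character_eq_finrank_iff]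
    rcases hcases with hcase | hcase
    · have hinv : ∀ g, ψ₁ (g ^ k) = ψ₁ g := fun g => congrFun hcase g
      have h2 := hkill hw hkp hkpow hinv (by omega)
      rw [← hρ, hρ1, character_eq_finrank_iff] at h2
      have h3 : ρ w⁻¹ = LinearMap.id := by
        have h4 : ρ w⁻¹ * ρ w = 1 := by rw [← map_mul, inv_mul_cancel, map_one]
        rw [h2] at h4
        exact h4
      simp only [map_mul, h2, h3]
      have h4 : ρ u * ρ u⁻¹ = 1 := by rw [← map_mul, mul_inv_cancel, map_one]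
      have h7 : (LinearMap.id : (Fin m₁ → ℂ) →ₗ[ℂ] (Fin m₁ → ℂ)) = 1 := rfl
      rw [h7, one_mul, mul_one]
      exact h4
    · have hinv : ∀ g, ψ₁ (g ^ l) = ψ₁ g := fun g => congrFun hcase g
      have h2 := hkill hu hlp hlpow hinv (by omega)
      rw [← hρ, hρ1, character_eq_finrank_iff] at h2
      have h3 : ρ u⁻¹ = LinearMap.id := by
        have h4 : ρ u⁻¹ * ρ u = 1 := by rw [← map_mul, inv_mul_cancel, map_one]
        rw [h2] at h4
        exact h4
      simp only [map_mul, h2, h3]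
      have h4 : ρ w * ρ w⁻¹ = 1 := by rw [← map_mul, mul_inv_cancel, map_one]
      have h7 : (LinearMap.id : (Fin m₁ → ℂ) →ₗ[ℂ] (Fin m₁ → ℂ)) = 1 := rfl
      rw [h7, mul_one, mul_one]
      exact h4
  apply hψc
  have hκ1 : κ (w * u * w⁻¹ * u⁻¹) = 1 := by
    simp only [map_mul, map_inv]
    rw [mul_comm (κ w) (κ u)]
    group
  have h6 : ψ₁ (w * u * w⁻¹ * u⁻¹) = ψ (w * u * w⁻¹ * u⁻¹) := by
    simp only [ψ₁]
    rw [hκ1]
    simp
  rw [← h6, hfin]
  simp [ψ₁]

end Main

section Hall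

/-- `π`-subgroups, for `π` the set of primes above `n + 1`. -/
def IsPi (n : ℕ) {G : Type u} [Group G] (H : Subgroup G) : Prop :=
  ∀ q : ℕ, q.Prime → q ∣ Nat.card H → n + 1 < q

theorem isPGroup_zpowers {G : Type u} [Group G] {q : ℕ} [Fact q.Prime] {x : G} {e : ℕ}
    (hx : x ^ (q ^ e) = 1) : IsPGroup q (Subgroup.zpowers x) := by
  rw [IsPGroup.iff_orderOf]
  rintro ⟨y, hy⟩
  obtain ⟨j, rfl⟩ := Subgroup.mem_zpowers_iff.mp hy
  have h1 : orderOf (⟨x ^ j, hy⟩ : Subgroup.zpowers x) ∣ q ^ e := by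
    apply orderOf_dvd_of_pow_eq_one
    apply Subtype.ext
    show (x ^ j) ^ q ^ e = 1
    rw [← zpow_natCast, ← zpow_mul, mul_comm, zpow_mul, zpow_natCast, hx, one_zpow]
  obtain ⟨c, _, hc⟩ := (Nat.dvd_prime_pow Fact.out).mp h1
  exact ⟨c, hc⟩

variable {n : ℕ} {G : Type u} [Group G] [Finite G]

theorem pi_comm {χ : G → ℂ} (hχ : IsCharacter G χ) (hf : ∀ g, χ g = χ 1 → g = 1)
    (h1 : χ 1 = n) {K : Subgroup G} (hK : IsPi n K) : ∀ a ∈ K, ∀ b ∈ K, a * b = b * a := by
  obtain ⟨d, ρ, rfl⟩ := hχ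
  have hd : d = n := by
    have h2 : ρ.character 1 = (d : ℂ) := by
      rw [Representation.char_one]
      simp
    rw [h2] at h1
    exact_mod_cast h1
  subst hd
  have hinj : Function.Injective ρ := by
    intro a b hab
    have h2 : ρ (a * b⁻¹) = 1 := by
      rw [map_mul, hab, ← map_mul, mul_inv_cancel, map_one]
    have h3 : ρ.character (a * b⁻¹) = ρ.character 1 := by
      unfold Representation.character
      rw [h2, map_one ρ]
    have h4 := hf _ h3
    exact mul_inv_eq_one.mp h4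
  let ρ' : Representation ℂ K (Fin d → ℂ) := ρ.comp K.subtype
  have hinj' : Function.Injective ρ' := fun a b hab => Subtype.ext (hinj hab)
  intro a ha b hb
  have h5 := Cfsg.Agent.S0185.result ρ' hinj' (fun q hq hdq => by
    have h6 := hK q hq hdq
    simp only [Module.finrank_fin_fun]
    omega) ⟨a, ha⟩ ⟨b, hb⟩
  exact congrArg Subtype.val h5

theorem mem_of_commute {H : Subgroup G} (hH : IsPi n H)
    (hmax : ∀ K : Subgroup G, IsPi n K → H ≤ K → K = H) {w : G} {q a : ℕ} (hq : q.Prime)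
    (hnq : n + 1 < q) (hw : w ^ (q ^ a) = 1) (hc : ∀ h ∈ H, h * w = w * h) : w ∈ H := by
  classical
  have hcomm : ∀ (x : H) (y : Subgroup.zpowers w), Commute (H.subtype x) ((Subgroup.zpowers w).subtype y) := by
    rintro ⟨x, hx⟩ ⟨y, hy⟩
    obtain ⟨j, rfl⟩ := Subgroup.mem_zpowers_iff.mp hy
    exact (show Commute x w from hc x hx).zpow_right j
  let φ : H × Subgroup.zpowers w →* G := MonoidHom.noncommCoprod H.subtype (Subgroup.zpowers w).subtype hcomm
  have hK : IsPi n φ.range := by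
    intro q' hq' hd
    have h1 : Nat.card φ.range ∣ Nat.card H * Nat.card (Subgroup.zpowers w) := by
      rw [← Subgroup.index_ker, ← Nat.card_prod]
      exact Subgroup.index_dvd_card _
    rcases (hq'.dvd_mul).mp (hd.trans h1) with h2 | h2
    · exact hH q' hq' h2
    · rw [Nat.card_zpowers] at h2
      have h3 := h2.trans (orderOf_dvd_of_pow_eq_one hw)
      have h4 := (Nat.prime_dvd_prime_iff_eq hq' hq).mp (hq'.dvd_of_dvd_pow h3)
      rw [h4]
      exact hnq
  have hHK : H ≤ φ.range := fun h hh => ⟨(⟨h, hh⟩, 1), by simp [φ]⟩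
  have hwK : w ∈ φ.range := ⟨(1, ⟨w, Subgroup.mem_zpowers w⟩), by simp [φ]⟩
  rw [← hmax _ hK hHK]
  exact hwK

theorem exists_primary_noncentral : ∀ (N : ℕ) (x : G), orderOf x = N → x ∉ Subgroup.center G →
    ∃ (r b : ℕ) (j : ℕ), r.Prime ∧ (x ^ j) ^ (r ^ b) = 1 ∧ x ^ j ∉ Subgroup.center G := by
  intro N
  induction N using Nat.strong_induction_on with
  | _ N IH =>
  intro x hN hx
  have hN0 : N ≠ 0 := by
    rw [← hN]
    exact (orderOf_pos x).ne'
  have hN1 : N ≠ 1 := by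
    intro h
    rw [h, orderOf_eq_one_iff] at hN
    apply hx
    rw [hN]
    exact Subgroup.one_mem _
  obtain ⟨r₀, hr, hr₀N⟩ : ∃ r₀ : ℕ, r₀.Prime ∧ r₀ ∣ N := ⟨N.minFac, Nat.minFac_prime hN1, Nat.minFac_dvd N⟩
  obtain ⟨a, c, hrc, hNc⟩ := Nat.exists_eq_pow_mul_and_not_dvd hN0 r₀ hr.ne_one
  by_cases h1 : x ^ c ∈ Subgroup.center G
  · have hco : (r₀ ^ a).Coprime c := Nat.Coprime.pow_left _ ((Nat.Prime.coprime_iff_not_dvd hr).mpr hrc)
    have h2 : x ^ (r₀ ^ a) ∉ Subgroup.center G := by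
      intro h3
      apply hx
      have h4 : x = (x ^ (r₀ ^ a)) ^ (Nat.gcdA (r₀ ^ a) c) * (x ^ c) ^ (Nat.gcdB (r₀ ^ a) c) := by
        rw [← zpow_natCast, ← zpow_natCast, ← zpow_mul, ← zpow_mul, ← zpow_add,
          ← Nat.gcd_eq_gcd_ab, hco]
        simp
      rw [h4]
      exact Subgroup.mul_mem _ (Subgroup.zpow_mem _ h3 _) (Subgroup.zpow_mem _ h1 _)
    have ha : a ≠ 0 := by
      rintro rfl
      apply hrc
      rw [pow_zero, one_mul] at hNc
      rw [← hNc]
      exact hr₀N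
    have hpos : 1 < r₀ ^ a := Nat.one_lt_pow ha hr.one_lt
    have hord : orderOf (x ^ (r₀ ^ a)) = c := by
      rw [orderOf_pow_of_dvd (by positivity) (by rw [hN, hNc]; exact dvd_mul_right _ _), hN, hNc]
      exact Nat.mul_div_cancel_left _ (by positivity)
    have hc0 : 0 < c := by
      rcases Nat.eq_zero_or_pos c with h | h
      · rw [h, mul_zero] at hNc
        exact absurd hNc hN0
      · exact h
    have hlt : c < N := by
      rw [hNc]
      exact lt_mul_of_one_lt_left hc0 hpos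
    obtain ⟨r, b, j, hrp, h5, h6⟩ := IH c hlt _ hord h2
    refine ⟨r, b, r₀ ^ a * j, hrp, ?_, ?_⟩
    · rw [pow_mul]
      exact h5
    · rw [pow_mul]
      exact h6
  · refine ⟨r₀, a, c, hr, ?_, h1⟩
    rw [← pow_mul, mul_comm, ← hNc, ← hN]
    exact pow_orderOf_eq_one x

theorem not_dvd_index_of_sylow_card_dvd {r : ℕ} [hr : Fact r.Prime] (R : Sylow r G) {H : Subgroup G}
    (hRH : Nat.card (R : Subgroup G) ∣ Nat.card H) : ¬ r ∣ H.index := by
  intro hd
  obtain ⟨t, ht⟩ := hRH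
  apply Sylow.not_dvd_index R
  have h1 : Nat.card (R : Subgroup G) * (R : Subgroup G).index = Nat.card G := Subgroup.card_mul_index _
  have h2 : Nat.card H * H.index = Nat.card G := Subgroup.card_mul_index _
  rw [← h2, ht, mul_assoc] at h1
  have hpos : 0 < Nat.card (R : Subgroup G) := Nat.card_pos
  have h3 := Nat.eq_of_mul_eq_mul_left hpos h1
  rw [h3]
  exact Dvd.dvd.mul_left hd t

theorem exists_conj_mem (H : Subgroup G) {r : ℕ} [Fact r.Prime] {x : G} {b : ℕ}
    (hx : x ^ (r ^ b) = 1) (hr : ¬ r ∣ H.index) : ∃ g, g⁻¹ * x * g ∈ H := by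
  have hpg := isPGroup_zpowers hx
  obtain ⟨q, hq⟩ := hpg.nonempty_fixed_point_of_prime_not_dvd_card (G ⧸ H)
    (by rwa [← Subgroup.index_eq_card])
  obtain ⟨g, rfl⟩ := QuotientGroup.mk_surjective q
  refine ⟨g, ?_⟩
  have h := hq ⟨x, Subgroup.mem_zpowers x⟩
  have h2 : ((x * g : G) : G ⧸ H) = (g : G ⧸ H) := h
  have h3 := QuotientGroup.eq.mp h2.symm
  rwa [← mul_assoc] at h3

/-- **Blichfeldt**: maximal `π`-subgroups are Hall subgroups. -/
theorem hall_of_max (n : ℕ) : ∀ (N : ℕ) (G : Type u) [Group G] [Finite G] (χ : G → ℂ),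
    Nat.card G = N → IsCharacter G χ → (∀ g, χ g = χ 1 → g = 1) → χ 1 = (n : ℂ) →
    ∀ H : Subgroup G, IsPi n H → (∀ K : Subgroup G, IsPi n K → H ≤ K → K = H) →
    ∀ q : ℕ, q.Prime → n + 1 < q → ¬ q ∣ H.index := by
  intro N
  induction N using Nat.strong_induction_on with
  | _ N IH =>
  intro G _ _ χ hN hχ hf h1 H hH hmax p hpp hnp hpi
  classical
  letI : Fintype G := Fintype.ofFinite G
  haveI : Fact p.Prime := ⟨hpp⟩
  have hHc := pi_comm hχ hf h1 hH
  -- the centralizer step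
  have hle : ∀ u ∈ H, H ≤ Subgroup.centralizer ({u} : Set G) := by
    intro u hu h hh
    rw [Subgroup.mem_centralizer_iff]
    intro y hy
    rw [Set.mem_singleton_iff.mp hy]
    exact hHc u hu h hh
  have hB : ∀ u ∈ H, u ∉ Subgroup.center G → ∀ q : ℕ, q.Prime → n + 1 < q →
      ¬ q ∣ (H.subgroupOf (Subgroup.centralizer ({u} : Set G))).index := by
    intro u huH huz q hq hnq
    have hCne : Subgroup.centralizer ({u} : Set G) ≠ ⊤ := by
      intro h
      apply huz
      rw [Subgroup.mem_center_iff]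
      intro g
      have h2 : g ∈ Subgroup.centralizer ({u} : Set G) := by
        rw [h]
        trivial
      rw [Subgroup.mem_centralizer_iff] at h2
      exact (h2 u (Set.mem_singleton u)).symm
    have hlt : Nat.card (Subgroup.centralizer ({u} : Set G)) < N := by
      rw [← hN]
      exact Nat.lt_of_le_of_ne (Subgroup.card_le_card_group _)
        (fun h => hCne (Subgroup.eq_top_of_card_eq _ h))
    have hHC := hle u huH
    have hcardH' : Nat.card (H.subgroupOf (Subgroup.centralizer ({u} : Set G))) = Nat.card H :=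
      Nat.card_congr (Subgroup.subgroupOfEquivOfLe hHC).toEquiv
    refine IH _ hlt (Subgroup.centralizer ({u} : Set G)) (fun c => χ c) rfl
      (IsCharacter.comp hχ (Subgroup.centralizer ({u} : Set G)).subtype)
      (fun g hg => Subtype.ext (hf _ hg)) h1 _ ?_ ?_ q hq hnq
    · intro q' hq' hd
      rw [hcardH'] at hd
      exact hH q' hq' hd
    · intro K' hK' hle'
      apply le_antisymm _ hle'
      have hmapc : Nat.card (K'.map (Subgroup.centralizer ({u} : Set G)).subtype) = Nat.card K' :=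
        Subgroup.card_map_of_injective (Subgroup.subtype_injective _)
      have hmapH : H ≤ K'.map (Subgroup.centralizer ({u} : Set G)).subtype := by
        intro h hh
        exact ⟨⟨h, hHC hh⟩, hle' (by simpa [Subgroup.mem_subgroupOf] using hh), rfl⟩
      have hmapeq := hmax _ (by
        intro q' hq' hd
        rw [hmapc] at hd
        exact hK' q' hq' hd) hmapH
      intro x hx
      rw [Subgroup.mem_subgroupOf, ← hmapeq]
      exact ⟨x, hx, rfl⟩
  -- Lemma A'
  have hA : ∀ u ∈ H, u ∉ Subgroup.center G → ∀ (r b : ℕ), r.Prime → n + 1 < r → u ^ (r ^ b) = 1 →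
      ¬ r ∣ H.index := by
    intro u huH huz r b hr hnr hub
    haveI : Fact r.Prime := ⟨hr⟩
    obtain ⟨R, hR⟩ := (isPGroup_zpowers hub).exists_le_sylow
    have huR : u ∈ (R : Subgroup G) := hR (Subgroup.mem_zpowers u)
    have hRc := FT.pgroup_comm (p := r) (by omega) hχ hf h1 R.isPGroup'
    have hRC : (R : Subgroup G) ≤ Subgroup.centralizer ({u} : Set G) := by
      intro x hx
      rw [Subgroup.mem_centralizer_iff]
      intro y hy
      rw [Set.mem_singleton_iff.mp hy]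
      exact hRc u huR x hx
    apply not_dvd_index_of_sylow_card_dvd R
    have h2 := hB u huH huz r hr hnr
    have h3 : Nat.card (R : Subgroup G) ∣ Nat.card (Subgroup.centralizer ({u} : Set G)) :=
      Subgroup.card_dvd_of_le hRC
    rw [← Subgroup.card_mul_index (H.subgroupOf (Subgroup.centralizer ({u} : Set G)))] at h3
    have hcardH' : Nat.card (H.subgroupOf (Subgroup.centralizer ({u} : Set G))) = Nat.card H :=
      Nat.card_congr (Subgroup.subgroupOfEquivOfLe (hle u huH)).toEquiv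
    rw [hcardH'] at h3
    have hco : (Nat.card (R : Subgroup G)).Coprime
        (H.subgroupOf (Subgroup.centralizer ({u} : Set G))).index := by
      rw [R.card_eq_multiplicity]
      exact Nat.Coprime.pow_left _ ((Nat.Prime.coprime_iff_not_dvd hr).mpr h2)
    exact hco.dvd_of_dvd_mul_right h3
  -- `p`-elements of `H` are central
  have hHpc : ∀ u ∈ H, ∀ b, u ^ (p ^ b) = 1 → u ∈ Subgroup.center G := by
    intro u hu b hub
    by_contra huz
    exact hA u hu huz p b hpp hnp hub hpi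
  -- a non-central `p`-element
  obtain ⟨S⟩ : Nonempty (Sylow p G) := Sylow.nonempty
  have hSpow : ∀ s ∈ (S : Subgroup G), s ^ (p ^ (Nat.card G).factorization p) = 1 := by
    intro s hs
    have h2 : (⟨s, hs⟩ : (S : Subgroup G)) ^ (Nat.card (S : Subgroup G)) = 1 := pow_card_eq_one'
    rw [S.card_eq_multiplicity] at h2
    exact congrArg Subtype.val h2
  obtain ⟨w, hwS, hwz⟩ : ∃ w ∈ (S : Subgroup G), w ∉ Subgroup.center G := by
    by_contra hcon
    push Not at hcon
    have hSH : (S : Subgroup G) ≤ H := fun s hs =>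
      mem_of_commute hH hmax hpp hnp (hSpow s hs) (fun h _ => (Subgroup.mem_center_iff.mp (hcon s hs) h))
    exact not_dvd_index_of_sylow_card_dvd S (Subgroup.card_dvd_of_le hSH) hpi
  have hwpow := hSpow w hwS
  -- a non-central element of `H`
  obtain ⟨x, hxH, hxz⟩ : ∃ x ∈ H, x ∉ Subgroup.center G := by
    by_contra hcon
    push Not at hcon
    have hwH := mem_of_commute hH hmax hpp hnp hwpow (fun h hh => (Subgroup.mem_center_iff.mp (hcon h hh) w).symm)
    exact hwz (hcon w hwH)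
  obtain ⟨r, b, j, hr, hrb, hxjz⟩ := exists_primary_noncentral _ x rfl hxz
  set u := x ^ j with hu
  have huH : u ∈ H := Subgroup.pow_mem _ hxH j
  have hu1 : u ≠ 1 := by
    intro h
    apply hxjz
    rw [h]
    exact Subgroup.one_mem _
  have hrdvd : r ∣ Nat.card H := by
    have h2 : (⟨u, huH⟩ : H) ≠ 1 := fun h => hu1 (congrArg Subtype.val h)
    have h3 : orderOf (⟨u, huH⟩ : H) ≠ 1 := fun h => h2 (orderOf_eq_one_iff.mp h)
    have h4 : orderOf (⟨u, huH⟩ : H) ∣ r ^ b := by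
      apply orderOf_dvd_of_pow_eq_one
      exact Subtype.ext hrb
    obtain ⟨c, _, hc⟩ := (Nat.dvd_prime_pow hr).mp h4
    have hc0 : c ≠ 0 := by
      rintro rfl
      exact h3 (by simpa using hc)
    have h5 : r ∣ orderOf (⟨u, huH⟩ : H) := by
      rw [hc]
      exact dvd_pow_self _ hc0
    exact h5.trans (orderOf_dvd_natCard _)
  have hnr : n + 1 < r := hH r hr hrdvd
  haveI : Fact r.Prime := ⟨hr⟩
  have hpr : p ≠ r := by
    rintro rfl
    exact hxjz (hHpc u huH b hrb)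
  -- the two primes
  obtain ⟨w', u', ⟨a₁, ha₁⟩, ⟨b₁, hb₁⟩, hw'z, hu'z, hcommw⟩ :=
    exists_comm_noncentral hχ hf h1 hpr hnp hnr hwpow hrb hwz hxjz
  -- conjugating `u'` into `H`
  obtain ⟨g, hg⟩ := exists_conj_mem H hb₁ (hA u huH hxjz r b hr hnr hrb)
  have hconj_center : ∀ (c y : G), c⁻¹ * y * c ∈ Subgroup.center G → y ∈ Subgroup.center G := by
    intro c y hy
    have h2 : y = c * (c⁻¹ * y * c) * c⁻¹ := by group
    rw [h2, Subgroup.mem_center_iff.mp hy c]
    simpa [mul_assoc] using hy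
  have hg' : g⁻¹ * u' * g ∉ Subgroup.center G := fun h => hu'z (hconj_center g u' h)
  have hg'' : g⁻¹ * w' * g ∉ Subgroup.center G := fun h => hw'z (hconj_center g w' h)
  have hgw : (g⁻¹ * w' * g) ^ (p ^ a₁) = 1 := by
    rw [show g⁻¹ * w' * g = g⁻¹ * w' * g⁻¹⁻¹ by group, conj_pow, ha₁]
    simp
  have hgcomm : (g⁻¹ * w' * g) ∈ Subgroup.centralizer ({g⁻¹ * u' * g} : Set G) := by
    rw [Subgroup.mem_centralizer_iff]
    intro y hy
    rw [Set.mem_singleton_iff.mp hy]
    calc g⁻¹ * u' * g * (g⁻¹ * w' * g) = g⁻¹ * (u' * w') * g := by group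
      _ = g⁻¹ * (w' * u') * g := by rw [hcommw]
      _ = _ := by group
  -- the contradiction inside the centralizer
  have hBu := hB _ hg hg' p hpp hnp
  obtain ⟨c, hc⟩ := exists_conj_mem (G := Subgroup.centralizer ({g⁻¹ * u' * g} : Set G))
    (H.subgroupOf (Subgroup.centralizer ({g⁻¹ * u' * g} : Set G)))
    (x := ⟨g⁻¹ * w' * g, hgcomm⟩) (b := a₁) (Subtype.ext hgw) hBu
  rw [Subgroup.mem_subgroupOf] at hc
  have hc2 : (c : G)⁻¹ * (g⁻¹ * w' * g) * c ∈ H := hc
  have hc3 : ((c : G)⁻¹ * (g⁻¹ * w' * g) * c) ^ (p ^ a₁) = 1 := by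
    rw [show (c : G)⁻¹ * (g⁻¹ * w' * g) * c = (c : G)⁻¹ * (g⁻¹ * w' * g) * (c : G)⁻¹⁻¹ by group,
      conj_pow, hgw]
    simp
  exact hg'' (hconj_center _ _ (hHpc _ hc2 _ hc3))

/-- **Blichfeldt**: an abelian Hall subgroup for the primes above `n + 1`. -/
theorem exists_hall (χ : G → ℂ) (hχ : IsCharacter G χ) (hf : ∀ g, χ g = χ 1 → g = 1)
    (h1 : χ 1 = (n : ℂ)) : ∃ A : Subgroup G, (∀ x ∈ A, ∀ y ∈ A, x * y = y * x) ∧
      (∀ q : ℕ, q.Prime → q ∣ Nat.card A → n + 1 < q) ∧ ∀ q : ℕ, q.Prime → q ∣ A.index → q ≤ n + 1 := by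
  classical
  have hbot : IsPi n (⊥ : Subgroup G) := by
    intro q hq hd
    rw [Subgroup.card_bot] at hd
    exact absurd (Nat.dvd_one.mp hd) hq.ne_one
  obtain ⟨H, hHmax⟩ := (Set.toFinite {K : Subgroup G | IsPi n K}).exists_maximal ⟨⊥, hbot⟩
  have hH : IsPi n H := hHmax.1
  have hmax : ∀ K : Subgroup G, IsPi n K → H ≤ K → K = H := by
    intro K hK hle
    exact le_antisymm (hHmax.2 hK hle) hle
  refine ⟨H, pi_comm hχ hf h1 hH, hH, fun q hq hd => ?_⟩
  by_contra hcon
  exact hall_of_max n _ G χ rfl hχ hf h1 H hH hmax q hq (by omega) hd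

end Hall

end Cfsg.Agent.Lib.Char.Blich
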