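import Cfsg.Agent.Lib.Char.FSCount
import Cfsg.Agent.Lib.Char.Degree

/-! # The Brauer–Fowler bounds. -/

set_option autoImplicit false
set_option linter.unusedSectionVars false

namespace Cfsg.Agent.Lib.Char.BrauerFowler

open Cfsg Subgroup Cfsg.Agent.Lib.Char
open scoped ComplexConjugate

universe u

variable {G : Type u} [Group G] [Fintype G]

/-- The elements of square one. -/
def sq1 (G : Type u) [Group G] [Fintype G] [DecidableEq G] : Finset G := Finset.univ.filter fun x => x * x = 1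

theorem sq1_card_eq [DecidableEq G] : (sq1 G).card = Nat.card {x : G // x * x = 1} := by
  rw [sq1, Nat.card_eq_fintype_card, Fintype.card_subtype]

theorem card_fiber_le [DecidableEq G] (x : G) :
    (((sq1 G ×ˢ sq1 G).filter fun p : G × G => p.1 * p.2 = x)).card ≤ Nat.card (centralizer ({x} : Set G)) := by
  classical
  have hC : Nat.card (centralizer ({x} : Set G)) = (Finset.univ.filter (· ∈ centralizer ({x} : Set G))).card := by
    rw [Nat.card_eq_fintype_card, Fintype.card_subtype]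
  rw [hC]
  by_cases hne : ((sq1 G ×ˢ sq1 G).filter fun p : G × G => p.1 * p.2 = x).Nonempty
  · obtain ⟨⟨u₀, v₀⟩, h₀⟩ := hne
    simp only [Finset.mem_filter, Finset.mem_product, sq1, Finset.mem_univ, true_and] at h₀
    obtain ⟨⟨hu₀, hv₀⟩, hx₀⟩ := h₀
    have hinv : ∀ u v : G, u * u = 1 → v * v = 1 → u * v = x → u * x * u⁻¹ = x⁻¹ := by
      intro u v hu hv hx
      have hui : u⁻¹ = u := inv_eq_of_mul_eq_one_left hu
      have hvi : v⁻¹ = v := inv_eq_of_mul_eq_one_left hv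
      rw [← hx, mul_inv_rev, hui, hvi, mul_assoc, mul_assoc, ← mul_assoc u u, hu, one_mul]
    refine Finset.card_le_card_of_injOn (fun p => u₀ * p.1) ?_ ?_
    · rintro ⟨u, v⟩ h
      simp only [Finset.coe_filter, Finset.mem_product, sq1, Finset.mem_filter, Finset.mem_univ, true_and,
        Set.mem_ofPred_eq] at h
      obtain ⟨⟨hu, hv⟩, hx⟩ := h
      simp only [Finset.coe_filter, Finset.mem_univ, true_and, Set.mem_ofPred_eq]
      rw [mem_centralizer_iff]
      intro y hy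
      rw [Set.mem_singleton_iff.mp hy]
      have h1 := hinv u v hu hv hx
      have h2 := hinv u₀ v₀ hu₀ hv₀ hx₀
      have h3 : (u₀ * u) * x * (u₀ * u)⁻¹ = u₀ * (u * x * u⁻¹) * u₀⁻¹ := by group
      rw [h1] at h3
      have h4 : u₀ * x⁻¹ * u₀⁻¹ = x := by
        have : u₀ * x⁻¹ * u₀⁻¹ = (u₀ * x * u₀⁻¹)⁻¹ := by group
        rw [this, h2, inv_inv]
      rw [h4] at h3
      rw [mul_inv_eq_iff_eq_mul] at h3
      exact h3.symm
    · rintro ⟨u, v⟩ h ⟨u', v'⟩ h' heq
      simp only [Finset.coe_filter, Finset.mem_product, sq1, Finset.mem_filter, Finset.mem_univ, true_and,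
        Set.mem_ofPred_eq] at h h'
      have h1 : u = u' := mul_left_cancel heq
      subst h1
      have h2 : v = v' := mul_left_cancel (h.2.trans h'.2.symm)
      rw [h2]
  · rw [Finset.not_nonempty_iff_eq_empty] at hne
    rw [hne]
    simp

/-- Brauer–Fowler count. -/
theorem exists_large_centralizer [DecidableEq G] {t : ℕ} (hI : (sq1 G).card = t + 1) (ht0 : 0 < t) :
    ∃ x : G, x ≠ 1 ∧ t * (t + 1) ≤ Nat.card (centralizer ({x} : Set G)) * (Nat.card G - 1) := by
  classical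
  have hone : (1 : G) ∈ sq1 G := by simp [sq1]
  have hg : t + 1 ≤ Nat.card G := by
    rw [← hI, Nat.card_eq_fintype_card, ← Finset.card_univ]
    exact Finset.card_le_univ _
  have hg1 : 0 < Nat.card G - 1 := by omega
  let P : Finset (G × G) := (sq1 G).offDiag
  have hP : P.card = (t + 1) * t := by
    simp only [P, Finset.offDiag_card, hI]
    rw [Nat.mul_succ]
    simp
  have hfib : P.card = ∑ x ∈ Finset.univ.erase (1 : G), (P.filter fun p : G × G => p.1 * p.2 = x).card := by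
    apply Finset.card_eq_sum_card_fiberwise
    rintro ⟨u, v⟩ h
    simp only [P, Finset.coe_offDiag, Set.mem_offDiag, sq1, Finset.coe_filter, Finset.mem_univ, true_and,
      Set.mem_ofPred_eq] at h
    simp only [Finset.coe_erase, Finset.coe_univ, Set.mem_sdiff, Set.mem_univ, Set.mem_singleton_iff, true_and]
    intro h1
    apply h.2.2
    have h2 : u⁻¹ = v := inv_eq_of_mul_eq_one_right h1
    rw [← h2]
    exact (inv_eq_of_mul_eq_one_left h.1).symm
  have hle : ∀ x ∈ Finset.univ.erase (1 : G), (P.filter fun p : G × G => p.1 * p.2 = x).card ≤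
      Nat.card (centralizer ({x} : Set G)) := by
    intro x _
    refine le_trans (Finset.card_le_card ?_) (card_fiber_le x)
    intro p hp
    simp only [Finset.mem_filter, P, Finset.mem_offDiag] at hp ⊢
    exact ⟨Finset.mem_product.mpr ⟨hp.1.1, hp.1.2.1⟩, hp.2⟩
  by_contra hcon
  push Not at hcon
  have hne : (Finset.univ.erase (1 : G)).Nonempty := by
    rw [← Finset.card_pos, Finset.card_erase_of_mem (Finset.mem_univ _), Finset.card_univ,
      ← Nat.card_eq_fintype_card]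
    exact hg1
  have h1 : ∑ x ∈ Finset.univ.erase (1 : G), Nat.card (centralizer ({x} : Set G)) * (Nat.card G - 1) <
      ∑ _x ∈ Finset.univ.erase (1 : G), t * (t + 1) :=
    Finset.sum_lt_sum_of_nonempty hne fun x hx => hcon x (Finset.ne_of_mem_erase hx)
  rw [Finset.sum_const, Finset.card_erase_of_mem (Finset.mem_univ _), Finset.card_univ,
    ← Nat.card_eq_fintype_card, ← Finset.sum_mul, smul_eq_mul] at h1
  have h2 : (t + 1) * t ≤ ∑ x ∈ Finset.univ.erase (1 : G), Nat.card (centralizer ({x} : Set G)) := by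
    rw [← hP, hfib]
    exact Finset.sum_le_sum hle
  have h3 := Nat.mul_le_mul_right (Nat.card G - 1) h2
  nlinarith

theorem part_a [DecidableEq G] {t : ℕ} (hI : (sq1 G).card = t + 1) (ht0 : 0 < t) :
    ∃ x : G, x ≠ 1 ∧ ((centralizer ({x} : Set G)).index : ℚ) ≤ (((Nat.card G : ℚ) - 1) / t) ^ 2 := by
  obtain ⟨x, hx, hle⟩ := exists_large_centralizer hI ht0
  refine ⟨x, hx, ?_⟩
  have hg : t + 1 ≤ Nat.card G := by
    rw [← hI, Nat.card_eq_fintype_card, ← Finset.card_univ]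
    exact Finset.card_le_univ _
  have hci := Subgroup.card_mul_index (centralizer ({x} : Set G))
  set c := Nat.card (centralizer ({x} : Set G)) with hc
  set i := (centralizer ({x} : Set G)).index with hi
  set g := Nat.card G with hgdef
  have hc0 : 0 < c := Nat.card_pos
  have hcast : ((g - 1 : ℕ) : ℚ) = (g : ℚ) - 1 := by
    rw [Nat.cast_sub (by omega)]
    simp
  have hleQ : (t : ℚ) * (t + 1) ≤ c * ((g : ℚ) - 1) := by
    rw [← hcast]
    exact_mod_cast hle
  have hgQ : (t : ℚ) + 1 ≤ g := by exact_mod_cast hg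
  have hciQ : (c : ℚ) * i = g := by exact_mod_cast hci
  have htQ : (0 : ℚ) < t := by exact_mod_cast ht0
  have hcQ : (0 : ℚ) < c := by exact_mod_cast hc0
  rw [div_pow, le_div_iff₀ (by positivity)]
  have hg1 : (0 : ℚ) < (g : ℚ) - 1 := by linarith
  -- `g t² ≤ (g-1)² c`
  have key : (g : ℚ) * t ^ 2 ≤ ((g : ℚ) - 1) ^ 2 * c := by
    have h1 : ((g : ℚ) - 1) * ((t : ℚ) * (t + 1)) ≤ ((g : ℚ) - 1) * (c * ((g : ℚ) - 1)) :=
      mul_le_mul_of_nonneg_left hleQ hg1.le
    have h2 : (g : ℚ) * t ≤ ((g : ℚ) - 1) * (t + 1) := by nlinarith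
    have h3 : (g : ℚ) * t * t ≤ ((g : ℚ) - 1) * (t + 1) * t := mul_le_mul_of_nonneg_right h2 htQ.le
    nlinarith
  have : (c : ℚ) * ((i : ℚ) * (t : ℚ) ^ 2) ≤ (c : ℚ) * ((g : ℚ) - 1) ^ 2 := by
    calc (c : ℚ) * ((i : ℚ) * (t : ℚ) ^ 2) = ((c : ℚ) * (i : ℚ)) * (t : ℚ) ^ 2 := by ring
      _ = (g : ℚ) * (t : ℚ) ^ 2 := by rw [hciQ]
      _ ≤ ((g : ℚ) - 1) ^ 2 * (c : ℚ) := key
      _ = (c : ℚ) * ((g : ℚ) - 1) ^ 2 := by ring
  exact le_of_mul_le_mul_left this hcQ

/-- The second part. -/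
theorem part_b {t : ℕ} (hI : Nat.card {x : G // x * x = 1} = t + 1) (ht0 : 0 < t) :
    ∃ χ : IrrCharacter G, (χ : G → ℂ) ≠ (fun _ => 1) ∧ (∀ g : G, ((χ : G → ℂ) g).im = 0) ∧
      (charDegree (χ : G → ℂ) : ℚ) ≤ ((Nat.card G : ℚ) - 1) / t := by
  classical
  have hsum := sum_fsInd_mul_apply (G := G) 1
  simp only [sqrtCount] at hsum
  rw [hI] at hsum
  let a : IrrCharacter G → ℤ := fun χ => if fsInd (χ : G → ℂ) = 1 then 1 else if fsInd (χ : G → ℂ) = -1 then -1 else 0
  have ha : ∀ χ : IrrCharacter G, fsInd (χ : G → ℂ) = (a χ : ℂ) := by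
    intro χ
    simp only [a]
    rcases fsInd_trichotomy χ.2 with h | h | h
    · rw [h]; simp
    · rw [h]; simp
    · rw [h]
      have : (-1 : ℂ) ≠ 1 := by norm_num
      simp [this]
  let d : IrrCharacter G → ℕ := fun χ => charDegree (χ : G → ℂ)
  have hd : ∀ χ : IrrCharacter G, (χ : G → ℂ) 1 = d χ := fun χ =>
    apply_one_eq_charDegree (IsIrrCharacter.isCharacter χ.2)
  have hZ : ∑ χ : IrrCharacter G, a χ * (d χ : ℤ) = (t : ℤ) + 1 := by
    have : ((∑ χ : IrrCharacter G, a χ * (d χ : ℤ) : ℤ) : ℂ) = (((t : ℤ) + 1 : ℤ) : ℂ) := by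
      push_cast
      rw [← Nat.cast_succ, ← hsum]
      refine Finset.sum_congr rfl fun χ _ => ?_
      rw [ha, hd]
    exact_mod_cast this
  let ψ₀ : IrrCharacter G := ⟨fun _ => 1, isIrrCharacter_one⟩
  have ha0 : a ψ₀ = 1 := by
    have h1 : fsInd (ψ₀ : G → ℂ) = 1 := by
      simp only [fsInd, ψ₀, Finset.sum_const, Finset.card_univ, nsmul_eq_mul, mul_one]
      rw [← Nat.card_eq_fintype_card]
      exact inv_mul_cancel₀ (by exact_mod_cast Nat.card_pos.ne')
    simp only [a, h1, if_true]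
  have hd0 : d ψ₀ = 1 := by
    apply charDegree_eq
    show (1 : ℂ) = ((1 : ℕ) : ℂ)
    simp
  let S : Finset (IrrCharacter G) := (Finset.univ.erase ψ₀).filter fun χ => a χ ≠ 0
  have hsplit := Finset.add_sum_erase Finset.univ (fun χ : IrrCharacter G => a χ * (d χ : ℤ)) (Finset.mem_univ ψ₀)
  rw [hZ, ha0, hd0] at hsplit
  have hS : ∑ χ ∈ Finset.univ.erase ψ₀, a χ * (d χ : ℤ) = t := by
    push_cast at hsplit
    linarith
  have hS2 : (t : ℤ) ≤ ∑ χ ∈ S, (d χ : ℤ) := by
    rw [← hS]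
    have h1 : ∑ χ ∈ Finset.univ.erase ψ₀, a χ * (d χ : ℤ) = ∑ χ ∈ S, a χ * (d χ : ℤ) := by
      symm
      apply Finset.sum_subset (Finset.filter_subset _ _)
      intro χ h1 h2
      have : a χ = 0 := by
        by_contra h3
        exact h2 (Finset.mem_filter.mpr ⟨h1, h3⟩)
      rw [this, zero_mul]
    rw [h1]
    refine Finset.sum_le_sum fun χ _ => ?_
    have h3 : a χ ≤ 1 := by
      simp only [a]
      split_ifs <;> norm_num
    have h4 : (0 : ℤ) ≤ d χ := by positivity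
    nlinarith
  -- the sum of the squares
  have hsq : ∑ χ : IrrCharacter G, (d χ : ℤ) ^ 2 = Nat.card G := by
    have h1 := sum_irr_degree_sq (G := G)
    have : ((∑ χ : IrrCharacter G, (d χ : ℤ) ^ 2 : ℤ) : ℂ) = ((Nat.card G : ℤ) : ℂ) := by
      push_cast
      rw [← h1]
      refine Finset.sum_congr rfl fun χ _ => ?_
      rw [hd]
    exact_mod_cast this
  have hsq2 : ∑ χ ∈ S, (d χ : ℤ) ^ 2 ≤ (Nat.card G : ℤ) - 1 := by
    have h1 := Finset.add_sum_erase Finset.univ (fun χ : IrrCharacter G => (d χ : ℤ) ^ 2) (Finset.mem_univ ψ₀)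
    rw [hsq, hd0] at h1
    have h2 : ∑ χ ∈ S, (d χ : ℤ) ^ 2 ≤ ∑ χ ∈ Finset.univ.erase ψ₀, (d χ : ℤ) ^ 2 :=
      Finset.sum_le_sum_of_subset_of_nonneg (Finset.filter_subset _ _) fun _ _ _ => sq_nonneg _
    push_cast at h1
    linarith
  by_contra hcon
  push Not at hcon
  have hlt : ∀ χ ∈ S, (Nat.card G : ℤ) - 1 < (d χ : ℤ) * t := by
    intro χ hχ
    have hmem := Finset.mem_filter.mp hχ
    have hne : (χ : G → ℂ) ≠ fun _ => 1 := fun h =>
      (Finset.ne_of_mem_erase hmem.1) (Subtype.ext h)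
    have hfs : fsInd (χ : G → ℂ) ≠ 0 := by
      rw [ha]
      exact_mod_cast hmem.2
    have h1 := hcon χ hne (im_eq_zero_of_fsInd_ne_zero χ.2 hfs)
    have htQ : (0 : ℚ) < t := by exact_mod_cast ht0
    rw [div_lt_iff₀ htQ] at h1
    have h2 : ((Nat.card G : ℤ) - 1 : ℚ) < ((d χ : ℤ) * t : ℚ) := by
      simpa using h1
    exact_mod_cast h2
  have hSne : S.Nonempty := by
    by_contra h
    rw [Finset.not_nonempty_iff_eq_empty] at h
    rw [h] at hS2
    simp at hS2
    omega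
  have hG : (0 : ℤ) ≤ (Nat.card G : ℤ) - 1 := by
    have : 0 < Nat.card G := Nat.card_pos
    omega
  have h1 : ∑ χ ∈ S, ((Nat.card G : ℤ) - 1) * (d χ : ℤ) < ∑ χ ∈ S, (d χ : ℤ) * t * (d χ : ℤ) := by
    apply Finset.sum_lt_sum_of_nonempty hSne
    intro χ hχ
    have hdpos : (0 : ℤ) < d χ := by
      have := charDegree_pos χ.2
      exact_mod_cast this
    exact mul_lt_mul_of_pos_right (hlt χ hχ) hdpos
  rw [← Finset.mul_sum] at h1
  have h2 : ∑ χ ∈ S, (d χ : ℤ) * t * (d χ : ℤ) = t * ∑ χ ∈ S, (d χ : ℤ) ^ 2 := by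
    rw [Finset.mul_sum]
    refine Finset.sum_congr rfl fun χ _ => ?_
    ring
  rw [h2] at h1
  have h3 : ((Nat.card G : ℤ) - 1) * t ≤ ((Nat.card G : ℤ) - 1) * ∑ χ ∈ S, (d χ : ℤ) :=
    mul_le_mul_of_nonneg_left hS2 hG
  have h4 : (t : ℤ) * ∑ χ ∈ S, (d χ : ℤ) ^ 2 ≤ t * ((Nat.card G : ℤ) - 1) :=
    mul_le_mul_of_nonneg_left hsq2 (by positivity)
  nlinarith

/-- The count of elements of square one. -/
theorem card_sq1 {t : ℕ} (ht : Nat.card {x : G // orderOf x = 2} = t) :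
    Nat.card {x : G // x * x = 1} = t + 1 := by
  classical
  subst ht
  have h1 : ∀ x : G, x * x = 1 ↔ x = 1 ∨ orderOf x = 2 := by
    intro x
    constructor
    · intro h
      by_cases hx : x = 1
      · exact Or.inl hx
      · exact Or.inr (orderOf_eq_prime (by rw [sq, h]) hx)
    · rintro (rfl | h)
      · simp
      · rw [← sq, ← h, pow_orderOf_eq_one]
  rw [Nat.card_eq_fintype_card, Nat.card_eq_fintype_card, Fintype.card_subtype, Fintype.card_subtype]
  have h2 : Finset.univ.filter (fun x : G => x * x = 1) =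
      insert 1 (Finset.univ.filter fun x : G => orderOf x = 2) := by
    ext x
    simp [h1]
  rw [h2, Finset.card_insert_of_notMem]
  simp

theorem pos_of_even (heven : Even (Nat.card G)) {t : ℕ} (ht : Nat.card {x : G // orderOf x = 2} = t) : 0 < t := by
  classical
  subst ht
  haveI : Fact (Nat.Prime 2) := ⟨Nat.prime_two⟩
  obtain ⟨x, hx⟩ := exists_prime_orderOf_dvd_card' (G := G) 2 (even_iff_two_dvd.mp heven)
  exact Nat.card_pos_iff.mpr ⟨⟨⟨x, hx⟩⟩, inferInstance⟩

/-- The Brauer–Fowler theorem. -/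
theorem main (heven : Even (Nat.card G)) (t : ℕ) (ht : Nat.card {x : G // orderOf x = 2} = t) :
    (∃ x : G, x ≠ 1 ∧ ((Subgroup.centralizer ({x} : Set G)).index : ℚ) ≤ (((Nat.card G : ℚ) - 1) / t) ^ 2) ∧
      ∃ χ : IrrCharacter G, (χ : G → ℂ) ≠ (fun _ => 1) ∧ (∀ g : G, ((χ : G → ℂ) g).im = 0) ∧
        (charDegree (χ : G → ℂ) : ℚ) ≤ ((Nat.card G : ℚ) - 1) / t := by
  classical
  have h1 := card_sq1 ht
  have ht0 := pos_of_even heven ht
  exact ⟨part_a (by rw [sq1_card_eq, h1]) ht0, part_b h1 ht0⟩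

end Cfsg.Agent.Lib.Char.BrauerFowler
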