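import Cfsg.Agent.Lib.Char.BrauerFowler
import Cfsg.Agent.Lib.Char.DefectZero

/-! # A character of large degree forces the involutions to be conjugate. -/

set_option autoImplicit false
set_option linter.unusedSectionVars false

namespace Cfsg.Agent.Lib.Char.BrauerFowler

open Cfsg Subgroup Cfsg.Agent.Lib.Char
open scoped ComplexConjugate

universe u

variable {G : Type u} [Group G] [Fintype G]

/-- Squaring is a bijection on elements of odd order. -/
theorem sum_odd_sq (f : G → ℂ) :
    ∑ s ∈ Finset.univ.filter (fun s : G => Odd (orderOf s)), f (s * s) =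
      ∑ s ∈ Finset.univ.filter (fun s : G => Odd (orderOf s)), f s := by
  classical
  have hord : ∀ s : G, Odd (orderOf s) → orderOf (s * s) = orderOf s := by
    intro s hs
    rw [← sq]
    exact Nat.Coprime.orderOf_pow (Nat.coprime_two_right.mpr hs)
  refine Finset.sum_bij' (fun s _ => s * s) (fun y _ => y ^ ((orderOf y + 1) / 2)) ?_ ?_ ?_ ?_ ?_
  · intro s hs
    simp only [Finset.mem_filter, Finset.mem_univ, true_and] at hs ⊢
    rwa [hord s hs]
  · intro y hy
    simp only [Finset.mem_filter, Finset.mem_univ, true_and] at hy ⊢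
    exact Odd.of_dvd_nat hy (orderOf_dvd_of_pow_eq_one (by
      rw [← pow_mul, mul_comm, pow_mul, pow_orderOf_eq_one, one_pow]))
  · intro s hs
    simp only [Finset.mem_filter, Finset.mem_univ, true_and] at hs
    rw [hord s hs, ← sq, ← pow_mul]
    obtain ⟨k, hk⟩ := hs
    have h1 : 2 * ((orderOf s + 1) / 2) = orderOf s + 1 := by omega
    rw [h1, pow_succ, pow_orderOf_eq_one, one_mul]
  · intro y hy
    simp only [Finset.mem_filter, Finset.mem_univ, true_and] at hy
    rw [← pow_add]
    obtain ⟨k, hk⟩ := hy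
    have h1 : (orderOf y + 1) / 2 + (orderOf y + 1) / 2 = orderOf y + 1 := by omega
    rw [h1, pow_succ, pow_orderOf_eq_one, one_mul]
  · intro s _
    rfl

variable (χ : IrrCharacter G)

/-- The main statement. -/
theorem involution_main (heven : Even (Nat.card G))
    (h2 : 2 ^ (Nat.card G).factorization 2 ∣ charDegree (χ : G → ℂ))
    (hp : ∀ p : ℕ, p.Prime → p ≠ 2 → (∃ g : G, orderOf g = 2 * p) →
      p ^ (Nat.card G).factorization p ∣ charDegree (χ : G → ℂ)) :
    (∀ s t : G, orderOf s = 2 → orderOf t = 2 → IsConj s t) ∧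
    (∀ s : G, orderOf s = 2 → Nat.card (centralizer ({s} : Set G)) = charDegree (χ : G → ℂ) ∧
      (Nat.card (centralizer ({s} : Set G))).Coprime (centralizer ({s} : Set G)).index) ∧
    (Nat.card G : ℂ)⁻¹ * ∑ g : G, (χ : G → ℂ) (g * g) = 1 := by
  classical
  haveI : Fact (Nat.Prime 2) := ⟨Nat.prime_two⟩
  set x := charDegree (χ : G → ℂ) with hx
  set g := Nat.card G with hg
  have hg0 : g ≠ 0 := Nat.card_pos.ne'
  have hx1 : (χ : G → ℂ) 1 = x := apply_one_eq_charDegree (IsIrrCharacter.isCharacter χ.2)
  have hx0 : 0 < x := charDegree_pos χ.2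
  have hv2 : ∀ y : G, 2 ∣ orderOf y → (χ : G → ℂ) y = 0 := fun y hy =>
    apply_eq_zero_of_defect_zero χ.2 Nat.prime_two h2 hy
  have hvp : ∀ (p : ℕ), p.Prime → p ≠ 2 → (∃ a : G, orderOf a = 2 * p) → ∀ y : G, p ∣ orderOf y →
      (χ : G → ℂ) y = 0 := fun p hp' hp2 ha y hy =>
    apply_eq_zero_of_defect_zero χ.2 hp' (hp p hp' hp2 ha) hy
  -- `χ` is not principal
  have htwo : 2 ∣ x := by
    have h1 : 2 ∣ g := even_iff_two_dvd.mp heven
    have h3 : (Nat.card G).factorization 2 ≠ 0 := by
      rw [← hg]
      intro h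
      have := (Nat.Prime.dvd_iff_one_le_factorization Nat.prime_two hg0).mp h1
      omega
    exact (dvd_pow_self 2 h3).trans h2
  have hne : (χ : G → ℂ) ≠ fun _ => 1 := by
    intro h
    have h1 : x = 1 := charDegree_eq (by rw [h]; simp)
    omega
  have hzero : ∑ y : G, (χ : G → ℂ) y = 0 := by
    have h1 := classInner_irr_of_ne χ.2 isIrrCharacter_one hne
    simp only [classInner, map_one, mul_one] at h1
    have h3 : ((Nat.card G : ℕ) : ℂ)⁻¹ ≠ 0 := inv_ne_zero (by exact_mod_cast hg0)
    exact (mul_eq_zero.mp h1).resolve_left h3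
  -- even part
  have heven_val : ∀ s : G, ¬ Odd (orderOf s) → (χ : G → ℂ) (s * s) = if orderOf s = 2 then (x : ℂ) else 0 := by
    intro s hs
    have h2s : 2 ∣ orderOf s := by
      rw [← even_iff_two_dvd]
      exact Nat.not_odd_iff_even.mp hs
    by_cases h1 : orderOf s = 2
    · rw [if_pos h1, ← sq, ← h1, pow_orderOf_eq_one, hx1]
    · rw [if_neg h1, ← sq]
      have hord : orderOf (s ^ 2) = orderOf s / 2 := orderOf_pow_of_dvd two_ne_zero h2s
      obtain ⟨k, hk⟩ := h2s
      have hk0 : k ≠ 0 := by
        rintro rfl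
        have := orderOf_pos s
        omega
      have hk1 : k ≠ 1 := by
        rintro rfl
        exact h1 hk
      have hordk : orderOf (s ^ 2) = k := by
        rw [hord, hk]
        omega
      by_cases hk2 : 2 ∣ k
      · exact hv2 _ (hordk ▸ hk2)
      · obtain ⟨p, hp', hpk⟩ := Nat.exists_prime_and_dvd hk1
        have hp2 : p ≠ 2 := by
          rintro rfl
          exact hk2 hpk
        obtain ⟨l, hl⟩ := hpk
        have hl0 : l ≠ 0 := by
          rintro rfl
          simp at hl
          exact hk0 hl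
        refine hvp p hp' hp2 ⟨s ^ l, ?_⟩ _ (hordk ▸ ⟨l, hl⟩)
        have hdvd : l ∣ orderOf s := ⟨2 * p, by rw [hk, hl]; ring⟩
        rw [orderOf_pow_of_dvd hl0 hdvd, hk, hl]
        apply Nat.div_eq_of_eq_mul_left (Nat.pos_of_ne_zero hl0)
        ring
  set t := Nat.card {s : G // orderOf s = 2} with ht
  have ht0 : 0 < t := pos_of_even heven rfl
  have htcard : (Finset.univ.filter fun s : G => orderOf s = 2).card = t := by
    rw [ht, Nat.card_eq_fintype_card, Fintype.card_subtype]
  have hsum : ∑ s : G, (χ : G → ℂ) (s * s) = (t : ℂ) * x := by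
    rw [← Finset.sum_filter_add_sum_filter_not Finset.univ (fun s : G => Odd (orderOf s)), sum_odd_sq]
    have h1 : ∑ s ∈ Finset.univ.filter (fun s : G => Odd (orderOf s)), (χ : G → ℂ) s = 0 := by
      rw [← hzero]
      apply Finset.sum_subset (Finset.subset_univ _)
      intro y _ hy
      simp only [Finset.mem_filter, Finset.mem_univ, true_and] at hy
      exact hv2 y (even_iff_two_dvd.mp (Nat.not_odd_iff_even.mp hy))
    rw [h1, zero_add]
    have h3 : ∑ s ∈ Finset.univ.filter (fun s : G => ¬ Odd (orderOf s)), (χ : G → ℂ) (s * s) =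
        ∑ s ∈ Finset.univ.filter (fun s : G => ¬ Odd (orderOf s)), if orderOf s = 2 then (x : ℂ) else 0 :=
      Finset.sum_congr rfl fun s hs => heven_val s (Finset.mem_filter.mp hs).2
    rw [h3, ← Finset.sum_filter, Finset.filter_filter, Finset.sum_const, nsmul_eq_mul]
    congr 2
    rw [← htcard]
    congr 1
    ext s
    simp only [Finset.mem_filter, Finset.mem_univ, true_and, and_iff_right_iff_imp]
    intro h
    rw [h]
    decide
  have hν : (Nat.card G : ℂ)⁻¹ * ∑ y : G, (χ : G → ℂ) (y * y) = 1 := by
    have h1 := fsInd_trichotomy χ.2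
    have h3 : fsInd (χ : G → ℂ) = (g : ℂ)⁻¹ * ((t : ℂ) * x) := by
      rw [fsInd, hsum]
    have hgC : (g : ℂ) ≠ 0 := by exact_mod_cast hg0
    have h4 : (0 : ℝ) < ((g : ℝ))⁻¹ * ((t : ℝ) * x) := by positivity
    have h5 : fsInd (χ : G → ℂ) = (((g : ℝ))⁻¹ * ((t : ℝ) * x) : ℝ) := by
      rw [h3]
      push_cast
      rfl
    rcases h1 with h | h | h
    · rw [h5] at h
      have : ((g : ℝ))⁻¹ * ((t : ℝ) * x) = 0 := by exact_mod_cast h
      linarith
    · exact h
    · rw [h5] at h
      have : ((g : ℝ))⁻¹ * ((t : ℝ) * x) = -1 := by exact_mod_cast h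
      linarith
  have htx : t * x = g := by
    rw [hsum] at hν
    have hgC : (g : ℂ) ≠ 0 := by exact_mod_cast hg0
    have h1 : (t : ℂ) * x = g := by
      field_simp at hν
      linear_combination hν
    exact_mod_cast h1
  -- the centralizer order divides the degree
  have hCdvd : ∀ s : G, orderOf s = 2 → ∀ q : ℕ, q.Prime → q ∣ Nat.card (centralizer ({s} : Set G)) →
      q ^ g.factorization q ∣ x := by
    intro s hs q hq hqc
    by_cases hq2 : q = 2
    · subst hq2
      exact h2
    · apply hp q hq hq2
      haveI : Fact q.Prime := ⟨hq⟩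
      obtain ⟨y, hy⟩ := exists_prime_orderOf_dvd_card' (G := centralizer ({s} : Set G)) q hqc
      refine ⟨s * y, ?_⟩
      have hcomm : Commute s (y : G) := by
        have := y.2
        rw [mem_centralizer_iff] at this
        exact this s rfl
      rw [hcomm.orderOf_mul_eq_mul_orderOf_of_coprime, hs, Subgroup.orderOf_coe, hy]
      rw [hs, Subgroup.orderOf_coe, hy]
      exact (Nat.coprime_primes Nat.prime_two hq).mpr (Ne.symm hq2)
  have hCx : ∀ s : G, orderOf s = 2 → Nat.card (centralizer ({s} : Set G)) ∣ x := by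
    intro s hs
    have hc0 : Nat.card (centralizer ({s} : Set G)) ≠ 0 := Nat.card_pos.ne'
    rw [← Nat.factorization_prime_le_iff_dvd hc0 hx0.ne']
    intro q hq
    by_cases hqc : q ∣ Nat.card (centralizer ({s} : Set G))
    · have h1 : (Nat.card (centralizer ({s} : Set G))).factorization q ≤ g.factorization q :=
        (Nat.factorization_le_iff_dvd hc0 hg0).mpr (Subgroup.card_subgroup_dvd_card _) q
      have h3 := (Nat.Prime.pow_dvd_iff_le_factorization hq hx0.ne').mp (hCdvd s hs q hq hqc)
      omega
    · rw [Nat.factorization_eq_zero_of_not_dvd hqc]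
      exact Nat.zero_le _
  -- one class of involutions
  have hclass : ∀ s : G, orderOf s = 2 → Nat.card (centralizer ({s} : Set G)) = x ∧
      ∀ u : G, orderOf u = 2 → IsConj s u := by
    intro s hs
    have hc := hCx s hs
    have hcc : Nat.card {y : G // IsConj s y} * Nat.card (centralizer ({s} : Set G)) = g :=
      card_conj_mul_card_centralizer s
    have hconj_ord : ∀ y : {y : G // IsConj s y}, orderOf (y : G) = 2 := by
      intro y
      obtain ⟨c, hc⟩ := isConj_iff.mp y.2
      rw [← hc, ← hs, ← MulAut.conj_apply]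
      exact MulEquiv.orderOf_eq _ _
    have hF1 : (Finset.univ.filter fun y : G => IsConj s y).card = Nat.card {y : G // IsConj s y} := by
      rw [Nat.card_eq_fintype_card, Fintype.card_subtype]
    have hsubF : (Finset.univ.filter fun y : G => IsConj s y) ⊆ Finset.univ.filter fun y : G => orderOf y = 2 := by
      intro y hy
      simp only [Finset.mem_filter, Finset.mem_univ, true_and] at hy ⊢
      exact hconj_ord ⟨y, hy⟩
    have hsub : Nat.card {y : G // IsConj s y} ≤ t := by
      rw [← hF1, ← htcard]
      exact Finset.card_le_card hsubF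
    obtain ⟨k, hk⟩ := hc
    have hc0 : 0 < Nat.card (centralizer ({s} : Set G)) := Nat.card_pos
    have hk1 : Nat.card {y : G // IsConj s y} = t * k := by
      apply Nat.eq_of_mul_eq_mul_right hc0
      rw [hcc, ← htx, hk]
      ring
    have hk0 : 0 < k := by
      rcases Nat.eq_zero_or_pos k with h | h
      · rw [h] at hk
        omega
      · exact h
    have hkk : k = 1 := by
      have : t * k ≤ t * 1 := by rw [mul_one, ← hk1]; exact hsub
      have := Nat.le_of_mul_le_mul_left this ht0
      omega
    refine ⟨by rw [hk, hkk, mul_one], ?_⟩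
    intro u hu
    have hEq : (Finset.univ.filter fun y : G => IsConj s y) = Finset.univ.filter fun y : G => orderOf y = 2 := by
      apply Finset.eq_of_subset_of_card_le hsubF
      rw [htcard, hF1, hk1, hkk, mul_one]
    have hmem : u ∈ Finset.univ.filter fun y : G => IsConj s y := by
      rw [hEq]
      simp [hu]
    simpa using hmem
  refine ⟨fun s u hs hu => (hclass s hs).2 u hu, fun s hs => ⟨(hclass s hs).1, ?_⟩, hν⟩
  have hcx := (hclass s hs).1
  apply Nat.coprime_of_dvd
  intro q hq hqc hqi
  have h1 := hCdvd s hs q hq hqc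
  rw [← hcx] at h1
  have hci := Subgroup.card_mul_index (centralizer ({s} : Set G))
  have hc0 : Nat.card (centralizer ({s} : Set G)) ≠ 0 := Nat.card_pos.ne'
  have hi0 : (centralizer ({s} : Set G)).index ≠ 0 := Subgroup.index_ne_zero_of_finite
  have h3 : g.factorization q = (Nat.card (centralizer ({s} : Set G))).factorization q +
      ((centralizer ({s} : Set G)).index).factorization q := by
    rw [hg, ← hci, Nat.factorization_mul hc0 hi0]
    rfl
  have h4 := (Nat.Prime.pow_dvd_iff_le_factorization hq hc0).mp h1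
  have h5 := (Nat.Prime.dvd_iff_one_le_factorization hq hi0).mp hqi
  omega

end Cfsg.Agent.Lib.Char.BrauerFowler
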