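import Mathlib
import Cfsg.Agent.Lib.Char.BrolineA
import Cfsg.Agent.Lib.Char.Ind

set_option autoImplicit false

namespace Cfsg.Agent.Lib.Char.Broline

open Cfsg Module
open scoped ComplexConjugate

universe u

variable {G : Type u} [Group G] [Fintype G]

theorem classInner_eq_zero_of_trivial {τ A : G → ℂ} (hτ : IsCharacter G τ) (hA : IsCharacter G A)
    (N : Subgroup G) (hτN : ∀ n ∈ N, τ n = τ 1)
    (hAβ : ∀ β : G → ℂ, IsIrrCharacter G β → classInner A β ≠ 0 → ¬ N ≤ charKer β) :
    classInner τ A = 0 := by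
  classical
  obtain ⟨m, hm, hsum⟩ := IsCharacter.exists_eq_sum hA
  rw [hsum, classInner_sum_right]
  refine Finset.sum_eq_zero fun β _ => ?_
  by_cases h0 : m β = 0
  · simp [h0, classInner, Finset.sum_const_zero]
  · have h1 : classInner A (β : G → ℂ) ≠ 0 := by
      rw [hm β]
      exact_mod_cast h0
    have h2 := hAβ β β.2 h1
    have h3 : classInner τ (β : G → ℂ) = 0 := by
      by_contra h4
      apply h2
      intro n hn
      rw [mem_charKer (IsIrrCharacter.isCharacter β.2)]
      exact irr_apply_eq_of_constituent hτ β.2 h4 (hτN n hn)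
    rw [← Nat.cast_smul_eq_nsmul ℂ, classInner_smul_right, h3, mul_zero]

theorem core {χ : G → ℂ} (hχ : IsIrrCharacter G χ) (K H : Subgroup G) [K.Normal] [Fintype K]
    [Fintype H] (hK : ∀ k ∈ K, χ k = χ 1) (hKH : ∀ g : G, ∃ k ∈ K, ∃ h ∈ H, g = k * h)
    (N : Subgroup G) (hNK : N ≤ K) {A B : G → ℂ} (hA : IsCharacter G A) (hB : IsCharacter G B)
    (hπ : indFun H (fun _ => (1 : ℂ)) = A + B)
    (hAβ : ∀ β : G → ℂ, IsIrrCharacter G β → classInner A β ≠ 0 → ¬ N ≤ charKer β)
    (hBN : ∀ n ∈ N, B n = B 1) (hne : ∃ h ∈ H, χ h ≠ 0 ∧ A h ≠ A 1) :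
    ∃ ψ : IrrCharacter G, classInner (χ * A) (ψ : G → ℂ) ≠ 0 ∧ (χ 1).re < ((ψ : G → ℂ) 1).re := by
  classical
  have hχc := IsIrrCharacter.isCharacter hχ
  have hχK : ∀ k ∈ K, ∀ g, χ (k * g) = χ g := by
    intro k hk g
    apply apply_mem_charKer_mul hχc
    rw [mem_charKer hχc]
    exact hK k hk
  obtain ⟨n₀, hn₀⟩ := IsCharacter.apply_one hχc
  have hd : 0 < (χ 1).re := by
    have h0 := IsIrrCharacter.apply_one_ne_zero hχ
    rw [hn₀] at h0 ⊢
    have h1 : n₀ ≠ 0 := by
      intro h2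
      apply h0
      rw [h2, Nat.cast_zero]
    simpa using Nat.pos_of_ne_zero h1
  obtain ⟨a₀, ha₀⟩ := IsCharacter.apply_one hA
  have hγ : IsCharacter G (χ * A) := IsCharacter.mul hχc hA
  have hconjχ := IsCharacter.conj hχc
  -- orthogonality
  have h1 : classInner (χ * B) (χ * A) = 0 := by
    have hτ : IsCharacter G (χ * (fun g => conj (χ g)) * B) :=
      IsCharacter.mul (IsCharacter.mul hχc hconjχ) hB
    have h2 := classInner_eq_zero_of_trivial hτ hA N (by
      intro n hn
      simp only [Pi.mul_apply]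
      rw [hK n (hNK hn), hBN n hn]) hAβ
    rw [← h2]
    simp only [classInner, Pi.mul_apply, map_mul]
    congr 1
    refine Finset.sum_congr rfl fun g _ => ?_
    ring
  have h2 : classInner (χ * A) (χ * A) = classInner (indFun H (fun _ => (1 : ℂ)))
      (χ * (fun g => conj (χ g)) * A) := by
    have h3 : classInner (χ * (A + B)) (χ * A) = classInner (χ * A) (χ * A) := by
      rw [mul_add, classInner_add_left, h1, add_zero]
    rw [← h3, hπ]
    simp only [classInner, Pi.mul_apply, map_mul, Complex.conj_conj]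
    congr 1
    refine Finset.sum_congr rfl fun g _ => ?_
    ring
  have hfc : IsClassFunction G (χ * (fun g => conj (χ g)) * A) :=
    IsCharacter.isClassFunction (IsCharacter.mul (IsCharacter.mul hχc hconjχ) hA)
  rw [classInner_indFun_left H _ _ hfc] at h2
  -- the sum of the squares of the values on `H`
  have h3 : ∑ h : H, (Complex.normSq (χ h) : ℂ) = (Nat.card H : ℂ) := by
    have h4 := avg_subgroup_eq K H hKH (fun g => (Complex.normSq (χ g) : ℂ)) (by
      intro k hk g
      rw [hχK k hk g])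
    have h5 : (Nat.card G : ℂ)⁻¹ * ∑ g, (Complex.normSq (χ g) : ℂ) = 1 := by
      have h6 := classInner_irr_self hχ
      rw [← h6]
      simp only [classInner]
      congr 1
      refine Finset.sum_congr rfl fun g _ => ?_
      rw [Complex.mul_conj]
    rw [h5] at h4
    have hH : (Nat.card H : ℂ) ≠ 0 := by exact_mod_cast (Nat.card_pos (α := H)).ne'
    field_simp at h4
    exact h4
  have h3r : ∑ h : H, Complex.normSq (χ h) = (Nat.card H : ℝ) := by
    exact_mod_cast h3
  have hHr : (0 : ℝ) < (Nat.card H : ℝ) := by exact_mod_cast Nat.card_pos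
  have h4 : (classInner (χ * A) (χ * A)).re =
      (Nat.card H : ℝ)⁻¹ * ∑ h : H, Complex.normSq (χ h) * (A h).re := by
    rw [h2]
    simp only [classInner, one_mul, Pi.mul_apply, map_mul, Complex.conj_conj]
    have h5 : ∀ h : H, conj (χ h) * χ h * conj (A h) =
        ((Complex.normSq (χ h) : ℝ) : ℂ) * conj (A h) := by
      intro h
      rw [mul_comm (conj (χ h)), Complex.mul_conj]
    rw [Finset.sum_congr rfl fun h _ => h5 h]
    have h6 : ((Nat.card H : ℂ))⁻¹ = (((Nat.card H : ℝ)⁻¹ : ℝ) : ℂ) := by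
      push_cast
      rfl
    rw [h6, Complex.re_ofReal_mul, Complex.re_sum]
    congr 1
    refine Finset.sum_congr rfl fun h _ => ?_
    rw [Complex.re_ofReal_mul, Complex.conj_re]
  have h5 : (classInner (χ * A) (χ * A)).re < (A 1).re := by
    obtain ⟨h₀, hh₀, hχ₀, hA₀⟩ := hne
    have h6 : (A 1).re - (Nat.card H : ℝ)⁻¹ * ∑ h : H, Complex.normSq (χ h) * (A h).re =
        (Nat.card H : ℝ)⁻¹ * ∑ h : H, Complex.normSq (χ h) * ((A 1).re - (A h).re) := by
      have h7 : ∑ h : H, Complex.normSq (χ h) * ((A 1).re - (A h).re) =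
          (A 1).re * ∑ h : H, Complex.normSq (χ h) - ∑ h : H, Complex.normSq (χ h) * (A h).re := by
        rw [Finset.mul_sum, ← Finset.sum_sub_distrib]
        refine Finset.sum_congr rfl fun h _ => ?_
        ring
      rw [h7, h3r]
      field_simp
    have h7 : 0 < ∑ h : H, Complex.normSq (χ h) * ((A 1).re - (A h).re) := by
      apply Finset.sum_pos'
      · intro h _
        apply mul_nonneg (Complex.normSq_nonneg _)
        have := character_re_le hA (h : G)
        linarith
      · refine ⟨⟨h₀, hh₀⟩, Finset.mem_univ _, ?_⟩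
        apply mul_pos (Complex.normSq_pos.mpr hχ₀)
        have h8 : (A h₀).re < (A 1).re := by
          by_contra h9
          exact hA₀ (eq_of_re_ge hA (not_lt.mp h9))
        simp only
        linarith
    have h8 : 0 < (Nat.card H : ℝ)⁻¹ * ∑ h : H, Complex.normSq (χ h) * ((A 1).re - (A h).re) :=
      mul_pos (inv_pos.mpr hHr) h7
    rw [h4]
    linarith
  have hmain : (χ 1).re * (classInner (χ * A) (χ * A)).re < ((χ * A) 1).re := by
    have h6 : ((χ * A) 1).re = (χ 1).re * (A 1).re := by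
      simp only [Pi.mul_apply]
      rw [hn₀, ha₀]
      simp
    rw [h6]
    exact mul_lt_mul_of_pos_left h5 hd
  exact exists_large_constituent hγ _ hd.le hmain

theorem indFun_one_eq_of_mem {H : Subgroup G} {l : G} (hl : ∀ x : G, x⁻¹ * l * x ∈ H) :
    indFun H (fun _ => (1 : ℂ)) l = indFun H (fun _ => (1 : ℂ)) 1 := by
  rw [indFun_apply, indFun_apply]
  congr 1
  refine Finset.sum_congr rfl fun x _ => ?_
  have h1 : x⁻¹ * 1 * x ∈ H := by
    simp [H.one_mem]
  rw [extendByZero_of_mem H _ (hl x), extendByZero_of_mem H _ h1]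

theorem mem_of_indFun_one_eq {H : Subgroup G} {g : G}
    (h : indFun H (fun _ => (1 : ℂ)) g = indFun H (fun _ => (1 : ℂ)) 1) : g ∈ H := by
  classical
  rw [indFun_apply, indFun_apply] at h
  have hH : (Nat.card H : ℂ)⁻¹ ≠ 0 := inv_ne_zero (by exact_mod_cast (Nat.card_pos (α := H)).ne')
  have h1 := mul_left_cancel₀ hH h
  have h2 : ∀ y : G, extendByZero H (fun _ => (1 : ℂ)) y = if y ∈ H then 1 else 0 := by
    intro y
    split_ifs with hy
    · rw [extendByZero_of_mem H _ hy]
    · rw [extendByZero_of_notMem H _ hy]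
  simp only [h2] at h1
  have h3 : ((Finset.univ.filter fun x : G => x⁻¹ * g * x ∈ H).card : ℂ) =
      ((Finset.univ.filter fun x : G => x⁻¹ * 1 * x ∈ H).card : ℂ) := by
    simpa [Finset.sum_boole] using h1
  have h4 : (Finset.univ.filter fun x : G => x⁻¹ * 1 * x ∈ H) = Finset.univ := by
    ext x
    simp [H.one_mem]
  rw [h4] at h3
  have h5 : (Finset.univ.filter fun x : G => x⁻¹ * g * x ∈ H).card = (Finset.univ : Finset G).card := by
    exact_mod_cast h3
  have h6 := (Finset.card_eq_iff_eq_univ _).mp (by simpa using h5 : (Finset.univ.filter fun x : G => x⁻¹ * g * x ∈ H).card = Fintype.card G)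
  have h7 : (1 : G) ∈ (Finset.univ.filter fun x : G => x⁻¹ * g * x ∈ H) := by
    rw [h6]
    exact Finset.mem_univ _
  simpa using (Finset.mem_filter.mp h7).2

/-- The main construction: a faithful irreducible character of larger degree. -/
theorem exists_faithful {χ : G → ℂ} (hχ : IsIrrCharacter G χ) (K : Subgroup G) [hKn : K.Normal]
    (hKer : ∀ g, g ∈ K ↔ χ g = χ 1) (N : Subgroup G) [hNn : N.Normal] (hNK : N ≤ K)
    (hmin : ∀ S : Subgroup G, S.Normal → S ≤ K → S ≠ ⊥ → N ≤ S) (H : Subgroup G)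
    (hKH : ∀ g : G, ∃ k ∈ K, ∃ h ∈ H, g = k * h) (hNH : ¬ N ≤ H)
    (hL : ∀ L : Subgroup G, L.Normal → L ⊓ K = ⊥ → L ≤ H)
    (hnv : ∀ D : Subgroup G, D.Normal → ¬ N ≤ D → ∃ h ∈ H, χ h ≠ 0 ∧ h ∉ D) :
    ∃ ψ : IrrCharacter G, (χ 1).re < ((ψ : G → ℂ) 1).re ∧ ∀ g, (ψ : G → ℂ) g = (ψ : G → ℂ) 1 → g = 1 := by
  classical
  letI : Fintype H := Fintype.ofFinite _
  letI : Fintype K := Fintype.ofFinite _
  have hχc := IsIrrCharacter.isCharacter hχ
  have hconjχ := IsCharacter.conj hχc
  have hθ : IsCharacter H (fun _ => (1 : ℂ)) := IsIrrCharacter.isCharacter isIrrCharacter_one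
  have hπc := isCharacter_indFun H hθ
  obtain ⟨A, B, hA, hB, hπ, hAβ, hBN⟩ := exists_split hπc N
  have hAβ' : ∀ β : G → ℂ, IsIrrCharacter G β → classInner A β ≠ 0 → ¬ N ≤ charKer β :=
    fun β hβ h => (hAβ β hβ h).1
  have hDn := charKer_normal hA
  have hND : ¬ N ≤ charKer A := by
    intro hle
    apply hNH
    intro n hn
    apply mem_of_indFun_one_eq
    rw [hπ]
    simp only [Pi.add_apply]
    rw [hBN n hn, (mem_charKer hA).mp (hle hn)]
  obtain ⟨h, hh, hχh, hhD⟩ := hnv _ hDn hND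
  have hAh : A h ≠ A 1 := by
    intro h0
    exact hhD ((mem_charKer hA).mpr h0)
  obtain ⟨ψ, hψ, hdeg⟩ := core hχ K H (fun k hk => (hKer k).mp hk) hKH N hNK hA hB hπ hAβ' hBN
    ⟨h, hh, hχh, hAh⟩
  refine ⟨ψ, hdeg, ?_⟩
  -- a constituent of `A`
  obtain ⟨β, hβA, hβψ⟩ : ∃ β : IrrCharacter G, classInner A (β : G → ℂ) ≠ 0 ∧
      classInner (χ * (β : G → ℂ)) (ψ : G → ℂ) ≠ 0 := by
    obtain ⟨m, hm, hsum⟩ := IsCharacter.exists_eq_sum hA
    have h1 : classInner (χ * A) (ψ : G → ℂ) =
        ∑ β : IrrCharacter G, (m β : ℂ) * classInner (χ * (β : G → ℂ)) (ψ : G → ℂ) := by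
      conv_lhs => rw [hsum, Finset.mul_sum]
      rw [classInner_sum_left]
      refine Finset.sum_congr rfl fun β _ => ?_
      rw [mul_smul_comm, ← Nat.cast_smul_eq_nsmul ℂ, classInner_smul_left]
    rw [h1] at hψ
    obtain ⟨β, -, hβ⟩ := Finset.exists_ne_zero_of_sum_ne_zero hψ
    refine ⟨β, ?_, (mul_ne_zero_iff.mp hβ).2⟩
    rw [hm β]
    exact (mul_ne_zero_iff.mp hβ).1
  have hβc := IsIrrCharacter.isCharacter β.2
  have hψc := IsIrrCharacter.isCharacter ψ.2
  obtain ⟨hNβ, hπβ⟩ := hAβ β β.2 hβA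
  have hconj1 : ∀ τ : G → ℂ, classInner τ (χ * (β : G → ℂ)) = conj (classInner (χ * (β : G → ℂ)) τ) :=
    fun τ => classInner_conj_symm _ _
  -- `N` is not in the kernel of `ψ`
  have hLn := charKer_normal hψc
  have hNL : ¬ N ≤ charKer (ψ : G → ℂ) := by
    intro hle
    apply hNβ
    have hτ : IsCharacter G ((ψ : G → ℂ) * fun g => conj (χ g)) := IsCharacter.mul hψc hconjχ
    have h2 : classInner ((ψ : G → ℂ) * fun g => conj (χ g)) (β : G → ℂ) ≠ 0 := by
      have h3 : classInner ((ψ : G → ℂ) * fun g => conj (χ g)) (β : G → ℂ) =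
          conj (classInner (χ * (β : G → ℂ)) (ψ : G → ℂ)) := by
        rw [← classInner_conj_symm]
        simp only [classInner, Pi.mul_apply, map_mul]
        congr 1
        refine Finset.sum_congr rfl fun g _ => ?_
        ring
      rw [h3]
      exact (map_ne_zero _).mpr hβψ
    intro n hn
    rw [mem_charKer hβc]
    apply irr_apply_eq_of_constituent hτ β.2 h2
    simp only [Pi.mul_apply]
    rw [(mem_charKer hψc).mp (hle hn), (hKer n).mp (hNK hn)]
  have hLK : charKer (ψ : G → ℂ) ⊓ K = ⊥ := by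
    by_contra hne
    exact hNL ((hmin _ (by exact Subgroup.normal_inf_normal _ _ ) inf_le_right hne).trans inf_le_left)
  have hLH := hL _ hLn hLK
  -- `L` is in the kernel of `β`
  have hLβ : ∀ l ∈ charKer (ψ : G → ℂ), (β : G → ℂ) l = (β : G → ℂ) 1 := by
    intro l hl
    apply irr_apply_eq_of_constituent hπc β.2 hπβ
    apply indFun_one_eq_of_mem
    intro x
    apply hLH
    have := hLn.conj_mem l hl x⁻¹
    simpa using this
  -- so `L` is in the kernel of `χ`
  have hLχ : charKer (ψ : G → ℂ) ≤ K := by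
    intro l hl
    rw [hKer]
    have hτ : IsCharacter G ((ψ : G → ℂ) * fun g => conj ((β : G → ℂ) g)) :=
      IsCharacter.mul hψc (IsCharacter.conj hβc)
    apply irr_apply_eq_of_constituent hτ hχ
    · have h3 : classInner ((ψ : G → ℂ) * fun g => conj ((β : G → ℂ) g)) χ =
          conj (classInner (χ * (β : G → ℂ)) (ψ : G → ℂ)) := by
        rw [← classInner_conj_symm]
        simp only [classInner, Pi.mul_apply, map_mul]
        congr 1
        refine Finset.sum_congr rfl fun g _ => ?_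
        ring
      rw [h3]
      exact (map_ne_zero _).mpr hβψ
    · simp only [Pi.mul_apply]
      rw [(mem_charKer hψc).mp hl, hLβ l hl]
  intro g hg
  have h2 : g ∈ charKer (ψ : G → ℂ) ⊓ K := by
    have h3 := (mem_charKer hψc).mpr hg
    exact ⟨h3, hLχ h3⟩
  rw [hLK] at h2
  exact h2

end Cfsg.Agent.Lib.Char.Broline
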