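import Mathlib
import Cfsg.Agent.Lib.Char.BrolineB
import Cfsg.Agent.Lib.Basic.MinNormal
import Cfsg.Agent.Lib.Basic.Core
import Cfsg.Agent.Lib.Basic.Nilpotent

set_option autoImplicit false

namespace Cfsg.Agent.Lib.Char.Broline

open Cfsg Subgroup
open Cfsg.Agent.Lib.Basic (IsMinNormal exists_isMinNormal_le)

universe u

section Group

variable {G : Type u} [Group G]

theorem lcs_le_of_nilp {M N : Subgroup G} [N.Normal]
    (h : Group.IsNilpotent (M.map (QuotientGroup.mk' N))) : ∃ c, M.lowerCentralSeries c ≤ N := by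
  obtain ⟨c, hc⟩ := (isNilpotent_iff_lowerCentralSeries _).mp h
  refine ⟨c, fun x hx => ?_⟩
  have h1 : QuotientGroup.mk' N x ∈ (M.map (QuotientGroup.mk' N)).lowerCentralSeries c := by
    rw [← map_lowerCentralSeries]
    exact ⟨x, hx, rfl⟩
  rw [hc, mem_bot] at h1
  exact (QuotientGroup.eq_one_iff x).mp h1

theorem nilp_of_two {M N₁ N₂ : Subgroup G} [N₁.Normal] [N₂.Normal]
    (h1 : Group.IsNilpotent (M.map (QuotientGroup.mk' N₁)))
    (h2 : Group.IsNilpotent (M.map (QuotientGroup.mk' N₂))) (h : N₁ ⊓ N₂ = ⊥) :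
    Group.IsNilpotent M := by
  obtain ⟨c₁, hc₁⟩ := lcs_le_of_nilp h1
  obtain ⟨c₂, hc₂⟩ := lcs_le_of_nilp h2
  refine (isNilpotent_iff_lowerCentralSeries _).mpr ⟨max c₁ c₂, ?_⟩
  rw [eq_bot_iff, ← h]
  exact le_inf ((Subgroup.lowerCentralSeries_antitone M (le_max_left _ _)).trans hc₁)
    ((Subgroup.lowerCentralSeries_antitone M (le_max_right _ _)).trans hc₂)

theorem nilp_of_central {M N : Subgroup G} [N.Normal]
    (h1 : Group.IsNilpotent (M.map (QuotientGroup.mk' N)))
    (hc : N ≤ centralizer (M : Set G)) : Group.IsNilpotent M := by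
  obtain ⟨c, hc'⟩ := lcs_le_of_nilp h1
  refine (isNilpotent_iff_lowerCentralSeries _).mpr ⟨c + 1, ?_⟩
  rw [Subgroup.lowerCentralSeries_succ, eq_bot_iff]
  rw [commutator_le]
  intro x hx y hy
  have h2 := hc (hc' hx)
  rw [mem_centralizer_iff] at h2
  have h3 := h2 y hy
  rw [mem_bot, commutatorElement_eq_one_iff_commute]
  exact h3.symm

theorem normal_map_pCore (N : Subgroup G) [hN : N.Normal] (r : ℕ) :
    ((pCore r N).map N.subtype).Normal := by
  refine ⟨fun y hy g => ?_⟩
  obtain ⟨u, hu, rfl⟩ := hy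
  have h1 : MulAut.conjNormal g u ∈ pCore r N := by
    have h2 := (Cfsg.Agent.Lib.Basic.pCore_characteristic (G := N) r).fixed (MulAut.conjNormal g)
    have h3 : u ∈ (pCore r N).comap (MulAut.conjNormal g).toMonoidHom := by
      rw [h2]
      exact hu
    exact h3
  refine ⟨_, h1, ?_⟩
  simp [MulAut.conjNormal_apply]

theorem isPGroup_of_inf_ne [Finite G] {r : ℕ} [hr : Fact r.Prime] {R N : Subgroup G} (hR : IsPGroup r R)
    (hN : IsMinNormal N) (hNR : N ≤ normalizer (R : Set G)) {x : G} (hxR : x ∈ R) (hxN : x ∈ N)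
    (hx1 : x ≠ 1) : IsPGroup r N := by
  haveI := hN.1
  have hTn : ((R ⊓ N).subgroupOf N).Normal := by
    refine ⟨fun a ha n => ?_⟩
    rw [mem_subgroupOf] at ha ⊢
    refine ⟨?_, ?_⟩
    · exact (mem_normalizer_iff.mp (hNR n.2) _).mp ha.1
    · simpa using N.mul_mem (N.mul_mem n.2 ha.2) (N.inv_mem n.2)
  have hTp : IsPGroup r ((R ⊓ N).subgroupOf N) := by
    intro a
    have ha : ((a : N) : G) ∈ R := by
      have := a.2
      rw [mem_subgroupOf] at this
      exact this.1
    obtain ⟨k, hk⟩ := hR ⟨_, ha⟩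
    refine ⟨k, ?_⟩
    apply Subtype.ext
    apply Subtype.ext
    have := congrArg Subtype.val hk
    simpa using this
  have hle := Cfsg.Agent.Lib.Basic.le_pCore hTn hTp
  have hYn := normal_map_pCore N r
  have hY0 : (pCore r N).map N.subtype ≠ ⊥ := by
    intro h0
    apply hx1
    have h1 : (⟨x, hxN⟩ : N) ∈ (R ⊓ N).subgroupOf N := by
      rw [mem_subgroupOf]
      exact ⟨hxR, hxN⟩
    have h2 := hle h1
    have h3 : x ∈ (pCore r N).map N.subtype := ⟨_, h2, rfl⟩
    rw [h0, mem_bot] at h3
    exact h3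
  have hYN : (pCore r N).map N.subtype ≤ N := by
    rintro _ ⟨u, -, rfl⟩
    exact u.2
  have hY := (hN.2.2 _ hYn hYN).resolve_left hY0
  intro n
  have h1 : (n : G) ∈ (pCore r N).map N.subtype := by
    rw [hY]
    exact n.2
  obtain ⟨u, hu, huv⟩ := h1
  obtain ⟨k, hk⟩ := Cfsg.Agent.Lib.Basic.pCore_isPGroup (G := N) r ⟨u, hu⟩
  refine ⟨k, ?_⟩
  have h2 : u = n := Subtype.ext huv
  subst h2
  have := congrArg Subtype.val hk
  simpa using this

theorem comm_of_inf_bot {R N : Subgroup G} [hN : N.Normal] (hNR : N ≤ normalizer (R : Set G))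
    (h : R ⊓ N = ⊥) : ∀ x ∈ N, ∀ y ∈ R, x * y = y * x := by
  intro x hx y hy
  have h1 : x * y * x⁻¹ * y⁻¹ ∈ R ⊓ N := by
    refine ⟨R.mul_mem ((mem_normalizer_iff.mp (hNR hx) _).mp hy) (R.inv_mem hy), ?_⟩
    have h2 : y * x⁻¹ * y⁻¹ ∈ N := hN.conj_mem _ (N.inv_mem hx) y
    have h3 := N.mul_mem hx h2
    simpa [mul_assoc] using h3
  rw [h, mem_bot] at h1
  have h2 : x * y * x⁻¹ = y := by
    have := mul_inv_eq_one.mp h1
    exact this
  exact mul_inv_eq_iff_eq_mul.mp h2

/-- A nontrivial normal subgroup contained in a `p`-subgroup meets its center. -/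
theorem exists_central_of_le {r : ℕ} [hr : Fact r.Prime] [Finite G] {R N : Subgroup G} (hR : IsPGroup r R)
    [hN : N.Normal] (hN0 : N ≠ ⊥) (hNR : N ≤ R) : ∃ n ∈ N, n ≠ 1 ∧ ∀ y ∈ R, n * y = y * n := by
  haveI : Group.IsNilpotent R := hR.isNilpotent
  have h0 : N.subgroupOf R ≠ ⊥ := by
    intro h
    apply hN0
    rw [eq_bot_iff]
    intro x hx
    have h1 : (⟨x, hNR hx⟩ : R) ∈ N.subgroupOf R := hx
    rw [h, mem_bot] at h1
    exact congrArg Subtype.val h1
  have h1 := Cfsg.Agent.Lib.Basic.normal_inf_center_ne_bot (N.subgroupOf R) h0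
  obtain ⟨z, hz, hz1⟩ := (Subgroup.bot_or_exists_ne_one _).resolve_left h1
  refine ⟨z, hz.1, ?_, fun y hy => ?_⟩
  · intro h2
    exact hz1 (Subtype.ext h2)
  · have h2 := mem_center_iff.mp hz.2 ⟨y, hy⟩
    have h3 := congrArg Subtype.val h2
    exact h3.symm

theorem centralizer_inf_normal (N M : Subgroup G) [hN : N.Normal] [hM : M.Normal] :
    (N ⊓ centralizer (M : Set G)).Normal := by
  haveI : (centralizer (M : Set G)).Normal := by
    refine ⟨fun x hx g => ?_⟩
    rw [mem_centralizer_iff] at hx ⊢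
    intro y hy
    have h1 := hx _ (hM.conj_mem y hy g⁻¹)
    simp only [inv_inv] at h1
    have h2 : g * x * g⁻¹ * y = g * (x * (g⁻¹ * y * g)) * g⁻¹ := by group
    have h3 : y * (g * x * g⁻¹) = g * ((g⁻¹ * y * g) * x) * g⁻¹ := by group
    rw [h2, h3, h1]
  infer_instance

theorem exists_sylow_not_normalize [Finite G] {N K : Subgroup G} [hNn : N.Normal] [hKn : K.Normal]
    (hN : IsMinNormal N) (hNK : N ≤ K) (hNc : ¬ N ≤ centralizer (K : Set G)) :
    ∃ (p : ℕ) (_ : Fact p.Prime) (P : Sylow p K),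
      ¬ N ≤ normalizer ((((P : Subgroup K).map K.subtype : Subgroup G)) : Set G) := by
  by_contra hcon
  push Not at hcon
  have hne : Nat.card N ≠ 1 := by
    intro h1
    apply hN.2.1
    exact (Subgroup.card_eq_one).mp h1
  obtain ⟨q, hq, hqd⟩ := Nat.exists_prime_and_dvd hne
  haveI : Fact q.Prime := ⟨hq⟩
  obtain ⟨x, hx⟩ := exists_prime_orderOf_dvd_card' q hqd
  have hxK : (x : G) ∈ K := hNK x.2
  have hx1 : (x : G) ≠ 1 := by
    intro h
    have : x = 1 := Subtype.ext h
    rw [this, orderOf_one] at hx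
    exact hq.one_lt.ne hx
  have hxo : orderOf (⟨x, hxK⟩ : K) = q := by
    rw [← hx]
    have h1 : orderOf (⟨x, hxK⟩ : K) = orderOf (x : G) := Subgroup.orderOf_mk _ _
    rw [h1]
    exact Subgroup.orderOf_coe x
  have hzq : IsPGroup q (Subgroup.zpowers (⟨x, hxK⟩ : K)) := by
    apply IsPGroup.of_card (n := 1)
    rw [Nat.card_zpowers, hxo, pow_one]
  obtain ⟨Q, hQ⟩ := hzq.exists_le_sylow
  have hQmem : (⟨x, hxK⟩ : K) ∈ (Q : Subgroup K) := hQ (Subgroup.mem_zpowers _)
  set RQ : Subgroup G := (Q : Subgroup K).map K.subtype with hRQ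
  have hRQp : IsPGroup q RQ := Q.isPGroup'.map _
  have hxRQ : (x : G) ∈ RQ := ⟨_, hQmem, rfl⟩
  have hNq : IsPGroup q N := isPGroup_of_inf_ne hRQp hN (hcon q inferInstance Q) hxRQ x.2 hx1
  -- other primes centralize `N`
  have hother : ∀ (p : ℕ) (_ : Fact p.Prime) (P : Sylow p K), p ≠ q →
      ∀ n ∈ N, ∀ y ∈ (P : Subgroup K), n * (y : G) = (y : G) * n := by
    intro p hp P hpq n hn y hy
    have h1 : IsPGroup p ((P : Subgroup K).map K.subtype) := P.isPGroup'.map _
    have h2 := IsPGroup.disjoint_of_ne p q hpq _ N h1 hNq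
    exact comm_of_inf_bot (hcon p hp P) (disjoint_iff.mp h2) n hn _ ⟨y, hy, rfl⟩
  -- `N` is inside the Sylow `q`-subgroup
  have hNRQ : N ≤ RQ := by
    intro n hn
    have hnK := hNK hn
    have hNsub : (N.subgroupOf K).Normal := inferInstance
    have hNsp : IsPGroup q (N.subgroupOf K) := by
      intro a
      obtain ⟨k, hk⟩ := hNq ⟨a.1.1, a.2⟩
      refine ⟨k, ?_⟩
      apply Subtype.ext
      apply Subtype.ext
      have := congrArg Subtype.val hk
      simpa using this
    have h1 := Cfsg.Agent.Lib.Basic.normal_pGroup_le_sylow hNsub hNsp Q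
    exact ⟨⟨n, hnK⟩, h1 hn, rfl⟩
  obtain ⟨n, hnN, hn1, hnc⟩ := exists_central_of_le hRQp hN.2.1 hNRQ
  have hnK : n ∈ K := hNK hnN
  -- `n` commutes with `K`
  have hC : (centralizer ({(⟨n, hnK⟩ : K)} : Set K)).index = 1 := by
    by_contra hne'
    obtain ⟨p, hp, hpd⟩ := Nat.exists_prime_and_dvd hne'
    haveI : Fact p.Prime := ⟨hp⟩
    by_cases hpq : p = q
    · subst hpq
      apply Q.not_dvd_index
      refine hpd.trans (Subgroup.index_dvd_of_le ?_)
      intro y hy
      rw [mem_centralizer_iff]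
      intro z hz
      rw [Set.mem_singleton_iff] at hz
      subst hz
      apply Subtype.ext
      exact hnc _ ⟨y, hy, rfl⟩
    · obtain ⟨P⟩ : Nonempty (Sylow p K) := inferInstance
      apply P.not_dvd_index
      refine hpd.trans (Subgroup.index_dvd_of_le ?_)
      intro y hy
      rw [mem_centralizer_iff]
      intro z hz
      rw [Set.mem_singleton_iff] at hz
      subst hz
      apply Subtype.ext
      exact hother p inferInstance P hpq n hnN y hy
  have hnZ : n ∈ N ⊓ centralizer (K : Set G) := by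
    refine Subgroup.mem_inf.mpr ⟨hnN, ?_⟩
    rw [mem_centralizer_iff]
    intro y hy
    have h1 : (⟨y, hy⟩ : K) ∈ centralizer ({(⟨n, hnK⟩ : K)} : Set K) := by
      rw [Subgroup.index_eq_one] at hC
      rw [hC]
      trivial
    rw [mem_centralizer_iff] at h1
    have h2 := h1 _ (Set.mem_singleton _)
    exact (congrArg Subtype.val h2).symm
  have hZn := centralizer_inf_normal N K
  have hZ := (hN.2.2 _ hZn inf_le_left).resolve_left (by
    intro h0
    rw [h0, mem_bot] at hnZ
    exact hn1 hnZ)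
  exact hNc (by rw [← hZ]; exact inf_le_right)

theorem exists_decomp_of_sup {K H : Subgroup G} [hK : K.Normal] (h : H ⊔ K = ⊤) :
    ∀ g : G, ∃ k ∈ K, ∃ h ∈ H, g = k * h := by
  intro g
  have h1 : g ∈ ((K ⊔ H : Subgroup G) : Set G) := by
    rw [sup_comm, h]
    trivial
  rw [Subgroup.normal_mul] at h1
  obtain ⟨k, hk, h', hh, rfl⟩ := Set.mem_mul.mp h1
  exact ⟨k, hk, h', hh, rfl⟩

end Group

section Setting

variable {G : Type u} [Group G] [Fintype G]

theorem settingA {χ : G → ℂ} (hχ : IsIrrCharacter G χ) (K : Subgroup G) [hKn : K.Normal]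
    (hKer : ∀ g, g ∈ K ↔ χ g = χ 1) (N : Subgroup G) [hNn : N.Normal] (hN : IsMinNormal N)
    (hNK : N ≤ K) (hmin : ∀ S : Subgroup G, S.Normal → S ≤ K → S ≠ ⊥ → N ≤ S)
    (hNc : ¬ N ≤ centralizer (K : Set G)) :
    ∃ ψ : IrrCharacter G, (χ 1).re < ((ψ : G → ℂ) 1).re ∧ ∀ g, (ψ : G → ℂ) g = (ψ : G → ℂ) 1 → g = 1 := by
  obtain ⟨p, hp, P, hP⟩ := exists_sylow_not_normalize hN hNK hNc
  set R : Subgroup G := (P : Subgroup K).map K.subtype with hR
  have hRK : R ≤ K := by
    rintro _ ⟨u, -, rfl⟩
    exact u.2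
  have hfrat := Sylow.normalizer_sup_eq_top P
  refine exists_faithful hχ K hKer N hNK hmin (normalizer (R : Set G)) ?_ hP ?_ ?_
  · exact exists_decomp_of_sup hfrat
  · intro L hLn hLK x hx
    rw [mem_normalizer_iff]
    intro y
    have hcomm : ∀ y ∈ K, x * y = y * x := by
      intro y hy
      exact (Subgroup.commute_of_normal_of_disjoint L K hLn hKn (disjoint_iff.mpr hLK) x y hx hy)
    constructor
    · intro hy
      have h1 : x * y * x⁻¹ = y := by
        rw [hcomm y (hRK hy), mul_inv_cancel_right]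
      rwa [h1]
    · intro hy
      have h1 : x * y * x⁻¹ ∈ K := hRK hy
      have h2 : y ∈ K := by
        have h3 := hKn.conj_mem _ h1 x⁻¹
        simpa [mul_assoc] using h3
      have h4 : x * y * x⁻¹ = y := by
        rw [hcomm y h2, mul_inv_cancel_right]
      rwa [h4] at hy
  · intro D hDn hND
    have hinf : D ⊓ K = ⊥ := by
      by_contra hne
      exact hND ((hmin _ (Subgroup.normal_inf_normal _ _) inf_le_right hne).trans inf_le_left)
    have hR0 : R ≠ ⊥ := by
      intro h0
      apply hP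
      rw [h0]
      intro n _
      rw [mem_normalizer_iff]
      intro y
      simp only [mem_bot]
      constructor
      · rintro rfl
        simp
      · intro hy
        have : n * y = n := by
          have h1 := mul_inv_eq_one.mp hy
          exact h1
        exact mul_left_cancel (this.trans (mul_one n).symm)
    obtain ⟨h, hh, hh1⟩ := (Subgroup.bot_or_exists_ne_one R).resolve_left hR0
    refine ⟨h, le_normalizer hh, ?_, ?_⟩
    · rw [(hKer h).mp (hRK hh)]
      exact IsIrrCharacter.apply_one_ne_zero hχ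
    · intro hD
      have h1 : h ∈ D ⊓ K := ⟨hD, hRK hh⟩
      rw [hinf, mem_bot] at h1
      exact hh1 h1

theorem settingB {χ : G → ℂ} (hχ : IsIrrCharacter G χ) (K M : Subgroup G) [hKn : K.Normal]
    [hMn : M.Normal] (hKer : ∀ g, g ∈ K ↔ χ g = χ 1) (hKM : K ≤ M) (hKne : K ≠ M) (r : ℕ)
    [hr : Fact r.Prime] (hrM : ∀ m ∈ M, ∃ a : ℕ, m ^ (r ^ a) ∈ K)
    (hS : ∀ S : Subgroup G, S.Normal → K ≤ S → S ≤ M → S = K ∨ S = M)
    (N : Subgroup G) [hNn : N.Normal] (hN : IsMinNormal N) (hNK : N ≤ K)
    (hmin : ∀ S : Subgroup G, S.Normal → S ≤ K → S ≠ ⊥ → N ≤ S)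
    (hNcK : N ≤ centralizer (K : Set G)) (hNcM : ¬ N ≤ centralizer (M : Set G)) :
    ∃ ψ : IrrCharacter G, (χ 1).re < ((ψ : G → ℂ) 1).re ∧ ∀ g, (ψ : G → ℂ) g = (ψ : G → ℂ) 1 → g = 1 := by
  classical
  obtain ⟨P⟩ : Nonempty (Sylow r M) := inferInstance
  set R : Subgroup G := (P : Subgroup M).map M.subtype with hR
  have hRM : R ≤ M := by
    rintro _ ⟨u, -, rfl⟩
    exact u.2
  have hRp : IsPGroup r R := P.isPGroup'.map _
  -- `M = K R`
  have hMKR : M ≤ K ⊔ R := by
    set W : Subgroup M := (K ⊔ R).subgroupOf M with hW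
    have hWt : W = ⊤ := by
      rw [← Subgroup.index_eq_one]
      by_contra hne'
      obtain ⟨p, hp, hpd⟩ := Nat.exists_prime_and_dvd hne'
      haveI : Fact p.Prime := ⟨hp⟩
      by_cases hpq : p = r
      · subst hpq
        apply P.not_dvd_index
        refine hpd.trans (Subgroup.index_dvd_of_le ?_)
        intro y hy
        rw [hW, mem_subgroupOf]
        exact Subgroup.mem_sup_right ⟨y, hy, rfl⟩
      · obtain ⟨Q⟩ : Nonempty (Sylow p M) := inferInstance
        apply Q.not_dvd_index
        refine hpd.trans (Subgroup.index_dvd_of_le ?_)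
        intro y hy
        rw [hW, mem_subgroupOf]
        apply Subgroup.mem_sup_left
        obtain ⟨k, hk⟩ := Q.isPGroup' ⟨y, hy⟩
        obtain ⟨a, ha⟩ := hrM y y.2
        have hy1 : (y : G) ^ (p ^ k) = 1 := by
          have := congrArg (fun z : (Q : Subgroup M) => ((z : M) : G)) hk
          simpa using this
        have hcop : Nat.Coprime (r ^ a) (p ^ k) :=
          Nat.Coprime.pow _ _ ((Nat.coprime_primes (Fact.out) hp).mpr (Ne.symm hpq))
        have h2 : (y : G) ∈ Subgroup.zpowers ((y : G) ^ (r ^ a)) := by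
          have h3 : ((y : G) ^ (r ^ a)) ^ (Nat.gcdA (r ^ a) (p ^ k)) = y := by
            have h4 := Nat.gcd_eq_gcd_ab (r ^ a) (p ^ k)
            rw [hcop.gcd_eq_one] at h4
            have h5 : ((y : G) ^ (r ^ a)) ^ (Nat.gcdA (r ^ a) (p ^ k)) =
                (y : G) ^ (((r ^ a : ℕ) : ℤ) * Nat.gcdA (r ^ a) (p ^ k)) := by
              rw [zpow_mul, zpow_natCast]
            rw [h5]
            have h6 : (((r ^ a : ℕ) : ℤ) * Nat.gcdA (r ^ a) (p ^ k)) =
                1 - ((p ^ k : ℕ) : ℤ) * Nat.gcdB (r ^ a) (p ^ k) := by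
              push_cast at h4 ⊢
              linarith
            rw [h6, zpow_sub, zpow_one, zpow_mul, zpow_natCast, hy1, one_zpow, inv_one, mul_one]
          exact ⟨_, h3⟩
        exact (Subgroup.zpowers_le.mpr ha) h2
    intro m hm
    have h1 : (⟨m, hm⟩ : M) ∈ W := by
      rw [hWt]
      trivial
    exact h1
  have hMeq : K ⊔ R = M := le_antisymm (sup_le hKM hRM) hMKR
  have hfrat := Sylow.normalizer_sup_eq_top P
  have hfrat' : normalizer (R : Set G) ⊔ K = ⊤ := by
    have h1 : M ≤ normalizer (R : Set G) ⊔ K := by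
      rw [← hMeq]
      exact sup_le le_sup_right (le_sup_of_le_left le_normalizer)
    rw [eq_top_iff, ← hfrat]
    exact sup_le le_sup_left h1
  -- decomposition of elements of `M`
  have hdec : ∀ m ∈ M, ∃ k ∈ K, ∃ x ∈ R, m = k * x := by
    intro m hm
    have h1 : m ∈ ((K ⊔ R : Subgroup G) : Set G) := by
      rw [hMeq]
      exact hm
    rw [Subgroup.normal_mul] at h1
    obtain ⟨k, hk, x, hx, rfl⟩ := Set.mem_mul.mp h1
    exact ⟨k, hk, x, hx, rfl⟩
  have hcentral : ∀ T : Subgroup G, T ≤ centralizer (N : Set G) → (T ⊔ K) ≤ centralizer (N : Set G) := by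
    intro T hT
    refine sup_le hT ?_
    intro k hk
    rw [mem_centralizer_iff]
    intro n hn
    have h1 := hNcK hn
    rw [mem_centralizer_iff] at h1
    exact (h1 k hk).symm
  have hcM : ¬ M ≤ centralizer (N : Set G) := by
    intro h1
    apply hNcM
    intro n hn
    rw [mem_centralizer_iff]
    intro m hm
    have h2 := h1 hm
    rw [mem_centralizer_iff] at h2
    exact (h2 n hn).symm
  refine exists_faithful hχ K hKer N hNK hmin (normalizer (R : Set G)) (exists_decomp_of_sup hfrat') ?_ ?_ ?_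
  · -- `N` does not normalize `R`
    intro hNR
    by_cases hinf : R ⊓ N = ⊥
    · have h1 := comm_of_inf_bot hNR hinf
      apply hcM
      rw [← hMeq, sup_comm]
      apply hcentral
      intro y hy
      rw [mem_centralizer_iff]
      intro n hn
      exact h1 n hn y hy
    · obtain ⟨x, hx, hx1⟩ := (Subgroup.bot_or_exists_ne_one _).resolve_left hinf
      have hNr := isPGroup_of_inf_ne hRp hN hNR hx.1 hx.2 hx1
      have hNR' : N ≤ R := by
        intro n hn
        have hNsub : (N.subgroupOf M).Normal := inferInstance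
        have hnM : n ∈ M := hKM (hNK hn)
        have hNsp : IsPGroup r (N.subgroupOf M) := by
          intro a
          obtain ⟨k, hk⟩ := hNr ⟨a.1.1, a.2⟩
          refine ⟨k, ?_⟩
          apply Subtype.ext
          apply Subtype.ext
          have := congrArg Subtype.val hk
          simpa using this
        have h1 := Cfsg.Agent.Lib.Basic.normal_pGroup_le_sylow hNsub hNsp P
        exact ⟨⟨n, hnM⟩, h1 hn, rfl⟩
      obtain ⟨n, hnN, hn1, hnc⟩ := exists_central_of_le hRp hN.2.1 hNR'
      have hnZ : n ∈ N ⊓ centralizer (M : Set G) := by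
        refine Subgroup.mem_inf.mpr ⟨hnN, ?_⟩
        rw [mem_centralizer_iff]
        intro y hy
        obtain ⟨k, hk, x', hx', rfl⟩ := hdec y hy
        have h2 := hNcK hnN
        rw [mem_centralizer_iff] at h2
        have h3 := h2 k hk
        have h4 := hnc x' hx'
        calc k * x' * n = k * (x' * n) := by group
          _ = k * (n * x') := by rw [h4]
          _ = (k * n) * x' := by group
          _ = n * k * x' := by rw [h3]
          _ = n * (k * x') := by group
      have hZn := centralizer_inf_normal N M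
      have hZ := (hN.2.2 _ hZn inf_le_left).resolve_left (by
        intro h0
        rw [h0, mem_bot] at hnZ
        exact hn1 hnZ)
      exact hNcM (by rw [← hZ]; exact inf_le_right)
  · intro L hLn hLK
    have hT := hS ((L ⊓ M) ⊔ K) (by
      haveI : (L ⊓ M).Normal := Subgroup.normal_inf_normal _ _
      exact Subgroup.sup_normal _ _) le_sup_right (sup_le inf_le_right hKM)
    have hLN : L ⊓ N = ⊥ := by
      rw [eq_bot_iff, ← hLK]
      exact inf_le_inf_left _ hNK
    rcases hT with hT | hT
    · -- `L ⊓ M ≤ K`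
      have h1 : L ⊓ M ≤ K := by
        rw [← hT]
        exact le_sup_left
      have h2 : L ⊓ M = ⊥ := by
        rw [eq_bot_iff, ← hLK]
        exact le_inf inf_le_left h1
      intro x hx
      rw [mem_normalizer_iff]
      intro y
      have hcomm : ∀ y ∈ M, x * y = y * x := by
        intro y hy
        exact (Subgroup.commute_of_normal_of_disjoint L M hLn hMn (disjoint_iff.mpr h2) x y hx hy)
      constructor
      · intro hy
        have h3 : x * y * x⁻¹ = y := by
          rw [hcomm y (hRM hy), mul_inv_cancel_right]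
        rwa [h3]
      · intro hy
        have h3 : x * y * x⁻¹ ∈ M := hRM hy
        have h4 : y ∈ M := by
          have h5 := hMn.conj_mem _ h3 x⁻¹
          simpa [mul_assoc] using h5
        have h6 : x * y * x⁻¹ = y := by
          rw [hcomm y h4, mul_inv_cancel_right]
        rwa [h6] at hy
    · exfalso
      apply hcM
      rw [← hT]
      apply hcentral
      intro x hx
      rw [mem_centralizer_iff]
      intro n hn
      exact (Subgroup.commute_of_normal_of_disjoint N L hNn hLn (by
        rw [disjoint_iff, inf_comm]; exact hLN) n x hn hx.1)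
  · intro D hDn hND
    by_contra hcon
    push Not at hcon
    have hT := hS ((D ⊓ M) ⊔ K) (by
      haveI : (D ⊓ M).Normal := Subgroup.normal_inf_normal _ _
      exact Subgroup.sup_normal _ _) le_sup_right (sup_le inf_le_right hKM)
    have hDNb : D ⊓ N = ⊥ := by
      have h1 : N ⊓ D = ⊥ ∨ N ⊓ D = N := hN.2.2 _ (Subgroup.normal_inf_normal _ _) inf_le_left
      rcases h1 with h1 | h1
      · rw [inf_comm]; exact h1
      · exfalso
        apply hND
        rw [← h1]
        exact inf_le_right
    rcases hT with hT | hT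
    · have h1 : D ⊓ M ≤ K := by
        rw [← hT]
        exact le_sup_left
      -- `χ` vanishes off `K` on `M`
      have hvan : ∀ m : M, (m : G) ∉ K → χ m = 0 := by
        intro m hm
        obtain ⟨k, hk, x, hx, hmx⟩ := hdec m m.2
        have hxK : x ∉ K := by
          intro hxK
          apply hm
          rw [hmx]
          exact K.mul_mem hk hxK
        have hχc := IsIrrCharacter.isCharacter hχ
        have h2 : χ (m : G) = χ x := by
          rw [hmx]
          apply apply_mem_charKer_mul hχc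
          rw [mem_charKer hχc]
          exact (hKer k).mp hk
        rw [h2]
        by_contra h3
        have h4 := hcon x (le_normalizer hx) h3
        exact hxK (h1 ⟨h4, hRM hx⟩)
      letI : Fintype M := Fintype.ofFinite _
      have hsum : classInner (resFun M χ) (fun _ => 1) ≠ 0 := by
        have h2 : ∑ m : M, χ m = χ 1 * ((Finset.univ.filter fun m : M => (m : G) ∈ K).card : ℂ) := by
          have h3 : ∀ m : M, χ m = if (m : G) ∈ K then χ 1 else 0 := by
            intro m
            split_ifs with hm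
            · exact (hKer _).mp hm
            · exact hvan m hm
          rw [Finset.sum_congr rfl fun m _ => h3 m, Finset.sum_ite, Finset.sum_const_zero, add_zero,
            Finset.sum_const, nsmul_eq_mul, mul_comm]
        have h3 : classInner (resFun M χ) (fun _ => 1) = (Nat.card M : ℂ)⁻¹ * ∑ m : M, χ m := by
          simp [classInner, resFun]
        rw [h3, h2]
        apply mul_ne_zero (inv_ne_zero (by exact_mod_cast (Nat.card_pos (α := M)).ne'))
        apply mul_ne_zero (IsIrrCharacter.apply_one_ne_zero hχ)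
        have h4 : (1 : M) ∈ (Finset.univ.filter fun m : M => (m : G) ∈ K) := by
          simp [K.one_mem]
        exact_mod_cast (Finset.card_pos.mpr ⟨_, h4⟩).ne'
      have h2 := le_charKer_of_classInner_one_ne_zero M hχ hsum
      apply hKne
      apply le_antisymm hKM
      intro m hm
      rw [hKer]
      exact (mem_charKer (IsIrrCharacter.isCharacter hχ)).mp (h2 hm)
    · apply hcM
      rw [← hT]
      apply hcentral
      intro x hx
      rw [mem_centralizer_iff]
      intro n hn
      exact (Subgroup.commute_of_normal_of_disjoint N D hNn hDn (by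
        rw [disjoint_iff, inf_comm]; exact hDNb) n x hn hx.1)

end Setting

end Cfsg.Agent.Lib.Char.Broline
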