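import Mathlib
import Cfsg.Agent.Lib.Char.BrolineC

set_option autoImplicit false

namespace Cfsg.Agent.Lib.Char.Broline

open Cfsg Subgroup
open Cfsg.Agent.Lib.Basic (IsMinNormal exists_isMinNormal_le)

universe u

theorem main_aux : ∀ (n : ℕ) (G : Type u) [Group G] [Finite G], Nat.card G = n →
    ∀ (χ : G → ℂ), IsIrrCharacter G χ → ∀ (K M : Subgroup G) [K.Normal] [M.Normal],
    (∀ g, g ∈ K ↔ χ g = χ 1) → K ≤ M → ¬ Group.IsNilpotent M →
    (M = K ∨ ∃ r : ℕ, r.Prime ∧ (∀ m ∈ M, ∃ a : ℕ, m ^ (r ^ a) ∈ K) ∧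
      (∀ S : Subgroup G, S.Normal → K ≤ S → S ≤ M → S = K ∨ S = M)) →
    ∃ ψ : IrrCharacter G, (χ 1).re < ((ψ : G → ℂ) 1).re ∧
      ∃ L : Subgroup G, (∀ g, g ∈ L ↔ (ψ : G → ℂ) g = (ψ : G → ℂ) 1) ∧ L < K := by
  intro n
  induction n using Nat.strong_induction_on with
  | _ n ih =>
  intro G _ _ hn χ hχ K M hKn hMn hKer hKM hMnil hcase
  classical
  letI : Fintype G := Fintype.ofFinite G
  have hχc := IsIrrCharacter.isCharacter hχ
  have hK0 : K ≠ ⊥ := by
    rintro rfl
    apply hMnil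
    rcases hcase with h | ⟨r, hr, hrM, -⟩
    · rw [h]
      infer_instance
    · haveI : Fact r.Prime := ⟨hr⟩
      have hp : IsPGroup r M := by
        intro m
        obtain ⟨a, ha⟩ := hrM m m.2
        refine ⟨a, ?_⟩
        apply Subtype.ext
        simpa using ha
      exact hp.isNilpotent
  by_cases hex : ∃ N₀ : Subgroup G, IsMinNormal N₀ ∧ N₀ ≤ K ∧
      ∃ _ : N₀.Normal, ¬ Group.IsNilpotent (M.map (QuotientGroup.mk' N₀))
  · obtain ⟨N₀, hN₀, hN₀K, hN₀n, hN₀nil⟩ := hex
    letI : Fintype N₀ := Fintype.ofFinite _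
    letI : Fintype (G ⧸ N₀) := Fintype.ofFinite _
    have hle : N₀ ≤ charKer χ := by
      intro x hx
      rw [mem_charKer hχc]
      exact (hKer x).mp (hN₀K hx)
    obtain ⟨β, hβ, hχβ⟩ := exists_deflate N₀ hχ hle
    have hcard : Nat.card (G ⧸ N₀) < n := by
      rw [← hn]
      have h1 := Subgroup.card_mul_index N₀
      rw [Subgroup.index_eq_card] at h1
      have h2 : 1 < Nat.card N₀ := by
        have h3 : Nat.card N₀ ≠ 1 := fun h => hN₀.2.1 ((Subgroup.card_eq_one).mp h)
        have h4 : 0 < Nat.card N₀ := Nat.card_pos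
        omega
      have h5 : 0 < Nat.card (G ⧸ N₀) := Nat.card_pos
      nlinarith
    have hsurj := QuotientGroup.mk'_surjective N₀
    haveI hK'n : (K.map (QuotientGroup.mk' N₀)).Normal := Subgroup.Normal.map hKn _ hsurj
    haveI hM'n : (M.map (QuotientGroup.mk' N₀)).Normal := Subgroup.Normal.map hMn _ hsurj
    have hmemK : ∀ g : G, (g : G ⧸ N₀) ∈ K.map (QuotientGroup.mk' N₀) ↔ g ∈ K := by
      intro g
      constructor
      · rintro ⟨k, hk, hkg⟩
        have h1 : k⁻¹ * g ∈ N₀ := QuotientGroup.eq.mp hkg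
        have h2 := K.mul_mem hk (hN₀K h1)
        simpa using h2
      · intro hg
        exact ⟨g, hg, rfl⟩
    have hmemM : ∀ g : G, (g : G ⧸ N₀) ∈ M.map (QuotientGroup.mk' N₀) ↔ g ∈ M := by
      intro g
      constructor
      · rintro ⟨k, hk, hkg⟩
        have h1 : k⁻¹ * g ∈ N₀ := QuotientGroup.eq.mp hkg
        have h2 := M.mul_mem hk (hKM (hN₀K h1))
        simpa using h2
      · intro hg
        exact ⟨g, hg, rfl⟩
    have hβ1 : χ 1 = β 1 := by
      rw [hχβ]
      rfl
    have hKer' : ∀ c : G ⧸ N₀, c ∈ K.map (QuotientGroup.mk' N₀) ↔ β c = β 1 := by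
      intro c
      obtain ⟨g, rfl⟩ := QuotientGroup.mk_surjective c
      rw [hmemK, hKer g, hβ1]
      have h1 : χ g = β (g : G ⧸ N₀) := by
        rw [hχβ]
      rw [h1]
    have hcase' : (M.map (QuotientGroup.mk' N₀)) = K.map (QuotientGroup.mk' N₀) ∨
        ∃ r : ℕ, r.Prime ∧ (∀ m ∈ M.map (QuotientGroup.mk' N₀), ∃ a : ℕ, m ^ (r ^ a) ∈ K.map (QuotientGroup.mk' N₀)) ∧
        (∀ S : Subgroup (G ⧸ N₀), S.Normal → K.map (QuotientGroup.mk' N₀) ≤ S →
          S ≤ M.map (QuotientGroup.mk' N₀) → S = K.map (QuotientGroup.mk' N₀) ∨ S = M.map (QuotientGroup.mk' N₀)) := by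
      rcases hcase with h | ⟨r, hr, hrM, hS⟩
      · left
        rw [h]
      · right
        refine ⟨r, hr, ?_, ?_⟩
        · rintro _ ⟨m, hm, rfl⟩
          obtain ⟨a, ha⟩ := hrM m hm
          exact ⟨a, m ^ (r ^ a), ha, by simp⟩
        · intro S hSn hKS hSM
          have h1 := hS (S.comap (QuotientGroup.mk' N₀)) (Subgroup.Normal.comap hSn _) (by
            intro k hk
            exact hKS ⟨k, hk, rfl⟩) (by
            intro s hs
            exact (hmemM s).mp (hSM hs))
          rcases h1 with h1 | h1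
          · left
            rw [← h1, Subgroup.map_comap_eq_self_of_surjective hsurj]
          · right
            rw [← h1, Subgroup.map_comap_eq_self_of_surjective hsurj]
    obtain ⟨ψ, hψ, L, hL, hLK⟩ := ih _ hcard (G ⧸ N₀) rfl β hβ _ _ hKer'
      (Subgroup.map_mono hKM) hN₀nil hcase'
    refine ⟨⟨inflate N₀ ψ.1, isIrrCharacter_inflate N₀ ψ.2⟩, ?_,
      L.comap (QuotientGroup.mk' N₀), ?_, ?_⟩
    · rw [hβ1]
      exact hψ
    · intro g
      rw [Subgroup.mem_comap]
      exact hL _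
    · refine lt_of_le_of_ne ?_ ?_
      · intro x hx
        exact (hmemK x).mp (hLK.le hx)
      · intro h0
        apply hLK.ne
        apply le_antisymm hLK.le
        rintro _ ⟨k, hk, rfl⟩
        have : k ∈ L.comap (QuotientGroup.mk' N₀) := by
          rw [h0]
          exact hk
        exact this
  · push Not at hex
    obtain ⟨N, hN, hNK⟩ := exists_isMinNormal_le hKn hK0
    haveI hNn : N.Normal := hN.1
    have hnilN := hex N hN hNK hNn
    have hmin : ∀ S : Subgroup G, S.Normal → S ≤ K → S ≠ ⊥ → N ≤ S := by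
      intro S hSn hSK hS0
      obtain ⟨N₁, hN₁, hN₁S⟩ := exists_isMinNormal_le hSn hS0
      haveI hN₁n : N₁.Normal := hN₁.1
      by_cases hN₁N : N₁ = N
      · rw [← hN₁N]
        exact hN₁S
      · exfalso
        apply hMnil
        have hnil₁ := hex N₁ hN₁ (hN₁S.trans hSK) hN₁n
        refine nilp_of_two hnil₁ hnilN ?_
        rcases hN.2.2 (N₁ ⊓ N) (Subgroup.normal_inf_normal _ _) inf_le_right with h | h
        · exact h
        · exfalso
          have h1 : N ≤ N₁ := by
            rw [← h]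
            exact inf_le_left
          rcases hN₁.2.2 N hNn h1 with h2 | h2
          · exact hN.2.1 h2
          · exact hN₁N h2.symm
    have hNcM : ¬ N ≤ centralizer (M : Set G) := fun h => hMnil (nilp_of_central hnilN h)
    have hfaith : ∃ ψ : IrrCharacter G, (χ 1).re < ((ψ : G → ℂ) 1).re ∧
        ∀ g, (ψ : G → ℂ) g = (ψ : G → ℂ) 1 → g = 1 := by
      by_cases hNcK : N ≤ centralizer (K : Set G)
      · rcases hcase with h | ⟨r, hr, hrM, hS⟩
        · exact absurd (by rw [h]; exact hNcK) hNcM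
        · haveI : Fact r.Prime := ⟨hr⟩
          have hne : K ≠ M := by
            intro h
            exact hNcM (by rw [← h]; exact hNcK)
          exact settingB hχ K M hKer hKM hne r hrM hS N hN hNK hmin hNcK hNcM
      · exact settingA hχ K hKer N hN hNK hmin hNcK
    obtain ⟨ψ, hψ, hψf⟩ := hfaith
    refine ⟨ψ, hψ, ⊥, ?_, bot_lt_iff_ne_bot.mpr hK0⟩
    intro g
    rw [mem_bot]
    constructor
    · rintro rfl
      rfl
    · exact hψf g

end Cfsg.Agent.Lib.Char.Broline
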