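import Mathlib
import Cfsg.Agent.Lib.Char.BrolineD
import Cfsg.Prelude.Def_Blocks
import Cfsg.Prelude.Def_Solvable

set_option autoImplicit false

namespace Cfsg.Agent.Lib.Char.Broline

open Cfsg Subgroup
open Cfsg.Agent.Lib.Basic (IsMinNormal exists_isMinNormal_le)

universe u

theorem exists_bigger {G : Type u} [Group G] [Finite G] (χ : Cfsg.IrrCharacter G) (K : Subgroup G)
    [hKn : K.Normal] (hK : ∀ g : G, g ∈ K ↔ (χ : G → ℂ) g = (χ : G → ℂ) 1)
    (h : ¬ K ≤ Cfsg.fittingSubgroup G ∨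
      (K = Cfsg.fittingSubgroup G ∧ Group.IsSolvable (G ⧸ K) ∧ K ≠ ⊤)) :
    ∃ ψ : Cfsg.IrrCharacter G, Cfsg.charDegree (χ : G → ℂ) < Cfsg.charDegree (ψ : G → ℂ) ∧
      ∃ L : Subgroup G, (∀ g : G, g ∈ L ↔ (ψ : G → ℂ) g = (ψ : G → ℂ) 1) ∧ L < K := by
  have hconv : ∀ ψ : Cfsg.IrrCharacter G, ((χ : G → ℂ) 1).re < ((ψ : G → ℂ) 1).re →
      Cfsg.charDegree (χ : G → ℂ) < Cfsg.charDegree (ψ : G → ℂ) := by
    intro ψ hψ
    rw [apply_one_eq_charDegree (IsIrrCharacter.isCharacter χ.2),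
      apply_one_eq_charDegree (IsIrrCharacter.isCharacter ψ.2)] at hψ
    simpa using hψ
  have hfinal : ∀ M : Subgroup G, M.Normal → K ≤ M → ¬ Group.IsNilpotent M →
      (M = K ∨ ∃ r : ℕ, r.Prime ∧ (∀ m ∈ M, ∃ a : ℕ, m ^ (r ^ a) ∈ K) ∧
        (∀ S : Subgroup G, S.Normal → K ≤ S → S ≤ M → S = K ∨ S = M)) →
      ∃ ψ : Cfsg.IrrCharacter G, Cfsg.charDegree (χ : G → ℂ) < Cfsg.charDegree (ψ : G → ℂ) ∧
        ∃ L : Subgroup G, (∀ g : G, g ∈ L ↔ (ψ : G → ℂ) g = (ψ : G → ℂ) 1) ∧ L < K := by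
    intro M hMn hKM hM hc
    obtain ⟨ψ, hψ, L, hL, hLK⟩ := main_aux _ G rfl χ.1 χ.2 K M hK hKM hM hc
    exact ⟨ψ, hconv ψ hψ, L, hL, hLK⟩
  rcases h with h | ⟨h, hsolv, htop⟩
  · refine hfinal K hKn le_rfl ?_ (Or.inl rfl)
    intro hnil
    exact h (Cfsg.Agent.Lib.Basic.le_fittingSubgroup_of_nilpotent hKn hnil)
  · haveI := hsolv
    haveI : Nontrivial (G ⧸ K) := QuotientGroup.nontrivial_iff.mpr htop
    obtain ⟨T, hT⟩ := Cfsg.Agent.Lib.Basic.exists_isMinNormal (G := G ⧸ K)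
    obtain ⟨-, r, hr, hTp⟩ := hT.isPGroup
    haveI hTn : T.Normal := hT.1
    have hMn : (T.comap (QuotientGroup.mk' K)).Normal := Subgroup.Normal.comap hTn _
    have hKM : K ≤ T.comap (QuotientGroup.mk' K) := by
      intro k hk
      rw [Subgroup.mem_comap]
      have h1 : (k : G ⧸ K) = 1 := (QuotientGroup.eq_one_iff k).mpr hk
      show (k : G ⧸ K) ∈ T
      rw [h1]
      exact T.one_mem
    refine hfinal _ hMn hKM ?_ (Or.inr ⟨r, hr, ?_, ?_⟩)
    · intro hnil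
      apply hT.2.1
      have h1 := Cfsg.Agent.Lib.Basic.le_fittingSubgroup_of_nilpotent hMn hnil
      rw [← h] at h1
      rw [eq_bot_iff]
      intro c hc
      obtain ⟨g, rfl⟩ := QuotientGroup.mk_surjective c
      have h2 : g ∈ T.comap (QuotientGroup.mk' K) := hc
      exact (QuotientGroup.eq_one_iff g).mpr (h1 h2)
    · intro m hm
      obtain ⟨a, ha⟩ := hTp ⟨(m : G ⧸ K), hm⟩
      refine ⟨a, ?_⟩
      rw [← QuotientGroup.eq_one_iff]
      have h1 := congrArg Subtype.val ha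
      simpa using h1
    · intro S hSn hKS hSM
      have hmap : (S.map (QuotientGroup.mk' K)).Normal :=
        Subgroup.Normal.map hSn _ (QuotientGroup.mk'_surjective K)
      have hle : S.map (QuotientGroup.mk' K) ≤ T := by
        rintro _ ⟨s, hs, rfl⟩
        exact hSM hs
      rcases hT.2.2 _ hmap hle with h1 | h1
      · left
        apply le_antisymm _ hKS
        intro s hs
        have h2 : (QuotientGroup.mk' K) s ∈ S.map (QuotientGroup.mk' K) := ⟨s, hs, rfl⟩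
        rw [h1, mem_bot] at h2
        exact (QuotientGroup.eq_one_iff s).mp h2
      · right
        apply le_antisymm hSM
        intro m hm
        have h2 : (QuotientGroup.mk' K) m ∈ S.map (QuotientGroup.mk' K) := by
          rw [h1]
          exact hm
        obtain ⟨s, hs, hsm⟩ := h2
        have h3 : s⁻¹ * m ∈ K := QuotientGroup.eq.mp hsm
        have h4 := S.mul_mem hs (hKS h3)
        simpa using h4

end Cfsg.Agent.Lib.Char.Broline
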