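import Mathlib
import Cfsg.Agent.Lib.Char.BrolineE

set_option autoImplicit false

namespace Cfsg.Agent.Lib.Char.Broline

open Cfsg Subgroup

universe u

/-- The set of irreducible character degrees. -/
def cdSet (G : Type u) [Group G] : Set ℕ := {d : ℕ | ∃ χ : Cfsg.IrrCharacter G, Cfsg.charDegree (χ : G → ℂ) = d}

theorem cdSet_finite (G : Type u) [Group G] [Finite G] : (cdSet G).Finite := by
  classical
  letI : Fintype G := Fintype.ofFinite G
  have : cdSet G = Set.range (fun χ : Cfsg.IrrCharacter G => Cfsg.charDegree (χ : G → ℂ)) := rfl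
  rw [this]
  exact Set.finite_range _

theorem one_mem_cdSet (G : Type u) [Group G] [Finite G] : 1 ∈ cdSet G := by
  refine ⟨⟨fun _ => 1, isIrrCharacter_one⟩, ?_⟩
  simp [Cfsg.charDegree]

theorem card_cd_quot_lt (G : Type u) [Group G] [Finite G] [Group.IsSolvable G] (hF : fittingSubgroup G ≠ ⊤)
    [(fittingSubgroup G).Normal] :
    (cdSet (G ⧸ fittingSubgroup G)).ncard + 1 ≤ (cdSet G).ncard := by
  classical
  letI : Fintype G := Fintype.ofFinite G
  set F := fittingSubgroup G with hFdef
  letI : Fintype F := Fintype.ofFinite _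
  letI : Fintype (G ⧸ F) := Fintype.ofFinite _
  have hfin := cdSet_finite G
  obtain ⟨b, hb, hmax⟩ := Set.exists_max_image (cdSet G) id hfin ⟨1, one_mem_cdSet G⟩
  simp only [id] at hmax
  have hsub : cdSet (G ⧸ F) ⊆ cdSet G \ {b} := by
    rintro d ⟨χ, rfl⟩
    have hinf := isIrrCharacter_inflate F χ.2
    have hdeg : Cfsg.charDegree (inflate F χ.1) = Cfsg.charDegree χ.1 := rfl
    refine ⟨⟨⟨_, hinf⟩, hdeg⟩, ?_⟩
    intro hdb
    rw [Set.mem_singleton_iff] at hdb
    have hc := IsIrrCharacter.isCharacter hinf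
    haveI hKn := charKer_normal hc
    have hK : ∀ g, g ∈ charKer (inflate F χ.1) ↔ inflate F χ.1 g = inflate F χ.1 1 :=
      fun g => mem_charKer hc
    have hFK : F ≤ charKer (inflate F χ.1) := le_charKer_inflate F (IsIrrCharacter.isCharacter χ.2)
    have hcase : ¬ charKer (inflate F χ.1) ≤ fittingSubgroup G ∨
        (charKer (inflate F χ.1) = fittingSubgroup G ∧
          Group.IsSolvable (G ⧸ charKer (inflate F χ.1)) ∧ charKer (inflate F χ.1) ≠ ⊤) := by
      by_cases hle : charKer (inflate F χ.1) ≤ fittingSubgroup G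
      · right
        have heq : charKer (inflate F χ.1) = fittingSubgroup G := le_antisymm hle hFK
        refine ⟨heq, inferInstance, ?_⟩
        rw [heq]
        exact hF
      · exact Or.inl hle
    obtain ⟨ψ, hψ, -⟩ := exists_bigger ⟨_, hinf⟩ _ hK hcase
    have h1 := hmax _ ⟨ψ, rfl⟩
    have h2 : Cfsg.charDegree (inflate F χ.1) = b := by
      rw [hdeg]
      exact hdb
    simp only at hψ
    omega
  have h1 := Set.ncard_le_ncard hsub (hfin.subset Set.diff_subset)
  have h2 : (cdSet G \ {b}).ncard = (cdSet G).ncard - 1 := Set.ncard_diff_singleton_of_mem hb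
  have h3 : 0 < (cdSet G).ncard := (Set.ncard_pos hfin).mpr ⟨b, hb⟩
  have h4 : (cdSet (G ⧸ F)).ncard + 1 ≤ (cdSet G).ncard := by omega
  exact h4

theorem exists_chain : ∀ (m : ℕ) (G : Type u) [Group G] [Finite G] [Group.IsSolvable G],
    (cdSet G).ncard ≤ m → ∃ C : ℕ → Subgroup G, C 0 = ⊥ ∧ C m = ⊤ ∧ Monotone C ∧
      (∀ i, (C i).Normal) ∧ ∀ i, ∃ c, (C (i + 1)).lowerCentralSeries c ≤ C i := by
  intro m
  induction m with
  | zero =>
    intro G _ _ _ h
    have h1 := (Set.ncard_pos (cdSet_finite G)).mpr ⟨1, one_mem_cdSet G⟩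
    omega
  | succ m ih =>
    intro G _ _ _ h
    haveI hFn : (fittingSubgroup G).Normal := Cfsg.Agent.Lib.Basic.fittingSubgroup_normal
    have hFnil : Group.IsNilpotent (fittingSubgroup G) := Cfsg.Agent.Lib.Basic.fittingSubgroup_isNilpotent
    obtain ⟨c₀, hc₀⟩ := (isNilpotent_iff_lowerCentralSeries _).mp hFnil
    by_cases hF : fittingSubgroup G = ⊤
    · refine ⟨fun i => if i = 0 then ⊥ else ⊤, by simp, by simp, ?_, ?_, ?_⟩
      · refine monotone_nat_of_le_succ fun i => ?_
        by_cases hi : i = 0
        · simp [hi]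
        · simp [hi]
      · intro i
        by_cases hi : i = 0
        · simp only [hi, if_true]
          infer_instance
        · simp only [hi, if_false]
          infer_instance
      · intro i
        by_cases hi : i = 0
        · subst hi
          refine ⟨c₀, ?_⟩
          simp only [zero_add, one_ne_zero, if_false, if_true]
          rw [← hF, hc₀]
        · refine ⟨0, ?_⟩
          simp [hi]
    · have hcard := card_cd_quot_lt G hF
      obtain ⟨C, h0, htop, hmono, hnorm, hnil⟩ := ih (G ⧸ fittingSubgroup G) (by omega)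
      have hsurj := QuotientGroup.mk'_surjective (fittingSubgroup G)
      refine ⟨fun i => match i with
        | 0 => ⊥
        | j + 1 => (C j).comap (QuotientGroup.mk' (fittingSubgroup G)), rfl, ?_, ?_, ?_, ?_⟩
      · simp only [htop]
        exact Subgroup.comap_top _
      · refine monotone_nat_of_le_succ fun i => ?_
        cases i with
        | zero => exact bot_le
        | succ j => exact Subgroup.comap_mono (hmono (Nat.le_succ j))
      · intro i
        cases i with
        | zero => infer_instance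
        | succ j =>
          haveI := hnorm j
          exact Subgroup.Normal.comap (hnorm j) _
      · intro i
        cases i with
        | zero =>
          refine ⟨c₀, ?_⟩
          simp only [zero_add, h0]
          have h1 : (⊥ : Subgroup (G ⧸ fittingSubgroup G)).comap (QuotientGroup.mk' (fittingSubgroup G)) =
              fittingSubgroup G := by
            rw [MonoidHom.comap_bot, QuotientGroup.ker_mk']
          rw [h1, hc₀]
        | succ j =>
          obtain ⟨c, hc⟩ := hnil j
          refine ⟨c, ?_⟩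
          intro x hx
          rw [Subgroup.mem_comap]
          apply hc
          have h2 : (QuotientGroup.mk' (fittingSubgroup G)) x ∈
              (((C (j + 1)).comap (QuotientGroup.mk' (fittingSubgroup G))).lowerCentralSeries c).map
                (QuotientGroup.mk' (fittingSubgroup G)) := ⟨x, hx, rfl⟩
          rw [map_lowerCentralSeries, Subgroup.map_comap_eq_self_of_surjective hsurj] at h2
          exact h2

theorem nilpotent_quot_of_lcs {G : Type u} [Group G] {A B : Subgroup G} [(A.subgroupOf B).Normal]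
    {c : ℕ} (h : B.lowerCentralSeries c ≤ A) : Group.IsNilpotent (↥B ⧸ A.subgroupOf B) := by
  rw [_root_.nilpotent_iff_lowerCentralSeries]
  refine ⟨c, ?_⟩
  rw [eq_bot_iff]
  have hsurj := QuotientGroup.mk'_surjective (A.subgroupOf B)
  have h1 : (⊤ : Subgroup (↥B ⧸ A.subgroupOf B)) = (⊤ : Subgroup ↥B).map (QuotientGroup.mk' (A.subgroupOf B)) := by
    rw [← MonoidHom.range_eq_map, MonoidHom.range_eq_top.mpr hsurj]
  rw [h1, ← map_lowerCentralSeries]
  rintro _ ⟨x, hx, rfl⟩
  have h2 : (x : G) ∈ B.lowerCentralSeries c := by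
    rw [← top_subtype_lowerCentralSeries]
    exact ⟨x, hx, rfl⟩
  have h3 := h h2
  exact (QuotientGroup.eq_one_iff x).mpr h3

theorem chain_final {G : Type u} [Group G] [Finite G] (hsolv : Group.IsSolvable G) (n : ℕ)
    (hcd : Nat.card {d : ℕ // ∃ χ : Cfsg.IrrCharacter G, Cfsg.charDegree (χ : G → ℂ) = d} = n) :
    ∃ N : Fin (n + 1) → Subgroup G, N 0 = ⊥ ∧ N (Fin.last n) = ⊤ ∧ Monotone N ∧ (∀ i, (N i).Normal) ∧
      ∀ i : Fin n, ∀ h : (N i.castSucc).subgroupOf (N i.succ) |>.Normal,
        Group.IsNilpotent (↥(N i.succ) ⧸ (N i.castSucc).subgroupOf (N i.succ)) := by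
  have h1 : (cdSet G).ncard ≤ n := by
    rw [← hcd]
    exact le_of_eq (Nat.card_coe_set_eq (cdSet G)).symm
  obtain ⟨C, h0, htop, hmono, hnorm, hnil⟩ := exists_chain n G h1
  refine ⟨fun i => C i, h0, htop, fun i j hij => hmono hij, fun i => hnorm i, ?_⟩
  intro i hnormal
  obtain ⟨c, hc⟩ := hnil i
  exact nilpotent_quot_of_lcs hc

end Cfsg.Agent.Lib.Char.Broline
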