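import Cfsg.Agent.Lib.Char.Triple
import Cfsg.Agent.Lib.H8Group.Det
import Cfsg.Agent.Lib.Char.Galois
import Cfsg.Agent.Lib.Char.Gallagher

/-!
# Canonical extensions in the coprime `p`-group case

An invariant irreducible character `θ` of a normal `p'`-subgroup `N` with `G/N` a `p`-group extends
to `G`; the extension can be chosen with trivial determinant on `p`-elements, and then its values
on `p`-elements are rational in the sense that `χ (t ^ k) = χ t` for `k` prime to `p`.
-/

set_option autoImplicit false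
set_option linter.unusedSectionVars false

namespace Cfsg.Agent.Lib.Char

open Cfsg Module Cfsg.Agent.Lib.H8Group
open scoped ComplexConjugate

universe u

namespace Triple

section Coprime

variable {G : Type u} [Group G] [Fintype G] (N : Subgroup G) [hN : N.Normal] [Fintype N] {d : ℕ}
  (ρ : Representation ℂ N (Fin d → ℂ)) [hirr : ρ.IsIrreducible]
  (hinv : ∀ (g : G) (n : N), ρ.character (cn N g n) = ρ.character n)

include hinv in
/-- An invariant irreducible character extends, when the index is coprime to `θ(1) |N|`. -/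
theorem exists_irr_of_coprime (hcop : Nat.Coprime N.index (d * Nat.card N)) :
    ∃ χ : G → ℂ, IsIrrCharacter G χ ∧ ∀ n : N, χ n = ρ.character n := by
  classical
  haveI := finite_Gam N ρ hinv
  letI : Fintype (Gam N ρ) := Fintype.ofFinite _
  have hsurj : Function.Surjective (piG N ρ) := exists_lift N ρ hinv
  have hord : ∀ x : Bsub N ρ, (iota N ρ x) ^ (d * Nat.card N) = 1 := by
    intro x
    have h1 := scal_spec N ρ x
    have h2 := ((x : Gam N ρ)).2.2
    rw [h1, Units.val_mul, map_mul, det_scalU, rhoU_val, mul_pow, det_rho_pow, mul_one, ← pow_mul] at h2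
    have h3 : (scal N ρ x) ^ (d * Nat.card N) = 1 := by
      apply Units.ext
      simpa using h2
    simp only [iota_apply, inv_pow, h3, inv_one]
  have hidx : (Bsub N ρ).index = N.index := Subgroup.index_comap_of_surjective _ hsurj
  have hB : (Bsub N ρ).FiniteIndex := inferInstance
  have htr := transfer_lin (Bsub N ρ) (iota N ρ) (iota_conj N ρ) (le_refl _) (iota N ρ) (fun x => rfl)
  have hbez := Nat.gcd_eq_gcd_ab N.index (d * Nat.card N)
  rw [hcop] at hbez
  set a := Nat.gcdA N.index (d * Nat.card N) with ha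
  set b := Nat.gcdB N.index (d * Nat.card N) with hb
  let μ : Gam N ρ →* ℂˣ := (zpowGroupHom a).comp (MonoidHom.transfer (iota N ρ))
  refine exists_irr_of_lin N ρ hinv μ fun x => ?_
  show ((MonoidHom.transfer (iota N ρ)) (x : Gam N ρ)) ^ a = (scal N ρ x)⁻¹
  rw [htr x, hidx]
  have h3 : (iota N ρ x) ^ ((N.index : ℤ) * a) = iota N ρ x := by
    have h5 : ((N.index : ℤ) * a + ((d * Nat.card N : ℕ) : ℤ) * b) = 1 := by exact_mod_cast hbez.symm
    have h4 : (iota N ρ x) ^ ((1 : ℤ)) = (iota N ρ x) ^ ((N.index : ℤ) * a + ((d * Nat.card N : ℕ) : ℤ) * b) := by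
      rw [h5]
    rw [zpow_one, zpow_add, zpow_mul _ ((d * Nat.card N : ℕ) : ℤ), zpow_natCast _ (d * Nat.card N), hord x,
      one_zpow, mul_one] at h4
    exact h4.symm
  rw [← zpow_natCast, ← zpow_mul, h3]
  rfl

end Coprime

end Triple

section Canon

open Triple

/-- Determinant of a Galois conjugate. -/
theorem detChar_pow_char {U : Type u} [Group U] [Finite U] {χ χ' : U → ℂ} (hχ : IsCharacter U χ)
    (hχ' : IsCharacter U χ') {k : ℕ} (h : ∀ g, χ' g = χ (g ^ k)) (t : U) :
    detChar χ' t = (detChar χ t) ^ k := by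
  classical
  obtain ⟨n, ρ, rfl⟩ := hχ
  let A : Subgroup U := Subgroup.zpowers t
  have hc : ∀ a b : A, a * b = b * a := by
    intro a b
    obtain ⟨i, hi⟩ := Subgroup.mem_zpowers_iff.mp a.2
    obtain ⟨j, hj⟩ := Subgroup.mem_zpowers_iff.mp b.2
    apply Subtype.ext
    show (a : U) * b = b * a
    rw [← hi, ← hj]
    exact ((Commute.refl t).zpow_zpow i j).eq
  let pw : A →* A :=
    { toFun := fun a => a ^ k
      map_one' := one_pow k
      map_mul' := fun a b => (show Commute a b from hc a b).mul_pow k }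
  let σ : Representation ℂ A (Fin n → ℂ) := ρ.comp (A.subtype.comp pw)
  have h1 : (fun a : A => χ' (A.subtype a)) = σ.character := by
    funext a
    rw [h]
    rfl
  have h2 := congrFun (detChar_comp A.subtype hχ') ⟨t, Subgroup.mem_zpowers t⟩
  rw [show (fun h : A => χ' (A.subtype h)) = σ.character from h1, detChar_of_rep] at h2
  have h3 : A.subtype ⟨t, Subgroup.mem_zpowers t⟩ = t := rfl
  rw [h3] at h2
  rw [← h2, detChar_of_rep]
  show LinearMap.det (ρ (t ^ k)) = _
  rw [map_pow, map_pow]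

/-- **Canonical extension.** An invariant irreducible character of a normal `p'`-subgroup of `p`-power
index extends to an irreducible character whose values on `p`-elements are rational. -/
theorem exists_canonical_ext {U : Type u} [Group U] [Fintype U] (N : Subgroup U) [hN : N.Normal] [Fintype N]
    {p : ℕ} [hp : Fact p.Prime] {b : ℕ} (hidx : N.index = p ^ b) (hcop : Nat.Coprime (Nat.card N) p)
    {θ : N → ℂ} (hθ : IsIrrCharacter N θ)
    (hinv : ∀ (g : U) (n : N), θ ⟨g * n * g⁻¹, hN.conj_mem n n.2 g⟩ = θ n) :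
    ∃ χ : U → ℂ, IsIrrCharacter U χ ∧ (∀ n : N, χ n = θ n) ∧
      ∀ t : U, t ^ p ^ b = 1 → ∀ k : ℕ, Nat.Coprime k p → χ (t ^ k) = χ t := by
  classical
  letI : Fintype (U ⧸ N) := Fintype.ofFinite _
  have hθc := IsIrrCharacter.isCharacter hθ
  obtain ⟨d, ρ, hirr, rfl⟩ := id hθ
  haveI : ρ.IsIrreducible := hirr
  have hd1 : ρ.character 1 = d := by
    have := Representation.char_one ρ
    simpa using this
  have hdvd : d ∣ Nat.card N := by
    have h1 := charDegree_dvd_card hθ
    rwa [charDegree_eq hd1] at h1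
  have hdp : Nat.Coprime d p := Nat.Coprime.coprime_dvd_left hdvd hcop
  have hcop2 : Nat.Coprime N.index (d * Nat.card N) := by
    rw [hidx]
    exact Nat.Coprime.pow_left _ (Nat.Coprime.mul_right hdp.symm hcop.symm)
  obtain ⟨χ₀, hχ₀, hχ₀N⟩ := exists_irr_of_coprime N ρ hinv hcop2
  have hχ₀c := IsIrrCharacter.isCharacter hχ₀
  set m := Nat.card N with hm
  -- twisting to make the determinant trivial on `p`-elements
  obtain ⟨δ, hδ⟩ := exists_detHom hχ₀c
  have hcop3 : Nat.Coprime (d * m) (p ^ b) :=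
    Nat.Coprime.pow_right _ (Nat.Coprime.mul_left hdp hcop)
  have hbez := Nat.gcd_eq_gcd_ab (d * m) (p ^ b)
  rw [hcop3] at hbez
  set A := Nat.gcdA (d * m) (p ^ b) with hA
  set C := Nat.gcdB (d * m) (p ^ b) with hC
  let lam₀ : U →* ℂˣ := (zpowGroupHom ((m : ℤ) * (-A))).comp δ
  have hlam₀N : ∀ n : N, lam₀ n = 1 := by
    intro n
    show (δ n) ^ ((m : ℤ) * (-A)) = 1
    rw [zpow_mul, zpow_natCast, ← map_pow]
    have h2 : (n : U) ^ m = 1 := by
      have := pow_card_eq_one' (x := n)
      exact congrArg Subtype.val this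
    rw [h2, map_one, one_zpow]
  let χ : U → ℂ := fun g => ((lam₀ g : ℂˣ) : ℂ) * χ₀ g
  have hχc : IsCharacter U χ := isCharacter_twist lam₀ hχ₀c
  have hχN : ∀ n : N, χ n = ρ.character n := by
    intro n
    simp only [χ]
    rw [hlam₀N, hχ₀N]
    simp
  have hres : resFun N χ = ρ.character := funext hχN
  have hχirr : IsIrrCharacter U χ := isIrr_of_irr_res N hχc (by rw [hres]; exact hθ)
  have hχ1 : χ 1 = d := by
    have := hχN 1
    rw [← hd1, ← this]
    rfl
  have hχ₀1 : χ₀ 1 = d := by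
    have := hχ₀N 1
    rw [← hd1, ← this]
    rfl
  have hdet : ∀ t : U, t ^ p ^ b = 1 → detChar χ t = 1 := by
    intro t ht
    have h1 := detChar_twist lam₀ hχ₀c hχ₀1 t
    have h2 : detChar χ t = _ := h1
    rw [h2, hδ]
    have h3 : (lam₀ t) ^ d * δ t = 1 := by
      show ((δ t) ^ ((m : ℤ) * (-A))) ^ d * δ t = 1
      have h4 : (δ t) ^ ((p ^ b : ℕ) : ℤ) = 1 := by
        rw [zpow_natCast, ← map_pow, ht, map_one]
      have h5 : (1 : ℤ) = ((d * m : ℕ) : ℤ) * A + ((p ^ b : ℕ) : ℤ) * C := by exact_mod_cast hbez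
      have h6 : ((δ t) ^ ((m : ℤ) * (-A))) ^ d * δ t = (δ t) ^ (((m : ℤ) * (-A)) * d + 1) := by
        rw [zpow_add, zpow_one, zpow_mul _ _ (d : ℤ), zpow_natCast]
      rw [h6]
      have h7 : ((m : ℤ) * (-A)) * d + 1 = ((p ^ b : ℕ) : ℤ) * C := by
        rw [h5]
        push_cast
        ring
      rw [h7, zpow_mul, h4, one_zpow]
    have h8 := congrArg (fun u : ℂˣ => (u : ℂ)) h3
    simpa using h8
  refine ⟨χ, hχirr, hχN, ?_⟩
  intro t ht k hk
  -- the Galois twist
  obtain ⟨k', hk'1, hk'2⟩ := Nat.chineseRemainder (Nat.Coprime.pow_left b hcop.symm) k 1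
  have hcardU : Nat.card U = p ^ b * m := by
    rw [← hidx, mul_comm, hm]
    exact (Subgroup.card_mul_index N).symm
  have hk'U : Nat.Coprime k' (Nat.card U) := by
    rw [hcardU]
    apply Nat.Coprime.mul_right
    · have h2 : Nat.gcd k' (p ^ b) = Nat.gcd k (p ^ b) := hk'1.gcd_eq
      show Nat.gcd k' (p ^ b) = 1
      rw [h2]
      exact Nat.Coprime.pow_right _ hk
    · have h2 : Nat.gcd k' m = Nat.gcd 1 m := hk'2.gcd_eq
      show Nat.gcd k' m = 1
      rw [h2]
      exact Nat.gcd_one_left m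
  let χ' : U → ℂ := fun g => χ (g ^ k')
  have hχ'irr : IsIrrCharacter U χ' := isIrrCharacter_pow hχirr hk'U
  have hχ'N : resFun N χ' = ρ.character := by
    funext n
    show χ ((n : U) ^ k') = _
    have h2 : (n : U) ^ k' = n := by
      have h3 : (n : U) ^ m = 1 := by
        have := pow_card_eq_one' (x := n)
        exact congrArg Subtype.val this
      have h4 : orderOf (n : U) ∣ m := orderOf_dvd_of_pow_eq_one h3
      have h5 : k' ≡ 1 [MOD orderOf (n : U)] := hk'2.of_dvd h4
      calc (n : U) ^ k' = (n : U) ^ 1 := (pow_eq_pow_iff_modEq).mpr h5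
        _ = n := pow_one _
    rw [h2]
    exact hχN n
  have hover : classInner (resFun N χ') (resFun N χ) ≠ 0 := by
    rw [hχ'N, hres, classInner_irr_self hθ]
    exact one_ne_zero
  obtain ⟨β, hβ, hβχ⟩ := exists_gallagher N hχc (by rw [hres]; exact hθ) hχ'irr hover
  have hβc := IsIrrCharacter.isCharacter hβ
  have hβ1 : β 1 = 1 := by
    have h2 := congrFun hβχ 1
    have h3 : χ' 1 = χ 1 := by
      show χ (1 ^ k') = χ 1
      rw [one_pow]
    rw [h3] at h2
    have h4 : inflate N β 1 = β 1 := rfl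
    rw [h4] at h2
    have h5 : χ 1 ≠ 0 := IsIrrCharacter.apply_one_ne_zero hχirr
    have h6 : (β 1 - 1) * χ 1 = 0 := by
      rw [sub_mul, ← h2]
      ring
    rcases mul_eq_zero.mp h6 with h7 | h7
    · exact sub_eq_zero.mp h7
    · exact absurd h7 h5
  obtain ⟨lam, hlam⟩ := IsCharacter.exists_monoidHom hβc hβ1
  let lam₁ : U →* ℂˣ := lam.comp (QuotientGroup.mk' N)
  have hχ'eq : χ' = fun g => ((lam₁ g : ℂˣ) : ℂ) * χ g := by
    rw [hβχ]
    funext g
    show β (g : U ⧸ N) * χ g = _
    rw [hlam]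
    rfl
  have hdet1 := detChar_twist lam₁ hχc hχ1 t
  rw [← hχ'eq] at hdet1
  have hdet2 := detChar_pow_char hχc (IsIrrCharacter.isCharacter hχ'irr) (k := k') (fun g => rfl) t
  rw [hdet1, hdet t ht, mul_one, one_pow] at hdet2
  have hlt : lam₁ t = 1 := by
    have h1 : (lam₁ t) ^ d = 1 := by
      apply Units.ext
      simpa using hdet2
    have h2 : (lam₁ t) ^ p ^ b = 1 := by
      rw [← map_pow, ht, map_one]
    have h3 : orderOf (lam₁ t) ∣ d := orderOf_dvd_of_pow_eq_one h1
    have h4 : orderOf (lam₁ t) ∣ p ^ b := orderOf_dvd_of_pow_eq_one h2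
    exact orderOf_eq_one_iff.mp (Nat.eq_one_of_dvd_coprimes (Nat.Coprime.pow_right _ hdp) h3 h4)
  have h5 : χ' t = χ t := by
    rw [hχ'eq]
    simp [hlt]
  have h6 : t ^ k = t ^ k' := by
    have h7 : orderOf t ∣ p ^ b := orderOf_dvd_of_pow_eq_one ht
    exact (pow_eq_pow_iff_modEq).mpr (hk'1.of_dvd h7).symm
  rw [h6]
  exact h5

end Canon

end Cfsg.Agent.Lib.Char
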