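import Mathlib
import Cfsg.Agent.Lib.Char.SchurC
import Cfsg.Agent.Lib.Char.GalD

set_option autoImplicit false

/-!
The field of values of a faithful irreducible character of a nontrivial `p`-group has degree
`(p - 1) p ^ t`, and the resulting bound for one Galois orbit.
-/

namespace Cfsg.Agent.Lib.Char.Schur

open Cfsg Cfsg.Agent.Lib.Char ComplexConjugate

universe u

theorem bound_arith {p b s t n : ℕ} (hp : 2 ≤ p)
    (hb : (p - 1) * b ≤ (p ^ s - 1) + (p - 1) * (t + 1) * p ^ s)
    (hn : (p - 1) * p ^ t * p ^ s ≤ n) :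
    b ≤ ∑ i ∈ Finset.range (n + 1), ((p - 1) * p ^ t * p ^ s) / ((p - 1) * p ^ i) := by
  obtain ⟨q, rfl⟩ : ∃ q, p = q + 1 := ⟨p - 1, by omega⟩
  have hq : 0 < q := by omega
  simp only [Nat.add_sub_cancel] at *
  set p := q + 1 with hpdef
  have hG : ∀ s, q * ∑ j ∈ Finset.range s, p ^ j + 1 = p ^ s := by
    intro s
    have h1 := geom_sum_mul_add q s
    rw [← hpdef] at h1
    rw [← h1]
    ring
  have hps : 1 ≤ p ^ s := Nat.one_le_pow _ _ (by omega)
  have h1 : b ≤ ∑ j ∈ Finset.range s, p ^ j + (t + 1) * p ^ s := by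
    have h2 : p ^ s - 1 = q * ∑ j ∈ Finset.range s, p ^ j := by
      rw [← hG s]
      simp
    rw [h2] at hb
    have h3 : q * b ≤ q * (∑ j ∈ Finset.range s, p ^ j + (t + 1) * p ^ s) := by
      rw [mul_add]
      calc q * b ≤ _ := hb
        _ = _ := by ring
    exact Nat.le_of_mul_le_mul_left h3 hq
  have h2 : ∀ t, ∑ j ∈ Finset.range s, p ^ j + (t + 1) * p ^ s ≤ ∑ j ∈ Finset.range (s + t + 1), p ^ j := by
    intro t
    induction t with
    | zero =>
      rw [Finset.sum_range_succ (n := s + 0)]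
      simp
    | succ t ih =>
      rw [Finset.sum_range_succ (n := s + (t + 1))]
      have h3 : p ^ s ≤ p ^ (s + (t + 1)) := Nat.pow_le_pow_right (by omega) (by omega)
      have h4 : s + (t + 1) = s + t + 1 := by ring
      rw [h4]
      rw [h4] at h3
      nlinarith
  set e := s + t with he
  have hpe : (q * p ^ t * p ^ s) = q * p ^ e := by
    rw [he, pow_add]
    ring
  have hle : e + 1 ≤ n + 1 := by
    have h3 : e < p ^ e := Nat.lt_pow_self (by omega)
    have h4 : p ^ e ≤ q * p ^ e := Nat.le_mul_of_pos_left _ hq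
    rw [hpe] at hn
    omega
  have h3 : ∑ j ∈ Finset.range (e + 1), p ^ j ≤
      ∑ i ∈ Finset.range (n + 1), (q * p ^ t * p ^ s) / (q * p ^ i) := by
    rw [← Finset.sum_range_reflect]
    calc ∑ j ∈ Finset.range (e + 1), p ^ (e + 1 - 1 - j)
        = ∑ i ∈ Finset.range (e + 1), (q * p ^ t * p ^ s) / (q * p ^ i) := by
          refine Finset.sum_congr rfl fun i hi => ?_
          have hi' : i ≤ e := by
            have := Finset.mem_range.mp hi
            omega
          rw [hpe]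
          have h4 : q * p ^ e = (q * p ^ i) * p ^ (e - i) := by
            rw [mul_assoc, ← pow_add]
            congr 2
            omega
          rw [h4, Nat.mul_div_cancel_left _ (by positivity)]
          simp
      _ ≤ _ := Finset.sum_le_sum_of_subset_of_nonneg
          (Finset.range_subset_range.mpr hle) (fun _ _ _ => Nat.zero_le _)
  calc b ≤ _ := h1
    _ ≤ _ := h2 t
    _ ≤ _ := h3

section Form

variable {Q : Type u} [Group Q] [Fintype Q]

theorem dF_form {p b : ℕ} [hp : Fact p.Prime] (hcard : Nat.card Q = p ^ (b + 1)) {ψ : Q → ℂ}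
    (hψ : IsIrrCharacter Q ψ) (hf : charKer ψ = ⊥) : ∃ t, dF ψ = (p - 1) * p ^ t := by
  classical
  haveI : NeZero (Nat.card Q) := ⟨Nat.card_pos.ne'⟩
  have hψc := IsIrrCharacter.isCharacter hψ
  have hQ : IsPGroup p Q := IsPGroup.of_card hcard
  have hone : 1 < Nat.card Q := by
    rw [hcard]
    exact Nat.one_lt_pow (by omega) hp.out.one_lt
  haveI : Nontrivial Q := Finite.one_lt_card_iff_nontrivial.mp hone
  have hZ := hQ.center_nontrivial
  have hZp : IsPGroup p (Subgroup.center Q) := hQ.to_subgroup _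
  obtain ⟨z, hz⟩ : ∃ z : Subgroup.center Q, orderOf z = p := by
    obtain ⟨k, hk⟩ := IsPGroup.iff_card.mp hZp
    have hk0 : k ≠ 0 := by
      rintro rfl
      have := Finite.one_lt_card (α := Subgroup.center Q)
      rw [hk] at this
      simp at this
    exact exists_prime_orderOf_dvd_card' p (by rw [hk]; exact dvd_pow_self p hk0)
  obtain ⟨lam, hlam⟩ := Cfsg.Agent.Lib.Char.GalConj.exists_central_char hψ
  set ε : ℂ := (lam z : ℂ) with hε
  have hεp : ε ^ p = 1 := by
    rw [hε, ← Units.val_pow_eq_pow_val, ← map_pow, ← hz, pow_orderOf_eq_one]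
    simp
  have hε1 : ε ≠ 1 := by
    intro h
    have h2 := hlam z
    rw [← hε, h, mul_one] at h2
    have h3 : (z : Q) ∈ charKer ψ := (mem_charKer hψc).mpr h2
    rw [hf, Subgroup.mem_bot] at h3
    have h4 : z = 1 := Subtype.ext h3
    rw [h4, orderOf_one] at hz
    exact hp.out.one_lt.ne hz
  have hord : orderOf ε = p := orderOf_eq_prime hεp hε1
  have hprim : IsPrimitiveRoot ε p := by
    rw [← hord]
    exact IsPrimitiveRoot.orderOf ε
  set n := Nat.card Q with hn
  have hpn : p ∣ n := by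
    rw [hcard]
    exact dvd_pow_self p (by omega)
  have hψm : ∀ x, ψ x ∈ cycField n := mem_cyc n dvd_rfl hψc
  have hεm : ε ∈ cycField n := by
    apply mem_cycField_of_pow_eq_one
    obtain ⟨d, hd⟩ := hpn
    rw [hd, pow_mul, hεp, one_pow]
  let f₁ : Unit → ℂ := fun _ => ε
  have hf₁m : ∀ x, f₁ x ∈ cycField n := fun _ => hεm
  have hd1 : dF f₁ = p - 1 := by
    unfold dF
    have h2 : Set.range f₁ = {ε} := Set.range_const
    rw [h2]
    have hint : IsIntegral ℚ ε := (hprim.isIntegral hp.out.pos).tower_top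
    rw [IntermediateField.adjoin.finrank hint, ← Polynomial.cyclotomic_eq_minpoly_rat hprim hp.out.pos,
      Polynomial.natDegree_cyclotomic, Nat.totient_prime hp.out]
  have hle : stabGal n ψ hψm ≤ stabGal n f₁ hf₁m := by
    intro τ hτ x
    have h2 : (⟨ψ z, hψm _⟩ : cycField n) = ⟨ψ 1, hψm 1⟩ * ⟨ε, hεm⟩ := Subtype.ext (hlam z)
    have h3 := hτ (z : Q)
    have h4 := hτ 1
    rw [h2, map_mul, h4] at h3
    have h5 : (⟨ψ 1, hψm 1⟩ : cycField n) ≠ 0 := by
      intro h6
      have h7 := congrArg Subtype.val h6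
      exact IsIrrCharacter.apply_one_ne_zero hψ h7
    exact mul_left_cancel₀ h5 h3
  have hdvd1 : p - 1 ∣ dF ψ := by
    rw [dF_eq_index n ψ hψm, ← hd1, dF_eq_index n f₁ hf₁m]
    exact Subgroup.index_dvd_of_le hle
  have hdvd2 : dF ψ ∣ (p - 1) * p ^ b := by
    rw [dF_eq_index n ψ hψm]
    have h2 := Subgroup.index_dvd_card (stabGal n ψ hψm)
    have h3 : Nat.card (cycField n ≃ₐ[ℚ] cycField n) = (p - 1) * p ^ b := by
      rw [IsGalois.card_aut_eq_finrank,
        IsCyclotomicExtension.finrank (n := n) (cycField n)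
          (Polynomial.cyclotomic.irreducible_rat (NeZero.pos n)), hcard,
        Nat.totient_prime_pow_succ hp.out]
      ring
    rwa [h3] at h2
  obtain ⟨e, he⟩ := hdvd1
  rw [he] at hdvd2
  have hq : 0 < p - 1 := by
    have := hp.out.two_le
    omega
  have h6 : e ∣ p ^ b := Nat.dvd_of_mul_dvd_mul_left hq hdvd2
  obtain ⟨t, -, rfl⟩ := (Nat.dvd_prime_pow hp.out).mp h6
  exact ⟨t, he⟩

end Form

section Orbit

variable {P : Type u} [Group P] [Fintype P]

theorem exists_faithful {ψ : P → ℂ} (hψ : IsIrrCharacter P ψ)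
    [hK : (charKer ψ).Normal] :
    ∃ β : P ⧸ charKer ψ → ℂ, IsIrrCharacter _ β ∧ charKer β = ⊥ ∧ charDegree β = charDegree ψ ∧
      dF β = dF ψ := by
  classical
  have hψc := IsIrrCharacter.isCharacter hψ
  letI : Fintype (charKer ψ) := Fintype.ofFinite _
  letI : Fintype (P ⧸ charKer ψ) := Fintype.ofFinite _
  obtain ⟨β, hβ, hψβ⟩ := exists_deflate (charKer ψ) hψ le_rfl
  have hβc := IsIrrCharacter.isCharacter hβ
  have hβψ : ∀ y : P, β (y : P ⧸ charKer ψ) = ψ y := by
    intro y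
    have h1 := congrFun hψβ y
    exact h1.symm
  have hβ1 : β 1 = ψ 1 := by
    have := hβψ 1
    simpa using this
  refine ⟨β, hβ, ?_, ?_, ?_⟩
  · rw [eq_bot_iff]
    intro q hq
    obtain ⟨y, rfl⟩ := QuotientGroup.mk_surjective q
    have h2 := (mem_charKer hβc).mp hq
    rw [hβψ, hβ1] at h2
    have h3 : y ∈ charKer ψ := (mem_charKer hψc).mpr h2
    rw [Subgroup.mem_bot]
    exact (QuotientGroup.eq_one_iff y).mpr h3
  · apply charDegree_eq
    rw [hβ1, apply_one_eq_charDegree hψc]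
  · unfold dF
    have h2 : Set.range β = Set.range ψ := by
      ext z
      constructor
      · rintro ⟨q, rfl⟩
        obtain ⟨y, rfl⟩ := QuotientGroup.mk_surjective q
        exact ⟨y, (hβψ y).symm⟩
      · rintro ⟨y, rfl⟩
        exact ⟨(y : P ⧸ charKer ψ), hβψ y⟩
    rw [h2]

theorem orbit_bound {p : ℕ} [hp : Fact p.Prime] {ψ : P → ℂ} (hψ : IsIrrCharacter P ψ) {b n : ℕ}
    (hb : (charKer ψ).index = p ^ b) (hn : dF ψ * charDegree ψ ≤ n) :
    b ≤ ∑ i ∈ Finset.range (n + 1), (dF ψ * charDegree ψ) / ((p - 1) * p ^ i) := by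
  classical
  rcases Nat.eq_zero_or_pos b with h0 | hbpos
  · rw [h0]
    exact Nat.zero_le _
  obtain ⟨c, rfl⟩ : ∃ c, b = c + 1 := ⟨b - 1, by omega⟩
  have hψc := IsIrrCharacter.isCharacter hψ
  haveI hK : (charKer ψ).Normal := charKer_normal hψc
  obtain ⟨β, hβ, hβker, hβdeg, hβd⟩ := exists_faithful hψ
  letI : Fintype (P ⧸ charKer ψ) := Fintype.ofFinite _
  have hcard : Nat.card (P ⧸ charKer ψ) = p ^ (c + 1) := hb
  obtain ⟨t, ht⟩ := dF_form hcard hβ hβker
  have hd := charDegree_dvd_card hβ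
  rw [hcard] at hd
  obtain ⟨s, -, hs⟩ := (Nat.dvd_prime_pow hp.out).mp hd
  rw [hβdeg] at hs
  rw [hβd] at ht
  have h1 := main_aux p (charDegree ψ) (P ⧸ charKer ψ) (c + 1) hcard β hβ hβker hβdeg t
    (by rw [hβd, ht])
  rw [ht, hs] at hn ⊢
  rw [hs] at h1
  exact bound_arith hp.out.two_le h1 hn

end Orbit

end Cfsg.Agent.Lib.Char.Schur
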