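import Mathlib
import Cfsg.Agent.Lib.Char.SchurD

set_option autoImplicit false

/-!
Schur's bound on the Sylow subgroups of a group with a faithful `p`-rational character.
-/

namespace Cfsg.Agent.Lib.Char.Schur

open Cfsg Cfsg.Agent.Lib.Char ComplexConjugate

universe u

section Act

variable {P : Type u} [Group P] [Fintype P] [NeZero (Nat.card P)]

/-- The Galois conjugate of an irreducible character. -/
noncomputable def galSmul (τ : cycField (Nat.card P) ≃ₐ[ℚ] cycField (Nat.card P))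
    (ψ : IrrCharacter P) : IrrCharacter P :=
  ⟨fun x => ((τ ⟨(ψ : P → ℂ) x,
      mem_cyc _ dvd_rfl (IsIrrCharacter.isCharacter ψ.2) x⟩ : cycField (Nat.card P)) : ℂ), by
    obtain ⟨k, hk, σ, hσ, hτ⟩ := exists_sigma_of_aut (Nat.card P) τ
    have h1 : (fun x => ((τ ⟨(ψ : P → ℂ) x,
        mem_cyc _ dvd_rfl (IsIrrCharacter.isCharacter ψ.2) x⟩ : cycField (Nat.card P)) : ℂ)) =
        fun x => (ψ : P → ℂ) (x ^ k) := by
      funext x
      exact aut_apply _ dvd_rfl (IsIrrCharacter.isCharacter ψ.2) hσ hτ x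
    rw [h1]
    exact isIrrCharacter_pow ψ.2 hk⟩

noncomputable instance galAct : MulAction (cycField (Nat.card P) ≃ₐ[ℚ] cycField (Nat.card P))
    (IrrCharacter P) where
  smul := galSmul
  one_smul := by
    intro ψ
    apply Subtype.ext
    funext x
    rfl
  mul_smul := by
    intro a b ψ
    apply Subtype.ext
    funext x
    rfl

theorem smul_apply (τ : cycField (Nat.card P) ≃ₐ[ℚ] cycField (Nat.card P)) (ψ : IrrCharacter P)
    (x : P) : ((τ • ψ : IrrCharacter P) : P → ℂ) x =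
      ((τ ⟨(ψ : P → ℂ) x, mem_cyc _ dvd_rfl (IsIrrCharacter.isCharacter ψ.2) x⟩ :
        cycField (Nat.card P)) : ℂ) := rfl

theorem exists_pow_smul (τ : cycField (Nat.card P) ≃ₐ[ℚ] cycField (Nat.card P)) (ψ : IrrCharacter P) :
    ∃ k : ℕ, k.Coprime (Nat.card P) ∧ ∀ x, ((τ • ψ : IrrCharacter P) : P → ℂ) x = (ψ : P → ℂ) (x ^ k) := by
  obtain ⟨k, hk, σ, hσ, hτ⟩ := exists_sigma_of_aut (Nat.card P) τ
  refine ⟨k, hk, fun x => ?_⟩
  rw [smul_apply]
  exact aut_apply _ dvd_rfl (IsIrrCharacter.isCharacter ψ.2) hσ hτ x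

theorem smul_eq_iff (τ : cycField (Nat.card P) ≃ₐ[ℚ] cycField (Nat.card P)) (ψ : IrrCharacter P) (x : P) :
    ((τ • ψ : IrrCharacter P) : P → ℂ) x = ((τ • ψ : IrrCharacter P) : P → ℂ) 1 ↔
      (ψ : P → ℂ) x = (ψ : P → ℂ) 1 := by
  rw [smul_apply, smul_apply]
  constructor
  · intro h
    have h1 := τ.injective (Subtype.ext h)
    exact congrArg Subtype.val h1
  · intro h
    have h1 : (⟨(ψ : P → ℂ) x, mem_cyc _ dvd_rfl (IsIrrCharacter.isCharacter ψ.2) x⟩ : cycField (Nat.card P)) =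
        ⟨(ψ : P → ℂ) 1, mem_cyc _ dvd_rfl (IsIrrCharacter.isCharacter ψ.2) 1⟩ := Subtype.ext h
    rw [h1]

theorem charDegree_smul (τ : cycField (Nat.card P) ≃ₐ[ℚ] cycField (Nat.card P)) (ψ : IrrCharacter P) :
    charDegree ((τ • ψ : IrrCharacter P) : P → ℂ) = charDegree (ψ : P → ℂ) := by
  obtain ⟨k, -, h⟩ := exists_pow_smul τ ψ
  apply charDegree_eq
  rw [h 1, one_pow]
  exact apply_one_eq_charDegree (IsIrrCharacter.isCharacter ψ.2)

theorem dF_eq_ncard (ψ : IrrCharacter P) :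
    dF (ψ : P → ℂ) = (MulAction.orbit (cycField (Nat.card P) ≃ₐ[ℚ] cycField (Nat.card P)) ψ).ncard := by
  have hm := mem_cyc (Nat.card P) dvd_rfl (IsIrrCharacter.isCharacter ψ.2)
  rw [dF_eq_index _ _ hm, ← MulAction.index_stabilizer]
  congr 1
  ext τ
  rw [MulAction.mem_stabilizer_iff, mem_stabGal]
  constructor
  · intro h
    apply Subtype.ext
    funext x
    exact congrArg Subtype.val (h x)
  · intro h x
    have h1 := congrFun (congrArg Subtype.val h) x
    exact Subtype.ext h1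

end Act

section Main

theorem sum_div_le_div_sum {ι : Type*} (s : Finset ι) (D : ι → ℕ) {c : ℕ} (hc : 0 < c) :
    ∑ x ∈ s, D x / c ≤ (∑ x ∈ s, D x) / c := by
  rw [Nat.le_div_iff_mul_le hc, Finset.sum_mul]
  exact Finset.sum_le_sum fun x _ => Nat.div_mul_le_self _ _

theorem main_pgroup {P : Type u} [Group P] [Fintype P] {p a : ℕ} [hp : Fact p.Prime]
    (hcard : Nat.card P = p ^ a) {ξ : P → ℂ} (hξ : IsCharacter P ξ)
    (hfaith : ∀ g, ξ g = ξ 1 → g = 1)
    (hpow : ∀ k : ℕ, k.Coprime (Nat.card P) → ∀ x, ξ (x ^ k) = ξ x) {n : ℕ}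
    (hn : charDegree ξ = n) :
    a ≤ ∑ i ∈ Finset.range (n + 1), n / ((p - 1) * p ^ i) := by
  classical
  haveI : NeZero (Nat.card P) := ⟨Nat.card_pos.ne'⟩
  set A := cycField (Nat.card P) ≃ₐ[ℚ] cycField (Nat.card P) with hA
  obtain ⟨m, hm, hsum⟩ := IsCharacter.exists_eq_sum hξ
  have hm_inv : ∀ (τ : A) (ψ : IrrCharacter P), m (τ • ψ) = m ψ := by
    intro τ ψ
    obtain ⟨k, hk, h⟩ := exists_pow_smul τ ψ
    have h1 : (m (τ • ψ) : ℂ) = m ψ := by
      rw [← hm, ← hm]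
      have h2 : ((τ • ψ : IrrCharacter P) : P → ℂ) = fun x => (ψ : P → ℂ) (x ^ k) := funext h
      rw [h2]
      simp only [classInner]
      congr 1
      have h4 := sum_pow_eq hk (fun x : P => ξ x * conj ((ψ : P → ℂ) x))
      rw [← h4]
      refine Finset.sum_congr rfl fun x _ => ?_
      simp only [hpow k hk x]
    exact_mod_cast h1
  -- the orbits
  let Ω := MulAction.orbitRel.Quotient A (IrrCharacter P)
  letI : Fintype Ω := Fintype.ofFinite _
  let rep : Ω → IrrCharacter P := fun ω => Quotient.out ω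
  have hfib : ∀ (ψ : IrrCharacter P) (ω : Ω), (Quotient.mk'' ψ : Ω) = ω ↔
      ψ ∈ MulAction.orbit A (rep ω) := by
    intro ψ ω
    conv_lhs => rw [← Quotient.out_eq' ω]
    rw [Quotient.eq'']
    exact MulAction.orbitRel_apply
  have horb_sum : ∀ g : IrrCharacter P → ℕ, (∀ (τ : A) ψ, g (τ • ψ) = g ψ) →
      ∑ ψ, g ψ = ∑ ω, dF (rep ω : P → ℂ) * g (rep ω) := by
    intro g hg
    rw [← Finset.sum_fiberwise Finset.univ (fun ψ => (Quotient.mk'' ψ : Ω))]
    refine Finset.sum_congr rfl fun ω _ => ?_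
    have hc : ∀ ψ ∈ Finset.univ.filter (fun ψ => (Quotient.mk'' ψ : Ω) = ω), g ψ = g (rep ω) := by
      intro ψ hψ
      obtain ⟨τ, rfl⟩ := (hfib ψ ω).mp (Finset.mem_filter.mp hψ).2
      exact hg τ _
    rw [Finset.sum_congr rfl hc, Finset.sum_const, smul_eq_mul]
    congr 1
    rw [dF_eq_ncard, ← Set.ncard_coe_finset]
    congr 1
    ext ψ
    simp only [Finset.coe_filter, Finset.mem_univ, true_and, Set.mem_setOf_eq]
    exact hfib ψ ω
  have hn1 : n = ∑ ψ : IrrCharacter P, m ψ * charDegree (ψ : P → ℂ) := by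
    have h1 := congrFun hsum 1
    rw [Finset.sum_apply, apply_one_eq_charDegree hξ, hn] at h1
    have h2 : ((∑ ψ : IrrCharacter P, m ψ * charDegree (ψ : P → ℂ) : ℕ) : ℂ) = n := by
      rw [h1]
      push_cast
      refine Finset.sum_congr rfl fun ψ _ => ?_
      simp only [Pi.smul_apply, nsmul_eq_mul]
      rw [apply_one_eq_charDegree (IsIrrCharacter.isCharacter ψ.2)]
    exact_mod_cast h2.symm
  have hn2 := horb_sum (fun ψ => m ψ * charDegree (ψ : P → ℂ)) (by
    intro τ ψ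
    simp only [hm_inv]
    congr 1
    exact charDegree_smul τ ψ)
  let R : Finset Ω := Finset.univ.filter (fun ω => m (rep ω) ≠ 0)
  let D : Ω → ℕ := fun ω => dF (rep ω : P → ℂ) * charDegree (rep ω : P → ℂ)
  have hR : ∑ ω ∈ R, D ω ≤ n := by
    rw [hn1, hn2]
    calc ∑ ω ∈ R, D ω ≤ ∑ ω ∈ R, dF (rep ω : P → ℂ) * (m (rep ω) * charDegree (rep ω : P → ℂ)) := by
          refine Finset.sum_le_sum fun ω hω => ?_
          have h1 : m (rep ω) ≠ 0 := (Finset.mem_filter.mp hω).2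
          apply Nat.mul_le_mul_left
          exact Nat.le_mul_of_pos_left _ (Nat.pos_of_ne_zero h1)
      _ ≤ _ := Finset.sum_le_sum_of_subset_of_nonneg (Finset.subset_univ _) (fun _ _ _ => Nat.zero_le _)
  have hDn : ∀ ω ∈ R, D ω ≤ n := fun ω hω =>
    (Finset.single_le_sum (f := D) (fun _ _ => Nat.zero_le _) hω).trans hR
  have hidx : ∀ ψ : IrrCharacter P, ∃ b, (charKer (ψ : P → ℂ)).index = p ^ b := by
    intro ψ
    have h1 := Subgroup.index_dvd_card (charKer (ψ : P → ℂ))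
    rw [hcard] at h1
    obtain ⟨b, -, h2⟩ := (Nat.dvd_prime_pow hp.out).mp h1
    exact ⟨b, h2⟩
  choose b hb using hidx
  -- the faithful intersection
  have hinf : (⨅ ω : R, charKer (rep ω.1 : P → ℂ)) = ⊥ := by
    rw [eq_bot_iff]
    intro x hx
    rw [Subgroup.mem_bot]
    apply hfaith
    have hall : ∀ ψ : IrrCharacter P, m ψ ≠ 0 → (ψ : P → ℂ) x = (ψ : P → ℂ) 1 := by
      intro ψ hψ
      obtain ⟨τ, hτ⟩ := (hfib ψ (Quotient.mk'' ψ)).mp rfl
      have hτ' : τ • rep (Quotient.mk'' ψ) = ψ := hτ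
      have h1 : m (rep (Quotient.mk'' ψ)) ≠ 0 := by
        rw [← hm_inv τ, hτ']
        exact hψ
      have h2 : (Quotient.mk'' ψ : Ω) ∈ R := Finset.mem_filter.mpr ⟨Finset.mem_univ _, h1⟩
      have h3 := Subgroup.mem_iInf.mp hx ⟨_, h2⟩
      have h4 := (mem_charKer (IsIrrCharacter.isCharacter (rep (Quotient.mk'' ψ)).2)).mp h3
      rw [← hτ']
      exact (smul_eq_iff τ (rep (Quotient.mk'' ψ)) x).mpr h4
    rw [hsum]
    rw [Finset.sum_apply, Finset.sum_apply]
    refine Finset.sum_congr rfl fun ψ _ => ?_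
    simp only [Pi.smul_apply, nsmul_eq_mul]
    by_cases h0 : m ψ = 0
    · simp [h0]
    · rw [hall ψ h0]
  have ha : a ≤ ∑ ω ∈ R, b (rep ω) := by
    have h1 := Subgroup.index_iInf_le (fun ω : R => charKer (rep ω.1 : P → ℂ))
    rw [hinf, Subgroup.index_bot, hcard] at h1
    simp only [hb] at h1
    rw [Finset.prod_pow_eq_pow_sum, Finset.sum_coe_sort R (fun ω => b (rep ω))] at h1
    exact (Nat.pow_le_pow_iff_right hp.out.one_lt).mp h1
  have hc : ∀ i, 0 < (p - 1) * p ^ i := by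
    intro i
    have := hp.out.two_le
    exact Nat.mul_pos (by omega) (pow_pos hp.out.pos _)
  calc a ≤ ∑ ω ∈ R, b (rep ω) := ha
    _ ≤ ∑ ω ∈ R, ∑ i ∈ Finset.range (n + 1), D ω / ((p - 1) * p ^ i) :=
        Finset.sum_le_sum fun ω hω => orbit_bound (rep ω).2 (hb _) (hDn ω hω)
    _ = ∑ i ∈ Finset.range (n + 1), ∑ ω ∈ R, D ω / ((p - 1) * p ^ i) := Finset.sum_comm
    _ ≤ ∑ i ∈ Finset.range (n + 1), n / ((p - 1) * p ^ i) :=
        Finset.sum_le_sum fun i _ =>
          (sum_div_le_div_sum R D (hc i)).trans (Nat.div_le_div_right hR)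

theorem pow_invariant {G : Type u} [Group G] [Finite G] {p a : ℕ} [hp : Fact p.Prime]
    (P : Subgroup G) (hP : Nat.card P = p ^ a) {χ : G → ℂ} (hχ : IsCharacter G χ) {r : ℕ}
    (hr0 : 0 < r) (hpr : ¬ p ∣ r)
    (hrat : ∀ g : G, χ g ∈ IntermediateField.adjoin ℚ
      ({Complex.exp (2 * Real.pi * Complex.I / r)} : Set ℂ))
    (k : ℕ) (hk : k.Coprime (Nat.card P)) (x : P) : χ ((x ^ k : P) : G) = χ x := by
  classical
  have hcop : (p ^ a).Coprime r :=
    Nat.Coprime.pow_left a ((Nat.Prime.coprime_iff_not_dvd hp.out).mpr hpr)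
  obtain ⟨k', h1, h2⟩ := Nat.chineseRemainder hcop k 1
  haveI : NeZero (p ^ a * r) := ⟨Nat.mul_ne_zero (pow_pos hp.out.pos _).ne' hr0.ne'⟩
  have hk'N : k'.Coprime (p ^ a * r) := by
    apply Nat.Coprime.mul_right
    · have h3 := h1.gcd_eq
      rw [Nat.Coprime, h3]
      rw [hP] at hk
      exact hk
    · have h3 := h2.gcd_eq
      rw [Nat.Coprime, h3]
      simp
  obtain ⟨σ, hσ⟩ := exists_sigma (p ^ a * r) k' hk'N
  have hζ := Complex.isPrimitiveRoot_exp r hr0.ne'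
  set ζ := Complex.exp (2 * Real.pi * Complex.I / r) with hζdef
  have hσζ : σ ζ = ζ := by
    rw [hσ ζ (by rw [mul_comm, pow_mul, hζ.pow_eq_one, one_pow])]
    calc ζ ^ k' = ζ ^ (k' % orderOf ζ) := (pow_mod_orderOf ζ k').symm
      _ = ζ ^ (1 % orderOf ζ) := by
          rw [← hζ.eq_orderOf]
          congr 1
      _ = ζ ^ 1 := pow_mod_orderOf ζ 1
      _ = ζ := pow_one ζ
  have hfix : ∀ z ∈ IntermediateField.adjoin ℚ ({ζ} : Set ℂ), σ z = z := by
    intro z hz
    induction hz using IntermediateField.adjoin_induction with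
    | mem y hy =>
      rw [Set.mem_singleton_iff.mp hy]
      exact hσζ
    | algebraMap q => exact map_ratCast σ q
    | add y w _ _ hy hw => rw [map_add, hy, hw]
    | inv y _ hy => rw [map_inv₀, hy]
    | mul y w _ _ hy hw => rw [map_mul, hy, hw]
  have hξ : IsCharacter P (fun x : P => χ x) := IsCharacter.comp hχ P.subtype
  have h3 := sigma_character hξ σ k' (fun ε hε => hσ ε (by
    rw [pow_mul, ← hP, hε, one_pow])) x
  rw [hfix _ (hrat x)] at h3
  have h4 : x ^ k' = x ^ k := by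
    rw [pow_eq_pow_iff_modEq]
    apply Nat.ModEq.of_dvd _ h1
    rw [← hP]
    exact orderOf_dvd_natCard x
  rw [h4] at h3
  exact h3.symm

end Main

end Cfsg.Agent.Lib.Char.Schur
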