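import Cfsg.Agent.Lib.Char.CanonExt
import Cfsg.Agent.Lib.Char.Ind
import Cfsg.Agent.Lib.Char.Clifford
import Cfsg.Agent.Lib.Char.SchurE

/-!
# Rational characters of a `p`-group acting on a `p'`-group
-/

set_option autoImplicit false
set_option linter.unusedSectionVars false

namespace Cfsg.Agent.Lib.Char

open Cfsg Module
open scoped ComplexConjugate

universe u

namespace Canon

/-- A complex number of norm at most `d` and real part `d` equals `d`. -/
theorem eq_of_re_eq {w : ℂ} {d : ℝ} (hw : ‖w‖ ≤ d) (hre : w.re = d) : w = d := by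
  have hd : 0 ≤ d := (norm_nonneg _).trans hw
  have h1 : ‖w‖ ^ 2 ≤ d ^ 2 := by
    exact pow_le_pow_left₀ (norm_nonneg _) hw 2
  rw [Complex.sq_norm, Complex.normSq_apply, hre] at h1
  have h2 : w.im = 0 := by
    have h3 : w.im * w.im ≤ 0 := by nlinarith
    nlinarith [mul_self_nonneg w.im]
  apply Complex.ext
  · simpa using hre
  · simpa using h2

/-- If a sum of characters takes at `x` the same value as at `1`, so does each character. -/
theorem sum_char_eq {S : Type u} [Group S] [Finite S] {ι : Type*} (F : Finset ι) (f : ι → S → ℂ)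
    (hf : ∀ i ∈ F, IsCharacter S (f i)) (x : S)
    (h : ∑ i ∈ F, f i x = ∑ i ∈ F, f i 1) : ∀ i ∈ F, f i x = f i 1 := by
  classical
  have hd : ∀ i ∈ F, ∃ d : ℕ, f i 1 = d := fun i hi => IsCharacter.apply_one (hf i hi)
  have hle : ∀ i ∈ F, (f i x).re ≤ (f i 1).re := by
    intro i hi
    obtain ⟨d, hd⟩ := hd i hi
    have h1 := IsCharacter.norm_le (hf i hi) x
    have h2 := Complex.re_le_norm (f i x)
    have h3 : ‖f i 1‖ = (f i 1).re := by
      rw [hd]
      simp
    linarith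
  have hsum : ∑ i ∈ F, ((f i 1).re - (f i x).re) = 0 := by
    rw [Finset.sum_sub_distrib, ← Complex.re_sum, ← Complex.re_sum, h, sub_self]
  have h0 := (Finset.sum_eq_zero_iff_of_nonneg (fun i hi => sub_nonneg.mpr (hle i hi))).mp hsum
  intro i hi
  obtain ⟨d, hd⟩ := hd i hi
  have h1 := IsCharacter.norm_le (hf i hi) x
  have h2 := h0 i hi
  have h3 : f i x = ((d : ℝ) : ℂ) := by
    apply eq_of_re_eq
    · rw [hd] at h1
      simpa using h1
    · rw [hd] at h2
      simp only [Complex.natCast_re] at h2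
      linarith
  rw [h3, hd]
  simp

section Ind

variable {S : Type u} [Group S] [Fintype S] (T : Subgroup S)

/-- Kernel of an induced character. -/
theorem ind_kernel {ξ : T → ℂ} (hξ : IsCharacter T ξ) (hξ1 : ξ 1 ≠ 0) {x : S}
    (h : indFun T ξ x = indFun T ξ 1) (g : S) :
    ∃ hg : g⁻¹ * x * g ∈ T, ξ ⟨g⁻¹ * x * g, hg⟩ = ξ 1 := by
  classical
  rw [indFun_apply, indFun_apply] at h
  have hT : (Nat.card T : ℂ)⁻¹ ≠ 0 := inv_ne_zero (by exact_mod_cast (Nat.card_pos (α := T)).ne')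
  have h1 := mul_left_cancel₀ hT h
  obtain ⟨d, hd⟩ := IsCharacter.apply_one hξ
  have h1' : ∀ y : S, extendByZero T ξ (y⁻¹ * 1 * y) = ξ 1 := by
    intro y
    have : y⁻¹ * 1 * y = ((1 : T) : S) := by simp
    rw [this]
    exact extendByZero_coe T ξ 1
  simp only [h1'] at h1
  have hnorm : ∀ y : S, ‖extendByZero T ξ (y⁻¹ * x * y)‖ ≤ (d : ℝ) := by
    intro y
    by_cases hy : y⁻¹ * x * y ∈ T
    · rw [extendByZero_of_mem T ξ hy]
      have := IsCharacter.norm_le hξ ⟨_, hy⟩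
      rw [hd] at this
      simpa using this
    · rw [extendByZero_of_notMem T ξ hy]
      simp
  have hle : ∀ y : S, (extendByZero T ξ (y⁻¹ * x * y)).re ≤ d :=
    fun y => (Complex.re_le_norm _).trans (hnorm y)
  have hsum : ∑ y : S, ((d : ℝ) - (extendByZero T ξ (y⁻¹ * x * y)).re) = 0 := by
    rw [Finset.sum_sub_distrib, ← Complex.re_sum, h1, Finset.sum_const, hd]
    simp
  have h0 := (Finset.sum_eq_zero_iff_of_nonneg (fun y _ => sub_nonneg.mpr (hle y))).mp hsum g
    (Finset.mem_univ g)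
  have h2 : extendByZero T ξ (g⁻¹ * x * g) = ((d : ℝ) : ℂ) :=
    eq_of_re_eq (hnorm g) (by linarith)
  have hd0 : (d : ℂ) ≠ 0 := by rw [← hd]; exact hξ1
  have hg : g⁻¹ * x * g ∈ T := by
    by_contra hg
    rw [extendByZero_of_notMem T ξ hg] at h2
    apply hd0
    rw [h2]
    simp
  refine ⟨hg, ?_⟩
  rw [extendByZero_of_mem T ξ hg] at h2
  rw [h2, hd]
  simp

/-- Rationality of induced characters. -/
theorem ind_pow {p : ℕ} [hp : Fact p.Prime] (hS : IsPGroup p S) {ξ : T → ℂ}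
    (hξ : ∀ (t : T) (k : ℕ), Nat.Coprime k p → ξ (t ^ k) = ξ t) (x : S) {k : ℕ} (hk : Nat.Coprime k p) :
    indFun T ξ (x ^ k) = indFun T ξ x := by
  classical
  rw [indFun_apply, indFun_apply]
  congr 1
  refine Finset.sum_congr rfl fun g _ => ?_
  set z := g⁻¹ * x * g with hz
  have h1 : g⁻¹ * x ^ k * g = z ^ k := by
    rw [hz]
    have := conj_pow (a := g⁻¹) (b := x) (i := k)
    simpa using this.symm
  rw [h1]
  by_cases hzT : z ∈ T
  · have hzk : z ^ k ∈ T := T.pow_mem hzT k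
    rw [extendByZero_of_mem T ξ hzk, extendByZero_of_mem T ξ hzT]
    exact hξ ⟨z, hzT⟩ k hk
  · have hzk : z ^ k ∉ T := by
      intro h2
      apply hzT
      obtain ⟨j, hj⟩ := IsPGroup.iff_orderOf.mp hS z
      have h3 : Nat.Coprime k (orderOf z) := by
        rw [hj]
        exact Nat.Coprime.pow_right _ hk
      obtain ⟨m, hm⟩ := exists_pow_eq_self_of_coprime h3
      rw [← hm]
      exact T.pow_mem h2 m
    rw [extendByZero_of_notMem T ξ hzk, extendByZero_of_notMem T ξ hzT]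

end Ind

section Main

variable {H : Type u} [Group H] [Finite H] (Y : Subgroup H) [hY : Y.Normal]
  {p : ℕ} [hp : Fact p.Prime]

/-- The commutator `[t, y]` of an element with an element of a normal subgroup. -/
def commY (t : H) (y : Y) : Y :=
  ⟨t * y * t⁻¹ * (y : H)⁻¹, Y.mul_mem (hY.conj_mem y y.2 t) (Y.inv_mem y.2)⟩

/-- The rational character attached to an irreducible character of `Y`. -/
theorem exists_rational_ind (hYp : Nat.Coprime (Nat.card Y) p) (S : Subgroup H) (hS : IsPGroup p S)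
    {θ : Y → ℂ} (hθ : IsIrrCharacter Y θ) :
    ∃ Γ : S → ℂ, IsCharacter S Γ ∧ Γ 1 = (((inertia Y θ).subgroupOf S).index : ℂ) * θ 1 ∧
      (∀ (x : S) (k : ℕ), Nat.Coprime k p → Γ (x ^ k) = Γ x) ∧
      (∀ x : S, Γ x = Γ 1 → ∀ (g : S) (y : Y), θ (commY Y ((g⁻¹ * x * g : S) : H) y) = θ 1) := by
  classical
  letI : Fintype H := Fintype.ofFinite H
  letI : Fintype Y := Fintype.ofFinite Y
  letI : Fintype S := Fintype.ofFinite S
  have hθc := IsIrrCharacter.isCharacter hθ
  set I := inertia Y θ with hI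
  have hYI : Y ≤ I := le_inertia Y (IsCharacter.isClassFunction hθc)
  set T : Subgroup H := I ⊓ S with hT
  set T₀ : Subgroup S := I.subgroupOf S with hT₀
  letI : Fintype T₀ := Fintype.ofFinite _
  set U : Subgroup H := Y ⊔ T with hU
  have hYU : Y ≤ U := le_sup_left
  letI : Fintype U := Fintype.ofFinite _
  set N : Subgroup U := Y.subgroupOf U with hN
  haveI hNn : N.Normal := Subgroup.normal_subgroupOf
  letI : Fintype N := Fintype.ofFinite _
  let e : N ≃* Y := Subgroup.subgroupOfEquivOfLe hYU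
  have he : ∀ n : N, ((e n : Y) : H) = ((n : U) : H) := fun n => rfl
  let θ' : N → ℂ := θ ∘ e
  have hθ' : IsIrrCharacter N θ' := isIrrCharacter_comp_mulEquiv e hθ
  have hcardN : Nat.card N = Nat.card Y := Nat.card_congr e.toEquiv
  have hTp : IsPGroup p T := hS.to_le inf_le_right
  obtain ⟨b, hb⟩ : ∃ b, N.index = p ^ b := by
    have h1 : N.index = Y.relIndex U := rfl
    have h2 : Y.relIndex U = Y.relIndex T := Subgroup.relIndex_sup_left T Y
    obtain ⟨c, hc⟩ := IsPGroup.iff_card.mp hTp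
    have h3 : Y.relIndex T ∣ p ^ c := hc ▸ Subgroup.relIndex_dvd_card Y T
    obtain ⟨j, -, hj⟩ := (Nat.dvd_prime_pow hp.out).mp h3
    exact ⟨j, by rw [h1, h2, hj]⟩
  have hUI : U ≤ I := sup_le hYI inf_le_left
  have hinv : ∀ (g : U) (n : N), θ' ⟨g * n * g⁻¹, hNn.conj_mem n n.2 g⟩ = θ' n := by
    intro g n
    have h1 : (g : H)⁻¹ ∈ I := I.inv_mem (hUI g.2)
    have h2 := congrFun (show conjFun Y (g : H)⁻¹ θ = θ from h1) (e n)
    rw [conjFun_apply] at h2
    refine Eq.trans ?_ h2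
    apply congrArg θ
    apply Subtype.ext
    show (g : H) * ((n : U) : H) * (g : H)⁻¹ = ((g : H)⁻¹)⁻¹ * ((e n : Y) : H) * (g : H)⁻¹
    rw [inv_inv, he]
  obtain ⟨χ, hχ, hχN, hχrat⟩ := exists_canonical_ext N hb (by rw [hcardN]; exact hYp) hθ' hinv
  have hχc := IsIrrCharacter.isCharacter hχ
  have hχ1 : χ 1 = θ 1 := by
    have h1 := hχN 1
    rw [show ((1 : N) : U) = 1 from rfl] at h1
    rw [h1]
    show θ (e 1) = θ 1
    rw [map_one]
  have hmemU : ∀ t : T₀, ((t : S) : H) ∈ U := fun t =>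
    (le_sup_right : T ≤ U) ⟨t.2, (t : S).2⟩
  let φ : T₀ →* U := (S.subtype.comp T₀.subtype).codRestrict U hmemU
  have hφ : ∀ t : T₀, ((φ t : U) : H) = ((t : S) : H) := fun t => rfl
  let ξ : T₀ → ℂ := χ ∘ φ
  have hξ : IsCharacter T₀ ξ := IsCharacter.comp hχc φ
  have hξ1 : ξ 1 = θ 1 := by
    show χ (φ 1) = _
    rw [map_one, hχ1]
  have hξ10 : ξ 1 ≠ 0 := by
    rw [hξ1]
    exact IsIrrCharacter.apply_one_ne_zero hθ
  have hξrat : ∀ (t : T₀) (k : ℕ), Nat.Coprime k p → ξ (t ^ k) = ξ t := by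
    intro t k hk
    show χ (φ (t ^ k)) = χ (φ t)
    rw [map_pow]
    apply hχrat _ _ k hk
    obtain ⟨j, hj⟩ := IsPGroup.iff_orderOf.mp hS (t : S)
    have h1 : orderOf (φ t) ∣ p ^ j := by
      rw [← hj]
      apply orderOf_dvd_of_pow_eq_one
      apply Subtype.ext
      show ((φ t : U) : H) ^ orderOf (t : S) = 1
      rw [hφ, ← Subgroup.coe_pow, pow_orderOf_eq_one]
      rfl
    have h2 : orderOf (φ t) ∣ Nat.card N * p ^ b := by
      rw [← hb, Subgroup.card_mul_index]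
      exact orderOf_dvd_natCard _
    have h3 : Nat.Coprime (orderOf (φ t)) (Nat.card N) := by
      rw [hcardN]
      exact Nat.Coprime.coprime_dvd_left h1 (Nat.Coprime.pow_left _ hYp.symm)
    exact orderOf_dvd_iff_pow_eq_one.mp (h3.dvd_of_dvd_mul_left h2)
  have hξker : ∀ t : T₀, ξ t = ξ 1 → ∀ y : Y, θ (commY Y ((t : S) : H) y) = θ 1 := by
    intro t ht y
    haveI hKn : (charKer χ).Normal := charKer_normal hχc
    have h1 : φ t ∈ charKer χ := by
      rw [mem_charKer hχc]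
      have : χ (φ 1) = χ 1 := by rw [map_one]
      rw [← this]
      exact ht
    let ŷ : U := ⟨y, hYU y.2⟩
    have h2 : φ t * ŷ * (φ t)⁻¹ * ŷ⁻¹ ∈ charKer χ := by
      have h3 : φ t * (ŷ * (φ t)⁻¹ * ŷ⁻¹) ∈ charKer χ :=
        Subgroup.mul_mem _ h1 (hKn.conj_mem _ (Subgroup.inv_mem _ h1) ŷ)
      have h4 : φ t * ŷ * (φ t)⁻¹ * ŷ⁻¹ = φ t * (ŷ * (φ t)⁻¹ * ŷ⁻¹) := by group
      rw [h4]
      exact h3
    have h3 := (mem_charKer hχc).mp h2
    have h4 : φ t * ŷ * (φ t)⁻¹ * ŷ⁻¹ ∈ N := by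
      show ((φ t * ŷ * (φ t)⁻¹ * ŷ⁻¹ : U) : H) ∈ Y
      exact (commY Y ((t : S) : H) y).2
    have h5 : χ (φ t * ŷ * (φ t)⁻¹ * ŷ⁻¹) = θ' ⟨_, h4⟩ := hχN ⟨_, h4⟩
    rw [← hχ1, ← h3, h5]
    apply congrArg θ
    apply Subtype.ext
    rfl
  refine ⟨indFun T₀ ξ, isCharacter_indFun T₀ hξ, ?_, ?_, ?_⟩
  · rw [indFun_one, hξ1]
  · intro x k hk
    exact ind_pow T₀ hS hξrat x hk
  · intro x hx g y
    obtain ⟨hg, hg2⟩ := ind_kernel T₀ hξ hξ10 hx g
    exact hξker ⟨_, hg⟩ hg2 y

/-- The rational character attached to an irreducible character of `H = Y S`. -/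
theorem exists_rational_of_irr (hYp : Nat.Coprime (Nat.card Y) p) (S : Subgroup H) (hS : IsPGroup p S)
    (hsup : S ⊔ Y = ⊤) {β : H → ℂ} (hβ : IsIrrCharacter H β) :
    ∃ (Γ : S → ℂ) (m b : ℕ), IsCharacter S Γ ∧ Γ 1 = m ∧ β 1 = b ∧ m ≤ b ∧
      (∀ (x : S) (k : ℕ), Nat.Coprime k p → Γ (x ^ k) = Γ x) ∧
      (∀ x : S, Γ x = Γ 1 → ∀ y : Y, β ((x : H) * y * (x : H)⁻¹ * (y : H)⁻¹) = β 1) := by
  classical
  letI : Fintype H := Fintype.ofFinite H
  letI : Fintype Y := Fintype.ofFinite Y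
  have hβc := IsIrrCharacter.isCharacter hβ
  obtain ⟨θ, hθ, hcon⟩ := exists_under hβ Y
  have hθc := IsIrrCharacter.isCharacter hθ
  obtain ⟨Γ, hΓ, hΓ1, hΓrat, hΓker⟩ := exists_rational_ind Y hYp S hS hθ
  obtain ⟨b, hb⟩ := IsCharacter.apply_one hβc
  obtain ⟨t, ht⟩ := IsCharacter.apply_one hθc
  obtain ⟨e, he⟩ := exists_multiplicity Y hβc hθ
  have hdeg := clifford_degree_nat Y hβ hθ hcon hb ht he
  have he0 : e ≠ 0 := by
    rintro rfl
    apply hcon
    rw [he]
    simp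
  have hI0 : (inertia Y θ).index ≠ 0 := Subgroup.index_ne_zero_of_finite
  have hle : ((inertia Y θ).subgroupOf S).index ≤ (inertia Y θ).index := by
    have h1 := Subgroup.relIndex_le_of_le_right (H := inertia Y θ) (le_top : S ≤ ⊤)
      (by rw [Subgroup.relIndex_top_right]; exact hI0)
    rwa [Subgroup.relIndex_top_right] at h1
  refine ⟨Γ, ((inertia Y θ).subgroupOf S).index * t, b, hΓ, ?_, hb, ?_, hΓrat, ?_⟩
  · rw [hΓ1, ht]
    push_cast
    rfl
  · rw [hdeg]
    calc ((inertia Y θ).subgroupOf S).index * t ≤ (inertia Y θ).index * t := Nat.mul_le_mul_right _ hle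
      _ = 1 * (inertia Y θ).index * t := by ring
      _ ≤ e * (inertia Y θ).index * t := by
        apply Nat.mul_le_mul_right
        apply Nat.mul_le_mul_right
        exact Nat.one_le_iff_ne_zero.mpr he0
  · intro x hx y
    have hz := commY Y (x : H) y
    set z : Y := commY Y (x : H) y with hzdef
    have hzval : (z : H) = (x : H) * y * (x : H)⁻¹ * (y : H)⁻¹ := rfl
    rw [← hzval]
    -- constituents of the restriction
    have hresc := isCharacter_resFun Y hβc
    obtain ⟨c, hc, hsum⟩ := IsCharacter.exists_eq_sum hresc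
    have hφ : ∀ φ : IrrCharacter Y, c φ ≠ 0 → (φ : Y → ℂ) z = (φ : Y → ℂ) 1 := by
      intro φ hcφ
      have h2 : classInner (resFun Y β) (φ : Y → ℂ) ≠ 0 := by
        rw [hc φ]
        exact_mod_cast hcφ
      obtain ⟨g, hg⟩ := clifford_constituent Y hβ hθ φ.2 hcon h2
      rw [hg]
      rw [conjFun_apply, conjFun_apply]
      have hg1 : g ∈ S ⊔ Y := by rw [hsup]; trivial
      obtain ⟨s, hs, y₀, hy₀, hgs⟩ := Subgroup.mem_sup_of_normal_right.mp hg1
      have h3 : (⟨g⁻¹ * ((1 : Y) : H) * g, hY.conj_mem' _ (1 : Y).2 g⟩ : Y) = 1 := by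
        apply Subtype.ext
        simp
      rw [h3]
      -- the conjugate of `z` by `s`
      let s' : S := ⟨s, hs⟩
      let y' : Y := ⟨s⁻¹ * y * s, hY.conj_mem' _ y.2 s⟩
      have h4 := hΓker x hx s' y'
      rw [← h4]
      have hclass := IsCharacter.isClassFunction hθc
      set w : Y := commY Y ((s'⁻¹ * x * s' : S) : H) y' with hw
      have h5 : (w : H) = s⁻¹ * z * s := by
        rw [hw]
        show (s⁻¹ * (x : H) * s) * (s⁻¹ * y * s) * (s⁻¹ * (x : H) * s)⁻¹ * (s⁻¹ * y * s)⁻¹ = _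
        rw [hzval]
        group
      let a : Y := (⟨y₀, hy₀⟩ : Y)⁻¹
      have h6 : (⟨g⁻¹ * z * g, hY.conj_mem' _ z.2 g⟩ : Y) = a * w * a⁻¹ := by
        apply Subtype.ext
        show g⁻¹ * z * g = y₀⁻¹ * (w : H) * y₀⁻¹⁻¹
        rw [h5, ← hgs]
        group
      rw [h6]
      exact hclass w a
    have h7 : ∀ u : Y, resFun Y β u = ∑ φ : IrrCharacter Y, c φ • (φ : Y → ℂ) u := by
      intro u
      rw [hsum, Finset.sum_apply]
      rfl
    have h8 : resFun Y β z = resFun Y β 1 := by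
      rw [h7, h7]
      refine Finset.sum_congr rfl fun φ _ => ?_
      by_cases h0 : c φ = 0
      · simp [h0]
      · rw [hφ φ h0]
    exact h8

/-- The rational character attached to a faithful character of `H = Y S`. -/
theorem exists_rational_faithful (hYp : Nat.Coprime (Nat.card Y) p) (S : Subgroup H) (hS : IsPGroup p S)
    (hsup : S ⊔ Y = ⊤) {ψ : H → ℂ} (hψ : IsCharacter H ψ) (hf : ∀ g, ψ g = ψ 1 → g = 1) {n : ℕ}
    (hn : ψ 1 = n) :
    ∃ (Γ : S → ℂ) (m : ℕ), IsCharacter S Γ ∧ Γ 1 = m ∧ m ≤ n ∧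
      (∀ (x : S) (k : ℕ), Nat.Coprime k p → Γ (x ^ k) = Γ x) ∧
      (∀ x : S, Γ x = Γ 1 → ∀ y ∈ Y, (x : H) * y = y * x) := by
  classical
  letI : Fintype H := Fintype.ofFinite H
  obtain ⟨c, hc, hsum⟩ := IsCharacter.exists_eq_sum hψ
  choose Γs m b hΓc hΓ1 hb hmb hΓrat hΓker using fun β : IrrCharacter H =>
    exists_rational_of_irr Y hYp S hS hsup β.2
  set F : Finset (IrrCharacter H) := Finset.univ.filter (fun β => c β ≠ 0) with hF
  refine ⟨∑ β ∈ F, Γs β, ∑ β ∈ F, m β, IsCharacter.sum _ fun β _ => hΓc β, ?_, ?_, ?_, ?_⟩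
  · rw [Finset.sum_apply]
    push_cast
    exact Finset.sum_congr rfl fun β _ => hΓ1 β
  · have h1 : (n : ℂ) = ((∑ β : IrrCharacter H, c β * b β : ℕ) : ℂ) := by
      rw [← hn, hsum, Finset.sum_apply]
      push_cast
      refine Finset.sum_congr rfl fun β _ => ?_
      show c β • (β : H → ℂ) 1 = _
      rw [hb β]
      simp
    have h2 : n = ∑ β : IrrCharacter H, c β * b β := by exact_mod_cast h1
    rw [h2]
    calc ∑ β ∈ F, m β ≤ ∑ β ∈ F, c β * b β := by
          refine Finset.sum_le_sum fun β hβ => ?_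
          have h3 : c β ≠ 0 := (Finset.mem_filter.mp hβ).2
          calc m β ≤ b β := hmb β
            _ = 1 * b β := (one_mul _).symm
            _ ≤ c β * b β := Nat.mul_le_mul_right _ (Nat.one_le_iff_ne_zero.mpr h3)
      _ ≤ ∑ β : IrrCharacter H, c β * b β :=
          Finset.sum_le_sum_of_subset (Finset.subset_univ _)
  · intro x k hk
    rw [Finset.sum_apply, Finset.sum_apply]
    exact Finset.sum_congr rfl fun β _ => hΓrat β x k hk
  · intro x hx y hy
    rw [Finset.sum_apply, Finset.sum_apply] at hx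
    have h1 := sum_char_eq F Γs (fun β _ => hΓc β) x hx
    have h2 : ψ ((x : H) * y * (x : H)⁻¹ * y⁻¹) = ψ 1 := by
      rw [hsum, Finset.sum_apply, Finset.sum_apply]
      refine Finset.sum_congr rfl fun β _ => ?_
      rw [Pi.smul_apply, Pi.smul_apply]
      by_cases h0 : c β = 0
      · simp [h0]
      · rw [hΓker β x (h1 β (Finset.mem_filter.mpr ⟨Finset.mem_univ _, h0⟩)) ⟨y, hy⟩]
    have h3 := hf _ h2
    have h4 : (x : H) * y * (x : H)⁻¹ = y := mul_inv_eq_one.mp h3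
    exact mul_inv_eq_iff_eq_mul.mp h4

theorem sum_bound_mono {p m n : ℕ} (hp : p.Prime) (hmn : m ≤ n) :
    ∑ i ∈ Finset.range (m + 1), m / ((p - 1) * p ^ i) ≤ ∑ i ∈ Finset.range (n + 1), n / ((p - 1) * p ^ i) := by
  calc ∑ i ∈ Finset.range (m + 1), m / ((p - 1) * p ^ i)
      ≤ ∑ i ∈ Finset.range (m + 1), n / ((p - 1) * p ^ i) :=
        Finset.sum_le_sum fun i _ => Nat.div_le_div_right hmn
    _ ≤ ∑ i ∈ Finset.range (n + 1), n / ((p - 1) * p ^ i) :=
        Finset.sum_le_sum_of_subset (Finset.range_subset_range.mpr (by omega))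

/-- The bound on the `p`-group `S` modulo a subgroup centralizing `Y`. -/
theorem exists_kernel_bound (hYp : Nat.Coprime (Nat.card Y) p) (S : Subgroup H) (hS : IsPGroup p S)
    (hsup : S ⊔ Y = ⊤) {ψ : H → ℂ} (hψ : IsCharacter H ψ) (hf : ∀ g, ψ g = ψ 1 → g = 1) {n : ℕ}
    (hn : ψ 1 = n) :
    ∃ K : Subgroup S, (∀ x ∈ K, ∀ y ∈ Y, (x : H) * y = y * x) ∧
      K.index.factorization p ≤ ∑ i ∈ Finset.range (n + 1), n / ((p - 1) * p ^ i) := by
  classical
  letI : Fintype S := Fintype.ofFinite S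
  obtain ⟨Γ, m, hΓ, hΓ1, hmn, hrat, hker⟩ := exists_rational_faithful Y hYp S hS hsup hψ hf hn
  haveI hKn : (charKer Γ).Normal := charKer_normal hΓ
  set K := charKer Γ with hK
  letI : Fintype K := Fintype.ofFinite _
  letI : Fintype (S ⧸ K) := Fintype.ofFinite _
  refine ⟨K, fun x hx y hy => hker x ((mem_charKer hΓ).mp hx) y hy, ?_⟩
  obtain ⟨Γ', hΓ', hinf⟩ := exists_deflate_character K hΓ le_rfl
  have hval : ∀ x : S, Γ x = Γ' (x : S ⧸ K) := fun x => congrFun hinf x
  have hP : IsPGroup p (S ⧸ K) := hS.to_quotient K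
  obtain ⟨a, ha⟩ := IsPGroup.iff_card.mp hP
  have hidx : K.index = p ^ a := ha
  have hfa : K.index.factorization p = a := by
    rw [hidx, Nat.Prime.factorization_pow hp.out]
    simp
  have hΓ'1 : Γ' 1 = m := by
    rw [← hΓ1, hval 1]
    rfl
  have hfaith : ∀ g, Γ' g = Γ' 1 → g = 1 := by
    intro g
    induction g using QuotientGroup.induction_on with
    | H g =>
      intro h
      apply (QuotientGroup.eq_one_iff g).mpr
      rw [hK, mem_charKer hΓ, hval g, hval 1]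
      exact h
  have hpow : ∀ k : ℕ, k.Coprime (Nat.card (S ⧸ K)) → ∀ x, Γ' (x ^ k) = Γ' x := by
    intro k hk x
    induction x using QuotientGroup.induction_on with
    | H x =>
      by_cases ha0 : a = 0
      · have h1 : Nat.card (S ⧸ K) = 1 := by rw [ha, ha0, pow_zero]
        have h2 : Subsingleton (S ⧸ K) := (Nat.card_eq_one_iff_unique.mp h1).1
        rw [Subsingleton.elim ((x : S ⧸ K) ^ k) (x : S ⧸ K)]
      · rw [ha] at hk
        have h1 : Nat.Coprime k p := by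
          have := Nat.Coprime.coprime_dvd_right (dvd_pow_self p ha0) hk
          exact this
        rw [← QuotientGroup.mk_pow, ← hval, ← hval]
        exact hrat x k h1
  have hbound := Cfsg.Agent.Lib.Char.Schur.main_pgroup ha hΓ' hfaith hpow (charDegree_eq hΓ'1)
  rw [hfa]
  exact hbound.trans (sum_bound_mono hp.out hmn)

end Main

end Canon

end Cfsg.Agent.Lib.Char
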