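import Mathlib
import Cfsg.Agent.Lib.Char.CdPD

set_option autoImplicit false

/-!
`p`-groups whose irreducible characters have degrees `1` and `p`: the main theorem.
-/

namespace Cfsg.Agent.Lib.Char.CdP

open Cfsg Cfsg.Agent.Lib.Char Cfsg.Agent.Lib.Char.E3
open scoped commutatorElement

universe u

theorem claim2 {G : Type u} [Group G] [Fintype G] {p : ℕ} [hp : Fact p.Prime] (hG : IsPGroup p G)
    (hdeg : ∀ χ : G → ℂ, IsIrrCharacter G χ → charDegree χ = 1 ∨ charDegree χ = p)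
    (hno : ∀ B : Subgroup G, B.Normal → (∀ a ∈ B, ∀ b ∈ B, a * b = b * a) → B.index ≠ p)
    (hna : ∃ a b : G, a * b ≠ b * a)
    {A : Subgroup G} [hAn : A.Normal] [Fintype A] (hAc : ∀ a ∈ A, ∀ b ∈ A, a * b = b * a)
    (hAs : ∀ g, (∀ a ∈ A, g * a = a * g) → g ∈ A) : A.index = p ^ 2 := by
  classical
  have hne : A ≠ ⊤ := by
    rintro rfl
    obtain ⟨a, b, hab⟩ := hna
    exact hab (hAc a trivial b trivial)
  have hbig := hno A hAn hAc
  obtain ⟨hZA, hrel⟩ := claim1 hAc hG hdeg hAs hne hbig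
  set Z : Subgroup G := Subgroup.center G with hZ
  have hHi : (Z.subgroupOf A).index = p := hrel
  have hAp : IsPGroup p A := hG.to_subgroup A
  have hcA := comm_A hAc
  -- an element outside the centre
  obtain ⟨x, hxA, hxZ⟩ : ∃ x ∈ A, x ∉ Z := by
    by_contra hcon
    push Not at hcon
    have h1 : Z.subgroupOf A = ⊤ := by
      rw [Subgroup.eq_top_iff']
      intro a
      exact hcon a a.2
    rw [h1, Subgroup.index_top] at hHi
    exact hp.out.one_lt.ne hHi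
  let x₀ : A := ⟨x, hxA⟩
  have hx₀ : x₀ ∉ Z.subgroupOf A := hxZ
  -- every element of `A` is a power of any `a₀ ∉ Z` modulo `Z`
  have hgen : ∀ a₀ : A, a₀ ∉ Z.subgroupOf A → ∀ a : A, ∃ k : ℕ, ((a₀ : G) ^ k * (a : G)⁻¹) ∈ Z := by
    intro a₀ h0 a
    obtain ⟨k, -, hk⟩ := exists_pow_mul_mem hAp hHi h0 a⁻¹
    refine ⟨k, ?_⟩
    have := Subgroup.mem_subgroupOf.mp hk
    simpa using this
  -- commutators with `A` are central
  have hAZ : ∀ (g : G), ∀ a ∈ A, g⁻¹ * a * g * a⁻¹ ∈ Z := by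
    let π : G →* G ⧸ Z := QuotientGroup.mk' Z
    have hπ : Function.Surjective π := QuotientGroup.mk'_surjective Z
    haveI hAb : (A.map π).Normal := hAn.map π hπ
    have hAb1 : A.map π ≠ ⊥ := by
      intro h
      have h1 : π x ∈ A.map π := Subgroup.mem_map_of_mem _ hxA
      rw [h, Subgroup.mem_bot] at h1
      exact hxZ ((QuotientGroup.eq_one_iff x).mp h1)
    haveI hnil : Group.IsNilpotent (G ⧸ Z) := (hG.to_quotient Z).isNilpotent
    have h1 := Cfsg.Agent.Lib.Basic.normal_inf_center_ne_bot (A.map π) hAb1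
    obtain ⟨t₀, ht₀⟩ := Subgroup.ne_bot_iff_exists_ne_one.mp h1
    have ht := t₀.2
    have ht1 : (t₀ : G ⧸ Z) ≠ 1 := fun h => ht₀ (Subtype.ext h)
    generalize (t₀ : G ⧸ Z) = t at ht ht1
    obtain ⟨ht2, ht3⟩ := Subgroup.mem_inf.mp ht
    obtain ⟨a₀, ha₀, rfl⟩ := ht2
    have ha₀Z : (⟨a₀, ha₀⟩ : A) ∉ Z.subgroupOf A := by
      intro h
      exact ht1 ((QuotientGroup.eq_one_iff a₀).mpr (Subgroup.mem_subgroupOf.mp h))
    have hcent : ∀ a ∈ A, π a ∈ Subgroup.center (G ⧸ Z) := by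
      intro a ha
      obtain ⟨k, hk⟩ := hgen ⟨a₀, ha₀⟩ ha₀Z ⟨a, ha⟩
      have h2 : π (a₀ ^ k * a⁻¹) = 1 := (QuotientGroup.eq_one_iff _).mpr hk
      rw [map_mul, map_pow, map_inv] at h2
      have h3 : π a = π a₀ ^ k := (mul_inv_eq_one.mp h2).symm
      rw [h3]
      exact pow_mem ht3 k
    intro g a ha
    apply (QuotientGroup.eq_one_iff _).mp
    have h2 := Subgroup.mem_center_iff.mp (hcent a ha) (π g)
    show π (g⁻¹ * a * g * a⁻¹) = 1
    rw [map_mul, map_mul, map_mul, map_inv, map_inv, mul_assoc (π g)⁻¹, ← h2]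
    group
  have hdc : ∀ (g : G) (a : A), ((delta hAc g a : A) : G) ∈ Z := fun g a => hAZ g a a.2
  -- the homomorphism
  let γ : G →* A := MonoidHom.mk' (fun g => delta hAc g x₀) (by
    intro g h
    apply Subtype.ext
    show (g * h)⁻¹ * x * (g * h) * x⁻¹ = (g⁻¹ * x * g * x⁻¹) * (h⁻¹ * x * h * x⁻¹)
    have h2 : h⁻¹ * (g⁻¹ * x * g * x⁻¹) = (g⁻¹ * x * g * x⁻¹) * h⁻¹ :=
      Subgroup.mem_center_iff.mp (hdc g x₀) h⁻¹
    calc (g * h)⁻¹ * x * (g * h) * x⁻¹ = (h⁻¹ * (g⁻¹ * x * g * x⁻¹)) * x * h * x⁻¹ := by group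
      _ = ((g⁻¹ * x * g * x⁻¹) * h⁻¹) * x * h * x⁻¹ := by rw [h2]
      _ = (g⁻¹ * x * g * x⁻¹) * (h⁻¹ * x * h * x⁻¹) := by group)
  have hγapp : ∀ g, γ g = delta hAc g x₀ := fun g => rfl
  have hγker : ∀ g, γ g = 1 ↔ g ∈ A := by
    intro g
    constructor
    · intro h
      have h1 : g * x = x * g := (delta_eq_one_iff hAc).mp h
      apply hAs
      intro a ha
      obtain ⟨k, hk⟩ := hgen x₀ hx₀ ⟨a, ha⟩
      have hk' : x ^ k * a⁻¹ ∈ Z := hk
      have h2 : a = (x ^ k * a⁻¹)⁻¹ * x ^ k := by group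
      have hz := Subgroup.mem_center_iff.mp (inv_mem hk') g
      have h3 : Commute g (x ^ k) := (show Commute g x from h1).pow_right k
      set z := (x ^ k * a⁻¹)⁻¹ with hzdef
      rw [h2]
      calc g * (z * x ^ k) = (g * z) * x ^ k := by rw [mul_assoc]
        _ = (z * g) * x ^ k := by rw [hz]
        _ = z * (g * x ^ k) := by rw [mul_assoc]
        _ = z * (x ^ k * g) := by rw [h3.eq]
        _ = z * x ^ k * g := by rw [mul_assoc]
    · intro h
      exact (delta_eq_one_iff hAc).mpr (hAc g h x hxA)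
  have hstab' : ∀ (μ : A →* ℂˣ) (g : G), g ∈ stab μ ↔ μ (γ g) = 1 := by
    intro μ g
    rw [← mem_F hAc]
    constructor
    · intro h
      exact h _ ⟨x₀, rfl⟩
    · rintro h _ ⟨a, rfl⟩
      obtain ⟨k, hk⟩ := hgen x₀ hx₀ a
      have hk' : x ^ k * (a : G)⁻¹ ∈ Z := hk
      let z : A := ⟨(x ^ k * (a : G)⁻¹)⁻¹, hZA (inv_mem hk')⟩
      have ha : a = z * x₀ ^ k := by
        apply Subtype.ext
        show (a : G) = (x ^ k * (a : G)⁻¹)⁻¹ * x ^ k
        group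
      have hz1 : delta hAc g z = 1 :=
        (delta_eq_one_iff hAc).mpr (Subgroup.mem_center_iff.mp (inv_mem hk') g)
      rw [ha, map_mul, map_mul, map_pow, map_pow, hz1, map_one, one_mul]
      have h5 : μ (delta hAc g x₀) = 1 := h
      rw [h5, one_pow]
  have hγp : ∀ g, (γ g) ^ p = 1 := by
    intro g
    rw [← map_pow]
    exact (hγker _).mpr (pow_mem_A hAc hG hdeg hAs g)
  by_contra hA2
  -- the index is at least `p ^ 3`
  have hAidx : p ^ 3 ≤ A.index := by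
    obtain ⟨n, hn⟩ := IsPGroup.iff_card.mp hG
    have h1 : A.index ∣ p ^ n := hn ▸ Subgroup.index_dvd_card A
    obtain ⟨r, -, hr⟩ := (Nat.dvd_prime_pow hp.out).mp h1
    rw [hr] at hbig hA2 ⊢
    have hr0 : r ≠ 0 := by
      rintro rfl
      apply hne
      apply Subgroup.index_eq_one.mp
      rw [hr, pow_zero]
    have hr1 : r ≠ 1 := by
      rintro rfl
      exact hbig (pow_one p)
    have hr2 : r ≠ 2 := by
      rintro rfl
      exact hA2 rfl
    exact Nat.pow_le_pow_right hp.out.pos (by omega)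
  have hγkerEq : γ.ker = A := by
    ext g
    exact hγker g
  have hcl : ∀ y w : G, (⟨⁅y, w⁆, comm_mem_A hAc hG hdeg hAs y w⟩ : A) ∈
      Subgroup.closure {γ y, γ w} := by
    intro y w
    by_contra hc
    set B₂ : Subgroup A := Subgroup.closure {γ y, γ w} with hB₂
    obtain ⟨μ₀, h01, h02⟩ := exists_hom_kill hcA B₂ hc
    obtain ⟨g₃, hg₃⟩ : ∃ g₃, γ g₃ ∉ B₂ := by
      by_contra hcon
      push Not at hcon
      have h1 : γ.range ≤ B₂ := by
        rintro _ ⟨g, rfl⟩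
        exact hcon g
      have h2 : Nat.card γ.range ≤ p ^ 2 :=
        (Subgroup.card_le_of_le h1).trans (card_closure_pair_le hcA (hγp y) (hγp w))
      have h3 := Subgroup.index_ker γ
      rw [hγkerEq] at h3
      rw [← h3] at h2
      have h4 : p ^ 2 < p ^ 3 := Nat.pow_lt_pow_right hp.out.one_lt (by omega)
      omega
    obtain ⟨μ₁, h11, h12⟩ := exists_hom_kill hcA B₂ hg₃
    have hb₁ : γ y ∈ B₂ := Subgroup.subset_closure (by simp)
    have hb₂ : γ w ∈ B₂ := Subgroup.subset_closure (by simp)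
    have hK : ∀ μ : A →* ℂˣ, (∀ r ∈ B₂, μ r = 1) → (∃ g, μ (γ g) ≠ 1) →
        μ ⟨⁅y, w⁆, comm_mem_A hAc hG hdeg hAs y w⟩ = 1 := by
      rintro μ hμ ⟨g, hg⟩
      have hi : (stab μ).index = p := by
        rcases index_stab hdeg μ with h | h
        · exfalso
          apply hg
          rw [← hstab', Subgroup.index_eq_one.mp h]
          trivial
        · exact h
      exact eval_commutator hdeg μ hi ((hstab' μ y).mpr (hμ _ hb₁)) ((hstab' μ w).mpr (hμ _ hb₂)) _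
    have hμ₁ := hK μ₁ h11 ⟨g₃, h12⟩
    by_cases h0 : ∃ g, μ₀ (γ g) ≠ 1
    · exact h02 (hK μ₀ h01 h0)
    · push Not at h0
      have h3 := hK (μ₀ * μ₁) (by
        intro r hr
        simp [h01 r hr, h11 r hr]) ⟨g₃, by simpa [h0 g₃] using h12⟩
      rw [MonoidHom.mul_apply, hμ₁, mul_one] at h3
      exact h02 h3
  have hcent : ∀ y w : G, ⁅y, w⁆ ∈ Subgroup.center G := by
    intro y w
    have h1 : Subgroup.closure {γ y, γ w} ≤ Z.subgroupOf A := by
      rw [Subgroup.closure_le]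
      rintro _ (rfl | h)
      · exact Subgroup.mem_subgroupOf.mpr (hdc y x₀)
      · rw [Set.mem_singleton_iff] at h
        rw [h]
        exact Subgroup.mem_subgroupOf.mpr (hdc w x₀)
    exact Subgroup.mem_subgroupOf.mp (h1 (hcl y w))
  have hγc : ∀ g, ((γ g : A) : G) = ⁅x, g⁆ := by
    intro g
    have h1 : ((γ g : A) : G) = g⁻¹ * x * g * x⁻¹ := rfl
    have h2 : g⁻¹ * x * g * x⁻¹ = ⁅g⁻¹, x⁆ := by rw [commutatorElement_def, inv_inv]
    have h3 := comm_zpow_left hcent g x (-1)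
    rw [zpow_neg_one, zpow_neg_one, commutatorElement_inv] at h3
    rw [h1, h2, h3]
  -- independent elements
  obtain ⟨y, hy⟩ : ∃ y, y ∉ A := by
    by_contra hcon
    push Not at hcon
    exact hne (Subgroup.eq_top_iff' _ |>.mpr hcon)
  obtain ⟨w, hw⟩ := exists_indep hAc hG hdeg hAs hy hbig
  obtain ⟨m, n, hmn⟩ := mem_closure_pair' hcA (hcl y w)
  have hmn' : ⁅x, y⁆ ^ m * ⁅x, w⁆ ^ n = ⁅y, w⁆ := by
    have := congrArg (Subtype.val) hmn
    simpa only [Subgroup.coe_mul, Subgroup.coe_zpow, hγc] using this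
  set u := ⁅x, y⁆ with hu
  set v := ⁅x, w⁆ with hv
  let y₁ : G := y * x ^ (-n)
  let w₁ : G := w * x ^ m
  have hcomm₁ : y₁ * w₁ = w₁ * y₁ := by
    rw [← commutatorElement_eq_one_iff_mul_comm]
    have h1 : ⁅y₁, w₁⁆ = ⁅y, w₁⁆ * ⁅x ^ (-n), w₁⁆ := comm_mul_left hcent _ _ _
    have h2 : ⁅y, w₁⁆ = ⁅y, w⁆ * ⁅y, x ^ m⁆ := comm_mul_right hcent _ _ _
    have h3 : ⁅x ^ (-n), w₁⁆ = ⁅x ^ (-n), w⁆ * ⁅x ^ (-n), x ^ m⁆ := comm_mul_right hcent _ _ _
    have h4 : ⁅y, x ^ m⁆ = (u ^ m)⁻¹ := by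
      rw [comm_zpow_right hcent, ← inv_zpow, hu, commutatorElement_inv]
    have h5 : ⁅x ^ (-n), w⁆ = (v ^ n)⁻¹ := by
      rw [comm_zpow_left hcent, zpow_neg]
    have h6 : ⁅x ^ (-n), x ^ m⁆ = 1 := by
      rw [commutatorElement_eq_one_iff_commute]
      exact (Commute.refl x).zpow_zpow _ _
    rw [h1, h2, h3, h4, h5, h6, ← hmn', mul_one]
    have h7 := Subgroup.mem_center_iff.mp (Subgroup.zpow_mem _ (hcent x w) n) (u ^ m)⁻¹
    rw [← hv] at h7
    calc u ^ m * v ^ n * (u ^ m)⁻¹ * (v ^ n)⁻¹ = u ^ m * (v ^ n * (u ^ m)⁻¹) * (v ^ n)⁻¹ := by group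
      _ = u ^ m * ((u ^ m)⁻¹ * v ^ n) * (v ^ n)⁻¹ := by rw [h7.symm]
      _ = 1 := by group
  -- the abelian normal subgroup
  let S : Set G := {y₁, w₁} ∪ (Z : Set G)
  have hS : ∀ a ∈ S, ∀ b ∈ S, a * b = b * a := by
    intro a ha b hb
    rcases hb with hb | hb
    · rcases ha with ha | ha
      · simp only [Set.mem_insert_iff, Set.mem_singleton_iff] at ha hb
        rcases ha with rfl | rfl <;> rcases hb with rfl | rfl
        · rfl
        · exact hcomm₁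
        · exact hcomm₁.symm
        · rfl
      · exact (Subgroup.mem_center_iff.mp ha b).symm
    · exact (Subgroup.mem_center_iff.mp hb a)
  let B : Subgroup G := Subgroup.closure S
  have hZB : Z ≤ B := fun z hz => Subgroup.subset_closure (Or.inr hz)
  have hBc : ∀ a ∈ B, ∀ b ∈ B, a * b = b * a := by
    intro a ha b hb
    have := (Subgroup.isMulCommutative_closure hS).is_comm.comm (⟨a, ha⟩ : Subgroup.closure S) ⟨b, hb⟩
    exact congrArg Subtype.val this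
  have hBn : B.Normal := by
    refine ⟨fun b hb g => ?_⟩
    have h1 : g * b * g⁻¹ = ⁅g, b⁆ * b := by
      rw [commutatorElement_def]
      group
    rw [h1]
    exact mul_mem (hZB (hcent g b)) hb
  obtain ⟨A₂, hBA₂, hA₂n, hA₂c, hA₂s⟩ := exists_selfcent hG B hBn hBc
  letI : Fintype A₂ := Fintype.ofFinite _
  haveI := hA₂n
  have hne₂ : A₂ ≠ ⊤ := by
    rintro rfl
    obtain ⟨a, b, hab⟩ := hna
    exact hab (hA₂c a trivial b trivial)
  obtain ⟨-, hrel₂⟩ := claim1 hA₂c hG hdeg hA₂s hne₂ (hno A₂ hA₂n hA₂c)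
  have hy₁ : y₁ ∈ A₂ := hBA₂ (Subgroup.subset_closure (Or.inl (by simp)))
  have hw₁ : w₁ ∈ A₂ := hBA₂ (Subgroup.subset_closure (Or.inl (by simp)))
  have hxm : ∀ k : ℤ, (QuotientGroup.mk' A) (x ^ k) = 1 := fun k =>
    (QuotientGroup.eq_one_iff _).mpr (zpow_mem hxA k)
  have hy₁m : (QuotientGroup.mk' A) y₁ = (QuotientGroup.mk' A) y := by
    simp only [y₁, map_mul, hxm, mul_one]
  have hw₁m : (QuotientGroup.mk' A) w₁ = (QuotientGroup.mk' A) w := by
    simp only [w₁, map_mul, hxm, mul_one]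
  have hy₁Z : (⟨y₁, hy₁⟩ : A₂) ∉ Z.subgroupOf A₂ := by
    intro h
    have h1 : y₁ ∈ A := hZA (Subgroup.mem_subgroupOf.mp h)
    apply hy
    apply (QuotientGroup.eq_one_iff _).mp
    have h2 : (QuotientGroup.mk' A) y₁ = 1 := (QuotientGroup.eq_one_iff _).mpr h1
    rw [hy₁m] at h2
    exact h2
  obtain ⟨k, -, hk⟩ := exists_pow_mul_mem (hG.to_subgroup A₂) (H := Z.subgroupOf A₂) hrel₂ hy₁Z
    (⟨w₁, hw₁⟩ : A₂)
  have hk' : y₁ ^ k * w₁ ∈ Z := Subgroup.mem_subgroupOf.mp hk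
  apply hw k
  apply (QuotientGroup.eq_one_iff _).mp
  have h2 : (QuotientGroup.mk' A) (y₁ ^ k * w₁) = 1 := (QuotientGroup.eq_one_iff _).mpr (hZA hk')
  rw [map_mul, map_pow, hy₁m, hw₁m, ← map_pow, ← map_mul] at h2
  exact h2

/-- The main theorem for `p`-groups. -/
theorem pgroup_main {G : Type u} [Group G] [Fintype G] {p : ℕ} [hp : Fact p.Prime] (hG : IsPGroup p G)
    (hdeg : ∀ χ : G → ℂ, IsIrrCharacter G χ → charDegree χ = 1 ∨ charDegree χ = p)
    (hna : ∃ a b : G, a * b ≠ b * a) :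
    (∃ A : Subgroup G, A.Normal ∧ (∀ a ∈ A, ∀ b ∈ A, a * b = b * a) ∧ A.index = p) ∨
      (Subgroup.center G).index = p ^ 3 := by
  classical
  by_cases hex : ∃ A : Subgroup G, A.Normal ∧ (∀ a ∈ A, ∀ b ∈ A, a * b = b * a) ∧ A.index = p
  · exact Or.inl hex
  · right
    have hno : ∀ B : Subgroup G, B.Normal → (∀ a ∈ B, ∀ b ∈ B, a * b = b * a) → B.index ≠ p := by
      intro B h1 h2 h3
      exact hex ⟨B, h1, h2, h3⟩
    obtain ⟨A, -, hAn, hAc, hAs⟩ := exists_selfcent hG ⊥ (Subgroup.normal_bot) (by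
      intro a ha b hb
      rw [Subgroup.mem_bot] at ha hb
      rw [ha, hb])
    letI : Fintype A := Fintype.ofFinite _
    haveI := hAn
    have h1 := claim2 hG hdeg hno hna hAc hAs
    have hne : A ≠ ⊤ := by
      rintro rfl
      obtain ⟨a, b, hab⟩ := hna
      exact hab (hAc a trivial b trivial)
    obtain ⟨hZA, hrel⟩ := claim1 hAc hG hdeg hAs hne (hno A hAn hAc)
    have h2 := Subgroup.relIndex_mul_index hZA
    rw [hrel, h1] at h2
    rw [← h2]
    ring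

end Cfsg.Agent.Lib.Char.CdP
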