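import Mathlib
import Cfsg.Agent.Lib.Char.CdPE
import Cfsg.Agent.Lib.Char.FRamB
import Cfsg.Agent.Lib.Char.FTBound
import Cfsg.Agent.Lib.Char.ASylow
import Cfsg.Agent.Lib.Char.Ito
import Cfsg.Agent.S4457

set_option autoImplicit false

/-!
Groups whose irreducible characters have degrees `1` and `p`.
-/

namespace Cfsg.Agent.Lib.Char.CdP

open Cfsg Cfsg.Agent.Lib.Char
open scoped commutatorElement

universe u

theorem deg_sq_le_index_center {G : Type u} [Group G] [Fintype G] {χ : G → ℂ} (hχ : IsIrrCharacter G χ) :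
    (charDegree χ) ^ 2 ≤ (Subgroup.center G).index := by
  classical
  have h1 := Cfsg.Agent.Lib.Char.FRam.norm_sum_eq hχ
  have h2 : ∑ z ∈ Finset.univ.filter (· ∈ Subgroup.center G), Complex.normSq (χ z) ≤
      ∑ g : G, Complex.normSq (χ g) :=
    Finset.sum_le_sum_of_subset_of_nonneg (Finset.filter_subset _ _)
      (fun _ _ _ => Complex.normSq_nonneg _)
  have h3 : ∀ z ∈ Finset.univ.filter (· ∈ Subgroup.center G), Complex.normSq (χ z) =
      ((charDegree χ : ℝ)) ^ 2 := by
    intro z hz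
    have h4 := Cfsg.Agent.Lib.Char.FT.norm_of_mem_center hχ (Finset.mem_filter.mp hz).2
    rw [Complex.normSq_eq_norm_sq, h4, apply_one_eq_charDegree (IsIrrCharacter.isCharacter hχ)]
    simp
  rw [Finset.sum_congr rfl h3, Finset.sum_const, h1] at h2
  have h5 : (Finset.univ.filter (· ∈ Subgroup.center G)).card = Nat.card (Subgroup.center G) := by
    rw [Nat.card_eq_fintype_card, Fintype.card_subtype]
  rw [h5, nsmul_eq_mul] at h2
  have h6 := Subgroup.card_mul_index (Subgroup.center G)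
  have h7 : (Nat.card (Subgroup.center G) * (charDegree χ) ^ 2 : ℕ) ≤
      Nat.card (Subgroup.center G) * (Subgroup.center G).index := by
    rw [h6]
    exact_mod_cast h2
  exact Nat.le_of_mul_le_mul_left h7 Nat.card_pos

theorem deg_of_center_index {G : Type u} [Group G] [Fintype G] {p : ℕ} (hp : p.Prime)
    (hZ : (Subgroup.center G).index = p ^ 3) {χ : G → ℂ} (hχ : IsIrrCharacter G χ) :
    charDegree χ = 1 ∨ charDegree χ = p := by
  have h1 := charDegree_dvd_index_center hχ
  rw [hZ] at h1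
  obtain ⟨k, hk, hk'⟩ := (Nat.dvd_prime_pow hp).mp h1
  have h2 := deg_sq_le_index_center hχ
  rw [hZ, hk', ← pow_mul] at h2
  have h3 : k * 2 ≤ 3 := (Nat.pow_le_pow_iff_right hp.one_lt).mp h2
  have h4 : k = 0 ∨ k = 1 := by omega
  rcases h4 with rfl | rfl
  · left
    simpa using hk'
  · right
    simpa using hk'

theorem lift_main {G : Type u} [Group G] [Fintype G] {p : ℕ} [hp : Fact p.Prime] (P A : Subgroup G)
    [hPn : P.Normal] [hAn : A.Normal] (hPp : IsPGroup p P) (hAc : ∀ a ∈ A, ∀ b ∈ A, a * b = b * a)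
    (hinf : P ⊓ A = ⊥) (hsup : P ⊔ A = ⊤)
    (hdeg : ∀ χ : G → ℂ, IsIrrCharacter G χ → charDegree χ = 1 ∨ charDegree χ = p)
    (hna : ∃ a b : G, a * b ≠ b * a) :
    (∃ M : Subgroup G, M.Normal ∧ (∀ a ∈ M, ∀ b ∈ M, a * b = b * a) ∧ M.index = p) ∨
      (Subgroup.center G).index = p ^ 3 := by
  classical
  have hPA : ∀ x ∈ P, ∀ y ∈ A, x * y = y * x := fun x hx y hy =>
    Subgroup.commute_of_normal_of_disjoint P A hPn hAn
      (disjoint_iff.mpr hinf) x y hx hy
  -- the projection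
  let φ : P →* G ⧸ A := (QuotientGroup.mk' A).comp P.subtype
  have hφi : Function.Injective φ := by
    rw [injective_iff_map_eq_one]
    intro x hx
    have h1 : (x : G) ∈ A := (QuotientGroup.eq_one_iff _).mp hx
    have h2 : (x : G) ∈ P ⊓ A := Subgroup.mem_inf.mpr ⟨x.2, h1⟩
    rw [hinf, Subgroup.mem_bot] at h2
    exact Subtype.ext h2
  have hφs : Function.Surjective φ := by
    intro y
    obtain ⟨g, rfl⟩ := QuotientGroup.mk_surjective y
    have h1 : g ∈ P ⊔ A := by rw [hsup]; trivial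
    obtain ⟨u, hu, a, ha, rfl⟩ := Subgroup.mem_sup_of_normal_right.mp h1 
    refine ⟨⟨u, hu⟩, ?_⟩
    show ((u : G) : G ⧸ A) = ((u * a : G) : G ⧸ A)
    rw [QuotientGroup.mk_mul_of_mem _ ha]
  let eqv : P ≃* G ⧸ A := MulEquiv.ofBijective φ ⟨hφi, hφs⟩
  let e : G →* P := eqv.symm.toMonoidHom.comp (QuotientGroup.mk' A)
  have he : Function.Surjective e := eqv.symm.surjective.comp (QuotientGroup.mk'_surjective A)
  have hdec : ∀ g : G, (((e g : P) : G))⁻¹ * g ∈ A := by
    intro g
    apply (QuotientGroup.eq_one_iff _).mp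
    have h1 : φ (e g) = (g : G ⧸ A) := eqv.apply_symm_apply _
    have h2 : ((((e g : P) : G) : G) : G ⧸ A) = (g : G ⧸ A) := h1
    rw [QuotientGroup.mk_mul, QuotientGroup.mk_inv, h2, inv_mul_cancel]
  -- the decomposition
  have hform : ∀ g : G, ∃ a ∈ A, g = ((e g : P) : G) * a := fun g =>
    ⟨_, hdec g, by group⟩
  have hcommP : ∀ (u v : P) (a b : G), a ∈ A → b ∈ A → (u : G) * v = v * u →
      ((u : G) * a) * (v * b) = (v * b) * (u * a) := by
    intro u v a b ha hb huv
    calc ((u : G) * a) * (v * b) = u * (a * v) * b := by group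
      _ = u * (v * a) * b := by rw [(hPA v v.2 a ha).symm]
      _ = ((u : G) * v) * (a * b) := by group
      _ = (v * u) * (b * a) := by rw [huv, hAc a ha b hb]
      _ = v * (u * b) * a := by group
      _ = v * (b * u) * a := by rw [hPA u u.2 b hb]
      _ = (v * b) * (u * a) := by group
  letI : Fintype P := Fintype.ofFinite _
  have hdegP : ∀ ψ : P → ℂ, IsIrrCharacter P ψ → charDegree ψ = 1 ∨ charDegree ψ = p := by
    intro ψ hψ
    have h1 := hdeg _ (isIrrCharacter_comp_surj e he hψ)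
    have h2 : charDegree (ψ ∘ e) = charDegree ψ := by
      apply charDegree_eq
      simp only [Function.comp_apply, map_one]
      exact apply_one_eq_charDegree (IsIrrCharacter.isCharacter hψ)
    rwa [h2] at h1
  have hnaP : ∃ a b : P, a * b ≠ b * a := by
    by_contra hcon
    push Not at hcon
    obtain ⟨a, b, hab⟩ := hna
    apply hab
    obtain ⟨a₁, ha₁, ha₂⟩ := hform a
    obtain ⟨b₁, hb₁, hb₂⟩ := hform b
    rw [ha₂, hb₂]
    exact hcommP _ _ _ _ ha₁ hb₁ (congrArg Subtype.val (hcon _ _))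
  rcases pgroup_main hPp hdegP hnaP with ⟨M₀, hM₀n, hM₀c, hM₀i⟩ | hZ
  · left
    refine ⟨M₀.comap e, hM₀n.comap e, ?_, ?_⟩
    · intro a ha b hb
      obtain ⟨a₁, ha₁, ha₂⟩ := hform a
      obtain ⟨b₁, hb₁, hb₂⟩ := hform b
      rw [ha₂, hb₂]
      exact hcommP _ _ _ _ ha₁ hb₁ (congrArg Subtype.val (hM₀c _ ha _ hb))
    · rw [Subgroup.index_comap_of_surjective _ he, hM₀i]
  · right
    have h1 : Subgroup.center G = (Subgroup.center P).comap e := by
      ext g
      rw [Subgroup.mem_comap, Subgroup.mem_center_iff, Subgroup.mem_center_iff]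
      constructor
      · intro h q
        obtain ⟨r, rfl⟩ := he q
        rw [← map_mul, ← map_mul, h r]
      · intro h r
        obtain ⟨a₁, ha₁, ha₂⟩ := hform g
        obtain ⟨b₁, hb₁, hb₂⟩ := hform r
        rw [ha₂, hb₂]
        exact hcommP _ _ _ _ hb₁ ha₁ (congrArg Subtype.val (h _))
    rw [h1, Subgroup.index_comap_of_surjective _ he, hZ]

/-- The theorem. -/
theorem main_iff {G : Type u} [Group G] [Finite G] (hG : ∃ a b : G, a * b ≠ b * a) (p : ℕ) (hp : p.Prime) :
    ((∀ χ : IrrCharacter G, charDegree (χ : G → ℂ) = 1 ∨ charDegree (χ : G → ℂ) = p) ∧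
      ∃ χ : IrrCharacter G, charDegree (χ : G → ℂ) = p) ↔
    ((∃ A : Subgroup G, A.Normal ∧ (∀ a ∈ A, ∀ b ∈ A, a * b = b * a) ∧ A.index = p) ∨
      (Subgroup.center G).index = p ^ 3) := by
  classical
  letI : Fintype G := Fintype.ofFinite G
  haveI hpf : Fact p.Prime := ⟨hp⟩
  have hexist : (∀ χ : IrrCharacter G, charDegree (χ : G → ℂ) = 1 ∨ charDegree (χ : G → ℂ) = p) →
      ∃ χ : IrrCharacter G, charDegree (χ : G → ℂ) = p := by
    intro h
    by_contra hcon
    push Not at hcon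
    obtain ⟨a, b, hab⟩ := hG
    apply hab
    refine (comm_iff_irr_degree_one).mpr (fun χ => ?_) a b
    have h1 : charDegree (χ : G → ℂ) = 1 := (h χ).resolve_right (hcon χ)
    rw [apply_one_eq_charDegree (IsIrrCharacter.isCharacter χ.2), h1]
    simp
  constructor
  · rintro ⟨hcd, hm⟩
    rcases Cfsg.Agent.S4457.result p hcd hm hp.ne_one with h | ⟨q, e, hq, hpe, P, A, hPn, hAn, hPp, hAc, hinf, hsup⟩
    · exact Or.inl h
    · have h1 := (hp.pow_eq_iff.mp hpe.symm).1
      subst h1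
      exact lift_main P A hPp hAc hinf hsup (fun χ hχ => hcd ⟨χ, hχ⟩) hG
  · rintro (⟨A, hAn, hAc, hAi⟩ | hZ)
    · have h : ∀ χ : IrrCharacter G, charDegree (χ : G → ℂ) = 1 ∨ charDegree (χ : G → ℂ) = p := by
        intro χ
        have h1 := charDegree_dvd_index_of_abelian χ.2 A hAc
        rw [hAi] at h1
        exact (Nat.dvd_prime hp).mp h1
      exact ⟨h, hexist h⟩
    · have h : ∀ χ : IrrCharacter G, charDegree (χ : G → ℂ) = 1 ∨ charDegree (χ : G → ℂ) = p :=
        fun χ => deg_of_center_index hp hZ χ.2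
      exact ⟨h, hexist h⟩

end Cfsg.Agent.Lib.Char.CdP
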