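import Cfsg.Agent.Lib.Char.FTBound
import Cfsg.Agent.Lib.Char.Kernel
import Cfsg.Agent.Lib.Char.Linear
import Cfsg.Agent.Lib.Char.Constituent
import Cfsg.Agent.Lib.Char.BrauerPerm
import Cfsg.Agent.Lib.Struct.ActBridge

/-!
# Ito-type lemma: a `p`-automorphism preserving a faithful character of small degree is trivial
on `p'`-groups.
-/

set_option autoImplicit false
set_option linter.unusedSectionVars false

namespace Cfsg.Agent.Lib.Char.FT

open Cfsg Cfsg.Agent.Lib.Char
open scoped ComplexConjugate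

universe u

section Const

variable {Y : Type u} [Group Y] [Fintype Y]

/-- A faithful character has, for every `c ≠ 1`, a constituent not containing `c` in its kernel. -/
theorem exists_constituent_ne {ψ : Y → ℂ} (hψ : IsCharacter Y ψ) (hf : ∀ g, ψ g = ψ 1 → g = 1)
    {c : Y} (hc : c ≠ 1) : ∃ θ, IsIrrCharacter Y θ ∧ classInner ψ θ ≠ 0 ∧ θ c ≠ θ 1 := by
  classical
  obtain ⟨m, hm, hs⟩ := IsCharacter.exists_eq_sum hψ
  by_contra hcon
  push Not at hcon
  apply hc
  apply hf
  rw [hs]
  simp only [Finset.sum_apply, Pi.smul_apply]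
  refine Finset.sum_congr rfl fun θ _ => ?_
  by_cases h0 : m θ = 0
  · simp [h0]
  · have := hcon θ θ.2 (by rw [hm]; exact_mod_cast h0)
    rw [this]

/-- The number of distinct constituents is at most the degree. -/
theorem card_constituents_le {ψ : Y → ℂ} (hψ : IsCharacter Y ψ) {n : ℕ} (h1 : ψ 1 = n) :
    Nat.card {θ : IrrCharacter Y // classInner ψ (θ : Y → ℂ) ≠ 0} ≤ n := by
  classical
  obtain ⟨m, hm, hs⟩ := IsCharacter.exists_eq_sum hψ
  have hdn : ∀ θ : IrrCharacter Y, ∃ d : ℕ, (θ : Y → ℂ) 1 = d := fun θ =>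
    IsCharacter.apply_one (IsIrrCharacter.isCharacter θ.2)
  choose d hd using hdn
  have hdpos : ∀ θ : IrrCharacter Y, 1 ≤ d θ := by
    intro θ
    have := IsIrrCharacter.apply_one_ne_zero θ.2
    rw [hd] at this
    have h2 : d θ ≠ 0 := by
      intro h; apply this; rw [h]; simp
    omega
  have hn : n = ∑ θ : IrrCharacter Y, m θ * d θ := by
    have h2 : (n : ℂ) = ∑ θ : IrrCharacter Y, ((m θ * d θ : ℕ) : ℂ) := by
      rw [← h1, hs]
      simp only [Finset.sum_apply, Pi.smul_apply]
      refine Finset.sum_congr rfl fun θ _ => ?_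
      rw [hd, nsmul_eq_mul]
      push_cast
      ring
    exact_mod_cast h2
  rw [Nat.card_eq_fintype_card, Fintype.card_subtype, hn]
  calc (Finset.univ.filter fun θ : IrrCharacter Y => classInner ψ (θ : Y → ℂ) ≠ 0).card
      = ∑ θ ∈ Finset.univ.filter fun θ : IrrCharacter Y => classInner ψ (θ : Y → ℂ) ≠ 0, 1 := by simp
    _ ≤ ∑ θ ∈ Finset.univ.filter fun θ : IrrCharacter Y => classInner ψ (θ : Y → ℂ) ≠ 0, m θ * d θ := by
        refine Finset.sum_le_sum fun θ hθ => ?_
        have h3 : classInner ψ (θ : Y → ℂ) ≠ 0 := (Finset.mem_filter.mp hθ).2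
        rw [hm] at h3
        have h4 : m θ ≠ 0 := fun h => h3 (by rw [h]; simp)
        have h5 : 1 ≤ m θ := Nat.one_le_iff_ne_zero.mpr h4
        exact Nat.mul_pos h5 (hdpos θ)
    _ ≤ ∑ θ : IrrCharacter Y, m θ * d θ :=
        Finset.sum_le_sum_of_subset (Finset.filter_subset _ _)

/-- Invariance of constituents under a `p`-automorphism when the degree is `< p`. -/
theorem constituent_comp_eq {p : ℕ} [Fact p.Prime] {k n : ℕ} (hn : n < p) {f : Y ≃* Y}
    (hf : f ^ p ^ k = 1) {ψ : Y → ℂ} (hψ : IsCharacter Y ψ) (h1 : ψ 1 = n)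
    (hinv : ∀ g, ψ (f g) = ψ g) {θ : Y → ℂ} (hθ : IsIrrCharacter Y θ) (hc : classInner ψ θ ≠ 0) :
    ∀ g, θ (f g) = θ g := by
  classical
  let S := {θ : IrrCharacter Y // classInner ψ (θ : Y → ℂ) ≠ 0}
  haveI : Fintype S := Fintype.ofFinite S
  have hmem : ∀ τ : IrrCharacter Y, classInner ψ (τ : Y → ℂ) ≠ 0 →
      classInner ψ ((τ : Y → ℂ) ∘ f) ≠ 0 := by
    intro τ hτ
    have h2 : classInner ψ ((τ : Y → ℂ) ∘ f) = classInner ψ (τ : Y → ℂ) := by
      have h3 : ψ = ψ ∘ f := by
        funext g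
        exact (hinv g).symm
      conv_lhs => rw [h3]
      exact classInner_comp_mulEquiv f ψ (τ : Y → ℂ)
    rwa [h2]
  let σ : Function.End S := fun τ =>
    ⟨⟨(τ.1 : Y → ℂ) ∘ f, IsIrrCharacter.comp_mulEquiv τ.1.2 f⟩, hmem τ.1 τ.2⟩
  have hσ : ∀ (m : ℕ) (τ : S) (g : Y), ((σ ^ m) τ).1.1 g = τ.1.1 ((f ^ m) g) := by
    intro m
    induction m with
    | zero => intro τ g; rfl
    | succ m ih =>
      intro τ g
      rw [pow_succ']
      show ((σ ((σ ^ m) τ)).1 : Y → ℂ) g = _
      show ((((σ ^ m) τ).1 : Y → ℂ)) (f g) = _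
      rw [ih, pow_succ]
      rfl
  have hσp : σ ^ p ^ k = 1 := by
    funext τ
    apply Subtype.ext
    apply Subtype.ext
    funext g
    rw [hσ, hf]
    rfl
  have hcard := Equiv.Perm.card_fixedPoints_modEq (f := σ) (p := p) (n := k) hσp
  have hS : Fintype.card S ≤ n := by
    rw [← Nat.card_eq_fintype_card]
    exact card_constituents_le hψ h1
  have hS2 : Fintype.card S < p := lt_of_le_of_lt hS hn
  have hF : Fintype.card (Function.fixedPoints σ) ≤ Fintype.card S := Fintype.card_subtype_le _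
  have heq : Fintype.card S = Fintype.card (Function.fixedPoints σ) := by
    have := Nat.ModEq.eq_of_lt_of_lt hcard hS2 (lt_of_le_of_lt hF hS2)
    exact this
  have hall : ∀ τ : S, σ τ = τ := by
    intro τ
    by_contra hne
    have hlt : Fintype.card (Function.fixedPoints σ) < Fintype.card S := by
      apply Fintype.card_subtype_lt (x := τ)
      exact hne
    omega
  intro g
  have := hall ⟨⟨θ, hθ⟩, hc⟩
  have h5 := congrArg (fun τ : S => (τ.1 : Y → ℂ) g) this
  exact h5

end Const

section Restrict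

variable {Y : Type u} [Group Y] [Finite Y]

/-- Restriction of an automorphism to an invariant subgroup of a finite group. -/
noncomputable def restrictHom (f : Y ≃* Y) (K : Subgroup Y) (h : ∀ y ∈ K, f y ∈ K) : K →* K where
  toFun := fun y => ⟨f y, h y y.2⟩
  map_one' := by
    apply Subtype.ext
    simp
  map_mul' := fun a b => by
    apply Subtype.ext
    simp

theorem restrictHom_bijective (f : Y ≃* Y) (K : Subgroup Y) (h : ∀ y ∈ K, f y ∈ K) :
    Function.Bijective (restrictHom f K h) := by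
  have hinj : Function.Injective (restrictHom f K h) := by
    intro a b hab
    apply Subtype.ext
    exact f.injective (congrArg Subtype.val hab)
  exact ⟨hinj, Finite.surjective_of_injective hinj⟩

/-- Restriction of an automorphism to an invariant subgroup of a finite group. -/
noncomputable def restrictAut (f : Y ≃* Y) (K : Subgroup Y) (h : ∀ y ∈ K, f y ∈ K) : K ≃* K :=
  MulEquiv.ofBijective (restrictHom f K h) (restrictHom_bijective f K h)

@[simp] theorem coe_restrictAut (f : Y ≃* Y) (K : Subgroup Y) (h : ∀ y ∈ K, f y ∈ K) (y : K) :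
    ((restrictAut f K h y : K) : Y) = f y := rfl

theorem restrictAut_pow (f : Y ≃* Y) (K : Subgroup Y) (h : ∀ y ∈ K, f y ∈ K) (m : ℕ) (y : K) :
    (((restrictAut f K h) ^ m) y : Y) = (f ^ m) y := by
  induction m with
  | zero => rfl
  | succ m ih =>
    rw [pow_succ', pow_succ', MulAut.mul_apply, MulAut.mul_apply, coe_restrictAut, ih]

theorem restrictAut_pow_eq_one {f : Y ≃* Y} {K : Subgroup Y} (h : ∀ y ∈ K, f y ∈ K) {m : ℕ}
    (hm : f ^ m = 1) : (restrictAut f K h) ^ m = 1 := by
  ext y
  rw [restrictAut_pow, hm]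
  rfl

end Restrict

section Qgroup

variable {Y : Type u} [Group Y] [Finite Y] {p : ℕ} [Fact p.Prime] {k : ℕ} {f : Y ≃* Y}

/-- Main dichotomy: either `f` is trivial or `[Y, f] = Y`. -/
theorem closure_eq_top_of_minimal (hf : f ^ p ^ k = 1) (hcop : Nat.Coprime (Nat.card Y) p)
    (hIH : ∀ K : Subgroup Y, K ≠ ⊤ → (∀ y ∈ K, f y ∈ K) → ∀ y ∈ K, f y = y)
    (hne : ∃ y, f y ≠ y) : Subgroup.closure {w | ∃ y : Y, w = y⁻¹ * f y} = ⊤ := by
  by_contra hW
  obtain ⟨y, hy⟩ := hne
  apply hy
  set W := Subgroup.closure {w | ∃ y : Y, w = y⁻¹ * f y} with hWdef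
  have hinv : ∀ y ∈ W, f y ∈ W := by
    intro y hy
    induction hy using Subgroup.closure_induction with
    | mem a ha =>
      obtain ⟨b, rfl⟩ := ha
      apply Subgroup.subset_closure
      exact ⟨f b, by simp⟩
    | one => simp
    | mul a b _ _ ha hb => rw [map_mul]; exact W.mul_mem ha hb
    | inv a _ ha => rw [map_inv]; exact W.inv_mem ha
  have hfix := hIH W hW hinv
  set w := y⁻¹ * f y with hw
  have hwW : w ∈ W := Subgroup.subset_closure ⟨y, rfl⟩
  have hfw : f w = w := hfix w hwW
  have hfy : f y = y * w := by rw [hw]; group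
  have hpow : ∀ m : ℕ, (f ^ m) y = y * w ^ m := by
    intro m
    induction m with
    | zero => simp
    | succ m ih =>
      rw [pow_succ']
      show f ((f ^ m) y) = _
      rw [ih, map_mul, hfy, map_pow, hfw, pow_succ']
      group
  have h1 : w ^ p ^ k = 1 := by
    have h2 := hpow (p ^ k)
    rw [hf] at h2
    have h3 : y = y * w ^ p ^ k := h2
    exact mul_left_cancel (a := y) (by rw [← h3, mul_one])
  have h2 : w = 1 := by
    have h3 : orderOf w ∣ p ^ k := orderOf_dvd_of_pow_eq_one h1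
    have h4 : orderOf w ∣ Nat.card Y := orderOf_dvd_natCard w
    have h5 : Nat.Coprime (Nat.card Y) (p ^ k) := Nat.Coprime.pow_right _ hcop
    have h6 : orderOf w = 1 := Nat.eq_one_of_dvd_coprimes h5 h4 h3
    exact orderOf_eq_one_iff.mp h6
  rw [hfy, h2, mul_one]

/-- Homomorphisms invariant under `f` are trivial when `[Y,f] = Y`. -/
theorem hom_trivial_of_closure {A : Type*} [Group A]
    (hW : Subgroup.closure {w | ∃ y : Y, w = y⁻¹ * f y} = ⊤) (φ : Y →* A)
    (hφ : ∀ y, φ (f y) = φ y) (y : Y) : φ y = 1 := by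
  have h1 : Subgroup.closure {w | ∃ y : Y, w = y⁻¹ * f y} ≤ φ.ker := by
    rw [Subgroup.closure_le]
    rintro _ ⟨b, rfl⟩
    show φ _ = 1
    rw [map_mul, map_inv, hφ, inv_mul_cancel]
  rw [hW] at h1
  exact h1 (Subgroup.mem_top y)

/-- The commutator map by a fixed element with central values is a homomorphism. -/
def commHom (w : Y) (hw : ∀ y, w * y * w⁻¹ * y⁻¹ ∈ Subgroup.center Y) : Y →* Y :=
  MonoidHom.mk' (fun y => w * y * w⁻¹ * y⁻¹) (by
    intro a b
    have h := Subgroup.mem_center_iff.mp (hw b)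
    have h2 : w * (a * b) * w⁻¹ * (a * b)⁻¹ = w * a * w⁻¹ * a⁻¹ * (a * (w * b * w⁻¹ * b⁻¹) * a⁻¹) := by group
    rw [h2, h a]
    group)

@[simp] theorem commHom_apply (w : Y) (hw : ∀ y, w * y * w⁻¹ * y⁻¹ ∈ Subgroup.center Y) (y : Y) :
    commHom w hw y = w * y * w⁻¹ * y⁻¹ := rfl

theorem center_invariant (f : Y ≃* Y) : ∀ y ∈ Subgroup.center Y, f y ∈ Subgroup.center Y := by
  intro y hy
  rw [Subgroup.mem_center_iff] at hy ⊢
  intro g
  obtain ⟨g', rfl⟩ := f.surjective g
  rw [← map_mul, ← map_mul, hy]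

/-- A nilpotent non-abelian group has an element of the second centre outside the centre. -/
theorem exists_second_center (hN : Group.IsNilpotent Y) (hZ : Subgroup.center Y ≠ ⊤) :
    ∃ w, w ∉ Subgroup.center Y ∧ ∀ y, w * y * w⁻¹ * y⁻¹ ∈ Subgroup.center Y := by
  by_contra hcon
  push Not at hcon
  have h1 : ∀ m : ℕ, Subgroup.upperCentralSeries Y m ≤ Subgroup.center Y := by
    intro m
    induction m with
    | zero =>
      intro x hx
      have : x = 1 := hx
      rw [this]
      exact Subgroup.one_mem _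
    | succ m ih =>
      intro x hx
      rw [Subgroup.mem_upperCentralSeries_succ_iff] at hx
      by_contra hxZ
      obtain ⟨y, hy⟩ := hcon x hxZ
      exact hy (ih (hx y))
  obtain ⟨m, hm⟩ := Group.IsNilpotent.nilpotent' (G := Y)
  apply hZ
  have := h1 m
  rw [hm] at this
  exact top_le_iff.mp this

theorem conj_comm_map (f : Y ≃* Y) (w y : Y) :
    f w * f y * (f w)⁻¹ * (f y)⁻¹ = f (w * y * w⁻¹ * y⁻¹) := by
  simp

theorem ito_qgroup {q : ℕ} [Fact q.Prime] (hq : IsPGroup q Y) {n : ℕ} (hn : n + 1 < p)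
    (hf : f ^ p ^ k = 1) (hcop : Nat.Coprime (Nat.card Y) p)
    {ψ : Y → ℂ} [Fintype Y] (hψ : IsCharacter Y ψ) (hfaith : ∀ g, ψ g = ψ 1 → g = 1) (h1 : ψ 1 = n)
    (hinv : ∀ g, ψ (f g) = ψ g)
    (hIH : ∀ K : Subgroup Y, K ≠ ⊤ → (∀ y ∈ K, f y ∈ K) → ∀ y ∈ K, f y = y) : ∀ y, f y = y := by
  classical
  by_contra hne
  push Not at hne
  have hW := closure_eq_top_of_minimal hf hcop hIH hne
  have hnlt : n < p := by omega
  by_cases hZ : Subgroup.center Y = ⊤
  · -- abelian case
    obtain ⟨y, hy⟩ := hne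
    have hy1 : y ≠ 1 := by
      rintro rfl
      exact hy (map_one f)
    obtain ⟨θ, hθ, hc, hθy⟩ := exists_constituent_ne hψ hfaith hy1
    have hcomm : ∀ a b : Y, a * b = b * a := by
      intro a b
      have : a ∈ Subgroup.center Y := by rw [hZ]; trivial
      exact (Subgroup.mem_center_iff.mp this b).symm
    have hθ1 : θ 1 = 1 := (comm_iff_irr_degree_one (G := Y)).mp hcomm ⟨θ, hθ⟩
    obtain ⟨lam, hlam⟩ := IsCharacter.exists_monoidHom (IsIrrCharacter.isCharacter hθ) hθ1
    have hinvθ := constituent_comp_eq hnlt hf hψ h1 hinv hθ hc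
    have hl : ∀ y, lam (f y) = lam y := by
      intro y
      apply Units.ext
      have := hinvθ y
      rw [hlam] at this
      exact this
    have := hom_trivial_of_closure hW lam hl y
    apply hθy
    rw [hθ1, hlam]
    show ((lam y : ℂˣ) : ℂ) = 1
    rw [this]
    simp
  · -- non-abelian case
    have hfixZ : ∀ z ∈ Subgroup.center Y, f z = z := hIH _ hZ (center_invariant f)
    have hnil : Group.IsNilpotent Y := hq.isNilpotent
    have hZ2mem : ∀ w, w ∈ Subgroup.upperCentralSeries Y 2 ↔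
        ∀ y, w * y * w⁻¹ * y⁻¹ ∈ Subgroup.center Y := by
      intro w
      rw [show (2 : ℕ) = 1 + 1 from rfl, Subgroup.mem_upperCentralSeries_succ_iff,
        Subgroup.upperCentralSeries_one]
      rfl
    have hcommC : ∀ (w : Y) (hw : ∀ y, w * y * w⁻¹ * y⁻¹ ∈ Subgroup.center Y), f w = w → w ∈ Subgroup.center Y := by
      intro w hw hfw
      have hφ : ∀ y, commHom w hw (f y) = commHom w hw y := by
        intro y
        rw [commHom_apply, commHom_apply]
        have h2 := conj_comm_map f w y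
        rw [hfw] at h2
        rw [h2]
        exact hfixZ _ (hw y)
      have h3 := hom_trivial_of_closure hW (commHom w hw) hφ
      rw [Subgroup.mem_center_iff]
      intro g
      have h4 := h3 g
      rw [commHom_apply] at h4
      have h5 : w * g * w⁻¹ = g := by
        exact mul_inv_eq_one.mp h4
      have h6 : w * g = g * w := by
        exact mul_inv_eq_iff_eq_mul.mp h5
      exact h6.symm
    have hZ2 : Subgroup.upperCentralSeries Y 2 = ⊤ := by
      by_contra hZ2ne
      have hinv2 : ∀ w ∈ Subgroup.upperCentralSeries Y 2, f w ∈ Subgroup.upperCentralSeries Y 2 := by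
        intro w hw
        rw [hZ2mem] at hw ⊢
        intro y
        obtain ⟨y', rfl⟩ := f.surjective y
        rw [conj_comm_map]
        exact center_invariant f _ (hw y')
      have hfix2 := hIH _ hZ2ne hinv2
      obtain ⟨w, hwZ, hw⟩ := exists_second_center hnil hZ
      exact hwZ (hcommC w hw (hfix2 w ((hZ2mem w).mpr hw)))
    have hcomm2 : ∀ w y : Y, w * y * w⁻¹ * y⁻¹ ∈ Subgroup.center Y := by
      intro w
      have : w ∈ Subgroup.upperCentralSeries Y 2 := by rw [hZ2]; trivial
      exact (hZ2mem w).mp this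
    have hCZ : ∀ c, f c = c ↔ c ∈ Subgroup.center Y := fun c =>
      ⟨fun hc => hcommC c (hcomm2 c) hc, hfixZ c⟩
    -- fixed points
    have hcount : Nat.card Y ≡ Nat.card (Subgroup.center Y) [MOD p] := by
      let σ : Function.End Y := fun y => f y
      have hσ : ∀ (m : ℕ) (y : Y), (σ ^ m) y = (f ^ m) y := by
        intro m
        induction m with
        | zero => intro y; rfl
        | succ m ih =>
          intro y
          rw [pow_succ', pow_succ']
          show f ((σ ^ m) y) = f ((f ^ m) y)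
          rw [ih]
      have hσp : σ ^ p ^ k = 1 := by
        funext y
        rw [hσ, hf]
        rfl
      have h2 := Equiv.Perm.card_fixedPoints_modEq (f := σ) (p := p) (n := k) hσp
      have h3 : Fintype.card (Function.fixedPoints σ) = Nat.card (Subgroup.center Y) := by
        rw [← Nat.card_eq_fintype_card]
        apply Nat.card_congr
        exact Equiv.subtypeEquivRight fun y => hCZ y
      rw [Nat.card_eq_fintype_card, ← h3]
      exact h2
    -- a noncentral element and a commutator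
    obtain ⟨y0, hy0⟩ : ∃ y0, y0 ∉ Subgroup.center Y := by
      by_contra hcon
      push Not at hcon
      exact hZ (eq_top_iff.mpr fun y _ => hcon y)
    obtain ⟨w0, hw0⟩ : ∃ w0, w0 * y0 ≠ y0 * w0 := by
      by_contra hcon
      push Not at hcon
      exact hy0 (Subgroup.mem_center_iff.mpr hcon)
    have hc1 : y0 * w0 * y0⁻¹ * w0⁻¹ ≠ 1 := by
      intro h
      apply hw0
      have h2 : y0 * w0 * y0⁻¹ = w0 := mul_inv_eq_one.mp h
      exact (mul_inv_eq_iff_eq_mul.mp h2).symm
    obtain ⟨θ, hθ, hcθ, hθc⟩ := exists_constituent_ne hψ hfaith hc1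
    have hθch := IsIrrCharacter.isCharacter hθ
    have hinvθ := constituent_comp_eq hnlt hf hψ h1 hinv hθ hcθ
    -- degree
    obtain ⟨d, hd⟩ := IsCharacter.apply_one hθch
    have hdle : d ≤ n := by
      have h2 := IsCharacter.degree_ge_of_classInner_ne_zero hψ hθ hcθ
      rw [hd, h1] at h2
      simpa using h2
    have hd0 : d ≠ 0 := by
      rintro rfl
      exact IsIrrCharacter.apply_one_ne_zero hθ (by rw [hd]; simp)
    have hd1 : d ≠ 1 := by
      rintro rfl
      have hθ1 : θ 1 = 1 := by rw [hd]; simp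
      obtain ⟨lam, hlam⟩ := IsCharacter.exists_monoidHom hθch hθ1
      apply hθc
      rw [hθ1, hlam]
      simp [map_mul, map_inv, mul_comm]
    -- the subgroup T
    haveI : (charKer θ).Normal := charKer_normal hθch
    let T : Subgroup Y := Subgroup.upperCentralSeriesStep (charKer θ)
    have hTmem : ∀ y, y ∈ T ↔ ∀ w, θ (y * w * y⁻¹ * w⁻¹) = θ 1 := by
      intro y
      rw [show y ∈ T ↔ y ∈ Subgroup.upperCentralSeriesStep (charKer θ) from Iff.rfl,
        Subgroup.mem_upperCentralSeriesStep]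
      refine forall_congr' fun w => ?_
      rw [mem_charKer hθch]
      rfl
    have hTinv : ∀ y ∈ T, f y ∈ T := by
      intro y hy
      rw [hTmem] at hy ⊢
      intro w
      obtain ⟨w', rfl⟩ := f.surjective w
      rw [conj_comm_map, hinvθ]
      exact hy w'
    have hTne : T ≠ ⊤ := by
      intro h
      have : y0 ∈ T := by rw [h]; trivial
      exact hθc ((hTmem y0).mp this w0)
    have hTZ : ∀ y ∈ T, y ∈ Subgroup.center Y := fun y hy => (hCZ y).mp (hIH T hTne hTinv y hy)
    have hzero : ∀ y, y ∉ Subgroup.center Y → θ y = 0 := by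
      intro y hy
      have hyT : y ∉ T := fun h => hy (hTZ y h)
      rw [hTmem] at hyT
      push Not at hyT
      obtain ⟨w, hw⟩ := hyT
      set z := y * w * y⁻¹ * w⁻¹ with hz
      have hzC : z ∈ Subgroup.center Y := hcomm2 y w
      have h2 := apply_mul_of_mem_center hθ hzC y
      have h3 : w⁻¹ * y * w = y * z := by
        have hzw : z * y = y * z := (Subgroup.mem_center_iff.mp hzC y).symm
        rw [← hzw, hz]
        have h4 : w⁻¹ * y * w = w⁻¹ * (y * w * y⁻¹ * w⁻¹) * w * y := by group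
        rw [h4, ← hz]
        have hzw' : z * w = w * z := (Subgroup.mem_center_iff.mp hzC w).symm
        rw [mul_assoc w⁻¹, hzw']
        group
      have h4 : θ (y * z) = θ y := by
        rw [← h3]
        have := IsCharacter.isClassFunction hθch y w⁻¹
        rw [inv_inv] at this
        exact this
      rw [h4] at h2
      have h5 : θ y * (θ 1 - θ z) = 0 := by
        rw [mul_sub, ← h2]
        ring
      rcases mul_eq_zero.mp h5 with h6 | h6
      · exact h6
      · exact absurd (sub_eq_zero.mp h6).symm hw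
    -- the count
    have hsum : (Nat.card (Subgroup.center Y) : ℝ) * (d : ℝ) ^ 2 = Nat.card Y := by
      rw [← sum_norm_sq_irr hθ]
      have h2 : ∀ g : Y, ‖θ g‖ ^ 2 = if g ∈ Subgroup.center Y then (d : ℝ) ^ 2 else 0 := by
        intro g
        split_ifs with hg
        · rw [norm_of_mem_center hθ hg, hd]
          simp
        · rw [hzero g hg]
          simp
      simp only [h2]
      rw [Finset.sum_ite]
      simp only [Finset.sum_const_zero, add_zero, Finset.sum_const, nsmul_eq_mul]
      congr 2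
      rw [Nat.card_eq_fintype_card, Fintype.card_subtype]
    have hsumN : Nat.card (Subgroup.center Y) * d ^ 2 = Nat.card Y := by
      exact_mod_cast hsum
    have hcopZ : Nat.Coprime (Nat.card (Subgroup.center Y)) p :=
      Nat.Coprime.coprime_dvd_left (Dvd.intro _ hsumN) hcop
    have hmod : d ^ 2 ≡ 1 [MOD p] := by
      have h2 : Nat.card (Subgroup.center Y) * d ^ 2 ≡ Nat.card (Subgroup.center Y) * 1 [MOD p] := by
        rw [hsumN, mul_one]
        exact hcount
      exact Nat.ModEq.cancel_left_of_coprime (by rw [Nat.gcd_comm]; exact hcopZ) h2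
    have hpd : p ∣ (d - 1) * (d + 1) := by
      have h2 : (d - 1) * (d + 1) = d ^ 2 - 1 := by
        obtain ⟨e, rfl⟩ : ∃ e, d = e + 1 := ⟨d - 1, by omega⟩
        simp only [Nat.add_sub_cancel]
        have : (e + 1) ^ 2 = e * (e + 1 + 1) + 1 := by ring
        omega
      rw [h2]
      exact (Nat.modEq_iff_dvd' (Nat.one_le_pow _ _ (by omega))).mp hmod.symm
    rcases (Nat.Prime.dvd_mul Fact.out).mp hpd with h2 | h2
    · have := Nat.le_of_dvd (by omega) h2
      omega
    · have := Nat.le_of_dvd (by omega) h2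
      omega

end Qgroup

/-- **Ito-type lemma (abstract form).** -/
theorem ito_abs {p : ℕ} [Fact p.Prime] {k n : ℕ} (hn : n + 1 < p) :
    ∀ (N : ℕ) (Y : Type u) [Group Y] [Finite Y] (f : Y ≃* Y) (ψ : Y → ℂ), Nat.card Y = N → f ^ p ^ k = 1 →
      Nat.Coprime (Nat.card Y) p → IsCharacter Y ψ → (∀ g, ψ g = ψ 1 → g = 1) → ψ 1 = n →
      (∀ g, ψ (f g) = ψ g) → ∀ y, f y = y := by
  intro N
  induction N using Nat.strong_induction_on with
  | _ N ih =>
  intro Y _ _ f ψ hN hf hcop hψ hfaith h1 hinv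
  letI : Fintype Y := Fintype.ofFinite Y
  have hIH : ∀ K : Subgroup Y, K ≠ ⊤ → (∀ y ∈ K, f y ∈ K) → ∀ y ∈ K, f y = y := by
    intro K hK hKf y hy
    have hlt : Nat.card K < N := by
      rw [← hN]
      refine lt_of_le_of_ne (Subgroup.card_le_card_group K) fun h => hK ?_
      exact Subgroup.eq_top_of_card_eq K h
    have hcopK : Nat.Coprime (Nat.card K) p :=
      Nat.Coprime.coprime_dvd_left (Subgroup.card_subgroup_dvd_card K) hcop
    have := ih _ hlt K (restrictAut f K hKf) (ψ ∘ K.subtype) rfl (restrictAut_pow_eq_one hKf hf) hcopK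
      (IsCharacter.comp hψ K.subtype)
      (fun g hg => Subtype.ext (hfaith _ hg)) h1 (fun g => hinv g) ⟨y, hy⟩
    exact congrArg Subtype.val this
  by_contra hne
  let C : Subgroup Y := (f.toMonoidHom).eqLocus (MonoidHom.id Y)
  have hCmem : ∀ y, y ∈ C ↔ f y = y := fun y => Iff.rfl
  have hCne : C ≠ ⊤ := by
    intro h
    apply hne
    intro y
    have : y ∈ C := by rw [h]; trivial
    exact this
  have hA : Nat.Coprime (Nat.card (Subgroup.zpowers f)) (Nat.card Y) := by
    have h2 : Nat.card (Subgroup.zpowers f) ∣ p ^ k := by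
      rw [Nat.card_zpowers]
      exact orderOf_dvd_of_pow_eq_one hf
    exact Nat.Coprime.coprime_dvd_left h2 (Nat.Coprime.pow_left _ hcop.symm)
  have hprime : ∀ q : ℕ, q.Prime → ¬ q ∣ C.index := by
    intro q hq hdvd
    haveI : Fact q.Prime := ⟨hq⟩
    obtain ⟨Q, hQp, hQi, hQinv⟩ := Cfsg.Agent.Lib.Struct.exists_invariant_sylow_abs
      (A := Subgroup.zpowers f) (G := Y) (Subgroup.zpowers f).subtype hA
      (Or.inl inferInstance) q
    have hQf : ∀ y ∈ Q, f y ∈ Q := fun y hy => hQinv ⟨f, Subgroup.mem_zpowers f⟩ y hy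
    by_cases hQ : Q = ⊤
    · have hpg : IsPGroup q Y := by
        subst hQ
        exact hQp.of_equiv Subgroup.topEquiv
      exact hne (ito_qgroup hpg hn hf hcop hψ hfaith h1 hinv hIH)
    · have hle : Q ≤ C := fun y hy => hIH Q hQ hQf y hy
      exact hQi (hdvd.trans (Subgroup.index_dvd_of_le hle))
  have hindex : C.index = 1 := by
    by_contra h
    obtain ⟨q, hq, hd⟩ := Nat.exists_prime_and_dvd h
    exact hprime q hq hd
  exact hCne (Subgroup.index_eq_one.mp hindex)

/-- **Ito-type lemma.** A `p`-element normalizing a `p'`-subgroup centralizes it, when there is a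
faithful character of degree `n` with `n + 1 < p`. -/
theorem ito_core {Γ : Type u} [Group Γ] [Finite Γ] {p : ℕ} [Fact p.Prime] {k n : ℕ} (hn : n + 1 < p)
    {ψ : Γ → ℂ} (hψ : IsCharacter Γ ψ) (hfaith : ∀ g, ψ g = ψ 1 → g = 1) (h1 : ψ 1 = n) {x : Γ}
    (hx : x ^ p ^ k = 1) (Y : Subgroup Γ) (hY : ∀ y ∈ Y, x * y * x⁻¹ ∈ Y)
    (hcop : Nat.Coprime (Nat.card Y) p) : ∀ y ∈ Y, x * y = y * x := by
  intro y hy
  have hY' : ∀ y ∈ Y, MulAut.conj x y ∈ Y := hY
  have hf : (MulAut.conj x) ^ p ^ k = 1 := by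
    rw [← map_pow, hx, map_one]
  have := ito_abs hn _ Y (restrictAut (MulAut.conj x) Y hY') (ψ ∘ Y.subtype) rfl
    (restrictAut_pow_eq_one hY' hf) hcop (IsCharacter.comp hψ Y.subtype)
    (fun g hg => Subtype.ext (hfaith _ hg)) h1
    (fun g => IsCharacter.isClassFunction hψ (g : Γ) x) ⟨y, hy⟩
  have h2 : x * y * x⁻¹ = y := congrArg Subtype.val this
  exact mul_inv_eq_iff_eq_mul.mp h2

end Cfsg.Agent.Lib.Char.FT
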