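import Cfsg.Agent.Lib.Char.BrauerInd3
import Cfsg.Agent.Lib.Char.Constituent
import Cfsg.Agent.Lib.Char.FTIto
import Cfsg.Agent.Lib.Char.ZassSetup

/-!
# Dade's `p`-elementary detection of invariant characters
-/

set_option autoImplicit false
set_option linter.unusedSectionVars false

namespace Cfsg.Agent.Lib.Char.Dade

open Cfsg Cfsg.Agent.Lib.Char
open scoped ComplexConjugate

universe u

/-- An invariant function on a set acted on by a `p`-group whose sum is not divisible by `p` has a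
fixed point with value not divisible by `p`. -/
theorem exists_fixed_of_not_dvd_sum {A X : Type*} [Group A] [Finite A] [Fintype X] [MulAction A X]
    {p : ℕ} [Fact p.Prime] (hA : IsPGroup p A) (f : X → ℕ) (hf : ∀ (a : A) (x : X), f (a • x) = f x)
    (h : ¬ p ∣ ∑ x, f x) : ∃ x, (∀ a : A, a • x = x) ∧ ¬ p ∣ f x := by
  classical
  by_contra hcon
  push Not at hcon
  apply h
  letI : Fintype (MulAction.orbitRel.Quotient A X) := Fintype.ofFinite _
  have h1 : ∑ x, f x = ∑ ω : MulAction.orbitRel.Quotient A X,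
      ∑ y : MulAction.orbit A (Quotient.out ω), f y := by
    rw [← Fintype.sum_sigma' (fun (ω : MulAction.orbitRel.Quotient A X)
      (y : MulAction.orbit A (Quotient.out ω)) => f y)]
    exact Fintype.sum_equiv (MulAction.selfEquivSigmaOrbits A X) _ _ (fun x => rfl)
  rw [h1]
  refine Finset.dvd_sum fun ω _ => ?_
  set z := Quotient.out ω with hz
  have h2 : ∀ y : MulAction.orbit A z, f y = f z := by
    rintro ⟨y, a, rfl⟩
    exact hf a z
  simp only [h2, Finset.sum_const, Finset.card_univ, smul_eq_mul]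
  obtain ⟨n, hn⟩ := hA.card_orbit z
  rw [Nat.card_eq_fintype_card] at hn
  rw [hn]
  rcases Nat.eq_zero_or_pos n with rfl | hpos
  · have hfix : ∀ a : A, a • z = z := by
      intro a
      have h3 : Fintype.card (MulAction.orbit A z) = 1 := by simpa using hn
      have h4 := Fintype.card_le_one_iff.mp h3.le
      have h5 := h4 ⟨a • z, a, rfl⟩ ⟨z, 1, one_smul _ _⟩
      exact congrArg Subtype.val h5
    rw [pow_zero, one_mul]
    exact hcon z hfix
  · exact Dvd.dvd.mul_right (dvd_pow_self p hpos.ne') _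

/-- Orbit argument: a `p`-group of automorphisms, with invariant characters `β`, `φ` and
`⟨φ β, β⟩` prime to `p`, has an invariant constituent of `β` of multiplicity prime to `p`. -/
theorem exists_invariant_constituent {D A : Type u} [Group D] [Fintype D] [Group A] [Finite A]
    {p : ℕ} [Fact p.Prime] (hA : IsPGroup p A) (α : A →* MulAut D) {β φ : D → ℂ}
    (hβ : IsCharacter D β) (hφ : IsCharacter D φ) (hβinv : ∀ a d, β (α a d) = β d)
    (hφinv : ∀ a d, φ (α a d) = φ d) {t : ℕ} (ht : classInner (fun d => φ d * β d) β = t)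
    (hpt : ¬ p ∣ t) :
    ∃ σ, IsIrrCharacter D σ ∧ (∀ a d, σ (α a d) = σ d) ∧ ∃ m : ℕ, ¬ p ∣ m ∧ classInner β σ = m := by
  classical
  letI act : MulAction A (IrrCharacter D) :=
    { smul := fun a σ => ⟨σ.1 ∘ (α a⁻¹), IsIrrCharacter.comp_mulEquiv σ.2 (α a⁻¹)⟩
      one_smul := fun σ => by
        apply Subtype.ext
        funext d
        show σ.1 ((α 1⁻¹) d) = σ.1 d
        simp
      mul_smul := fun a b σ => by
        apply Subtype.ext
        funext d
        show σ.1 ((α (a * b)⁻¹) d) = σ.1 ((α b⁻¹) ((α a⁻¹) d))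
        rw [mul_inv_rev, map_mul]
        rfl }
  have hsmul : ∀ (a : A) (σ : IrrCharacter D), ((a • σ : IrrCharacter D) : D → ℂ) = σ.1 ∘ (α a⁻¹) :=
    fun _ _ => rfl
  obtain ⟨m, hm, hs⟩ := IsCharacter.exists_eq_sum hβ
  have hbex : ∀ σ : IrrCharacter D, ∃ b : ℕ, classInner (fun d => φ d * (σ : D → ℂ) d) β = b := fun σ =>
    IsCharacter.classInner_nat (IsCharacter.mul hφ (IsIrrCharacter.isCharacter σ.2)) hβ
  choose b hb using hbex
  have hsum : t = ∑ σ : IrrCharacter D, m σ * b σ := by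
    have h1 : (fun d => φ d * β d) = ∑ σ : IrrCharacter D, m σ • (fun d => φ d * (σ : D → ℂ) d) := by
      funext d
      conv_lhs => rw [hs]
      simp only [Finset.sum_apply, Finset.mul_sum]
      refine Finset.sum_congr rfl fun σ _ => ?_
      simp only [Pi.smul_apply]
      simp only [nsmul_eq_mul]
      ring
    have h2 : (t : ℂ) = ∑ σ : IrrCharacter D, ((m σ * b σ : ℕ) : ℂ) := by
      rw [← ht, h1, classInner_sum_left]
      refine Finset.sum_congr rfl fun σ _ => ?_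
      rw [← Nat.cast_smul_eq_nsmul ℂ, classInner_smul_left, hb]
      push_cast
      ring
    exact_mod_cast h2
  have hminv : ∀ (a : A) (σ : IrrCharacter D), m (a • σ) = m σ := by
    intro a σ
    have h1 : (m (a • σ) : ℂ) = m σ := by
      rw [← hm, ← hm, hsmul]
      have h2 := classInner_comp_mulEquiv (α a⁻¹) β (σ : D → ℂ)
      rw [← h2]
      congr 1
      funext d
      exact (hβinv a⁻¹ d).symm
    exact_mod_cast h1
  have hbinv : ∀ (a : A) (σ : IrrCharacter D), b (a • σ) = b σ := by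
    intro a σ
    have h1 : (b (a • σ) : ℂ) = b σ := by
      rw [← hb, ← hb, hsmul]
      have h2 := classInner_comp_mulEquiv (α a⁻¹) (fun d => φ d * (σ : D → ℂ) d) β
      rw [← h2]
      congr 1
      · funext d
        simp only [Function.comp_apply]
        rw [hφinv]
      · funext d
        exact (hβinv a⁻¹ d).symm
    exact_mod_cast h1
  obtain ⟨σ, hfix, hσ⟩ := exists_fixed_of_not_dvd_sum hA (fun σ => m σ * b σ)
    (fun a σ => by simp only [hminv, hbinv]) (by rw [← hsum]; exact hpt)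
  refine ⟨σ, σ.2, ?_, m σ, ?_, hm σ⟩
  · intro a d
    have h1 := hfix a⁻¹
    have h2 := congrArg (fun τ : IrrCharacter D => (τ : D → ℂ) d) h1
    simp only [hsmul, inv_inv] at h2
    exact h2
  · intro h
    exact hσ (Dvd.dvd.mul_right h _)

section Main

variable {G : Type u} [Group G] [Fintype G] (N : Subgroup G) [hN : N.Normal] (ϑ : N → ℂ)

/-- The function `|ϑ|²` extended by zero. -/
noncomputable def Th : G → ℂ := fun g => extendByZero N ϑ g * conj (extendByZero N ϑ g)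

theorem Th_of_notMem {g : G} (hg : g ∉ N) : Th N ϑ g = 0 := by
  simp [Th, extendByZero_of_notMem N ϑ hg]

theorem Th_of_mem {g : G} (hg : g ∈ N) : Th N ϑ g = ϑ ⟨g, hg⟩ * conj (ϑ ⟨g, hg⟩) := by
  simp [Th, extendByZero_of_mem N ϑ hg]

theorem conj_Th (g : G) : conj (Th N ϑ g) = Th N ϑ g := by
  simp [Th, mul_comm]

theorem Th_class (hinv : ∀ (g : G) (n : N), ϑ ⟨g * n * g⁻¹, hN.conj_mem (n : G) n.2 g⟩ = ϑ n) :
    IsClassFunction G (Th N ϑ) := by
  intro g x
  by_cases hg : g ∈ N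
  · have h2 : x * g * x⁻¹ ∈ N := hN.conj_mem g hg x
    rw [Th_of_mem N ϑ h2, Th_of_mem N ϑ hg]
    have := hinv x ⟨g, hg⟩
    simp only at this
    rw [this]
  · have h2 : x * g * x⁻¹ ∉ N := by
      intro h
      apply hg
      have h3 := hN.conj_mem _ h x⁻¹
      have h4 : x⁻¹ * (x * g * x⁻¹) * x⁻¹⁻¹ = g := by group
      rwa [h4] at h3
    rw [Th_of_notMem N ϑ h2, Th_of_notMem N ϑ hg]

theorem sum_Th [Fintype N] (hϑ : IsIrrCharacter N ϑ) : ∑ g : G, Th N ϑ g = Nat.card N := by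
  have h1 : ∑ g : G, Th N ϑ g = ∑ n : N, ϑ n * conj (extendByZero N ϑ n) :=
    sum_extendByZero_mul N ϑ (fun g => conj (extendByZero N ϑ g))
  rw [h1]
  have h2 := classInner_irr_self hϑ
  simp only [classInner] at h2
  have hcard : (Nat.card N : ℂ) ≠ 0 := by exact_mod_cast Nat.card_pos.ne'
  have h3 : ∑ n : N, ϑ n * conj (ϑ n) = Nat.card N := by
    field_simp at h2
    exact h2
  rw [← h3]
  refine Finset.sum_congr rfl fun n _ => ?_
  rw [extendByZero_coe]

/-- The contribution of one `p`-elementary subgroup. -/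
theorem term_eq (hinv : ∀ (g : G) (n : N), ϑ ⟨g * n * g⁻¹, hN.conj_mem (n : G) n.2 g⟩ = ϑ n)
    (hϑ : IsIrrCharacter N ϑ) (E : Subgroup G) [Fintype E] [Fintype ↥(E ⊓ N)] {φ : E → ℂ}
    (hφ : IsCharacter E φ) :
    ∃ w t : ℕ, w * N.relIndex E = N.index ∧
      classInner (fun d : ↥(E ⊓ N) => φ ⟨d, d.2.1⟩ * ϑ ⟨d, d.2.2⟩) (fun d : ↥(E ⊓ N) => ϑ ⟨d, d.2.2⟩) = t ∧
      (N.index : ℂ) * classInner (indFun E φ) (Th N ϑ) = ((w * t : ℕ) : ℂ) := by
  classical
  have hφD : IsCharacter ↥(E ⊓ N) (fun d : ↥(E ⊓ N) => φ ⟨d, d.2.1⟩) :=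
    IsCharacter.comp hφ (Subgroup.inclusion inf_le_left)
  have hβD : IsCharacter ↥(E ⊓ N) (fun d : ↥(E ⊓ N) => ϑ ⟨d, d.2.2⟩) :=
    IsCharacter.comp (IsIrrCharacter.isCharacter hϑ) (Subgroup.inclusion inf_le_right)
  obtain ⟨t, ht⟩ := IsCharacter.classInner_nat (IsCharacter.mul hφD hβD) hβD
  obtain ⟨w, hw⟩ : N.relIndex E ∣ N.index := Subgroup.relIndex_dvd_index_of_normal N E
  refine ⟨w, t, by rw [hw, mul_comm], ht, ?_⟩
  rw [classInner_indFun_left E φ _ (Th_class N ϑ hinv)]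
  have hsum : ∑ e : E, φ e * conj (Th N ϑ e) = ∑ d : ↥(E ⊓ N), φ ⟨d, d.2.1⟩ * ϑ ⟨d, d.2.2⟩ * conj (ϑ ⟨d, d.2.2⟩) := by
    have h1 := Cfsg.Agent.Lib.Char.Zass.sum_subgroup_of_support (K := E ⊓ N) (L := E) inf_le_left
      (fun g => extendByZero E φ g * Th N ϑ g) (by
        intro g hg hgn
        have : g ∉ N := fun h => hgn ⟨hg, h⟩
        rw [Th_of_notMem N ϑ this, mul_zero])
    simp only [extendByZero_coe] at h1
    have h2 : ∀ e : E, φ e * conj (Th N ϑ e) = φ e * Th N ϑ e := fun e => by rw [conj_Th]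
    simp only [h2]
    rw [h1]
    refine Finset.sum_congr rfl fun d _ => ?_
    rw [extendByZero_of_mem E φ d.2.1, Th_of_mem N ϑ d.2.2, mul_assoc]
  have hcardE : Nat.card E = Nat.card ↥(E ⊓ N) * N.relIndex E := by
    have h1 : Nat.card (N.subgroupOf E) = Nat.card ↥(E ⊓ N) := by
      have h2 : Nat.card ((N.subgroupOf E).map E.subtype) = Nat.card (N.subgroupOf E) :=
        Subgroup.card_map_of_injective E.subtype_injective
      rw [Subgroup.subgroupOf_map_subtype, inf_comm] at h2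
      exact h2.symm
    rw [← h1]
    exact (Subgroup.card_mul_index (N.subgroupOf E)).symm
  have ht' : ∑ d : ↥(E ⊓ N), φ ⟨d, d.2.1⟩ * ϑ ⟨d, d.2.2⟩ * conj (ϑ ⟨d, d.2.2⟩) =
      (Nat.card ↥(E ⊓ N) : ℂ) * t := by
    rw [← ht, classInner, ← mul_assoc, mul_inv_cancel₀ (by exact_mod_cast Nat.card_pos.ne'), one_mul]
    rfl
  have hD : (Nat.card ↥(E ⊓ N) : ℂ) ≠ 0 := by exact_mod_cast Nat.card_pos.ne'
  have hi : (N.relIndex E : ℂ) ≠ 0 := by
    have : N.relIndex E ≠ 0 := fun h => by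
      have h2 := Nat.card_pos (α := E)
      rw [hcardE, h, mul_zero] at h2
      exact lt_irrefl _ h2
    exact_mod_cast this
  show (N.index : ℂ) * ((Nat.card E : ℂ)⁻¹ * ∑ e : E, φ e * conj (Th N ϑ e)) = _
  rw [hsum, ht', hcardE, hw]
  push_cast
  field_simp

/-- There is a `p`-elementary subgroup covering `G/N` with `⟨φ ϑ, ϑ⟩` prime to `p`. -/
theorem exists_elementary (p : ℕ) (hp : p.Prime) (hind : ∃ k : ℕ, N.index = p ^ k)
    (hϑ : IsIrrCharacter N ϑ)
    (hinv : ∀ (g : G) (n : N), ϑ ⟨g * n * g⁻¹, hN.conj_mem (n : G) n.2 g⟩ = ϑ n)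
    [∀ H : Subgroup G, Fintype H] :
    ∃ (E : Subgroup G) (φ : E → ℂ) (t : ℕ), IsElementary p E ∧ IsCharacter E φ ∧ N.relIndex E = N.index ∧
      classInner (fun d : ↥(E ⊓ N) => φ ⟨d, d.2.1⟩ * ϑ ⟨d, d.2.2⟩) (fun d : ↥(E ⊓ N) => ϑ ⟨d, d.2.2⟩) = t ∧
      ¬ p ∣ t := by
  classical
  haveI : Fact p.Prime := ⟨hp⟩
  obtain ⟨k, hk⟩ := hind
  obtain ⟨m, hm, hmem⟩ := exists_const_mem_elemClosure (G := G) hp
  obtain ⟨l, hl, heq⟩ := exists_list_of_mem_elemClosure hmem
  by_contra hcon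
  push Not at hcon
  -- each term is an integer divisible by `p`
  have hterm : ∀ t ∈ l, ∃ n : ℤ, (p : ℤ) ∣ n ∧ (N.index : ℂ) * classInner (indFun t.1 t.2.1) (Th N ϑ) = n := by
    intro t ht
    obtain ⟨w, s, hw, hs, hval⟩ := term_eq N ϑ hinv hϑ t.1 (hl t ht).2
    refine ⟨((w * s : ℕ) : ℤ), ?_, by rw [hval]; simp⟩
    by_contra hnd
    have hnd' : ¬ p ∣ w * s := fun h => hnd (by exact_mod_cast h)
    have hw1 : w = 1 := by
      have h1 : w ∣ p ^ k := ⟨N.relIndex t.1, by rw [← hk, ← hw]⟩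
      obtain ⟨j, _, rfl⟩ := (Nat.dvd_prime_pow hp).mp h1
      rcases Nat.eq_zero_or_pos j with rfl | hj
      · simp
      · exact absurd (Dvd.dvd.mul_right (dvd_pow_self p hj.ne') s) hnd'
    have hi : N.relIndex t.1 = N.index := by
      rw [← hw, hw1, one_mul]
    subst hw1
    rw [one_mul] at hnd'
    exact hnd' (hcon t.1 t.2.1 s (hl t ht).1 (hl t ht).2 hi hs)
  -- the sum
  have hsum : ∀ l' : List ((E : Subgroup G) × ((E → ℂ) × ℤ)), (∀ t ∈ l', ∃ n : ℤ, (p : ℤ) ∣ n ∧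
      (N.index : ℂ) * classInner (indFun t.1 t.2.1) (Th N ϑ) = n) →
      ∃ n : ℤ, (p : ℤ) ∣ n ∧ (N.index : ℂ) * classInner
        ((l'.map fun t => (t.2.2 : ℂ) • indFun t.1 t.2.1).sum) (Th N ϑ) = n := by
    intro l'
    induction l' with
    | nil =>
      intro _
      refine ⟨0, dvd_zero _, ?_⟩
      simp only [List.map_nil, List.sum_nil, Int.cast_zero]
      rw [show (0 : G → ℂ) = 0 from rfl, classInner_zero_left, mul_zero]
    | cons a l' ih =>
      intro hall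
      obtain ⟨n₁, hn₁, h₁⟩ := hall a (List.mem_cons_self)
      obtain ⟨n₂, hn₂, h₂⟩ := ih (fun t ht => hall t (List.mem_cons_of_mem _ ht))
      refine ⟨a.2.2 * n₁ + n₂, dvd_add (Dvd.dvd.mul_left hn₁ _) hn₂, ?_⟩
      simp only [List.map_cons, List.sum_cons]
      rw [classInner_add_left, classInner_smul_left, mul_add, h₂]
      push_cast
      rw [← h₁]
      ring
  obtain ⟨n, hn, hval⟩ := hsum l hterm
  rw [← heq] at hval
  -- the left hand side
  have hleft : (N.index : ℂ) * classInner (fun _ : G => (m : ℂ)) (Th N ϑ) = m := by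
    have h1 : ∑ g : G, (m : ℂ) * conj (Th N ϑ g) = m * Nat.card N := by
      simp only [conj_Th]
      rw [← Finset.mul_sum, sum_Th N ϑ hϑ]
    have h2 : Nat.card G = N.index * Nat.card N := by
      rw [mul_comm]
      exact (Subgroup.card_mul_index N).symm
    have hN0 : (Nat.card N : ℂ) ≠ 0 := by exact_mod_cast Nat.card_pos.ne'
    have hi0 : (N.index : ℂ) ≠ 0 := by
      rw [hk]
      have : p ^ k ≠ 0 := pow_ne_zero _ hp.ne_zero
      exact_mod_cast this
    rw [classInner, h1, h2]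
    push_cast
    field_simp
  rw [hleft] at hval
  have h3 : m = n := by exact_mod_cast hval
  rw [h3] at hm
  exact hm hn

/-- **Dade's theorem.** -/
theorem dade_main (p : ℕ) (hp : p.Prime) (hind : ∃ k : ℕ, N.index = p ^ k)
    (hϑ : IsIrrCharacter N ϑ)
    (hinv : ∀ (g : G) (n : N), ϑ ⟨g * n * g⁻¹, hN.conj_mem (n : G) n.2 g⟩ = ϑ n) :
    ∃ (E : Subgroup G) (φ : ↥(E ⊓ N) → ℂ), IsElementary p E ∧ E ⊔ N = ⊤ ∧ IsIrrCharacter ↥(E ⊓ N) φ ∧
      (∀ (g : G) (hg : g ∈ E) (x : ↥(E ⊓ N)), φ ⟨g * x * g⁻¹,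
        ⟨(E.mul_mem (E.mul_mem hg x.2.1) (E.inv_mem hg)), hN.conj_mem (x : G) x.2.2 g⟩⟩ = φ x) ∧
      ∃ m : ℕ, ¬ p ∣ m ∧ (Nat.card ↥(E ⊓ N) : ℂ)⁻¹ * ∑ᶠ x : ↥(E ⊓ N), ϑ ⟨(x : G), x.2.2⟩ * conj (φ x) = (m : ℂ) := by
  classical
  haveI : Fact p.Prime := ⟨hp⟩
  letI hfin : ∀ H : Subgroup G, Fintype H := fun H => Fintype.ofFinite H
  obtain ⟨E, φ, t, hEl, hφ, hi, ht, hpt⟩ := exists_elementary N ϑ p hp hind hϑ hinv
  obtain ⟨k, hk⟩ := hind
  -- `E` covers `G / N`
  have hsup : E ⊔ N = ⊤ := by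
    have h1 := Subgroup.relIndex_mul_index (H := N) (K := E ⊔ N) le_sup_right
    rw [Subgroup.relIndex_sup_right, hi] at h1
    have h2 : N.index ≠ 0 := by
      rw [hk]
      exact pow_ne_zero _ hp.ne_zero
    have h3 : (E ⊔ N).index = 1 := by
      apply Nat.eq_of_mul_eq_mul_left (Nat.pos_of_ne_zero h2)
      rw [h1, mul_one]
    exact Subgroup.index_eq_one.mp h3
  -- the central part and the Sylow part of `E`
  obtain ⟨x₀, hx₀, hx₀c, a, ha⟩ := hEl
  obtain ⟨Q⟩ : Nonempty (Sylow p E) := inferInstance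
  let C : Subgroup E := Subgroup.zpowers x₀
  have hCZ : ∀ c ∈ C, c ∈ Subgroup.center E := fun c hc =>
    (Subgroup.zpowers_le.mpr hx₀) hc
  haveI hCn : C.Normal := by
    constructor
    intro n hn g
    have h1 := Subgroup.mem_center_iff.mp (hCZ n hn) g
    have h2 : g * n * g⁻¹ = n := by
      rw [h1]
      group
    rw [h2]
    exact hn
  have hsupCQ : C ⊔ (Q : Subgroup E) = ⊤ := by
    apply Subgroup.index_eq_one.mp
    have h2 : (C ⊔ (Q : Subgroup E)).index ∣ p ^ a := by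
      rw [← ha]
      exact Subgroup.index_dvd_of_le le_sup_left
    have h3 : (C ⊔ (Q : Subgroup E)).index ∣ (Q : Subgroup E).index :=
      Subgroup.index_dvd_of_le le_sup_right
    have hcop : Nat.Coprime (p ^ a) (Q : Subgroup E).index :=
      Nat.Coprime.pow_left _ ((Nat.Prime.coprime_iff_not_dvd hp).mpr Q.not_dvd_index)
    exact Nat.eq_one_of_dvd_coprimes hcop h2 h3
  have hdecomp : ∀ g : E, ∃ c ∈ C, ∃ q ∈ (Q : Subgroup E), c * q = g := by
    intro g
    have h1 : g ∈ ((C ⊔ (Q : Subgroup E) : Subgroup E) : Set E) := by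
      rw [hsupCQ]
      trivial
    rw [Subgroup.normal_mul] at h1
    obtain ⟨c, hc, q, hq, hcq⟩ := Set.mem_mul.mp h1
    exact ⟨c, hc, q, hq, hcq⟩
  -- the central part lies in `N`
  have hx₀N : (x₀ : G) ∈ N := by
    have h1 : (x₀ : G) ^ N.index ∈ N := Subgroup.pow_index_mem N _
    rw [hk] at h1
    have h2 : Nat.Coprime (p ^ k) (orderOf (x₀ : G)) := by
      rw [Subgroup.orderOf_coe]
      exact Nat.Coprime.pow_left _ hx₀c.symm
    obtain ⟨b, hb⟩ := exists_pow_eq_self_of_coprime h2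
    rw [← hb]
    exact Subgroup.pow_mem _ h1 _
  have hCN : ∀ c ∈ C, ((c : E) : G) ∈ N := by
    intro c hc
    obtain ⟨z, rfl⟩ := Subgroup.mem_zpowers_iff.mp hc
    simpa using Subgroup.zpow_mem _ hx₀N z
  -- the action
  have hDinv : ∀ (g : E), ∀ y ∈ E ⊓ N, MulAut.conj (g : G) y ∈ E ⊓ N := by
    intro g y hy
    exact ⟨E.mul_mem (E.mul_mem g.2 hy.1) (E.inv_mem g.2), hN.conj_mem y hy.2 g⟩
  let α : (Q : Subgroup E) →* MulAut ↥(E ⊓ N) :=
    { toFun := fun q => FT.restrictAut (MulAut.conj ((q : E) : G)) (E ⊓ N) (hDinv q)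
      map_one' := by
        ext d
        simp
      map_mul' := fun a b => by
        ext d
        simp }
  have hαv : ∀ (q : (Q : Subgroup E)) (d : ↥(E ⊓ N)), ((α q d : ↥(E ⊓ N)) : G) = ((q : E) : G) * d * ((q : E) : G)⁻¹ :=
    fun _ _ => rfl
  have hφD : IsCharacter ↥(E ⊓ N) (fun d : ↥(E ⊓ N) => φ ⟨d, d.2.1⟩) :=
    IsCharacter.comp hφ (Subgroup.inclusion inf_le_left)
  have hβD : IsCharacter ↥(E ⊓ N) (fun d : ↥(E ⊓ N) => ϑ ⟨d, d.2.2⟩) :=
    IsCharacter.comp (IsIrrCharacter.isCharacter hϑ) (Subgroup.inclusion inf_le_right)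
  obtain ⟨σ, hσ, hσinv, m, hm, hmv⟩ := exists_invariant_constituent Q.2 α hβD hφD
    (fun q d => hinv ((q : E) : G) ⟨d, d.2.2⟩)
    (fun q d => IsCharacter.isClassFunction hφ ⟨d, d.2.1⟩ (q : E)) ht hpt
  refine ⟨E, σ, ⟨x₀, hx₀, hx₀c, a, ha⟩, hsup, hσ, ?_, m, hm, ?_⟩
  · intro g hg x
    obtain ⟨c, hc, q, hq, hcq⟩ := hdecomp ⟨g, hg⟩
    have hgv : g = ((c : E) : G) * ((q : E) : G) := by
      have := congrArg Subtype.val hcq
      exact this.symm
    have hcD : ((c : E) : G) ∈ E ⊓ N := ⟨c.2, hCN c hc⟩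
    have h1 := IsCharacter.isClassFunction (IsIrrCharacter.isCharacter hσ) (α ⟨q, hq⟩ x) ⟨_, hcD⟩
    rw [hσinv] at h1
    rw [← h1]
    congr 1
    apply Subtype.ext
    show g * x * g⁻¹ = ((c : E) : G) * (((q : E) : G) * x * ((q : E) : G)⁻¹) * ((c : E) : G)⁻¹
    rw [hgv]
    group
  · rw [finsum_eq_sum_of_fintype]
    exact hmv

end Main

end Cfsg.Agent.Lib.Char.Dade
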