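import Cfsg.Agent.Lib.Char.Dade
import Cfsg.Agent.Lib.Char.Triple

/-!
# Extension of invariant characters from Dade's theorem
-/

set_option autoImplicit false
set_option linter.unusedSectionVars false

namespace Cfsg.Agent.Lib.Char.Dade

open Cfsg Cfsg.Agent.Lib.Char Cfsg.Agent.Lib.Char.Triple Module
open scoped ComplexConjugate

universe u

theorem ext_lin_of_comm {A : Type*} [Group A] [Finite A] (hc : ∀ a b : A, a * b = b * a)
    (H : Subgroup A) (β : H →* ℂˣ) : ∃ β' : A →* ℂˣ, ∀ x : H, β' x = β x := by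
  letI : CommGroup A := { (inferInstance : Group A) with mul_comm := hc }
  obtain ⟨ψ, hψ⟩ := MonoidHom.domRestrict_surjective (M := ℂ) H β
  refine ⟨ψ, fun x => ?_⟩
  rw [← hψ]
  rfl

/-- Gluing a homomorphism on a supplement with an invariant linear character of a normal subgroup. -/
theorem glue_lin {Γ : Type*} [Group Γ] (B H : Subgroup Γ) [hB : B.Normal] (ι : B →* ℂˣ)
    (hinv : ∀ (γ : Γ) (x : B), ι ⟨γ * x * γ⁻¹, hB.conj_mem x x.2 γ⟩ = ι x)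
    (hdec : ∀ γ : Γ, ∃ h ∈ H, ∃ b ∈ B, h * b = γ) (ϕ : H →* ℂˣ)
    (hϕ : ∀ (x : Γ) (hxH : x ∈ H) (hxB : x ∈ B), ϕ ⟨x, hxH⟩ = ι ⟨x, hxB⟩) :
    ∃ μ : Γ →* ℂˣ, ∀ x : B, μ x = ι x := by
  choose h hh b hb hγ using hdec
  have key : ∀ (γ : Γ) (h' : Γ) (hh' : h' ∈ H) (b' : Γ) (hb' : b' ∈ B), h' * b' = γ →
      ϕ ⟨h γ, hh γ⟩ * ι ⟨b γ, hb γ⟩ = ϕ ⟨h', hh'⟩ * ι ⟨b', hb'⟩ := by
    intro γ h' hh' b' hb' he
    have h1 : h'⁻¹ * h γ = b' * (b γ)⁻¹ := by
      have h0 := hγ γ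
      rw [← he] at h0
      calc h'⁻¹ * h γ = h'⁻¹ * (h (h' * b') * b (h' * b')) * (b γ)⁻¹ := by
            subst he
            group
        _ = h'⁻¹ * (h' * b') * (b γ)⁻¹ := by rw [h0]
        _ = b' * (b γ)⁻¹ := by group
    have hH : h'⁻¹ * h γ ∈ H := H.mul_mem (H.inv_mem hh') (hh γ)
    have hBm : h'⁻¹ * h γ ∈ B := by
      rw [h1]
      exact B.mul_mem hb' (B.inv_mem (hb γ))
    have h2 := hϕ _ hH hBm
    have h3 : (⟨h'⁻¹ * h γ, hH⟩ : H) = (⟨h', hh'⟩ : H)⁻¹ * ⟨h γ, hh γ⟩ := rfl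
    have h4 : (⟨h'⁻¹ * h γ, hBm⟩ : B) = ⟨b', hb'⟩ * (⟨b γ, hb γ⟩ : B)⁻¹ := Subtype.ext h1
    rw [h3, h4, map_mul, map_mul, map_inv, map_inv] at h2
    have h5 : ϕ ⟨h γ, hh γ⟩ = ϕ ⟨h', hh'⟩ * (ι ⟨b', hb'⟩ * (ι ⟨b γ, hb γ⟩)⁻¹) := by
      rw [← h2, mul_inv_cancel_left]
    rw [h5, mul_assoc, mul_assoc, inv_mul_cancel, mul_one]
  let μ : Γ →* ℂˣ := MonoidHom.mk' (fun γ => ϕ ⟨h γ, hh γ⟩ * ι ⟨b γ, hb γ⟩) (by
    intro x y
    have hb2 : (h y)⁻¹ * b x * (h y) * b y ∈ B := by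
      apply B.mul_mem _ (hb y)
      have := hB.conj_mem _ (hb x) (h y)⁻¹
      rwa [inv_inv] at this
    have he : (h x * h y) * ((h y)⁻¹ * b x * (h y) * b y) = x * y := by
      conv_rhs => rw [← hγ x, ← hγ y]
      group
    have h1 := key (x * y) (h x * h y) (H.mul_mem (hh x) (hh y)) _ hb2 he
    rw [h1]
    have hb3 : (h y)⁻¹ * b x * (h y) ∈ B := by
      have := hB.conj_mem _ (hb x) (h y)⁻¹
      rwa [inv_inv] at this
    have h2 : (⟨h x * h y, H.mul_mem (hh x) (hh y)⟩ : H) = ⟨h x, hh x⟩ * ⟨h y, hh y⟩ := rfl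
    have h3 : (⟨(h y)⁻¹ * b x * (h y) * b y, hb2⟩ : B) = ⟨_, hb3⟩ * ⟨b y, hb y⟩ := rfl
    have h4 := hinv (h y)⁻¹ ⟨b x, hb x⟩
    simp only [inv_inv] at h4
    rw [h2, h3, map_mul, map_mul, h4]
    simp only [mul_assoc, mul_comm, mul_left_comm])
  refine ⟨μ, fun x => ?_⟩
  have h1 := key (x : Γ) 1 H.one_mem (x : Γ) x.2 (one_mul _)
  show ϕ ⟨h x, hh x⟩ * ι ⟨b x, hb x⟩ = ι x
  rw [h1]
  have h2 : (⟨1, H.one_mem⟩ : H) = 1 := rfl
  rw [h2, map_one, one_mul]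

section Eigen

variable {D : Type*} [Group D] [Fintype D] {V : Type*} [AddCommGroup V] [Module ℂ V]
  [FiniteDimensional ℂ V]

/-- The `lam`-eigenspace of a representation. -/
def eigenSub (τ : Representation ℂ D V) (lam : D →* ℂˣ) : Submodule ℂ V where
  carrier := {v | ∀ y, τ y v = (lam y : ℂ) • v}
  add_mem' := by
    intro a b ha hb y
    rw [map_add, ha y, hb y, smul_add]
  zero_mem' := by
    intro y
    simp
  smul_mem' := by
    intro c v hv y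
    rw [map_smul, hv y, smul_comm]

theorem mem_eigenSub {τ : Representation ℂ D V} {lam : D →* ℂˣ} {v : V} :
    v ∈ eigenSub τ lam ↔ ∀ y, τ y v = (lam y : ℂ) • v := Iff.rfl

theorem conj_lam (lam : D →* ℂˣ) (y : D) : conj (lam y : ℂ) = ((lam y : ℂ))⁻¹ := by
  have h1 : ((lam y : ℂ)) ^ Nat.card D = 1 := by
    rw [← Units.val_pow_eq_pow_val, ← map_pow, pow_card_eq_one']
    simp
  have h2 : ‖(lam y : ℂ)‖ = 1 := Complex.norm_eq_one_of_pow_eq_one h1 Nat.card_pos.ne'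
  exact (Complex.inv_eq_conj h2).symm

theorem finrank_eigenSub (τ : Representation ℂ D V) (lam : D →* ℂˣ) {m : ℕ}
    (h : (Nat.card D : ℂ)⁻¹ * ∑ y, τ.character y * conj (lam y : ℂ) = m) :
    finrank ℂ (eigenSub τ lam) = m := by
  classical
  have hc : (Nat.card D : ℂ) ≠ 0 := by exact_mod_cast Nat.card_pos.ne'
  let e : V →ₗ[ℂ] V := (Nat.card D : ℂ)⁻¹ • ∑ y, ((lam y : ℂ))⁻¹ • τ y
  have he : ∀ v, e v = (Nat.card D : ℂ)⁻¹ • ∑ y, ((lam y : ℂ))⁻¹ • τ y v := by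
    intro v
    simp [e, LinearMap.sum_apply]
  have hproj : LinearMap.IsProj (eigenSub τ lam) e := by
    constructor
    · intro v z
      rw [he, map_smul, map_sum, smul_comm]
      congr 1
      rw [Finset.smul_sum]
      refine Fintype.sum_equiv (Equiv.mulLeft z) _ _ fun y => ?_
      simp only [Equiv.coe_mulLeft, map_mul, Units.val_mul, map_smul]
      rw [smul_smul]
      congr 1
      · have h0 : (lam z : ℂ) ≠ 0 := (lam z).ne_zero
        have h1 : (lam y : ℂ) ≠ 0 := (lam y).ne_zero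
        field_simp
    · intro v hv
      rw [he]
      have h1 : ∀ y, ((lam y : ℂ))⁻¹ • τ y v = v := by
        intro y
        rw [hv y, smul_smul, inv_mul_cancel₀ (lam y).ne_zero, one_smul]
      simp only [h1]
      rw [Finset.sum_const, Finset.card_univ, ← Nat.card_eq_fintype_card, ← Nat.cast_smul_eq_nsmul ℂ,
        smul_smul, inv_mul_cancel₀ hc, one_smul]
  have htrace := hproj.trace
  have h2 : LinearMap.trace ℂ V e = m := by
    rw [← h]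
    simp only [e, map_smul, map_sum, smul_eq_mul]
    congr 1
    refine Finset.sum_congr rfl fun y _ => ?_
    rw [conj_lam, mul_comm]
    rfl
  rw [h2] at htrace
  exact_mod_cast htrace.symm

/-- The determinant on an invariant subspace. -/
noncomputable def restrHom {H₁ : Type*} [Group H₁] (W : Submodule ℂ V) (U : H₁ →* (Module.End ℂ V)ˣ)
    (hU : ∀ x, ∀ v ∈ W, (U x : Module.End ℂ V) v ∈ W) : H₁ →* Module.End ℂ W where
  toFun := fun x => (U x : Module.End ℂ V).restrict (hU x)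
  map_one' := by
    ext v
    simp
  map_mul' := fun a b => by
    ext v
    simp

noncomputable def detOn {H₁ : Type*} [Group H₁] (W : Submodule ℂ V) (U : H₁ →* (Module.End ℂ V)ˣ)
    (hU : ∀ x, ∀ v ∈ W, (U x : Module.End ℂ V) v ∈ W) : H₁ →* ℂˣ :=
  MonoidHom.toHomUnits ((LinearMap.det : Module.End ℂ W →* ℂ).comp (restrHom W U hU))

theorem detOn_val_of_smul {H₁ : Type*} [Group H₁] (W : Submodule ℂ V) (U : H₁ →* (Module.End ℂ V)ˣ)
    (hU : ∀ x, ∀ v ∈ W, (U x : Module.End ℂ V) v ∈ W) (x : H₁) (c : ℂ)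
    (h : ∀ v ∈ W, (U x : Module.End ℂ V) v = c • v) :
    (detOn W U hU x : ℂ) = c ^ finrank ℂ W := by
  have h1 : restrHom W U hU x = c • (LinearMap.id : W →ₗ[ℂ] W) := by
    ext v
    show (U x : Module.End ℂ V) v = _
    rw [h v v.2]
    rfl
  show LinearMap.det (restrHom W U hU x) = _
  rw [h1, LinearMap.det_smul, LinearMap.det_id, mul_one]

end Eigen

section Group

variable {G : Type u} [Group G] [Finite G] {p : ℕ} [Fact p.Prime] (N : Subgroup G) [hN : N.Normal]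

/-- Transport of the hypotheses to any Sylow subgroup. -/
theorem hcent_smul (P : Sylow p G)
    (hcent : ∀ x ∈ (P : Subgroup G) ⊓ N, ∀ y ∈ (P : Subgroup G), x * y = y * x) (g : G) :
    ∀ x ∈ ((g • P : Sylow p G) : Subgroup G) ⊓ N, ∀ y ∈ ((g • P : Sylow p G) : Subgroup G), x * y = y * x := by
  have hS : ((g • P : Sylow p G) : Subgroup G) = (P : Subgroup G).map (MulAut.conj g).toMonoidHom := by
    rw [Sylow.coe_subgroup_smul]
    rfl
  rw [hS]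
  rintro x ⟨⟨x', hx', rfl⟩, hxN⟩ y ⟨y', hy', rfl⟩
  have hx'N : x' ∈ N := by
    have h1 := hN.conj_mem _ hxN g⁻¹
    have h2 : g⁻¹ * (MulAut.conj g).toMonoidHom x' * g⁻¹⁻¹ = x' := by
      show g⁻¹ * (g * x' * g⁻¹) * g⁻¹⁻¹ = x'
      group
    rwa [h2] at h1
  have h3 := hcent x' ⟨hx', hx'N⟩ y' hy'
  show g * x' * g⁻¹ * (g * y' * g⁻¹) = g * y' * g⁻¹ * (g * x' * g⁻¹)
  have h4 : g * x' * g⁻¹ * (g * y' * g⁻¹) = g * (x' * y') * g⁻¹ := by group
  have h5 : g * y' * g⁻¹ * (g * x' * g⁻¹) = g * (y' * x') * g⁻¹ := by group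
  rw [h4, h5, h3]

theorem hlin_smul (P : Sylow p G)
    (hlin : ∀ lam : ↥((P : Subgroup G) ⊓ N) → ℂ, IsCharacter ↥((P : Subgroup G) ⊓ N) lam → lam 1 = 1 →
      ∃ μ : ↥(P : Subgroup G) → ℂ, IsCharacter ↥(P : Subgroup G) μ ∧ μ 1 = 1 ∧
        ∀ x : ↥((P : Subgroup G) ⊓ N), μ ⟨(x : G), x.2.1⟩ = lam x) (g : G) :
    ∀ lam : ↥(((g • P : Sylow p G) : Subgroup G) ⊓ N) → ℂ,
      IsCharacter ↥(((g • P : Sylow p G) : Subgroup G) ⊓ N) lam → lam 1 = 1 →
      ∃ μ : ↥((g • P : Sylow p G) : Subgroup G) → ℂ, IsCharacter ↥((g • P : Sylow p G) : Subgroup G) μ ∧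
        μ 1 = 1 ∧ ∀ x : ↥(((g • P : Sylow p G) : Subgroup G) ⊓ N), μ ⟨(x : G), x.2.1⟩ = lam x := by
  have hS : ((g • P : Sylow p G) : Subgroup G) = (P : Subgroup G).map (MulAut.conj g).toMonoidHom := by
    rw [Sylow.coe_subgroup_smul]
    rfl
  generalize ((g • P : Sylow p G) : Subgroup G) = S at hS
  subst hS
  intro lam hlam hlam1
  -- the homomorphisms
  let f₁ : ↥((P : Subgroup G) ⊓ N) →* ↥((P : Subgroup G).map (MulAut.conj g).toMonoidHom ⊓ N) :=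
    { toFun := fun x => ⟨g * x * g⁻¹, ⟨⟨x, x.2.1, rfl⟩, hN.conj_mem _ x.2.2 g⟩⟩
      map_one' := by
        apply Subtype.ext
        simp
      map_mul' := fun a b => by
        apply Subtype.ext
        simp only [Subgroup.coe_mul, MulMemClass.mk_mul_mk]
        group }
  obtain ⟨μ, hμ, hμ1, hres⟩ := hlin (lam ∘ f₁) (IsCharacter.comp hlam f₁) (by
    simp only [Function.comp_apply, map_one]
    exact hlam1)
  let f₂ : ↥((P : Subgroup G).map (MulAut.conj g).toMonoidHom) →* ↥(P : Subgroup G) :=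
    { toFun := fun x => ⟨g⁻¹ * x * g, by
        obtain ⟨y, hy, hyx⟩ := x.2
        have h1 : g⁻¹ * (x : G) * g = y := by
          rw [← hyx]
          show g⁻¹ * (g * y * g⁻¹) * g = y
          group
        rw [h1]
        exact hy⟩
      map_one' := by
        apply Subtype.ext
        simp
      map_mul' := fun a b => by
        apply Subtype.ext
        simp only [Subgroup.coe_mul, MulMemClass.mk_mul_mk]
        group }
  refine ⟨μ ∘ f₂, IsCharacter.comp hμ f₂, ?_, ?_⟩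
  · simp only [Function.comp_apply, map_one]
    exact hμ1
  · intro x
    obtain ⟨⟨x', hx', hxe⟩, hxN⟩ := x.2
    have h1 : (g⁻¹ * (x : G) * g) = x' := by
      rw [← hxe]
      show g⁻¹ * (g * x' * g⁻¹) * g = x'
      group
    have hx'N : x' ∈ N := by
      have h2 := hN.conj_mem _ hxN g⁻¹
      rw [inv_inv, h1] at h2
      exact h2
    have h3 := hres ⟨x', hx', hx'N⟩
    simp only [Function.comp_apply] at h3 ⊢
    have h4 : f₂ ⟨(x : G), x.2.1⟩ = ⟨x', hx'⟩ := Subtype.ext h1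
    rw [h4, h3]
    congr 1
    apply Subtype.ext
    show g * x' * g⁻¹ = x
    rw [← hxe]
    rfl

/-- Lemma B: extension of a linear character to a `p`-subgroup of a Sylow subgroup. -/
theorem exists_ext_to_Q (S : Subgroup G)
    (hcent : ∀ x ∈ S ⊓ N, ∀ y ∈ S, x * y = y * x)
    (hlin : ∀ lam : ↥(S ⊓ N) → ℂ, IsCharacter ↥(S ⊓ N) lam → lam 1 = 1 →
      ∃ μ : ↥S → ℂ, IsCharacter ↥S μ ∧ μ 1 = 1 ∧ ∀ x : ↥(S ⊓ N), μ ⟨(x : G), x.2.1⟩ = lam x)
    (Q : Subgroup G) (hQS : Q ≤ S) (lam₀ : ↥(Q ⊓ N) →* ℂˣ) :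
    ∃ ν : Q →* ℂˣ, ∀ x : ↥(Q ⊓ N), ν ⟨x, x.2.1⟩ = lam₀ x := by
  classical
  have hc : ∀ a b : ↥(S ⊓ N), a * b = b * a := fun a b =>
    Subtype.ext (hcent a a.2 b b.2.1)
  have hle : Q ⊓ N ≤ S ⊓ N := inf_le_inf_right _ hQS
  obtain ⟨β', hβ'⟩ := ext_lin_of_comm hc ((Q ⊓ N).subgroupOf (S ⊓ N))
    (lam₀.comp (Subgroup.subgroupOfEquivOfLe hle).toMonoidHom)
  obtain ⟨μ, hμ, hμ1, hres⟩ := hlin (fun a => (β' a : ℂ))
    (IsIrrCharacter.isCharacter (isIrrCharacter_of_monoidHom β')) (by simp)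
  obtain ⟨ν₀, hν₀⟩ := IsCharacter.exists_monoidHom hμ hμ1
  refine ⟨ν₀.comp (Subgroup.inclusion hQS), fun x => ?_⟩
  apply Units.ext
  have h1 := hres ⟨x, hle x.2⟩
  rw [hν₀] at h1
  have h2 := hβ' ⟨⟨x, hle x.2⟩, x.2⟩
  simp only [MonoidHom.comp_apply] at h2
  show ((ν₀ ⟨x, hQS x.2.1⟩ : ℂˣ) : ℂ) = _
  refine h1.trans ?_
  show ((β' ⟨x, hle x.2⟩ : ℂˣ) : ℂ) = _
  rw [h2]
  rfl

/-- Lemma C: the structure of a `p`-elementary subgroup covering `G / N`. -/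
theorem elementary_decomp (hk : ∃ k : ℕ, N.index = p ^ k) (E : Subgroup G) (hEl : IsElementary p E) :
    ∃ Q : Subgroup G, Q ≤ E ∧ IsPGroup p Q ∧
      ∀ g ∈ E, ∃ c ∈ E ⊓ N, (∀ y ∈ E, c * y = y * c) ∧ ∃ q ∈ Q, g = c * q := by
  obtain ⟨k, hk⟩ := hk
  obtain ⟨x₀, hx₀, hx₀c, a, ha⟩ := hEl
  obtain ⟨Q⟩ : Nonempty (Sylow p E) := inferInstance
  let C : Subgroup E := Subgroup.zpowers x₀
  have hCZ : ∀ c ∈ C, c ∈ Subgroup.center E := fun c hc =>
    (Subgroup.zpowers_le.mpr hx₀) hc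
  haveI hCn : C.Normal := by
    constructor
    intro n hn g
    have h1 := Subgroup.mem_center_iff.mp (hCZ n hn) g
    have h2 : g * n * g⁻¹ = n := by
      rw [h1]
      group
    rw [h2]
    exact hn
  have hsupCQ : C ⊔ (Q : Subgroup E) = ⊤ := by
    apply Subgroup.index_eq_one.mp
    have h2 : (C ⊔ (Q : Subgroup E)).index ∣ p ^ a := by
      rw [← ha]
      exact Subgroup.index_dvd_of_le le_sup_left
    have h3 : (C ⊔ (Q : Subgroup E)).index ∣ (Q : Subgroup E).index :=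
      Subgroup.index_dvd_of_le le_sup_right
    have hcop : Nat.Coprime (p ^ a) (Q : Subgroup E).index :=
      Nat.Coprime.pow_left _ ((Nat.Prime.coprime_iff_not_dvd Fact.out).mpr Q.not_dvd_index)
    exact Nat.eq_one_of_dvd_coprimes hcop h2 h3
  have hdecomp : ∀ g : E, ∃ c ∈ C, ∃ q ∈ (Q : Subgroup E), c * q = g := by
    intro g
    have h1 : g ∈ ((C ⊔ (Q : Subgroup E) : Subgroup E) : Set E) := by
      rw [hsupCQ]
      trivial
    rw [Subgroup.normal_mul] at h1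
    obtain ⟨c, hc, q, hq, hcq⟩ := Set.mem_mul.mp h1
    exact ⟨c, hc, q, hq, hcq⟩
  have hx₀N : (x₀ : G) ∈ N := by
    have h1 : (x₀ : G) ^ N.index ∈ N := Subgroup.pow_index_mem N _
    rw [hk] at h1
    have h2 : Nat.Coprime (p ^ k) (orderOf (x₀ : G)) := by
      rw [Subgroup.orderOf_coe]
      exact Nat.Coprime.pow_left _ hx₀c.symm
    obtain ⟨b, hb⟩ := exists_pow_eq_self_of_coprime h2
    rw [← hb]
    exact Subgroup.pow_mem _ h1 _
  have hCN : ∀ c ∈ C, ((c : E) : G) ∈ N := by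
    intro c hc
    obtain ⟨z, rfl⟩ := Subgroup.mem_zpowers_iff.mp hc
    simpa using Subgroup.zpow_mem _ hx₀N z
  refine ⟨(Q : Subgroup E).map E.subtype, Subgroup.map_subtype_le _, Q.2.map _, ?_⟩
  intro g hg
  obtain ⟨c, hc, q, hq, hcq⟩ := hdecomp ⟨g, hg⟩
  refine ⟨c, ⟨c.2, hCN c hc⟩, ?_, q, ⟨q, hq, rfl⟩, ?_⟩
  · intro y hy
    have h1 := Subgroup.mem_center_iff.mp (hCZ c hc) ⟨y, hy⟩
    exact (congrArg Subtype.val h1).symm
  · exact (congrArg Subtype.val hcq).symm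

/-- Lemma D: in the situation of the theorem, `E ⊓ N` is central in `E`, and linear characters of
it extend to `E`. -/
theorem central_and_ext (S : Subgroup G)
    (hcent : ∀ x ∈ S ⊓ N, ∀ y ∈ S, x * y = y * x)
    (hlin : ∀ lam : ↥(S ⊓ N) → ℂ, IsCharacter ↥(S ⊓ N) lam → lam 1 = 1 →
      ∃ μ : ↥S → ℂ, IsCharacter ↥S μ ∧ μ 1 = 1 ∧ ∀ x : ↥(S ⊓ N), μ ⟨(x : G), x.2.1⟩ = lam x)
    (E Q : Subgroup G) (hQE : Q ≤ E) (hQS : Q ≤ S)
    (hdec : ∀ g ∈ E, ∃ c ∈ E ⊓ N, (∀ y ∈ E, c * y = y * c) ∧ ∃ q ∈ Q, g = c * q) :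
    (∀ d ∈ E ⊓ N, ∀ y ∈ E, d * y = y * d) ∧
      ∀ σ : ↥(E ⊓ N) →* ℂˣ, ∃ σ' : E →* ℂˣ, ∀ d : ↥(E ⊓ N), σ' ⟨d, d.2.1⟩ = σ d := by
  have hcen : ∀ d ∈ E ⊓ N, ∀ y ∈ E, d * y = y * d := by
    intro d hd y hy
    obtain ⟨c, hc, hcc, q, hq, rfl⟩ := hdec d hd.1
    obtain ⟨c', hc', hcc', q', hq', rfl⟩ := hdec y hy
    have hqN : q ∈ N := by
      have h1 : q = c⁻¹ * (c * q) := by group
      rw [h1]
      exact N.mul_mem (N.inv_mem hc.2) hd.2
    have h2 := hcent q ⟨hQS hq, hqN⟩ q' (hQS hq')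
    have h3 := hcc q' (hQE hq')
    have h4 := hcc' q (hQE hq)
    have h5 := hcc' q' (hQE hq')
    have h6 := hcc c' hc'.1
    -- all elements commute
    calc c * q * (c' * q') = c * (q * c') * q' := by group
      _ = c * (c' * q) * q' := by rw [h4.symm]
      _ = (c * c') * (q * q') := by group
      _ = (c' * c) * (q' * q) := by rw [h6, h2]
      _ = c' * (c * q') * q := by group
      _ = c' * (q' * c) * q := by rw [h3]
      _ = c' * q' * (c * q) := by group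
  refine ⟨hcen, fun σ => ?_⟩
  -- the subgroups of `E`
  let B : Subgroup E := N.subgroupOf E
  haveI hBn : B.Normal := by
    constructor
    intro n hn g
    exact hN.conj_mem _ hn g
  let eB : B →* ↥(E ⊓ N) :=
    { toFun := fun x => ⟨((x : E) : G), (x : E).2, x.2⟩
      map_one' := rfl
      map_mul' := fun _ _ => rfl }
  let H : Subgroup E := Q.subgroupOf E
  let eQ : H →* Q :=
    { toFun := fun x => ⟨((x : E) : G), x.2⟩
      map_one' := rfl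
      map_mul' := fun _ _ => rfl }
  let eQN : ↥(Q ⊓ N) →* ↥(E ⊓ N) := Subgroup.inclusion (inf_le_inf_right _ hQE)
  obtain ⟨ν, hν⟩ := exists_ext_to_Q N S hcent hlin Q hQS (σ.comp eQN)
  obtain ⟨μ, hμ⟩ := glue_lin B H (σ.comp eB)
    (by
      intro γ x
      simp only [MonoidHom.comp_apply]
      congr 1
      apply Subtype.ext
      have h1 := hcen ((x : E) : G) ⟨(x : E).2, x.2⟩ γ γ.2
      show ((γ : G) * ((x : E) : G) * (γ : G)⁻¹) = ((x : E) : G)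
      rw [← h1]
      group)
    (by
      intro γ
      obtain ⟨c, hc, hcc, q, hq, hγ⟩ := hdec γ γ.2
      refine ⟨⟨q, hQE hq⟩, hq, ⟨c, hc.1⟩, hc.2, ?_⟩
      apply Subtype.ext
      show q * c = γ
      rw [hγ]
      exact (hcc q (hQE hq)).symm)
    (ν.comp eQ)
    (by
      intro x hxH hxB
      simp only [MonoidHom.comp_apply]
      have h1 := hν ⟨(x : G), hxH, hxB⟩
      have h2 : eQ ⟨x, hxH⟩ = ⟨(x : G), hxH⟩ := rfl
      rw [h2]
      exact h1)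
  refine ⟨μ, fun d => ?_⟩
  have h1 := hμ ⟨⟨d, d.2.1⟩, d.2.2⟩
  exact h1

end Group

section Main

variable {G : Type u} [Group G] [Fintype G] {p : ℕ} [Fact p.Prime] (N : Subgroup G) [hN : N.Normal]
  {d : ℕ} (ρ : Representation ℂ N (Fin d → ℂ)) [Fintype N] [hirr : ρ.IsIrreducible]

/-- The main step: a power of the scalars prime to `p` extends. -/
theorem exists_hom_scal_pow (hinv : ∀ (g : G) (n : N), ρ.character (cn N g n) = ρ.character n)
    (E : Subgroup G) (hsup : E ⊔ N = ⊤) (hcen : ∀ x ∈ E ⊓ N, ∀ y ∈ E, x * y = y * x)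
    (lam : ↥(E ⊓ N) →* ℂˣ) (lam' : E →* ℂˣ) (hlam' : ∀ x : ↥(E ⊓ N), lam' ⟨x, x.2.1⟩ = lam x) {m : ℕ}
    (hm : finrank ℂ (eigenSub (ρ.comp (Subgroup.inclusion (inf_le_right : E ⊓ N ≤ N))) lam) = m) :
    ∃ μ : Gam N ρ →* ℂˣ, ∀ x : Bsub N ρ, μ x = (scal N ρ x) ^ m := by
  classical
  haveI := finite_Gam N ρ hinv
  have hsurj : Function.Surjective (piG N ρ) := exists_lift N ρ hinv
  set W := eigenSub (ρ.comp (Subgroup.inclusion (inf_le_right : E ⊓ N ≤ N))) lam with hW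
  let H₁ : Subgroup (Gam N ρ) := E.comap (piG N ρ)
  let U : H₁ →* UEnd d := (MonoidHom.snd G (UEnd d)).comp ((Gam N ρ).subtype.comp H₁.subtype)
  have hUv : ∀ x : H₁, U x = ((x : Gam N ρ) : G × UEnd d).2 := fun _ => rfl
  have hU : ∀ x, ∀ v ∈ W, (U x : Module.End ℂ (Fin d → ℂ)) v ∈ W := by
    intro x v hv y
    have hx : ((x : Gam N ρ) : G × UEnd d).1 ∈ E := x.2
    have h1 := Gam_intertwine N ρ (x : Gam N ρ) ⟨y, y.2.2⟩
    have h2 : cn N ((x : Gam N ρ) : G × UEnd d).1 ⟨y, y.2.2⟩ = ⟨y, y.2.2⟩ := by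
      apply Subtype.ext
      simp only [cn_coe]
      rw [← hcen y y.2 _ hx]
      group
    rw [h2] at h1
    have h3 := congrArg (fun T : UEnd d => (T : Module.End ℂ (Fin d → ℂ)) v) h1
    simp only [Units.val_mul, Module.End.mul_apply, rhoU_val] at h3
    have h4 : (ρ ⟨y, y.2.2⟩) v = (lam y : ℂ) • v := hv y
    rw [h4, map_smul] at h3
    exact h3.symm
  let πE : H₁ →* E :=
    { toFun := fun x => ⟨piG N ρ x, x.2⟩
      map_one' := rfl
      map_mul' := fun _ _ => rfl }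
  let ϕ : H₁ →* ℂˣ := detOn W U hU * ((lam'.comp πE) ^ m)⁻¹
  have hdec : ∀ γ : Gam N ρ, ∃ h ∈ H₁, ∃ b ∈ Bsub N ρ, h * b = γ := by
    intro γ
    have h1 : piG N ρ γ ∈ ((E ⊔ N : Subgroup G) : Set G) := by
      rw [hsup]
      trivial
    rw [Subgroup.mul_normal] at h1
    obtain ⟨e, he, n, hn, hen⟩ := Set.mem_mul.mp h1
    obtain ⟨b, hb⟩ := hsurj n
    refine ⟨γ * b⁻¹, ?_, b, ?_, by group⟩
    · show piG N ρ (γ * b⁻¹) ∈ E
      rw [map_mul, map_inv, hb, ← hen]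
      simpa using he
    · show piG N ρ b ∈ N
      rw [hb]
      exact hn
  obtain ⟨μ, hμ⟩ := glue_lin (Bsub N ρ) H₁ ((scal N ρ) ^ m)
    (by
      intro γ x
      simp only [MonoidHom.pow_apply]
      rw [scal_conj])
    hdec ϕ
    (by
      intro x hxH hxB
      -- the element lies above `E ⊓ N`
      have hxD : piG N ρ x ∈ E ⊓ N := ⟨hxH, hxB⟩
      set c := scal N ρ ⟨x, hxB⟩ with hc
      have hT := scal_spec N ρ ⟨x, hxB⟩
      have hact : ∀ v ∈ W, (U ⟨x, hxH⟩ : Module.End ℂ (Fin d → ℂ)) v =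
          ((c : ℂ) * (lam ⟨_, hxD⟩ : ℂ)) • v := by
        intro v hv
        rw [hUv]
        simp only at hT
        rw [hT]
        have h4 : (ρ ⟨piG N ρ x, hxB⟩) v = (lam ⟨_, hxD⟩ : ℂ) • v := hv ⟨_, hxD⟩
        simp only [Units.val_mul, Module.End.mul_apply, rhoU_val, scalU_val]
        rw [h4, LinearMap.smul_apply, Module.End.one_apply, smul_smul]
      have hdet := detOn_val_of_smul W U hU ⟨x, hxH⟩ _ hact
      rw [hm] at hdet
      apply Units.ext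
      show ((detOn W U hU ⟨x, hxH⟩ * ((lam' (πE ⟨x, hxH⟩)) ^ m)⁻¹ : ℂˣ) : ℂ) = ((c ^ m : ℂˣ) : ℂ)
      have h6 : lam' (πE ⟨x, hxH⟩) = lam ⟨_, hxD⟩ := hlam' ⟨_, hxD⟩
      rw [h6, Units.val_mul, hdet, Units.val_inv_eq_inv_val, Units.val_pow_eq_pow_val,
        Units.val_pow_eq_pow_val, mul_pow]
      have h7 : ((lam ⟨_, hxD⟩ : ℂˣ) : ℂ) ^ m ≠ 0 := pow_ne_zero _ (lam ⟨_, hxD⟩).ne_zero
      field_simp)
  exact ⟨μ, fun x => by rw [hμ]; rfl⟩

include hirr in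
/-- Combination with the transfer. -/
theorem exists_irr_of_scal_pow (hinv : ∀ (g : G) (n : N), ρ.character (cn N g n) = ρ.character n)
    {k m : ℕ} (hk : N.index = p ^ k) (hmp : ¬ p ∣ m)
    (h : ∃ μ : Gam N ρ →* ℂˣ, ∀ x : Bsub N ρ, μ x = (scal N ρ x) ^ m) :
    ∃ χ : G → ℂ, IsIrrCharacter G χ ∧ ∀ n : N, χ n = ρ.character n := by
  classical
  haveI := finite_Gam N ρ hinv
  letI : Fintype (Gam N ρ) := Fintype.ofFinite _
  have hsurj : Function.Surjective (piG N ρ) := exists_lift N ρ hinv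
  obtain ⟨μ₁, hμ₁⟩ := h
  have hindex : (Bsub N ρ).index = p ^ k := by
    rw [← hk]
    exact Subgroup.index_comap_of_surjective _ hsurj
  haveI : (Bsub N ρ).FiniteIndex := inferInstance
  have hμ₂ : ∀ x : Bsub N ρ, MonoidHom.transfer (scal N ρ) (x : Gam N ρ) = (scal N ρ x) ^ (p ^ k) := by
    intro x
    rw [← hindex]
    exact transfer_lin (Bsub N ρ) (scal N ρ) (scal_conj N ρ) le_rfl (scal N ρ) (fun _ => rfl) x
  have hcop : Nat.Coprime m (p ^ k) :=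
    Nat.Coprime.pow_right _ ((Nat.Prime.coprime_iff_not_dvd Fact.out).mpr hmp).symm
  have hbez := Nat.gcd_eq_gcd_ab m (p ^ k)
  rw [hcop.gcd_eq_one] at hbez
  set a := Nat.gcdA m (p ^ k)
  set b := Nat.gcdB m (p ^ k)
  let μ : Gam N ρ →* ℂˣ := ((μ₁ ^ a) * (MonoidHom.transfer (scal N ρ)) ^ b)⁻¹
  apply exists_irr_of_lin N ρ hinv μ
  intro x
  show (((μ₁ x) ^ a) * (MonoidHom.transfer (scal N ρ) (x : Gam N ρ)) ^ b)⁻¹ = _
  rw [hμ₁, hμ₂, ← zpow_natCast, ← zpow_natCast, ← zpow_mul, ← zpow_mul, ← zpow_add]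
  congr 1
  have h2 : ((m : ℤ) * a + ((p ^ k : ℕ) : ℤ) * b) = 1 := by
    have := hbez.symm
    push_cast at this ⊢
    exact this
  rw [h2, zpow_one]

end Main

/-- **Extension theorem.** -/
theorem ext_of_central_sylow {G : Type u} [Group G] [Fintype G] (p : ℕ) [Fact p.Prime] (N : Subgroup G)
    [hN : N.Normal] (hind : ∃ k : ℕ, N.index = p ^ k) (P : Sylow p G)
    (hcent : ∀ x ∈ (P : Subgroup G) ⊓ N, ∀ y ∈ (P : Subgroup G), x * y = y * x)
    (hlin : ∀ lam : ↥((P : Subgroup G) ⊓ N) → ℂ, IsCharacter ↥((P : Subgroup G) ⊓ N) lam → lam 1 = 1 →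
      ∃ μ : ↥(P : Subgroup G) → ℂ, IsCharacter ↥(P : Subgroup G) μ ∧ μ 1 = 1 ∧
        ∀ x : ↥((P : Subgroup G) ⊓ N), μ ⟨(x : G), x.2.1⟩ = lam x)
    (ϑ : N → ℂ) (hϑ : IsIrrCharacter N ϑ)
    (hinv : ∀ (g : G) (n : N), ϑ ⟨g * n * g⁻¹, hN.conj_mem (n : G) n.2 g⟩ = ϑ n) :
    ∃ χ : G → ℂ, IsIrrCharacter G χ ∧ ∀ n : N, χ n = ϑ n := by
  classical
  letI hfin : ∀ H : Subgroup G, Fintype H := fun H => Fintype.ofFinite H
  obtain ⟨E, σ, hEl, hsup, hσ, -, m, hm, hmv⟩ := dade_main N ϑ p Fact.out hind hϑ hinv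
  obtain ⟨k, hk⟩ := hind
  obtain ⟨Q, hQE, hQp, hdec⟩ := elementary_decomp N ⟨k, hk⟩ E hEl
  obtain ⟨S, hQS⟩ := hQp.exists_le_sylow
  obtain ⟨g, rfl⟩ := MulAction.exists_smul_eq G P S
  obtain ⟨hcen, hext⟩ := central_and_ext N _ (hcent_smul N P hcent g) (hlin_smul N P hlin g) E Q hQE hQS hdec
  have hc : ∀ a b : ↥(E ⊓ N), a * b = b * a := fun a b =>
    Subtype.ext (hcen a a.2 b b.2.1)
  have hσ1 : σ 1 = 1 := (comm_iff_irr_degree_one (G := ↥(E ⊓ N))).mp hc ⟨σ, hσ⟩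
  obtain ⟨lam, rfl⟩ := IsCharacter.exists_monoidHom (IsIrrCharacter.isCharacter hσ) hσ1
  obtain ⟨lam', hlam'⟩ := hext lam
  obtain ⟨d, ρ, hirr, rfl⟩ := hϑ
  haveI := hirr
  have hfr : finrank ℂ (eigenSub (ρ.comp (Subgroup.inclusion (inf_le_right : E ⊓ N ≤ N))) lam) = m := by
    apply finrank_eigenSub
    rw [finsum_eq_sum_of_fintype] at hmv
    exact hmv
  have hinv' : ∀ (g : G) (n : N), ρ.character (cn N g n) = ρ.character n := by
    intro g n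
    rw [← hinv g n]
    congr 1
  exact exists_irr_of_scal_pow N ρ hinv' hk hm
    (exists_hom_scal_pow N ρ hinv' E hsup hcen lam lam' hlam' hfr)

end Cfsg.Agent.Lib.Char.Dade
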