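import Mathlib

set_option autoImplicit false

/-!
Orbit counting for a finite group acting on a finite set in which every nonidentity element
(modulo a subgroup acting trivially) has exactly two fixed points.
-/

namespace Cfsg.Agent.Lib.Char.Deg2

universe u v

theorem tri_aux2 {n s1 s2 s3 t3 : ℕ} (h1 : s1 * 2 = n) (h2 : s2 * 3 = n) (h3 : s3 * t3 = n)
    (ht3 : 2 ≤ t3) (hsum : s1 + s2 + s3 = n + 2) (hn : 2 ≤ n) :
    s2 = 2 ∨ s3 = 2 ∨ n = 12 ∨ n = 24 ∨ n = 60 := by
  have h4 : t3 < 6 := by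
    by_contra h
    push Not at h
    have : s3 * 6 ≤ s3 * t3 := Nat.mul_le_mul_left _ h
    omega
  interval_cases t3 <;> omega

theorem tri_aux1 {n s1 s2 s3 t2 t3 : ℕ} (h1 : s1 * 2 = n) (h2 : s2 * t2 = n) (h3 : s3 * t3 = n)
    (ht2 : 2 ≤ t2) (ht3 : 2 ≤ t3) (hsum : s1 + s2 + s3 = n + 2) (hn : 2 ≤ n) :
    s2 = 2 ∨ s3 = 2 ∨ n = 12 ∨ n = 24 ∨ n = 60 := by
  by_cases h22 : t2 = 2
  · subst h22
    omega
  by_cases h32 : t3 = 2
  · subst h32
    omega
  by_cases h23 : t2 = 3
  · subst h23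
    exact tri_aux2 h1 h2 h3 ht3 hsum hn
  by_cases h33 : t3 = 3
  · subst h33
    have := tri_aux2 h1 h3 h2 ht2 (by omega) hn
    omega
  exfalso
  have h5 : s2 * 4 ≤ s2 * t2 := Nat.mul_le_mul_left _ (by omega)
  have h6 : s3 * 4 ≤ s3 * t3 := Nat.mul_le_mul_left _ (by omega)
  omega

theorem tri_arith {n s1 s2 s3 t1 t2 t3 : ℕ} (h1 : s1 * t1 = n) (h2 : s2 * t2 = n) (h3 : s3 * t3 = n)
    (ht1 : 2 ≤ t1) (ht2 : 2 ≤ t2) (ht3 : 2 ≤ t3) (hsum : s1 + s2 + s3 = n + 2) (hn : 2 ≤ n) :
    s1 = 2 ∨ s2 = 2 ∨ s3 = 2 ∨ n = 12 ∨ n = 24 ∨ n = 60 := by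
  by_cases h12 : t1 = 2
  · subst h12
    have := tri_aux1 h1 h2 h3 ht2 ht3 hsum hn
    omega
  by_cases h22 : t2 = 2
  · subst h22
    have := tri_aux1 h2 h1 h3 ht1 ht3 (by omega) hn
    omega
  by_cases h32 : t3 = 2
  · subst h32
    have := tri_aux1 h3 h1 h2 ht1 ht2 (by omega) hn
    omega
  exfalso
  have h5 : s1 * 3 ≤ s1 * t1 := Nat.mul_le_mul_left _ (by omega)
  have h6 : s2 * 3 ≤ s2 * t2 := Nat.mul_le_mul_left _ (by omega)
  have h7 : s3 * 3 ≤ s3 * t3 := Nat.mul_le_mul_left _ (by omega)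
  omega

theorem spherical_count {G : Type u} {Ω : Type v} [Group G] [Fintype G] [MulAction G Ω] [Finite Ω]
    (Z : Subgroup G) (hZ : ∀ z ∈ Z, ∀ ω : Ω, z • ω = ω)
    (hfix : ∀ g, g ∉ Z → (MulAction.fixedBy Ω g).ncard = 2)
    (hne : ∀ ω : Ω, ∃ g, g ∉ Z ∧ g • ω = ω) (hn : 2 ≤ Z.index) :
    (∃ ω : Ω, ∀ g : G, g • ω = ω) ∨ (∃ ω : Ω, (MulAction.orbit G ω).ncard = 2) ∨
      Z.index = 12 ∨ Z.index = 24 ∨ Z.index = 60 := by
  classical
  letI : Fintype Ω := Fintype.ofFinite Ω
  let Q := MulAction.orbitRel.Quotient G Ω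
  letI : Fintype Q := Fintype.ofFinite _
  let rep : Q → Ω := fun q => Quotient.out q
  let s : Q → ℕ := fun q => (MulAction.orbit G (rep q)).ncard
  have h0 := MulAction.sum_card_fixedBy_eq_card_orbits_mul_card_group G Ω
  set k := Fintype.card Q with hk
  obtain ⟨m, hm⟩ : ∃ m, Z.index = m + 1 := ⟨Z.index - 1, by omega⟩
  have hm1 : 1 ≤ m := by omega
  set a := (Finset.univ.filter (fun g : G => g ∈ Z)).card with ha
  set b := (Finset.univ.filter (fun g : G => ¬ g ∈ Z)).card with hb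
  have hab : a + b = Fintype.card G := by
    rw [ha, hb, Finset.card_filter_add_card_filter_not, Finset.card_univ]
  have hanz : a = Nat.card Z := by
    rw [Nat.card_eq_fintype_card, Fintype.card_subtype]
  have hGa : Fintype.card G = a * (m + 1) := by
    rw [← Nat.card_eq_fintype_card, hanz, ← hm]
    exact (Subgroup.card_mul_index Z).symm
  have hapos : 0 < a := by
    rw [hanz]
    exact Nat.card_pos
  have hsum : (∑ g : G, Fintype.card (MulAction.fixedBy Ω g)) = a * Fintype.card Ω + b * 2 := by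
    rw [← Finset.sum_filter_add_sum_filter_not Finset.univ (fun g : G => g ∈ Z)]
    congr 1
    · rw [Finset.sum_congr rfl (g := fun _ => Fintype.card Ω), Finset.sum_const, smul_eq_mul]
      intro g hg
      have hg' : g ∈ Z := (Finset.mem_filter.mp hg).2
      have h1 : MulAction.fixedBy Ω g = Set.univ := by
        ext ω
        simp [hZ g hg' ω]
      simp [h1]
    · rw [Finset.sum_congr rfl (g := fun _ => 2), Finset.sum_const, smul_eq_mul]
      intro g hg
      have hg' : g ∉ Z := (Finset.mem_filter.mp hg).2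
      rw [← hfix g hg', Set.ncard_eq_toFinset_card', Set.toFinset_card]
  rw [hsum, hGa] at h0
  have hb' : b = a * m := by
    have : a + b = a * m + a := by
      rw [hab, hGa]
      ring
    omega
  rw [hb'] at h0
  have hmain : Fintype.card Ω + 2 * m = k * (m + 1) := by
    apply Nat.eq_of_mul_eq_mul_left hapos
    calc a * (Fintype.card Ω + 2 * m) = a * Fintype.card Ω + a * m * 2 := by ring
      _ = k * (a * (m + 1)) := h0
      _ = a * (k * (m + 1)) := by ring
  -- orbit sizes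
  have hfib : ∀ (ω : Ω) (q : Q), (Quotient.mk'' ω : Q) = q ↔ ω ∈ MulAction.orbit G (rep q) := by
    intro ω q
    conv_lhs => rw [← Quotient.out_eq' q]
    rw [Quotient.eq'']
    exact MulAction.orbitRel_apply
  have hcard : Fintype.card Ω = ∑ q, s q := by
    rw [← Finset.card_univ, Finset.card_eq_sum_card_fiberwise (f := fun ω : Ω => (Quotient.mk'' ω : Q))
      (t := Finset.univ) (fun _ _ => Finset.mem_coe.mpr (Finset.mem_univ _))]
    refine Finset.sum_congr rfl fun q _ => ?_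
    rw [← Set.ncard_coe_finset]
    congr 1
    ext ω
    simp only [Finset.coe_filter, Finset.mem_univ, true_and, Set.mem_setOf_eq]
    exact hfib ω q
  have hst : ∀ q, ∃ t, s q * t = m + 1 ∧ 2 ≤ t := by
    intro q
    have h1 : Z ≤ MulAction.stabilizer G (rep q) := fun z hz => hZ z hz _
    have h2 := Subgroup.relIndex_mul_index h1
    rw [MulAction.index_stabilizer, hm] at h2
    refine ⟨Z.relIndex (MulAction.stabilizer G (rep q)), ?_, ?_⟩
    · rw [mul_comm]
      exact h2
    · have h3 : Z.relIndex (MulAction.stabilizer G (rep q)) ≠ 0 := by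
        intro h4
        rw [h4] at h2
        omega
      have h4 : Z.relIndex (MulAction.stabilizer G (rep q)) ≠ 1 := by
        intro h5
        have h6 := Subgroup.relIndex_eq_one.mp h5
        obtain ⟨g, hg, hgω⟩ := hne (rep q)
        exact hg (h6 hgω)
      omega
  choose t ht1 ht2 using hst
  have hs1 : ∀ q, 1 ≤ s q := by
    intro q
    by_contra h
    have h3 : s q = 0 := by omega
    have := ht1 q
    rw [h3] at this
    omega
  have hs2 : ∀ q, 2 * s q ≤ m + 1 := by
    intro q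
    rw [← ht1 q, mul_comm]
    exact Nat.mul_le_mul_left _ (ht2 q)
  have hk1 : k ≤ Fintype.card Ω := by
    rw [hcard, hk, ← Finset.card_univ, Finset.card_eq_sum_ones]
    exact Finset.sum_le_sum fun q _ => hs1 q
  have hk2 : 2 * Fintype.card Ω ≤ k * (m + 1) := by
    rw [hcard, Finset.mul_sum, hk, ← Finset.card_univ, ← smul_eq_mul, ← Finset.sum_const]
    exact Finset.sum_le_sum fun q _ => hs2 q
  have hk3 : k ≤ 3 := by
    by_contra h
    push Not at h
    have h3 : 4 * (m + 1) ≤ k * (m + 1) := Nat.mul_le_mul_right _ h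
    omega
  have hcases : k = 0 ∨ k = 1 ∨ k = 2 ∨ k = 3 := by omega
  rcases hcases with h | h | h | h
  · rw [h] at hmain
    omega
  · rw [h] at hmain
    rw [h] at hk1
    omega
  · rw [h] at hmain
    have h3 : Fintype.card Ω = 2 := by omega
    have h4 : (Finset.univ : Finset Q).card = 2 := by
      rw [Finset.card_univ]
      exact h
    obtain ⟨x, y, hxy, hu⟩ := Finset.card_eq_two.mp h4
    rw [hcard, hu, Finset.sum_pair hxy] at h3
    have h5 := hs1 x
    have h6 := hs1 y
    left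
    refine ⟨rep x, fun g => ?_⟩
    have h7 : s x = 1 := by omega
    obtain ⟨w, hw⟩ := Set.ncard_eq_one.mp h7
    have h8 : g • rep x ∈ MulAction.orbit G (rep x) := MulAction.mem_orbit _ _
    have h9 : rep x ∈ MulAction.orbit G (rep x) := MulAction.mem_orbit_self _
    rw [hw] at h8 h9
    rw [Set.mem_singleton_iff.mp h8, Set.mem_singleton_iff.mp h9]
  · rw [h] at hmain
    have h3 : Fintype.card Ω = (m + 1) + 2 := by
      have : 3 * (m + 1) = 3 * m + 3 := by ring
      omega
    have h4 : (Finset.univ : Finset Q).card = 3 := by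
      rw [Finset.card_univ]
      exact h
    obtain ⟨x, y, z, hxy, hxz, hyz, hu⟩ := Finset.card_eq_three.mp h4
    rw [hcard, hu, Finset.sum_insert (by simp [hxy, hxz]), Finset.sum_pair hyz] at h3
    have h5 := tri_arith (ht1 x) (ht1 y) (ht1 z) (ht2 x) (ht2 y) (ht2 z) (by omega) (by omega)
    rw [← hm] at h5
    rcases h5 with h6 | h6 | h6 | h6
    · exact Or.inr (Or.inl ⟨rep x, h6⟩)
    · exact Or.inr (Or.inl ⟨rep y, h6⟩)
    · exact Or.inr (Or.inl ⟨rep z, h6⟩)
    · exact Or.inr (Or.inr h6)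

end Cfsg.Agent.Lib.Char.Deg2
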