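import Mathlib
import Cfsg.Agent.Lib.Char.Deg2A
import Cfsg.Agent.Lib.Char.CliffordBij
import Cfsg.Agent.Lib.Char.Linear

set_option autoImplicit false

/-!
Primitive characters of degree two: the action on eigenlines.
-/

namespace Cfsg.Agent.Lib.Char.Deg2

open Cfsg Cfsg.Agent.Lib.Char ComplexConjugate Module

universe u

abbrev V2 := Fin 2 → ℂ

theorem finrank_V2 : finrank ℂ V2 = 2 := by simp

section Lines

theorem exists_eigen {G : Type u} [Group G] [Finite G] (ρ : Representation ℂ G V2) (g : G) :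
    ∃ (b : Basis (Fin 2) ℂ V2) (μ : Fin 2 → ℂ), ∀ i, ρ g (b i) = μ i • b i := by
  obtain ⟨b, μ, h1, -, -, -⟩ := exists_eigenbasis_rep ρ g
  let e := finCongr finrank_V2
  refine ⟨b.reindex e, fun i => μ (e.symm i), fun i => ?_⟩
  simp only [Basis.reindex_apply]
  exact h1 _

theorem line_eq_span {ℓ : Submodule ℂ V2} (h : finrank ℂ ℓ = 1) :
    ∃ v : V2, v ≠ 0 ∧ ℓ = Submodule.span ℂ {v} := by
  obtain ⟨v, hv, hall⟩ := finrank_eq_one_iff'.mp h
  refine ⟨v, fun h0 => hv (Subtype.ext h0), ?_⟩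
  apply le_antisymm
  · intro w hw
    obtain ⟨c, hc⟩ := hall ⟨w, hw⟩
    rw [Submodule.mem_span_singleton]
    exact ⟨c, congrArg Subtype.val hc⟩
  · rw [Submodule.span_singleton_le_iff_mem]
    exact v.2

theorem finrank_span_ne {v : V2} (hv : v ≠ 0) : finrank ℂ (Submodule.span ℂ {v}) = 1 :=
  finrank_span_singleton hv

theorem eigen_of_map_eq {T : V2 →ₗ[ℂ] V2} {v : V2}
    (h : (Submodule.span ℂ {v}).map T = Submodule.span ℂ {v}) : ∃ c : ℂ, T v = c • v := by
  have h1 : T v ∈ Submodule.span ℂ {v} := by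
    rw [← h]
    exact Submodule.mem_map_of_mem (Submodule.mem_span_singleton_self v)
  obtain ⟨c, hc⟩ := Submodule.mem_span_singleton.mp h1
  exact ⟨c, hc.symm⟩

theorem lines_of_eigen {T : V2 →ₗ[ℂ] V2} (b : Basis (Fin 2) ℂ V2) (μ : Fin 2 → ℂ)
    (hb : ∀ i, T (b i) = μ i • b i) (hne : μ 0 ≠ μ 1) {ℓ : Submodule ℂ V2}
    (hℓ : finrank ℂ ℓ = 1) (hT : ℓ.map T = ℓ) :
    ℓ = Submodule.span ℂ {b 0} ∨ ℓ = Submodule.span ℂ {b 1} := by
  obtain ⟨v, hv, rfl⟩ := line_eq_span hℓ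
  obtain ⟨c, hc⟩ := eigen_of_map_eq hT
  have hrepr : v = b.repr v 0 • b 0 + b.repr v 1 • b 1 := by
    conv_lhs => rw [← b.sum_repr v]
    rw [Fin.sum_univ_two]
  set x := b.repr v 0 with hx
  set y := b.repr v 1 with hy
  have h1 : T v = (x * μ 0) • b 0 + (y * μ 1) • b 1 := by
    rw [hrepr, map_add, map_smul, map_smul, hb, hb, smul_smul, smul_smul]
  have h2 : T v = (c * x) • b 0 + (c * y) • b 1 := by
    rw [hc]
    conv_lhs => rw [hrepr]
    rw [smul_add, smul_smul, smul_smul]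
  have h3 : (x * μ 0) • b 0 + (y * μ 1) • b 1 = (c * x) • b 0 + (c * y) • b 1 := by
    rw [← h1, h2]
  have h4 : x * μ 0 = c * x := by
    have := congrArg (fun w => b.repr w 0) h3
    simpa using this
  have h5 : y * μ 1 = c * y := by
    have := congrArg (fun w => b.repr w 1) h3
    simpa using this
  by_cases hx0 : x = 0
  · right
    have hy0 : y ≠ 0 := by
      intro hy0
      apply hv
      rw [hrepr, hx0, hy0]
      simp
    have h6 : v = y • b 1 := by
      conv_lhs => rw [hrepr]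
      rw [hx0, zero_smul, zero_add]
    rw [h6]
    exact Submodule.span_singleton_smul_eq (IsUnit.mk0 y hy0) _
  · left
    have h6 : μ 0 = c := by
      apply mul_left_cancel₀ hx0
      rw [h4]
      ring
    have hy0 : y = 0 := by
      by_contra hy0
      apply hne
      rw [h6]
      apply mul_left_cancel₀ hy0
      rw [h5]
      ring
    have h7 : v = x • b 0 := by
      conv_lhs => rw [hrepr]
      rw [hy0, zero_smul, add_zero]
    rw [h7]
    exact Submodule.span_singleton_smul_eq (IsUnit.mk0 x hx0) _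

theorem span_ne_span (b : Basis (Fin 2) ℂ V2) :
    Submodule.span ℂ {b 0} ≠ Submodule.span ℂ {b 1} := by
  intro h
  have h1 : b 1 ∈ Submodule.span ℂ {b 0} := by
    rw [h]
    exact Submodule.mem_span_singleton_self _
  obtain ⟨c, hc⟩ := Submodule.mem_span_singleton.mp h1
  have h2 := congrArg (fun w => b.repr w 1) hc
  simp at h2

end Lines

section Main

variable {G : Type u} [Group G] [Fintype G] (ρ : Representation ℂ G V2)

theorem rep_apply_inv (g : G) (v : V2) : ρ g⁻¹ (ρ g v) = v := by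
  rw [← Module.End.mul_apply, ← map_mul]
  simp

theorem rep_injective (g : G) : Function.Injective (ρ g) := by
  intro a c h
  have := congrArg (ρ g⁻¹) h
  rwa [rep_apply_inv, rep_apply_inv] at this

theorem map_span_of_eigen {g : G} {v : V2} {c : ℂ} (hv : v ≠ 0) (h : ρ g v = c • v) :
    (Submodule.span ℂ {v}).map (ρ g) = Submodule.span ℂ {v} := by
  rw [Submodule.map_span, Set.image_singleton, h]
  have hc : c ≠ 0 := by
    rintro rfl
    apply hv
    apply rep_injective ρ g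
    rw [h]
    simp
  exact Submodule.span_singleton_smul_eq (IsUnit.mk0 c hc) _

/-- The eigenlines. -/
def Eigenlines (Z : Subgroup G) : Type :=
  {ℓ : Submodule ℂ V2 // finrank ℂ ℓ = 1 ∧ ∃ g, g ∉ Z ∧ ℓ.map (ρ g) = ℓ}

theorem finrank_map_rep (g : G) (ℓ : Submodule ℂ V2) : finrank ℂ (ℓ.map (ρ g)) = finrank ℂ ℓ :=
  (Submodule.equivMapOfInjective (ρ g) (rep_injective ρ g) ℓ).finrank_eq.symm

theorem map_map_rep (a c : G) (ℓ : Submodule ℂ V2) :
    (ℓ.map (ρ c)).map (ρ a) = ℓ.map (ρ (a * c)) := by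
  rw [← Submodule.map_comp, map_mul]
  rfl

theorem map_one_rep (ℓ : Submodule ℂ V2) : ℓ.map (ρ 1) = ℓ := by
  rw [map_one]
  exact Submodule.map_id ℓ

noncomputable instance eigenAct (Z : Subgroup G) [hZ : Z.Normal] : MulAction G (Eigenlines ρ Z) where
  smul g ℓ := ⟨ℓ.1.map (ρ g), by
    refine ⟨by rw [finrank_map_rep]; exact ℓ.2.1, ?_⟩
    obtain ⟨h, hh, hm⟩ := ℓ.2.2
    refine ⟨g * h * g⁻¹, ?_, ?_⟩
    · intro h1
      apply hh
      have := hZ.conj_mem _ h1 g⁻¹
      simpa [mul_assoc] using this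
    · rw [map_map_rep, show g * h * g⁻¹ * g = g * h by group, ← map_map_rep, hm]⟩
  one_smul ℓ := Subtype.ext (map_one_rep ρ ℓ.1)
  mul_smul a c ℓ := Subtype.ext (map_map_rep ρ a c ℓ.1).symm

theorem smul_val (Z : Subgroup G) [Z.Normal] (g : G) (ω : Eigenlines ρ Z) :
    (g • ω).1 = ω.1.map (ρ g) := rfl

theorem eigenlines_finite (Z : Subgroup G)
    (hne : ∀ g, g ∉ Z → ∀ (b : Basis (Fin 2) ℂ V2) (μ : Fin 2 → ℂ),
      (∀ i, ρ g (b i) = μ i • b i) → μ 0 ≠ μ 1) : Finite (Eigenlines ρ Z) := by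
  classical
  choose b μ hb using exists_eigen ρ
  have h1 : {ℓ : Submodule ℂ V2 | finrank ℂ ℓ = 1 ∧ ∃ g, g ∉ Z ∧ ℓ.map (ρ g) = ℓ} ⊆
      ⋃ g : G, ({Submodule.span ℂ {b g 0}, Submodule.span ℂ {b g 1}} : Set (Submodule ℂ V2)) := by
    rintro ℓ ⟨hℓ, g, hg, hm⟩
    rw [Set.mem_iUnion]
    refine ⟨g, ?_⟩
    have := lines_of_eigen (b g) (μ g) (hb g) (hne g hg (b g) (μ g) (hb g)) hℓ hm
    simpa using this
  have h2 := (Set.finite_iUnion (fun g : G => Set.toFinite
    ({Submodule.span ℂ {b g 0}, Submodule.span ℂ {b g 1}} : Set (Submodule ℂ V2)))).subset h1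
  exact h2.to_subtype

end Main

end Cfsg.Agent.Lib.Char.Deg2
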