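import Mathlib
import Cfsg.Agent.Lib.Char.Deg2B

set_option autoImplicit false

/-!
Primitive characters of degree two: the centre has index 12, 24 or 60.
-/

namespace Cfsg.Agent.Lib.Char.Deg2

open Cfsg Cfsg.Agent.Lib.Char ComplexConjugate Module

universe u

variable {G : Type u} [Group G] [Fintype G] (ρ : Representation ℂ G V2)

theorem exists_hom_of_eigen {T : Subgroup G} {v : V2} (hv : v ≠ 0)
    (h : ∀ t : T, ∃ c : ℂ, ρ t v = c • v) : ∃ lam : T →* ℂˣ, ∀ t : T, ρ t v = (lam t : ℂ) • v := by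
  choose c hc using h
  have hcancel : ∀ a a' : ℂ, a • v = a' • v → a = a' := fun a a' h => smul_left_injective ℂ hv h
  let f : T →* ℂ :=
    { toFun := c
      map_one' := by
        apply hcancel
        rw [← hc 1]
        simp
      map_mul' := by
        intro s t
        apply hcancel
        rw [← hc (s * t), Subgroup.coe_mul, map_mul, Module.End.mul_apply, hc t, map_smul, hc s,
          smul_smul, mul_comm] }
  refine ⟨f.toHomUnits, fun t => ?_⟩
  rw [MonoidHom.coe_toHomUnits]
  exact hc t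

theorem orbit_two (Z : Subgroup G) [Z.Normal] (ω : Eigenlines ρ Z)
    (h : (MulAction.orbit G ω).ncard = 2) :
    ∃ T : Subgroup G, T ≠ ⊤ ∧ ∃ θ : T → ℂ, IsCharacter T θ ∧ ρ.character = indFun T θ ∨
      ¬ IsIrrCharacter G ρ.character := by
  classical
  let T := MulAction.stabilizer G ω
  have hTidx : T.index = 2 := by
    rw [MulAction.index_stabilizer]
    exact h
  have hTne : T ≠ ⊤ := by
    intro h1
    rw [h1, Subgroup.index_top] at hTidx
    omega
  letI : Fintype T := Fintype.ofFinite _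
  refine ⟨T, hTne, ?_⟩
  obtain ⟨x, y, hxy, horb⟩ := Set.ncard_eq_two.mp h
  obtain ⟨ω', hω', horb'⟩ : ∃ ω', ω' ≠ ω ∧ ω' ∈ MulAction.orbit G ω := by
    have hω : ω ∈ MulAction.orbit G ω := MulAction.mem_orbit_self _
    rw [horb] at hω
    have hx : x ∈ MulAction.orbit G ω := by
      rw [horb]
      simp
    have hy : y ∈ MulAction.orbit G ω := by
      rw [horb]
      simp
    rcases hω with hω | hω
    · exact ⟨y, fun h1 => hxy (by rw [← hω, h1]), hy⟩
    · exact ⟨x, fun h1 => hxy (by rw [h1, ← Set.mem_singleton_iff.mp hω]), hx⟩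
  have horb2 : MulAction.orbit G ω = {ω, ω'} := by
    have h1 : ({ω, ω'} : Set (Eigenlines ρ Z)) ⊆ MulAction.orbit G ω := by
      intro u hu
      rcases hu with rfl | hu
      · exact MulAction.mem_orbit_self _
      · rw [Set.mem_singleton_iff.mp hu]
        exact horb'
    refine (Set.eq_of_subset_of_ncard_le h1 ?_
      (Set.finite_of_ncard_ne_zero (by rw [h]; norm_num))).symm
    rw [h, Set.ncard_pair hω'.symm]
  have hT1 : ∀ t : T, (t : G) • ω = ω := fun t => t.2
  have hT2 : ∀ t : T, (t : G) • ω' = ω' := by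
    intro t
    have h1 : (t : G) • ω' ∈ MulAction.orbit G ω := by
      obtain ⟨g, hg⟩ := horb'
      have hg' : g • ω = ω' := hg
      refine ⟨t * g, ?_⟩
      show ((t : G) * g) • ω = (t : G) • ω'
      rw [mul_smul, hg']
    rw [horb2] at h1
    rcases h1 with h1 | h1
    · exfalso
      apply hω'
      have h2 : (t : G) • ω' = (t : G) • ω := by rw [h1, hT1]
      exact MulAction.injective _ h2
    · exact h1
  obtain ⟨v₁, hv₁, hℓ₁⟩ := line_eq_span ω.2.1
  obtain ⟨v₂, hv₂, hℓ₂⟩ := line_eq_span ω'.2.1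
  have he₁ : ∀ t : T, ∃ c : ℂ, ρ t v₁ = c • v₁ := by
    intro t
    apply eigen_of_map_eq
    rw [← hℓ₁]
    exact congrArg Subtype.val (hT1 t)
  have he₂ : ∀ t : T, ∃ c : ℂ, ρ t v₂ = c • v₂ := by
    intro t
    apply eigen_of_map_eq
    rw [← hℓ₂]
    exact congrArg Subtype.val (hT2 t)
  obtain ⟨lam₁, h₁⟩ := exists_hom_of_eigen ρ hv₁ he₁
  obtain ⟨lam₂, h₂⟩ := exists_hom_of_eigen ρ hv₂ he₂
  have hli : LinearIndependent ℂ ![v₁, v₂] := by
    rw [LinearIndependent.pair_iff' hv₁]
    intro a ha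
    have h3 : Submodule.span ℂ {v₂} ≤ Submodule.span ℂ {v₁} := by
      rw [Submodule.span_singleton_le_iff_mem, ← ha]
      exact Submodule.smul_mem _ _ (Submodule.mem_span_singleton_self _)
    have h4 : Submodule.span ℂ {v₂} = Submodule.span ℂ {v₁} :=
      Submodule.eq_of_le_of_finrank_eq h3 (by rw [finrank_span_ne hv₁, finrank_span_ne hv₂])
    apply hω'
    apply Subtype.ext
    rw [hℓ₁, hℓ₂, h4]
  let b : Basis (Fin 2) ℂ V2 := basisOfLinearIndependentOfCardEqFinrank hli (by simp)
  have hb : ∀ i, b i = ![v₁, v₂] i := fun i => by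
    simp [b]
  let θ₁ : T → ℂ := fun t => (lam₁ t : ℂ)
  let θ₂ : T → ℂ := fun t => (lam₂ t : ℂ)
  have hθ₁ : IsIrrCharacter T θ₁ := isIrrCharacter_of_monoidHom lam₁
  have hθ₂ : IsIrrCharacter T θ₂ := isIrrCharacter_of_monoidHom lam₂
  have htr : resFun T ρ.character = θ₁ + θ₂ := by
    funext t
    have h3 := trace_eq_sum_of_eigenbasis b ![θ₁ t, θ₂ t] (ρ t) (by
      intro i
      rw [hb]
      fin_cases i
      · exact h₁ t
      · exact h₂ t)
    rw [Fin.sum_univ_two] at h3
    exact h3
  refine ⟨θ₁, ?_⟩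
  by_cases hirr : IsIrrCharacter G ρ.character
  · left
    refine ⟨IsIrrCharacter.isCharacter hθ₁, ?_⟩
    have hχc := IsIrrCharacter.isCharacter hirr
    have hnz : classInner (resFun T ρ.character) θ₁ ≠ 0 := by
      rw [htr, classInner_add_left, classInner_irr_self hθ₁]
      obtain ⟨c, hc⟩ := IsCharacter.classInner_irr_eq_nat (IsIrrCharacter.isCharacter hθ₂) hθ₁
      rw [hc]
      have h5 : ((1 + c : ℕ) : ℂ) ≠ 0 := by exact_mod_cast (by omega : 1 + c ≠ 0)
      push_cast at h5
      exact h5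
    have hΦ := isCharacter_indFun T (IsIrrCharacter.isCharacter hθ₁)
    have hin : classInner ρ.character (indFun T θ₁) ≠ 0 := by
      rw [classInner_indFun_right T θ₁ _ (IsCharacter.isClassFunction hχc)]
      exact hnz
    have hin2 : classInner (indFun T θ₁) ρ.character ≠ 0 := by
      rw [classInner_conj_symm]
      intro h3
      apply hin
      have := congrArg conj h3
      simpa using this
    obtain ⟨a, ha⟩ := IsCharacter.classInner_irr_eq_nat hΦ hirr
    obtain ⟨Δ, hΔ, hsplit⟩ := exists_complement hΦ hirr ha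
    have ha0 : a ≠ 0 := by
      intro h3
      apply hin2
      rw [ha, h3]
      simp
    obtain ⟨d, σ, rfl⟩ := hΔ
    have h1a := congrFun hsplit 1
    rw [Pi.add_apply, Pi.smul_apply, nsmul_eq_mul] at h1a
    rw [indFun_one, hTidx, Representation.char_one, Representation.char_one, finrank_V2] at h1a
    have hθ1 : θ₁ 1 = 1 := by
      simp [θ₁]
    rw [hθ1] at h1a
    have hd : finrank ℂ (Fin d → ℂ) = d := by simp
    rw [hd] at h1a
    have h2a : 2 * 1 = a * 2 + d := by exact_mod_cast h1a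
    have ha1 : a = 1 := by omega
    have hd0 : d = 0 := by omega
    subst hd0
    have hz : σ.character = 0 := by
      funext g
      have h5 := norm_character_le σ g
      simp only [finrank_zero_of_subsingleton, Nat.cast_zero] at h5
      simpa using h5
    rw [hsplit, hz, ha1]
    simp
  · right
    exact hirr

theorem main (χ : IrrCharacter G) (hfaith : ∀ g : G, (χ : G → ℂ) g = (χ : G → ℂ) 1 → g = 1)
    (h2 : charDegree (χ : G → ℂ) = 2)
    (hprim : ∀ H : Subgroup G, H ≠ ⊤ → ∀ θ : H → ℂ, IsCharacter H θ → (χ : G → ℂ) ≠ indFun H θ) :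
    (Subgroup.center G).index = 12 ∨ (Subgroup.center G).index = 24 ∨
      (Subgroup.center G).index = 60 := by
  classical
  obtain ⟨n, ρ, hirr, hρ⟩ := χ.2
  have hn : n = 2 := by
    have h1 := apply_one_eq_charDegree (IsIrrCharacter.isCharacter χ.2)
    rw [h2, ← hρ, Representation.char_one] at h1
    have h3 : finrank ℂ (Fin n → ℂ) = n := by simp
    rw [h3] at h1
    exact_mod_cast h1
  subst hn
  haveI := hirr
  set Z := Subgroup.center G with hZdef
  have hχ : ∀ g, ρ.character g = (χ : G → ℂ) g := congrFun hρ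
  have hinj : ∀ g, ρ g = LinearMap.id → g = 1 := by
    intro g hg
    apply hfaith
    rw [← hχ, ← hχ]
    show LinearMap.trace ℂ _ (ρ g) = LinearMap.trace ℂ _ (ρ 1)
    rw [hg, map_one]
    rfl
  have hscal : ∀ z ∈ Z, ∃ c : ℂ, ρ z = c • LinearMap.id := by
    intro z hz
    apply schur_scalar ρ (ρ z)
    intro g
    have h1 : z * g = g * z := (Subgroup.mem_center_iff.mp hz g).symm
    have h3 : ρ z * ρ g = ρ g * ρ z := by rw [← map_mul, ← map_mul, h1]
    exact h3
  have hne : ∀ g, g ∉ Z → ∀ (b : Basis (Fin 2) ℂ V2) (μ : Fin 2 → ℂ),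
      (∀ i, ρ g (b i) = μ i • b i) → μ 0 ≠ μ 1 := by
    intro g hg b μ hb h01
    apply hg
    have hs : ρ g = μ 0 • LinearMap.id := by
      apply b.ext
      intro i
      fin_cases i
      · simp [hb]
      · simp [hb, h01]
    rw [hZdef, Subgroup.mem_center_iff]
    intro x
    have h3 : ρ (x * g) = ρ (g * x) := by
      rw [map_mul, map_mul, hs]
      ext v
      simp
    have h4 : ρ ((g * x)⁻¹ * (x * g)) = LinearMap.id := by
      rw [map_mul, h3, ← map_mul, inv_mul_cancel, map_one]
      rfl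
    have h5 := hinj _ h4
    exact (inv_mul_eq_one.mp h5).symm
  haveI : Finite (Eigenlines ρ Z) := eigenlines_finite ρ Z hne
  have hZ' : ∀ z ∈ Z, ∀ ω : Eigenlines ρ Z, z • ω = ω := by
    intro z hz ω
    obtain ⟨v, hv, hℓ⟩ := line_eq_span ω.2.1
    obtain ⟨c, hc⟩ := hscal z hz
    apply Subtype.ext
    rw [smul_val, hℓ]
    apply map_span_of_eigen ρ hv (c := c)
    rw [hc]
    simp
  have hfix : ∀ g, g ∉ Z → (MulAction.fixedBy (Eigenlines ρ Z) g).ncard = 2 := by
    intro g hg
    obtain ⟨b, μ, hb⟩ := exists_eigen ρ g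
    have hb0 : b 0 ≠ 0 := b.ne_zero 0
    have hb1 : b 1 ≠ 0 := b.ne_zero 1
    let ω₀ : Eigenlines ρ Z := ⟨Submodule.span ℂ {b 0}, finrank_span_ne hb0,
      g, hg, map_span_of_eigen ρ hb0 (hb 0)⟩
    let ω₁ : Eigenlines ρ Z := ⟨Submodule.span ℂ {b 1}, finrank_span_ne hb1,
      g, hg, map_span_of_eigen ρ hb1 (hb 1)⟩
    have h01 : ω₀ ≠ ω₁ := fun h => span_ne_span b (congrArg Subtype.val h)
    have hset : MulAction.fixedBy (Eigenlines ρ Z) g = {ω₀, ω₁} := by
      ext ω
      simp only [MulAction.mem_fixedBy, Set.mem_insert_iff, Set.mem_singleton_iff]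
      constructor
      · intro h
        have h3 : ω.1.map (ρ g) = ω.1 := congrArg Subtype.val h
        rcases lines_of_eigen b μ hb (hne g hg b μ hb) ω.2.1 h3 with h4 | h4
        · exact Or.inl (Subtype.ext h4)
        · exact Or.inr (Subtype.ext h4)
      · rintro (rfl | rfl)
        · exact Subtype.ext (map_span_of_eigen ρ hb0 (hb 0))
        · exact Subtype.ext (map_span_of_eigen ρ hb1 (hb 1))
    rw [hset, Set.ncard_pair h01]
  have hne2 : ∀ ω : Eigenlines ρ Z, ∃ g, g ∉ Z ∧ g • ω = ω := by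
    intro ω
    obtain ⟨g, hg, hm⟩ := ω.2.2
    exact ⟨g, hg, Subtype.ext hm⟩
  have hnn : 2 ≤ Z.index := by
    have h1 : Z.index ≠ 0 := Subgroup.index_ne_zero_of_finite
    have h3 : Z.index ≠ 1 := by
      intro h4
      have h5 : Z = ⊤ := Subgroup.index_eq_one.mp h4
      have h6 : ∀ a b : G, a * b = b * a := by
        intro a c
        have : c ∈ Z := by
          rw [h5]
          trivial
        exact (Subgroup.mem_center_iff.mp this a)
      have h7 := (comm_iff_irr_degree_one (G := G)).mp h6 χ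
      rw [apply_one_eq_charDegree (IsIrrCharacter.isCharacter χ.2), h2] at h7
      norm_num at h7
    omega
  rcases spherical_count Z hZ' hfix hne2 hnn with ⟨ω, hω⟩ | ⟨ω, hω⟩ | h3
  · exfalso
    let S : Subrepresentation ρ :=
      { toSubmodule := ω.1
        apply_mem_toSubmodule := by
          intro g w hw
          have h3 : ω.1.map (ρ g) = ω.1 := congrArg Subtype.val (hω g)
          rw [← h3]
          exact Submodule.mem_map_of_mem hw }
    rcases hirr.eq_bot_or_eq_top S with h | h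
    · have h1 : ω.1 = ⊥ := congrArg Subrepresentation.toSubmodule h
      have h3 := ω.2.1
      rw [h1] at h3
      simp at h3
    · have h1 : ω.1 = ⊤ := congrArg Subrepresentation.toSubmodule h
      have h3 := ω.2.1
      rw [h1, finrank_top, finrank_V2] at h3
      omega
  · exfalso
    obtain ⟨T, hT, θ, h4⟩ := orbit_two ρ Z ω hω
    rcases h4 with ⟨hθ, h5⟩ | h5
    · apply hprim T hT θ hθ
      rw [← h5, hρ]
    · apply h5
      rw [hρ]
      exact χ.2
  · exact h3

end Cfsg.Agent.Lib.Char.Deg2
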