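import Mathlib

/-!
# The double cover of the alternating group, via a Clifford algebra over `ZMod 3`
-/

set_option autoImplicit false
set_option linter.unusedSectionVars false

namespace Cfsg.Agent.Lib.Char.DoubleCover

variable {n : ℕ}

/-- The spinor module: functions on the subsets of `Fin n`. -/
abbrev Lam (n : ℕ) := Finset (Fin n) → ZMod 3

/-- The ring of endomorphisms. -/
abbrev Rg (n : ℕ) := Module.End (ZMod 3) (Lam n)

/-- The sign attached to a subset and a predicate. -/
def sg (p : Fin n → Prop) [DecidablePred p] (S : Finset (Fin n)) : ZMod 3 := (-1) ^ (S.filter p).card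

/-- Toggle an element of a subset. -/
def flip (i : Fin n) (S : Finset (Fin n)) : Finset (Fin n) := if i ∈ S then S.erase i else insert i S

theorem sg_mul_self (p : Fin n → Prop) [DecidablePred p] (S : Finset (Fin n)) : sg p S * sg p S = 1 := by
  unfold sg
  rw [← mul_pow]
  have : ((-1 : ZMod 3) * (-1 : ZMod 3)) = 1 := by decide
  rw [this, one_pow]

theorem flip_flip (i : Fin n) (S : Finset (Fin n)) : flip i (flip i S) = S := by
  unfold flip
  by_cases h : i ∈ S
  · simp [h]
  · simp [h]

theorem mem_flip (i x : Fin n) (S : Finset (Fin n)) :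
    x ∈ flip i S ↔ (x = i ∧ i ∉ S) ∨ (x ≠ i ∧ x ∈ S) := by
  unfold flip
  by_cases h : i ∈ S
  · simp only [h, if_true, Finset.mem_erase, not_true_eq_false, and_false, false_or]
  · simp only [h, if_false, Finset.mem_insert, not_false_eq_true, and_true]
    constructor
    · rintro (h1 | h1)
      · exact Or.inl h1
      · refine Or.inr ⟨?_, h1⟩
        rintro rfl
        exact h h1
    · rintro (h1 | h1)
      · exact Or.inl h1
      · exact Or.inr h1.2

theorem flip_comm (i j : Fin n) (S : Finset (Fin n)) : flip i (flip j S) = flip j (flip i S) := by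
  by_cases hij : i = j
  · rw [hij]
  ext x
  simp only [mem_flip]
  by_cases hxi : x = i
  · subst hxi
    simp [hij, mem_flip]
  · by_cases hxj : x = j
    · subst hxj
      simp [hxi, Ne.symm hij, mem_flip, hij]
    · simp [hxi, hxj]

theorem sg_flip (p : Fin n → Prop) [DecidablePred p] (j : Fin n) (S : Finset (Fin n)) :
    sg p (flip j S) = if p j then - sg p S else sg p S := by
  classical
  unfold sg flip
  by_cases hjS : j ∈ S
  · rw [if_pos hjS]
    by_cases hp : p j
    · rw [if_pos hp]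
      have hmem : j ∈ S.filter p := Finset.mem_filter.mpr ⟨hjS, hp⟩
      have h1 : (S.erase j).filter p = (S.filter p).erase j := by
        ext x
        simp only [Finset.mem_filter, Finset.mem_erase]
        tauto
      rw [h1]
      have h2 := Finset.card_erase_add_one hmem
      rw [← h2, pow_succ]
      have h3 : ((-1 : ZMod 3) * (-1 : ZMod 3)) = 1 := by decide
      rw [mul_neg, mul_one, neg_neg]
    · rw [if_neg hp]
      congr 2
      ext x
      simp only [Finset.mem_filter, Finset.mem_erase]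
      constructor
      · rintro ⟨⟨_, h2⟩, h3⟩
        exact ⟨h2, h3⟩
      · rintro ⟨h2, h3⟩
        refine ⟨⟨?_, h2⟩, h3⟩
        rintro rfl
        exact hp h3
  · rw [if_neg hjS]
    by_cases hp : p j
    · rw [if_pos hp, Finset.filter_insert, if_pos hp, Finset.card_insert_of_notMem
        (fun h => hjS (Finset.mem_filter.mp h).1), pow_succ, mul_neg, mul_one]
    · rw [if_neg hp, Finset.filter_insert, if_neg hp]

/-- Left multiplication by the generator `e i`. -/
def EE (i : Fin n) : Rg n where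
  toFun f S := sg (· < i) S * f (flip i S)
  map_add' f g := by
    funext S
    simp [mul_add]
  map_smul' c f := by
    funext S
    simp only [Pi.smul_apply, smul_eq_mul, RingHom.id_apply]
    ring

/-- Right multiplication by the generator `e i`. -/
def RR (i : Fin n) : Rg n where
  toFun f S := sg (i < ·) S * f (flip i S)
  map_add' f g := by
    funext S
    simp [mul_add]
  map_smul' c f := by
    funext S
    simp only [Pi.smul_apply, smul_eq_mul, RingHom.id_apply]
    ring

/-- The parity operator. -/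
def PP : Rg n where
  toFun f S := sg (fun _ => True) S * f S
  map_add' f g := by
    funext S
    simp [mul_add]
  map_smul' c f := by
    funext S
    simp only [Pi.smul_apply, smul_eq_mul, RingHom.id_apply]
    ring

@[simp] theorem EE_apply (i : Fin n) (f : Lam n) (S : Finset (Fin n)) :
    EE i f S = sg (· < i) S * f (flip i S) := rfl
@[simp] theorem RR_apply (i : Fin n) (f : Lam n) (S : Finset (Fin n)) :
    RR i f S = sg (i < ·) S * f (flip i S) := rfl
@[simp] theorem PP_apply (f : Lam n) (S : Finset (Fin n)) :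
    PP f S = sg (fun _ => True) S * f S := rfl

theorem EE_sq (i : Fin n) : EE i * EE i = 1 := by
  refine LinearMap.ext fun f => funext fun S => ?_
  simp only [Module.End.mul_apply, EE_apply, flip_flip, sg_flip, lt_irrefl, if_false, Module.End.one_apply]
  rw [← mul_assoc, sg_mul_self, one_mul]

theorem EE_anti {i j : Fin n} (h : i ≠ j) : EE i * EE j = - (EE j * EE i) := by
  refine LinearMap.ext fun f => funext fun S => ?_
  simp only [Module.End.mul_apply, EE_apply, sg_flip, LinearMap.neg_apply, Pi.neg_apply]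
  rw [flip_comm j i]
  rcases lt_or_gt_of_ne h with h1 | h1
  · have h2 : ¬ j < i := not_lt.mpr h1.le
    simp only [h1, h2, if_true, if_false]
    ring
  · have h2 : ¬ i < j := not_lt.mpr h1.le
    simp only [h1, h2, if_true, if_false]
    ring

theorem EE_RR_comm (i j : Fin n) : EE i * RR j = RR j * EE i := by
  refine LinearMap.ext fun f => funext fun S => ?_
  simp only [Module.End.mul_apply, EE_apply, RR_apply, sg_flip]
  rw [flip_comm j i]
  by_cases h : j < i
  · have h2 : ¬ i < j := not_lt.mpr h.le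
    simp only [h, h2, if_true, if_false]
    ring
  · by_cases h2 : i < j
    · simp only [h, h2, if_true, if_false]
      ring
    · simp only [h, h2, if_false]
      ring

theorem EE_PP_anti (i : Fin n) : EE i * PP = - (PP * EE i) := by
  refine LinearMap.ext fun f => funext fun S => ?_
  simp only [Module.End.mul_apply, EE_apply, PP_apply, sg_flip, LinearMap.neg_apply, Pi.neg_apply, if_true]
  ring

/-- The basis vectors. -/
def vec (S : Finset (Fin n)) : Lam n := Pi.single S 1

theorem EE_vec (i : Fin n) (S : Finset (Fin n)) :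
    EE i (vec S) = sg (· < i) (flip i S) • vec (flip i S) := by
  funext T
  simp only [EE_apply, vec, Pi.smul_apply, smul_eq_mul]
  by_cases h : T = flip i S
  · subst h
    simp [flip_flip]
  · have h2 : flip i T ≠ S := by
      intro h3
      apply h
      rw [← h3, flip_flip]
    simp [h, h2]

theorem sub_self_zmod3 : ∀ x : ZMod 3, -x = x → x = 0 := by decide

/-- An operator commuting with all the `E i`, `R i` and the parity operator is a scalar. -/
theorem scalar_of_comm (γ : Rg n) (h1 : ∀ k, γ * EE k = EE k * γ) (h2 : ∀ k, γ * RR k = RR k * γ)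
    (h3 : γ * PP = PP * γ) : γ = (γ (vec ∅) ∅) • (1 : Rg n) := by
  classical
  set u : Lam n := γ (vec ∅) with hu
  have hP : PP u = u := by
    have h4 : PP (vec (n := n) ∅) = vec ∅ := by
      funext S
      by_cases hS : S = ∅
      · subst hS
        simp [vec, sg]
      · simp [vec, hS]
    have h5 := congrArg (fun T : Rg n => T (vec ∅)) h3
    simp only [Module.End.mul_apply, h4] at h5
    rw [hu]
    exact h5.symm
  have hF : ∀ k, EE k (RR k u) = u := by
    intro k
    have h4 : EE k (RR k (vec (n := n) ∅)) = vec ∅ := by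
      funext S
      simp only [EE_apply, RR_apply, flip_flip, sg_flip, lt_irrefl, if_false]
      by_cases hS : S = ∅
      · subst hS
        simp [vec, sg]
      · simp [vec, hS]
    have h5 := congrArg (fun T : Rg n => T (RR k (vec ∅))) (h1 k)
    have h6 := congrArg (fun T : Rg n => T (vec ∅)) (h2 k)
    simp only [Module.End.mul_apply] at h5 h6
    rw [h4] at h5
    rw [hu, ← h6, ← h5]
  have hzero : ∀ S : Finset (Fin n), S ≠ ∅ → u S = 0 := by
    intro S hS
    obtain ⟨i, hi⟩ := Finset.nonempty_iff_ne_empty.mpr hS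
    have h4 := congrFun hP S
    have h5 := congrFun (hF i) S
    simp only [EE_apply, RR_apply, flip_flip, sg_flip, lt_irrefl, if_false, PP_apply] at h4 h5
    -- the signs
    have hcard : (S.filter (fun _ => True)).card
        = (S.filter (· < i)).card + (S.filter (i < ·)).card + 1 := by
      have h6 : S.filter (fun _ => True) = insert i (S.filter (· < i) ∪ S.filter (i < ·)) := by
        ext x
        simp only [Finset.mem_filter, Finset.mem_insert, Finset.mem_union, and_true]
        constructor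
        · intro hx
          rcases lt_trichotomy x i with h7 | h7 | h7
          · exact Or.inr (Or.inl ⟨hx, h7⟩)
          · exact Or.inl h7
          · exact Or.inr (Or.inr ⟨hx, h7⟩)
        · rintro (rfl | ⟨h7, _⟩ | ⟨h7, _⟩)
          · exact hi
          · exact h7
          · exact h7
      rw [h6, Finset.card_insert_of_notMem, Finset.card_union_of_disjoint]
      · rw [Finset.disjoint_left]
        intro x hx hx2
        exact lt_asymm (Finset.mem_filter.mp hx).2 (Finset.mem_filter.mp hx2).2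
      · simp only [Finset.mem_union, Finset.mem_filter, lt_irrefl, and_false, or_self, not_false_eq_true]
    have hsg : sg (fun _ => True) S = - (sg (· < i) S * sg (i < ·) S) := by
      unfold sg
      rw [hcard, pow_succ, pow_add, mul_neg, mul_one]
    apply sub_self_zmod3
    calc - u S = (- (sg (· < i) S * sg (i < ·) S)) * (sg (· < i) S * (sg (i < ·) S * u S)) := by
          have h8 : (sg (· < i) S * sg (· < i) S) * (sg (i < ·) S * sg (i < ·) S) = 1 := by
            rw [sg_mul_self, sg_mul_self, one_mul]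
          linear_combination (u S) * h8
      _ = sg (fun _ => True) S * u S := by
          rw [hsg, h5]
      _ = u S := h4
  have huc : u = (u ∅) • vec ∅ := by
    funext S
    by_cases hS : S = ∅
    · subst hS
      simp [vec]
    · simp [vec, hS, hzero S hS]
  -- all basis vectors
  have hall : ∀ S : Finset (Fin n), γ (vec S) = (u ∅) • vec S := by
    intro S
    induction S using Finset.induction_on with
    | empty => exact huc
    | insert i S hi ih =>
      have h4 : flip i S = insert i S := by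
        unfold flip
        rw [if_neg hi]
      have h5 := EE_vec i S
      rw [h4] at h5
      set s := sg (· < i) (insert i S) with hs
      have hss : s * s = 1 := sg_mul_self _ _
      have h6 : vec (insert i S) = s • EE i (vec S) := by
        rw [h5, smul_smul, hss, one_smul]
      have h7 := congrArg (fun T : Rg n => T (vec S)) (h1 i)
      simp only [Module.End.mul_apply] at h7
      rw [h6, map_smul, h7, ih, map_smul, smul_comm]
  apply LinearMap.pi_ext
  intro S x
  have h4 : (Pi.single S x : Lam n) = x • vec S := by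
    funext T
    by_cases hT : T = S
    · subst hT
      simp [vec]
    · simp [vec, hT]
  rw [h4, map_smul, hall S]
  simp only [LinearMap.smul_apply, Module.End.one_apply, map_smul]

theorem two_eq (x : Rg n) : x + x = - x := by
  refine LinearMap.ext fun f => funext fun S => ?_
  have h : ∀ y : ZMod 3, y + y = - y := by decide
  exact h _

section Abs

variable {A : Type} [Ring A] {E R : Fin n → A} {P : A}

/-- The relations of the Clifford algebra. -/
structure Cliff (E R : Fin n → A) (P : A) : Prop where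
  sq : ∀ i, E i * E i = 1
  anti : ∀ i j, i ≠ j → E i * E j = - (E j * E i)
  comm : ∀ i j, E i * R j = R j * E i
  par : ∀ i, E i * P = - (P * E i)
  two : (1 + 1 : A) = - 1

theorem Cliff.T_sq (h : Cliff E R P) {i j : Fin n} (hij : i ≠ j) :
    (E i - E j) * (E i - E j) = -1 := by
  rw [mul_sub, sub_mul, sub_mul, h.sq i, h.sq j, h.anti i j hij, ← h.two]
  abel

/-- The unit attached to a root element. -/
def Cliff.TU (h : Cliff E R P) (i j : Fin n) (hij : i ≠ j) : Aˣ :=
  ⟨E i - E j, - (E i - E j), by rw [mul_neg, h.T_sq hij, neg_neg], by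
    rw [neg_mul, h.T_sq hij, neg_neg]⟩

@[simp] theorem Cliff.coe_TU (h : Cliff E R P) (i j : Fin n) (hij : i ≠ j) :
    ((h.TU i j hij : Aˣ) : A) = E i - E j := rfl

theorem Cliff.T_E (h : Cliff E R P) {i j : Fin n} (hij : i ≠ j) (k : Fin n) :
    (E i - E j) * E k = - (E (Equiv.swap i j k) * (E i - E j)) := by
  by_cases hki : k = i
  · subst hki
    rw [Equiv.swap_apply_left, sub_mul, mul_sub, h.sq, h.sq]
    abel
  by_cases hkj : k = j
  · subst hkj
    rw [Equiv.swap_apply_right, sub_mul, mul_sub, h.sq, h.sq]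
    abel
  rw [Equiv.swap_apply_of_ne_of_ne hki hkj, sub_mul, mul_sub, h.anti i k (Ne.symm hki),
    h.anti j k (Ne.symm hkj)]
  abel

theorem Cliff.T_R (h : Cliff E R P) (i j k : Fin n) : (E i - E j) * R k = R k * (E i - E j) := by
  rw [sub_mul, mul_sub, h.comm, h.comm]

theorem Cliff.T_P (h : Cliff E R P) (i j : Fin n) : (E i - E j) * P = - (P * (E i - E j)) := by
  rw [sub_mul, mul_sub, h.par, h.par]
  abel

theorem Cliff.T_anti (h : Cliff E R P) {i j k l : Fin n} (h1 : i ≠ k) (h2 : i ≠ l) (h3 : j ≠ k)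
    (h4 : j ≠ l) : (E i - E j) * (E k - E l) = - ((E k - E l) * (E i - E j)) := by
  simp only [sub_mul, mul_sub]
  rw [h.anti i k h1, h.anti i l h2, h.anti j k h3, h.anti j l h4]
  abel

/-- The sign of a permutation, as an integer. -/
def eps (π : Equiv.Perm (Fin n)) : ℤ := ((Equiv.Perm.sign π : ℤˣ) : ℤ)

theorem eps_one : eps (1 : Equiv.Perm (Fin n)) = 1 := by simp [eps]

theorem eps_swap_mul {x y : Fin n} (h : x ≠ y) (f : Equiv.Perm (Fin n)) :
    eps (Equiv.swap x y * f) = - eps f := by
  simp [eps, Equiv.Perm.sign_swap h]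

theorem Cliff.exists_lift (h : Cliff E R P) (π : Equiv.Perm (Fin n)) : ∃ γ : Aˣ,
    (∀ k, (γ : A) * E k = eps π • (E (π k) * (γ : A))) ∧ (∀ k, (γ : A) * R k = R k * (γ : A)) ∧
      (γ : A) * P = eps π • (P * (γ : A)) := by
  induction π using Equiv.Perm.swap_induction_on with
  | one =>
    refine ⟨1, fun k => ?_, fun k => ?_, ?_⟩
    · simp [eps_one]
    · simp
    · simp [eps_one]
  | swap_mul f x y hxy ih =>
    obtain ⟨γ, h1, h2, h3⟩ := ih
    refine ⟨h.TU x y hxy * γ, fun k => ?_, fun k => ?_, ?_⟩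
    · rw [eps_swap_mul hxy, Units.val_mul, Cliff.coe_TU, mul_assoc, h1, mul_smul_comm, ← mul_assoc,
        h.T_E hxy, Equiv.Perm.mul_apply, neg_mul, mul_assoc, neg_smul, smul_neg]
    · rw [Units.val_mul, Cliff.coe_TU, mul_assoc, h2, ← mul_assoc, h.T_R, mul_assoc]
    · rw [eps_swap_mul hxy, Units.val_mul, Cliff.coe_TU, mul_assoc, h3, mul_smul_comm, ← mul_assoc,
        h.T_P, neg_mul, mul_assoc, neg_smul, smul_neg]

/-- The double cover. -/
def Gam (E R : Fin n → A) (P : A) : Subgroup (Aˣ × alternatingGroup (Fin n)) where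
  carrier := {g | (∀ k, (g.1 : A) * E k = E ((g.2 : Equiv.Perm (Fin n)) k) * (g.1 : A)) ∧
    (∀ k, (g.1 : A) * R k = R k * (g.1 : A)) ∧ (g.1 : A) * P = P * (g.1 : A)}
  mul_mem' := by
    rintro ⟨a, p⟩ ⟨b, q⟩ ⟨h1, h2, h3⟩ ⟨h4, h5, h6⟩
    simp only at h1 h2 h3 h4 h5 h6
    refine ⟨fun k => ?_, fun k => ?_, ?_⟩
    · simp only [Prod.fst_mul, Prod.snd_mul, Units.val_mul, Subgroup.coe_mul, Equiv.Perm.mul_apply]
      rw [mul_assoc, h4, ← mul_assoc, h1, mul_assoc]
    · simp only [Prod.fst_mul, Units.val_mul]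
      rw [mul_assoc, h5, ← mul_assoc, h2, mul_assoc]
    · simp only [Prod.fst_mul, Units.val_mul]
      rw [mul_assoc, h6, ← mul_assoc, h3, mul_assoc]
  one_mem' := by
    refine ⟨fun k => ?_, fun k => ?_, ?_⟩ <;> simp
  inv_mem' := by
    rintro ⟨a, p⟩ ⟨h1, h2, h3⟩
    simp only at h1 h2 h3
    have hl : ((a⁻¹ : Aˣ) : A) * (a : A) = 1 := Units.inv_mul a
    have hr : (a : A) * ((a⁻¹ : Aˣ) : A) = 1 := Units.mul_inv a
    refine ⟨fun k => ?_, fun k => ?_, ?_⟩
    · simp only [Prod.fst_inv, Prod.snd_inv, InvMemClass.coe_inv]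
      have h4 := h1 (((p : Equiv.Perm (Fin n))⁻¹) k)
      have h5 : (p : Equiv.Perm (Fin n)) (((p : Equiv.Perm (Fin n))⁻¹) k) = k := by simp
      rw [h5] at h4
      calc ((a⁻¹ : Aˣ) : A) * E k
          = ((a⁻¹ : Aˣ) : A) * E k * ((a : A) * ((a⁻¹ : Aˣ) : A)) := by rw [hr, mul_one]
        _ = ((a⁻¹ : Aˣ) : A) * (E k * (a : A)) * ((a⁻¹ : Aˣ) : A) := by
            simp only [mul_assoc]
        _ = ((a⁻¹ : Aˣ) : A) * ((a : A) * E (((p : Equiv.Perm (Fin n))⁻¹) k))
              * ((a⁻¹ : Aˣ) : A) := by rw [h4]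
        _ = E (((p : Equiv.Perm (Fin n))⁻¹) k) * ((a⁻¹ : Aˣ) : A) := by
            rw [← mul_assoc, hl, one_mul]
    · simp only [Prod.fst_inv]
      calc ((a⁻¹ : Aˣ) : A) * R k
          = ((a⁻¹ : Aˣ) : A) * R k * ((a : A) * ((a⁻¹ : Aˣ) : A)) := by rw [hr, mul_one]
        _ = ((a⁻¹ : Aˣ) : A) * (R k * (a : A)) * ((a⁻¹ : Aˣ) : A) := by
            simp only [mul_assoc]
        _ = ((a⁻¹ : Aˣ) : A) * ((a : A) * R k) * ((a⁻¹ : Aˣ) : A) := by rw [h2]
        _ = R k * ((a⁻¹ : Aˣ) : A) := by
            rw [← mul_assoc, hl, one_mul]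
    · simp only [Prod.fst_inv]
      calc ((a⁻¹ : Aˣ) : A) * P
          = ((a⁻¹ : Aˣ) : A) * P * ((a : A) * ((a⁻¹ : Aˣ) : A)) := by rw [hr, mul_one]
        _ = ((a⁻¹ : Aˣ) : A) * (P * (a : A)) * ((a⁻¹ : Aˣ) : A) := by
            simp only [mul_assoc]
        _ = ((a⁻¹ : Aˣ) : A) * ((a : A) * P) * ((a⁻¹ : Aˣ) : A) := by rw [h3]
        _ = P * ((a⁻¹ : Aˣ) : A) := by
            rw [← mul_assoc, hl, one_mul]

/-- The projection to the alternating group. -/
def phi (E R : Fin n → A) (P : A) : Gam E R P →* alternatingGroup (Fin n) :=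
  (MonoidHom.snd _ _).comp (Gam E R P).subtype

theorem Cliff.phi_surj (h : Cliff E R P) : Function.Surjective (phi E R P) := by
  intro π
  obtain ⟨γ, h1, h2, h3⟩ := h.exists_lift (π : Equiv.Perm (Fin n))
  have hs : eps (π : Equiv.Perm (Fin n)) = 1 := by
    have := Equiv.Perm.mem_alternatingGroup.mp π.2
    simp [eps, this]
  rw [hs] at h1 h3
  refine ⟨⟨(γ, π), fun k => ?_, h2, ?_⟩, rfl⟩
  · simpa using h1 k
  · simpa using h3

/-- The central involution. -/
def zz (E R : Fin n → A) (P : A) : Gam E R P :=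
  ⟨(-1, 1), fun k => by simp, fun k => by simp, by simp⟩

theorem zz_central : zz E R P ∈ Subgroup.center (Gam E R P) := by
  rw [Subgroup.mem_center_iff]
  intro g
  apply Subtype.ext
  apply Prod.ext
  · show g.1.1 * (-1) = (-1) * g.1.1
    simp
  · show g.1.2 * 1 = 1 * g.1.2
    simp

theorem zz_sq : zz E R P * zz E R P = 1 := by
  apply Subtype.ext
  apply Prod.ext
  · show ((-1 : Aˣ)) * (-1) = 1
    simp
  · show (1 : alternatingGroup (Fin n)) * 1 = 1
    simp

theorem zz_ne (hne : (-1 : A) ≠ 1) : zz E R P ≠ 1 := by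
  intro h
  have h1 : ((zz E R P).1.1 : A) = 1 := by
    rw [h]
    rfl
  exact hne h1

theorem orderOf_zz (hne : (-1 : A) ≠ 1) : orderOf (zz E R P) = 2 := by
  apply orderOf_eq_prime
  · rw [pow_two, zz_sq]
  · exact zz_ne hne

theorem ker_phi (hsc : ∀ γ : Aˣ, (∀ k, (γ : A) * E k = E k * (γ : A)) → (∀ k, (γ : A) * R k = R k * (γ : A)) →
      (γ : A) * P = P * (γ : A) → (γ : A) = 1 ∨ (γ : A) = -1) :
    (phi E R P).ker = Subgroup.zpowers (zz E R P) := by
  apply le_antisymm
  · intro g hg
    have hg2 : g.1.2 = 1 := hg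
    obtain ⟨⟨γ, π⟩, h1, h2, h3⟩ := g
    simp only at hg2 h1 h2 h3
    subst hg2
    rcases hsc γ (fun k => by simpa using h1 k) h2 h3 with h4 | h4
    · have : (⟨(γ, 1), h1, h2, h3⟩ : Gam E R P) = 1 := by
        apply Subtype.ext
        apply Prod.ext
        · exact Units.ext h4
        · rfl
      rw [this]
      exact Subgroup.one_mem _
    · have : (⟨(γ, 1), h1, h2, h3⟩ : Gam E R P) = zz E R P := by
        apply Subtype.ext
        apply Prod.ext
        · exact Units.ext h4
        · rfl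
      rw [this]
      exact Subgroup.mem_zpowers _
  · rw [Subgroup.zpowers_le]
    rfl

theorem Cliff.zz_mem_commutator (h : Cliff E R P) (hn : 4 ≤ n) : zz E R P ∈ commutator (Gam E R P) := by
  let i0 : Fin n := ⟨0, by omega⟩
  let i1 : Fin n := ⟨1, by omega⟩
  let i2 : Fin n := ⟨2, by omega⟩
  let i3 : Fin n := ⟨3, by omega⟩
  have h01 : i0 ≠ i1 := by simp [i0, i1, Fin.ext_iff]
  have h02 : i0 ≠ i2 := by simp [i0, i2, Fin.ext_iff]
  have h03 : i0 ≠ i3 := by simp [i0, i3, Fin.ext_iff]
  have h12 : i1 ≠ i2 := by simp [i1, i2, Fin.ext_iff]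
  have h13 : i1 ≠ i3 := by simp [i1, i3, Fin.ext_iff]
  have h23 : i2 ≠ i3 := by simp [i2, i3, Fin.ext_iff]
  -- the two elements
  have hpair : ∀ (i j k l : Fin n) (hij : i ≠ j) (hkl : k ≠ l),
      ∃ hp : Equiv.swap i j * Equiv.swap k l ∈ alternatingGroup (Fin n),
        ((h.TU i j hij * h.TU k l hkl, ⟨_, hp⟩) : Aˣ × alternatingGroup (Fin n)) ∈ Gam E R P := by
    intro i j k l hij hkl
    have hp : Equiv.swap i j * Equiv.swap k l ∈ alternatingGroup (Fin n) := by
      rw [Equiv.Perm.mem_alternatingGroup, map_mul, Equiv.Perm.sign_swap hij, Equiv.Perm.sign_swap hkl]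
      simp
    refine ⟨hp, fun m => ?_, fun m => ?_, ?_⟩
    · simp only [Units.val_mul, Cliff.coe_TU, Equiv.Perm.mul_apply]
      rw [mul_assoc, h.T_E hkl, mul_neg, ← mul_assoc, h.T_E hij, neg_mul, neg_neg, mul_assoc]
    · simp only [Units.val_mul, Cliff.coe_TU]
      rw [mul_assoc, h.T_R, ← mul_assoc, h.T_R, mul_assoc]
    · simp only [Units.val_mul, Cliff.coe_TU]
      rw [mul_assoc, h.T_P, mul_neg, ← mul_assoc, h.T_P, neg_mul, neg_neg, mul_assoc]
  obtain ⟨hpa, hma⟩ := hpair i0 i1 i2 i3 h01 h23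
  obtain ⟨hpb, hmb⟩ := hpair i0 i2 i1 i3 h02 h13
  let a : Gam E R P := ⟨_, hma⟩
  let b : Gam E R P := ⟨_, hmb⟩
  have hπ0 : (a.1.2 : Equiv.Perm (Fin n)) i0 = i1 := by
    show Equiv.swap i0 i1 (Equiv.swap i2 i3 i0) = i1
    rw [Equiv.swap_apply_of_ne_of_ne h02 h03, Equiv.swap_apply_left]
  have hπ1 : (a.1.2 : Equiv.Perm (Fin n)) i1 = i0 := by
    show Equiv.swap i0 i1 (Equiv.swap i2 i3 i1) = i0
    rw [Equiv.swap_apply_of_ne_of_ne h12 h13, Equiv.swap_apply_right]
  have hπ2 : (a.1.2 : Equiv.Perm (Fin n)) i2 = i3 := by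
    show Equiv.swap i0 i1 (Equiv.swap i2 i3 i2) = i3
    rw [Equiv.swap_apply_left, Equiv.swap_apply_of_ne_of_ne (Ne.symm h03) (Ne.symm h13)]
  have hπ3 : (a.1.2 : Equiv.Perm (Fin n)) i3 = i2 := by
    show Equiv.swap i0 i1 (Equiv.swap i2 i3 i3) = i2
    rw [Equiv.swap_apply_right, Equiv.swap_apply_of_ne_of_ne (Ne.symm h02) (Ne.symm h12)]
  have hE := a.2.1
  have hab : (a.1.1 : A) * (b.1.1 : A) = - ((b.1.1 : A) * (a.1.1 : A)) := by
    have h1 : (a.1.1 : A) * (E i0 - E i2) = (E i1 - E i3) * (a.1.1 : A) := by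
      rw [mul_sub, hE, hE, sub_mul, hπ0, hπ2]
    have h2 : (a.1.1 : A) * (E i1 - E i3) = (E i0 - E i2) * (a.1.1 : A) := by
      rw [mul_sub, hE, hE, sub_mul, hπ1, hπ3]
    show (a.1.1 : A) * ((E i0 - E i2) * (E i1 - E i3)) = - (((E i0 - E i2) * (E i1 - E i3)) * (a.1.1 : A))
    calc (a.1.1 : A) * ((E i0 - E i2) * (E i1 - E i3))
        = ((a.1.1 : A) * (E i0 - E i2)) * (E i1 - E i3) := by rw [mul_assoc]
      _ = (E i1 - E i3) * ((a.1.1 : A) * (E i1 - E i3)) := by rw [h1, mul_assoc]
      _ = (E i1 - E i3) * ((E i0 - E i2) * (a.1.1 : A)) := by rw [h2]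
      _ = ((E i1 - E i3) * (E i0 - E i2)) * (a.1.1 : A) := by rw [mul_assoc]
      _ = - ((E i0 - E i2) * (E i1 - E i3)) * (a.1.1 : A) := by
          rw [h.T_anti (Ne.symm h01) h12 (Ne.symm h03) (Ne.symm h23)]
      _ = _ := by rw [neg_mul]
  have hperm : (a.1.2 : Equiv.Perm (Fin n)) * (b.1.2 : Equiv.Perm (Fin n))
      = (b.1.2 : Equiv.Perm (Fin n)) * (a.1.2 : Equiv.Perm (Fin n)) := by
    have hb : (b.1.2 : Equiv.Perm (Fin n)) = Equiv.swap i0 i2 * Equiv.swap i1 i3 := rfl
    rw [hb]
    set π : Equiv.Perm (Fin n) := (a.1.2 : Equiv.Perm (Fin n)) with hπ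
    have e1 : π * Equiv.swap i0 i2 = Equiv.swap i1 i3 * π := by
      have h1 := Equiv.swap_apply_apply π i0 i2
      rw [hπ0, hπ2] at h1
      rw [h1]
      group
    have e2 : π * Equiv.swap i1 i3 = Equiv.swap i0 i2 * π := by
      have h1 := Equiv.swap_apply_apply π i1 i3
      rw [hπ1, hπ3] at h1
      rw [h1]
      group
    have e3 : Equiv.swap i1 i3 * Equiv.swap i0 i2 = Equiv.swap i0 i2 * Equiv.swap i1 i3 :=
      (Equiv.Perm.disjoint_swap_swap (by
        simp only [List.nodup_cons, List.mem_cons, List.not_mem_nil, or_false, not_or]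
        exact ⟨⟨h13, h01.symm, h12⟩, ⟨h03.symm, h23.symm⟩, h02, not_false, List.nodup_nil⟩)).commute
    calc π * (Equiv.swap i0 i2 * Equiv.swap i1 i3)
        = (π * Equiv.swap i0 i2) * Equiv.swap i1 i3 := (mul_assoc _ _ _).symm
      _ = Equiv.swap i1 i3 * π * Equiv.swap i1 i3 := by rw [e1]
      _ = Equiv.swap i1 i3 * (π * Equiv.swap i1 i3) := mul_assoc _ _ _
      _ = Equiv.swap i1 i3 * (Equiv.swap i0 i2 * π) := by rw [e2]
      _ = (Equiv.swap i1 i3 * Equiv.swap i0 i2) * π := (mul_assoc _ _ _).symm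
      _ = Equiv.swap i0 i2 * Equiv.swap i1 i3 * π := by rw [e3]
  have hcomm : a * b * a⁻¹ * b⁻¹ = zz E R P := by
    have h1 : a * b = zz E R P * (b * a) := by
      apply Subtype.ext
      apply Prod.ext
      · apply Units.ext
        show (a.1.1 : A) * (b.1.1 : A) = (-1 : A) * ((b.1.1 : A) * (a.1.1 : A))
        rw [hab, neg_one_mul]
      · apply Subtype.ext
        show (a.1.2 : Equiv.Perm (Fin n)) * (b.1.2 : Equiv.Perm (Fin n))
          = 1 * ((b.1.2 : Equiv.Perm (Fin n)) * (a.1.2 : Equiv.Perm (Fin n)))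
        rw [hperm, one_mul]
    rw [h1]
    have h2 : zz E R P * (b * a) * a⁻¹ * b⁻¹ = zz E R P := by group
    exact h2
  have hmem := Subgroup.commutator_mem_commutator (Subgroup.mem_top a) (Subgroup.mem_top b)
  rw [commutatorElement_def, hcomm] at hmem
  exact hmem

end Abs

theorem cliff : Cliff (EE (n := n)) RR PP where
  sq := EE_sq
  anti := fun _ _ h => EE_anti h
  comm := EE_RR_comm
  par := EE_PP_anti
  two := two_eq 1

instance : Finite (Rg n) :=
  Finite.of_injective (fun f : Rg n => (f : Lam n → Lam n)) DFunLike.coe_injective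

theorem neg_one_ne : (-1 : Rg n) ≠ 1 := by
  intro h
  have h3 := congrFun (congrArg (fun T : Rg n => T (vec ∅)) h) ∅
  have h4 : (-1 : ZMod 3) = 1 := by simpa [vec] using h3
  revert h4
  decide

theorem scalar_sc (γ : (Rg n)ˣ) (h1 : ∀ k, (γ : Rg n) * EE k = EE k * (γ : Rg n))
    (h2 : ∀ k, (γ : Rg n) * RR k = RR k * (γ : Rg n)) (h3 : (γ : Rg n) * PP = PP * (γ : Rg n)) :
    (γ : Rg n) = 1 ∨ (γ : Rg n) = -1 := by
  have h4 := scalar_of_comm (γ : Rg n) h1 h2 h3
  set c := (γ : Rg n) (vec ∅) ∅ with hc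
  have hc0 : c ≠ 0 := by
    intro h0
    rw [h0, zero_smul] at h4
    have h5 : (1 : Rg n) = 0 := by
      have := Units.inv_mul γ
      rw [h4, mul_zero] at this
      exact this.symm
    have h6 := congrFun (congrArg (fun T : Rg n => T (vec ∅)) h5) ∅
    simp [vec] at h6
  have hc1 : c = 1 ∨ c = -1 := by
    revert hc0
    generalize c = d
    revert d
    decide
  rcases hc1 with h5 | h5
  · left
    rw [h5, one_smul] at h4
    exact h4
  · right
    rw [h5] at h4
    rw [h4]
    refine LinearMap.ext fun f => funext fun S => ?_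
    simp

theorem main_thm (n : ℕ) (hn : 4 ≤ n) : ∃ (Γ : Type) (_ : Group Γ) (_ : Finite Γ) (z : Γ)
    (hz : z ∈ Subgroup.center Γ), orderOf z = 2 ∧ z ∈ commutator Γ ∧
    ∃ _ : (Subgroup.zpowers z).Normal, Nonempty (Γ ⧸ Subgroup.zpowers z ≃* alternatingGroup (Fin n)) := by
  have hker := ker_phi (E := EE (n := n)) (R := RR) (P := PP) scalar_sc
  have hnorm : (Subgroup.zpowers (zz (EE (n := n)) RR PP)).Normal := by
    rw [← hker]
    exact MonoidHom.normal_ker _
  refine ⟨Gam (EE (n := n)) RR PP, inferInstance, inferInstance, zz _ _ _, zz_central,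
    orderOf_zz neg_one_ne, cliff.zz_mem_commutator hn, hnorm, ?_⟩
  exact ⟨(QuotientGroup.quotientMulEquivOfEq hker.symm).trans
    (QuotientGroup.quotientKerEquivOfSurjective _ cliff.phi_surj)⟩

end Cfsg.Agent.Lib.Char.DoubleCover
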