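import Cfsg.Agent.Lib.Char.E3Inv

/-!
# The even case of Brauer's theorem on blocks with inertial index three: no such involution exists
-/

set_option autoImplicit false
set_option linter.unusedSectionVars false

namespace Cfsg.Agent.Lib.Char.E3

open Cfsg Cfsg.Agent.Lib.Char
open Cfsg.Agent.Lib.Blocks (IsPExp exists_isPExp)
open scoped ComplexConjugate

universe u

variable {G : Type u} [Group G] [Fintype G] {M : Ideal AlgInt}
  {P : Subgroup G} [Fintype P] {σ : ↥P →* ↥P}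

namespace Setup

variable (h : Setup M 2 P σ)

include h

/-- The `2`-part of a product of two conjugates of `t` is conjugate to `t`. -/
theorem two_part {t : ↥P} (ht1 : t ≠ 1) (ht2 : t * t = 1) {α : ℕ} (hα : IsPExp 2 G α) (a b : G)
    (hx : 2 ∣ orderOf (a * (t : G) * a⁻¹ * (b * (t : G) * b⁻¹))) :
    IsConj ((a * (t : G) * a⁻¹ * (b * (t : G) * b⁻¹)) ^ α) (t : G) := by
  have hG2 : (t : G) * (t : G) = 1 := congrArg Subtype.val ht2
  obtain ⟨u, hu⟩ : ∃ u, u = a * (t : G) * a⁻¹ := ⟨_, rfl⟩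
  obtain ⟨v, hv⟩ : ∃ v, v = b * (t : G) * b⁻¹ := ⟨_, rfl⟩
  rw [← hu, ← hv] at hx ⊢
  have huu : u * u = 1 := by
    rw [hu]
    calc a * (t : G) * a⁻¹ * (a * (t : G) * a⁻¹) = a * ((t : G) * (t : G)) * a⁻¹ := by group
      _ = 1 := by rw [hG2]; group
  have hvv : v * v = 1 := by
    rw [hv]
    calc b * (t : G) * b⁻¹ * (b * (t : G) * b⁻¹) = b * ((t : G) * (t : G)) * b⁻¹ := by group
      _ = 1 := by rw [hG2]; group
  have hut : IsConj u (t : G) := by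
    rw [hu]
    exact (isConj_iff.mpr ⟨a, rfl⟩).symm
  have hvt : IsConj v (t : G) := by
    rw [hv]
    exact (isConj_iff.mpr ⟨b, rfl⟩).symm
  obtain ⟨x, hxd⟩ : ∃ x, x = u * v := ⟨_, rfl⟩
  rw [← hxd] at hx ⊢
  have hinv : u * x * u⁻¹ = x⁻¹ := by
    rw [hxd]
    exact inv_prod h huu hvv
  obtain ⟨c, y, hy1, hyz, hyy⟩ := h.part_inv hα hinv hx
  obtain ⟨r, hzr, hcomm, ⟨k, hk⟩, hreg⟩ := hα.isPPart x
  obtain ⟨z, hz⟩ : ∃ z, z = x ^ α := ⟨_, rfl⟩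
  rw [← hz] at hzr hcomm hk hyz ⊢
  have hzz : z * z = 1 := by
    have h1 : (y : G) * (y : G) = 1 := congrArg Subtype.val hyy
    rw [hyz] at h1
    have h2 : c * (z * z) * c⁻¹ = 1 := by
      rw [← h1]
      group
    have h3 : z * z = c⁻¹ * (c * (z * z) * c⁻¹) * c := by group
    rw [h3, h2]
    group
  have hzinv : z⁻¹ = z := inv_eq_of_mul_eq_one_left hzz
  have hz1 : z ≠ 1 := by
    intro e
    apply hy1
    apply Subtype.ext
    rw [hyz, e]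
    simp
  have huinv : u⁻¹ = u := inv_eq_of_mul_eq_one_left huu
  have huz0 : u * z * u⁻¹ = z⁻¹ := by
    rw [hz, ← conj_pow, hinv, inv_pow]
  have huz : u * z = z * u := by
    have h1 : u * z * u⁻¹ = z := by rw [huz0, hzinv]
    calc u * z = (u * z * u⁻¹) * u := by group
      _ = z * u := by rw [h1]
  -- a common Sylow subgroup
  have hQ : IsPGroup 2 (Subgroup.zpowers u ⊔ Subgroup.zpowers z : Subgroup G) := by
    apply IsPGroup.to_sup_of_normal_right'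
    · apply Cfsg.Agent.Lib.PGroups.isPGroup_zpowers_iff.mpr
      refine ⟨1, ?_⟩
      have hu1 : u ≠ 1 := by
        intro e
        have h1 := hut
        rw [e] at h1
        have h2 : (t : G) = 1 := isConj_one_right.mp h1
        exact ht1 (Subtype.ext h2)
      have h3 : orderOf u = 2 := orderOf_eq_prime (by rw [pow_two]; exact huu) hu1
      simpa using h3
    · exact Cfsg.Agent.Lib.PGroups.isPGroup_zpowers_iff.mpr ⟨k, hk⟩
    · rw [Subgroup.zpowers_le]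
      rw [Subgroup.mem_normalizer_iff]
      have hcz : ∀ w ∈ Subgroup.zpowers z, u * w * u⁻¹ = w := by
        intro w hw
        obtain ⟨i, rfl⟩ := Subgroup.mem_zpowers_iff.mp hw
        have h1 : Commute u (z ^ i) := (show Commute u z from huz).zpow_right i
        rw [h1.eq]
        group
      intro w
      constructor
      · intro hw
        rwa [hcz w hw]
      · intro hw
        have h1 := hcz _ hw
        have h2 : u * w * u⁻¹ = u * (u * w * u⁻¹) * u⁻¹ := h1.symm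
        have h3 : u * (u * w * u⁻¹) * u⁻¹ = (u * u) * w * (u * u)⁻¹ := by group
        rw [h3, huu] at h2
        simp only [one_mul, inv_one, mul_one] at h2
        rwa [← h2]
  obtain ⟨c₂, hc₂⟩ := h.hSyl _ hQ
  have hmemu : c₂ * u * c₂⁻¹ ∈ P := hc₂ u ((le_sup_left : Subgroup.zpowers u ≤ _) (Subgroup.mem_zpowers u))
  have hmemz : c₂ * z * c₂⁻¹ ∈ P := hc₂ z ((le_sup_right : Subgroup.zpowers z ≤ _) (Subgroup.mem_zpowers z))
  let u₀ : ↥P := ⟨c₂ * u * c₂⁻¹, hmemu⟩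
  let z₀ : ↥P := ⟨c₂ * z * c₂⁻¹, hmemz⟩
  have hz₀1 : z₀ ≠ 1 := by
    intro e
    have e' : c₂ * z * c₂⁻¹ = 1 := congrArg Subtype.val e
    apply hz1
    have : z = c₂⁻¹ * (c₂ * z * c₂⁻¹) * c₂ := by group
    rw [this, e']
    group
  have hu₀u₀ : u₀ * u₀ = 1 := by
    apply Subtype.ext
    show c₂ * u * c₂⁻¹ * (c₂ * u * c₂⁻¹) = 1
    calc c₂ * u * c₂⁻¹ * (c₂ * u * c₂⁻¹) = c₂ * (u * u) * c₂⁻¹ := by group
      _ = 1 := by rw [huu]; group
  -- the odd part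
  have hodd : ¬ 2 ∣ orderOf r := hreg
  obtain ⟨k₁, hk₁⟩ : ∃ k₁, orderOf r = 2 * k₁ + 1 := by
    have := Nat.odd_iff.mpr (Nat.two_dvd_ne_zero.mp hodd)
    exact this
  obtain ⟨s, hs⟩ : ∃ s, s = r ^ k₁ := ⟨_, rfl⟩
  have hss : s * s = r⁻¹ := by
    have h1 : s * s * r = 1 := by
      rw [hs, ← pow_add, ← pow_succ, show k₁ + k₁ + 1 = orderOf r by omega, pow_orderOf_eq_one]
    exact eq_inv_of_mul_eq_one_left h1
  have hcommx : Commute z x := by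
    rw [hz]
    exact (Commute.refl x).pow_left α
  have hrd : r = z⁻¹ * x := by rw [← hzr]; group
  have hrinv : u * r * u⁻¹ = r⁻¹ := by
    have h1 : u * r * u⁻¹ = (u * z⁻¹ * u⁻¹) * (u * x * u⁻¹) := by rw [hrd]; group
    rw [h1, hinv, hzinv, huz0, hzinv, hrd, mul_inv_rev, inv_inv]
    exact hcommx.inv_right.eq
  have hsinv : u * s * u⁻¹ = s⁻¹ := by
    rw [hs, ← conj_pow, hrinv, inv_pow]
  have hsz : Commute s z := by
    rw [hs]
    exact (hcomm.symm).pow_left k₁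
  have hus : u * s⁻¹ = s * u := by
    have h1 : u * s⁻¹ * u⁻¹ = s := by
      calc u * s⁻¹ * u⁻¹ = (u * s * u⁻¹)⁻¹ := by group
        _ = s := by rw [hsinv, inv_inv]
    calc u * s⁻¹ = (u * s⁻¹ * u⁻¹) * u := by group
      _ = s * u := by rw [h1]
  have hur : u * r = r⁻¹ * u := by
    calc u * r = (u * r * u⁻¹) * u := by group
      _ = r⁻¹ * u := by rw [hrinv]
  have hvdef : v = u * z * r := by
    have h1 : u * x = v := by
      rw [hxd, ← mul_assoc, huu, one_mul]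
    rw [← h1, ← hzr, mul_assoc]
  have hconjv : s * (u * z) * s⁻¹ = v := by
    have h1 : s * (u * z) * s⁻¹ = (s * s) * u * z := by
      calc s * (u * z) * s⁻¹ = s * u * (z * s⁻¹) := by group
        _ = s * u * (s⁻¹ * z) := by rw [hsz.inv_left.eq.symm]
        _ = s * (u * s⁻¹) * z := by group
        _ = s * (s * u) * z := by rw [hus]
        _ = (s * s) * u * z := by group
    rw [h1, hss, hvdef, mul_assoc u z r, hcomm.eq, ← mul_assoc u r z, hur]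
  have hc1 : IsConj (u : G) (v : G) := hut.trans hvt.symm
  have hc2 : IsConj (v : G) (u * z) := (isConj_iff.mpr ⟨s, hconjv⟩).symm
  have hc3 : IsConj (u * z) (c₂ * (u * z) * c₂⁻¹) := isConj_iff.mpr ⟨c₂, rfl⟩
  have hc4 : IsConj ((u₀ : ↥P) : G) u := (isConj_iff.mpr ⟨c₂, rfl⟩).symm
  have hchain : IsConj ((u₀ : ↥P) : G) (((u₀ * z₀ : ↥P)) : G) := by
    have h1 : ((u₀ * z₀ : ↥P) : G) = c₂ * (u * z) * c₂⁻¹ := by
      show c₂ * u * c₂⁻¹ * (c₂ * z * c₂⁻¹) = _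
      group
    rw [h1]
    exact hc4.trans (hc1.trans (hc2.trans hc3))
  have hcomm' := h.hcomm
  have hsq : ∀ w : ↥P, w * w = 1 → σ w * σ w = 1 := by
    intro w hw
    rw [← map_mul, hw, map_one]
  have hprod := orbit_prod hcomm' h.hσ3 h.hfix u₀
  have hzconj : IsConj ((u₀ : ↥P) : G) ((z₀ : ↥P) : G) := by
    apply (h.hconj u₀ z₀).mpr
    rcases (h.hconj u₀ (u₀ * z₀)).mp hchain with e | e | e
    · exfalso
      apply hz₀1
      have : u₀ * z₀ = u₀ * 1 := by rw [e, mul_one]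
      exact mul_left_cancel this
    · right
      right
      -- `z₀ = u₀ * σ u₀`
      have e1 : z₀ = u₀ * σ u₀ := by
        calc z₀ = (u₀ * u₀) * z₀ := by rw [hu₀u₀, one_mul]
          _ = u₀ * (u₀ * z₀) := by group
          _ = u₀ * σ u₀ := by rw [e]
      have e2 : z₀ * σ (σ u₀) = 1 := by rw [e1]; exact hprod
      have e3 : σ (σ u₀) * σ (σ u₀) = 1 := hsq _ (hsq _ hu₀u₀)
      have e4 : z₀ = (σ (σ u₀))⁻¹ := eq_inv_of_mul_eq_one_left e2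
      rw [e4]
      exact inv_eq_of_mul_eq_one_left e3
    · right
      left
      have e1 : z₀ = u₀ * σ (σ u₀) := by
        calc z₀ = (u₀ * u₀) * z₀ := by rw [hu₀u₀, one_mul]
          _ = u₀ * (u₀ * z₀) := by group
          _ = u₀ * σ (σ u₀) := by rw [e]
      have e2 : z₀ * σ u₀ = 1 := by
        rw [e1, mul_assoc, hcomm' (σ (σ u₀)) (σ u₀), ← mul_assoc]
        exact hprod
      have e3 : σ u₀ * σ u₀ = 1 := hsq _ hu₀u₀
      have e4 : z₀ = (σ u₀)⁻¹ := eq_inv_of_mul_eq_one_left e2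
      rw [e4]
      exact inv_eq_of_mul_eq_one_left e3
  have hz0 : IsConj z ((z₀ : ↥P) : G) := isConj_iff.mpr ⟨c₂, rfl⟩
  exact hz0.trans (hzconj.symm.trans (hc4.trans hut))

/-- Values at products of conjugates of `t` with even order. -/
theorem val_even {t : ↥P} (ht1 : t ≠ 1) (ht2 : t * t = 1) (a b : G)
    (hx : 2 ∣ orderOf (a * (t : G) * a⁻¹ * (b * (t : G) * b⁻¹))) {χ : IrrCharacter G}
    (hχ : χ ∈ principalBlock M G) :
    (χ : G → ℂ) (a * (t : G) * a⁻¹ * (b * (t : G) * b⁻¹)) = (χ : G → ℂ) t := by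
  obtain ⟨α, hα⟩ := exists_isPExp G 2
  have h1 := h.two_part ht1 ht2 hα a b hx
  obtain ⟨x, hxd⟩ : ∃ x, x = a * (t : G) * a⁻¹ * (b * (t : G) * b⁻¹) := ⟨_, rfl⟩
  rw [← hxd] at h1 ⊢
  obtain ⟨r, hzr, hcomm, -, hreg⟩ := hα.isPPart x
  obtain ⟨c, hc⟩ := isConj_iff.mp h1
  have h2 : c * x * c⁻¹ = (t : G) * (c * r * c⁻¹) := by
    rw [← hc]
    conv_lhs => rw [← hzr]
    group
  have h3 : Commute (t : G) (c * r * c⁻¹) := by
    rw [← hc]
    show c * x ^ α * c⁻¹ * (c * r * c⁻¹) = c * r * c⁻¹ * (c * x ^ α * c⁻¹)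
    have := hcomm.eq
    calc c * x ^ α * c⁻¹ * (c * r * c⁻¹) = c * (x ^ α * r) * c⁻¹ := by group
      _ = c * (r * x ^ α) * c⁻¹ := by rw [this]
      _ = _ := by group
  have h4 : ¬ 2 ∣ orderOf (c * r * c⁻¹) := by
    rwa [Cfsg.Agent.Lib.Blocks.orderOf_conj_eq]
  rw [← IsCharacter.isClassFunction (IsIrrCharacter.isCharacter χ.2) x c, h2]
  exact h.hpart t ht1 _ h3 h4 χ hχ

omit h in
theorem orbit_sum (hc : ∀ x y : ↥P, x * y = y * x) (h3 : ∀ y, σ (σ (σ y)) = y) (hf : ∀ y, σ y = y → y = 1)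
    (ψ : ↥P →* ℂˣ) {t : ↥P} (ht2 : t * t = 1) :
    (ev ψ t + ev ψ (σ t) + ev ψ (σ (σ t)) = 3 ∧ ψ t = 1) ∨ ev ψ t + ev ψ (σ t) + ev ψ (σ (σ t)) = -1 := by
  have hA : ev ψ t * ev ψ t = 1 := by rw [← ev_mul, ht2, ev_one]
  have hB : ev ψ (σ t) * ev ψ (σ t) = 1 := by rw [← ev_mul, ← map_mul, ht2, map_one, ev_one]
  have hC : ev ψ (σ (σ t)) * ev ψ (σ (σ t)) = 1 := by rw [← ev_mul, ← map_mul, ← map_mul, ht2, map_one, map_one, ev_one]
  have hABC : ev ψ t * ev ψ (σ t) * ev ψ (σ (σ t)) = 1 := by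
    rw [← ev_mul, ← ev_mul, orbit_prod hc h3 hf, ev_one]
  rcases mul_self_eq_one_iff.mp hA with e1 | e1 <;> rcases mul_self_eq_one_iff.mp hB with e2 | e2 <;>
    rcases mul_self_eq_one_iff.mp hC with e3 | e3 <;> rw [e1, e2, e3] at hABC ⊢
  · left
    exact ⟨by norm_num, ev_eq_one_iff.mp e1⟩
  · norm_num at hABC
  · norm_num at hABC
  · right; norm_num
  · norm_num at hABC
  · right; norm_num
  · right; norm_num
  · norm_num at hABC

end Setup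

namespace Table

variable [Fintype (↥P →* ℂˣ)] {χ₁ χ₂ : IrrCharacter G} {a₁ a₂ ε : ℤ} {η : (↥P →* ℂˣ) → IrrCharacter G}
  (h : Setup M 2 P σ) (T : Table M P σ χ₁ χ₂ a₁ a₂ ε η)

include h T

/-- The key identity in the even case. -/
theorem even_key {t : ↥P} (ht1 : t ≠ 1) (ht2 : t * t = 1) {ψ : ↥P →* ℂˣ} (hψ : ψ ≠ 1) :
    (Nat.card G : ℂ) ^ 2 * (1 + (a₁ : ℂ) / charDegree (χ₁ : G → ℂ) + (a₂ : ℂ) / charDegree (χ₂ : G → ℂ) +
      (ε : ℂ) * (ev ψ t + ev ψ (σ t) + ev ψ (σ (σ t))) ^ 2 / charDegree (η ψ : G → ℂ)) =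
    ((∑ a : G, ∑ b : G, if 2 ∣ orderOf (a * (t : G) * a⁻¹ * (b * (t : G) * b⁻¹)) then 1 else 0 : ℕ) : ℂ) *
      (3 - (ev ψ t + ev ψ (σ t) + ev ψ (σ (σ t)))) := by
  classical
  have v₁ : (χ₁ : G → ℂ) t = a₁ := Table.val_const h (T.al₁) ht1
  have v₂ : (χ₂ : G → ℂ) t = a₂ := Table.val_const h (T.al₂) ht1
  have vη : (η ψ : G → ℂ) t = -(ε : ℂ) * (ev ψ t + ev ψ (σ t) + ev ψ (σ (σ t))) := by
    rw [val_eta h T hψ ht1, ev_twist, ev_twist, ev_twist]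
  have hd : ∀ χ : IrrCharacter G, (χ : G → ℂ) 1 = (charDegree (χ : G → ℂ) : ℂ) := fun χ =>
    apply_one_eq_charDegree (IsIrrCharacter.isCharacter χ.2)
  have sq₁ : (a₁ : ℂ) ^ 2 = 1 := by
    rcases T.ha₁ with e | e <;> rw [e] <;> norm_num
  have sq₂ : (a₂ : ℂ) ^ 2 = 1 := by
    rcases T.ha₂ with e | e <;> rw [e] <;> norm_num
  have sqε : (ε : ℂ) ^ 2 = 1 := by
    rcases T.hε with e | e <;> rw [e] <;> norm_num
  obtain ⟨s, hs⟩ : ∃ s, s = ev ψ t + ev ψ (σ t) + ev ψ (σ (σ t)) := ⟨_, rfl⟩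
  rw [← hs] at vη ⊢
  have h1 := Setup.sum_sum_D (P := P) (fun χ => (alpha P ψ χ : ℂ)) (blockS M G) (t : G)
  have h2 : ∀ a b : G, ∑ χ ∈ blockS M G, (alpha P ψ χ : ℂ) * (χ : G → ℂ) (a * (t : G) * a⁻¹ * (b * (t : G) * b⁻¹)) =
      ((if 2 ∣ orderOf (a * (t : G) * a⁻¹ * (b * (t : G) * b⁻¹)) then 1 else 0 : ℕ) : ℂ) *
        ∑ χ ∈ blockS M G, (alpha P ψ χ : ℂ) * (χ : G → ℂ) (t : G) := by
    intro a b
    by_cases hx : 2 ∣ orderOf (a * (t : G) * a⁻¹ * (b * (t : G) * b⁻¹))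
    · rw [if_pos hx, Nat.cast_one, one_mul]
      refine Finset.sum_congr rfl fun χ hχ => ?_
      rw [h.val_even ht1 ht2 a b hx (mem_blockS.mp hχ)]
    · rw [if_neg hx, Nat.cast_zero, zero_mul]
      exact h.D_reg ψ hx
  simp only [h2] at h1
  rw [← Finset.sum_congr rfl (fun a _ => Finset.sum_mul _ _ _), ← Finset.sum_mul] at h1
  rw [sum_table h T hψ (fun χ => (χ : G → ℂ) (t : G)), sum_table h T hψ (fun χ => (χ : G → ℂ) (t : G) ^ 2 / (χ : G → ℂ) 1)] at h1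
  simp only [irrOne_apply, v₁, v₂, vη, hd, sq₁, sq₂] at h1
  have d₁ : (a₁ : ℂ) * (a₁ : ℂ) = 1 := by rw [← pow_two, sq₁]
  have d₂ : (a₂ : ℂ) * (a₂ : ℂ) = 1 := by rw [← pow_two, sq₂]
  have d₃ : (ε : ℂ) * (ε : ℂ) = 1 := by rw [← pow_two, sqε]
  have e1 : (1 : ℂ) + (a₁ : ℂ) * (a₁ : ℂ) + (a₂ : ℂ) * (a₂ : ℂ) + (ε : ℂ) * (-(ε : ℂ) * s) = 3 - s := by
    rw [d₁, d₂, ← mul_assoc, mul_neg, d₃]
    ring
  have e2 : (1 : ℂ) ^ 2 / 1 + (a₁ : ℂ) * (1 / (charDegree (χ₁ : G → ℂ) : ℂ)) +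
      (a₂ : ℂ) * (1 / (charDegree (χ₂ : G → ℂ) : ℂ)) +
      (ε : ℂ) * ((-(ε : ℂ) * s) ^ 2 / (charDegree (η ψ : G → ℂ) : ℂ)) =
      1 + (a₁ : ℂ) / charDegree (χ₁ : G → ℂ) + (a₂ : ℂ) / charDegree (χ₂ : G → ℂ) +
        (ε : ℂ) * s ^ 2 / charDegree (η ψ : G → ℂ) := by
    have : (-(ε : ℂ) * s) ^ 2 = s ^ 2 := by
      rw [mul_pow, neg_pow_two, sqε, one_mul]
    rw [this]
    ring
  rw [e1] at h1
  rw [charDegree_irrOne, Nat.cast_one, e2] at h1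
  push_cast at h1 ⊢
  exact h1.symm

/-- **There is no such involution in the even case.** -/
theorem even_false (hP16 : 16 ≤ Nat.card P) {t : ↥P} (ht1 : t ≠ 1) (ht2 : t * t = 1)
    (hnorm : ∀ K : Subgroup G, K.Normal → (t : G) ∈ K → K = ⊤) : False := by
  classical
  have hc := h.hcomm
  have h3 := h.hσ3
  have hf := h.hfix
  have hG0 : (Nat.card G : ℂ) ≠ 0 := by exact_mod_cast Nat.card_pos.ne'
  have ht3 : σ t ≠ 1 := sigma_ne_one hf h3 ht1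
  have ht4 : σ (σ t) ≠ 1 := sigma_ne_one hf h3 ht3
  -- the two characters
  obtain ⟨ψ₂, hψ₂⟩ := dual_separate hc ht1
  have hψ₂1 : ψ₂ ≠ 1 := by
    intro e
    rw [e] at hψ₂
    exact hψ₂ rfl
  have hs₂ : ev ψ₂ t + ev ψ₂ (σ t) + ev ψ₂ (σ (σ t)) = -1 := by
    rcases Setup.orbit_sum hc h3 hf ψ₂ ht2 with e | e
    · exact absurd e.2 hψ₂
    · exact e
  obtain ⟨ψ₁, hψ₁1, hs₁⟩ : ∃ ψ : ↥P →* ℂˣ, ψ ≠ 1 ∧ ev ψ t + ev ψ (σ t) + ev ψ (σ (σ t)) = 3 := by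
    by_contra hcon
    push Not at hcon
    have h1 : ∀ ψ : ↥P →* ℂˣ, ev ψ t + ev ψ (σ t) + ev ψ (σ (σ t)) = -1 + (if ψ = 1 then 4 else 0) := by
      intro ψ
      by_cases hψ : ψ = 1
      · subst hψ
        simp only [ev_one_left, if_true]
        norm_num
      · rw [if_neg hψ, add_zero]
        rcases Setup.orbit_sum hc h3 hf ψ ht2 with e | e
        · exact absurd e.1 (hcon ψ hψ)
        · exact e
    have h2 : ∑ ψ : ↥P →* ℂˣ, (ev ψ t + ev ψ (σ t) + ev ψ (σ (σ t))) = 0 := by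
      rw [Finset.sum_add_distrib, Finset.sum_add_distrib, sum_dual_ev_eq_zero hc ht1, sum_dual_ev_eq_zero hc ht3,
        sum_dual_ev_eq_zero hc ht4]
      ring
    simp only [h1, Finset.sum_add_distrib, Finset.sum_ite_eq', Finset.mem_univ, if_true, Finset.sum_const,
      Finset.card_univ, nsmul_eq_mul] at h2
    rw [← Nat.card_eq_fintype_card, dual_card hc] at h2
    have h4 : (Nat.card P : ℂ) = 4 := by linear_combination -h2
    have h5 : Nat.card P = 4 := by exact_mod_cast h4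
    omega
  have key₁ := even_key h T ht1 ht2 hψ₁1
  have key₂ := even_key h T ht1 ht2 hψ₂1
  rw [hs₁] at key₁
  rw [hs₂] at key₂
  obtain ⟨ν, hν⟩ : ∃ ν : ℕ, ν = ∑ a : G, ∑ b : G, if 2 ∣ orderOf (a * (t : G) * a⁻¹ * (b * (t : G) * b⁻¹)) then 1 else 0 :=
    ⟨_, rfl⟩
  rw [← hν] at key₁ key₂
  -- the degrees
  have hpos : ∀ χ : IrrCharacter G, (0 : ℤ) < (charDegree (χ : G → ℂ) : ℤ) := fun χ => by
    exact_mod_cast charDegree_pos χ.2
  have hεne : ε ≠ 0 := by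
    rcases T.hε with e | e <;> rw [e] <;> norm_num
  have hh : (charDegree (η ψ₂ : G → ℂ) : ℤ) = charDegree (η ψ₁ : G → ℂ) := by
    have e1 := T.deg ψ₁ hψ₁1
    have e2 := T.deg ψ₂ hψ₂1
    have e3 : ε * (charDegree (η ψ₂ : G → ℂ) : ℤ) = ε * charDegree (η ψ₁ : G → ℂ) := by linarith
    exact mul_left_cancel₀ hεne e3
  have hh' : charDegree (η ψ₂ : G → ℂ) = charDegree (η ψ₁ : G → ℂ) := by exact_mod_cast hh
  rw [hh'] at key₂
  obtain ⟨f₁, hf₁⟩ : ∃ f₁ : ℕ, f₁ = charDegree (χ₁ : G → ℂ) := ⟨_, rfl⟩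
  obtain ⟨f₂, hf₂⟩ : ∃ f₂ : ℕ, f₂ = charDegree (χ₂ : G → ℂ) := ⟨_, rfl⟩
  obtain ⟨d, hd⟩ : ∃ d : ℕ, d = charDegree (η ψ₁ : G → ℂ) := ⟨_, rfl⟩
  rw [← hf₁, ← hf₂, ← hd] at key₁ key₂
  have p₁ : (0 : ℤ) < f₁ := by rw [hf₁]; exact hpos χ₁
  have p₂ : (0 : ℤ) < f₂ := by rw [hf₂]; exact hpos χ₂
  have p₃ : (0 : ℤ) < d := by rw [hd]; exact hpos (η ψ₁)
  have c₁ : (f₁ : ℂ) ≠ 0 := by exact_mod_cast p₁.ne'
  have c₂ : (f₂ : ℂ) ≠ 0 := by exact_mod_cast p₂.ne'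
  have c₃ : (d : ℂ) ≠ 0 := by exact_mod_cast p₃.ne'
  -- from the two identities
  simp only [sub_self, mul_zero] at key₁
  have hQ := (mul_eq_zero.mp key₁).resolve_left (pow_ne_zero 2 hG0)
  have hε4 : -8 * (ε : ℂ) * (Nat.card G : ℂ) ^ 2 = 4 * (ν : ℂ) * d := by
    have e1 : (1 : ℂ) + (a₁ : ℂ) / f₁ + (a₂ : ℂ) / f₂ = -((ε : ℂ) * 3 ^ 2 / d) := by linear_combination hQ
    rw [e1] at key₂
    field_simp at key₂
    linear_combination key₂
  have hεneg : ε = -1 := by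
    rcases T.hε with e | e
    · exfalso
      rw [e] at hε4
      have h5 : (-8 * ((Nat.card G : ℤ)) ^ 2 : ℤ) = 4 * ν * d := by
        have : (((-8 * ((Nat.card G : ℤ)) ^ 2 : ℤ)) : ℂ) = ((4 * ν * d : ℤ) : ℂ) := by
          push_cast at hε4 ⊢
          linear_combination hε4
        exact Int.cast_injective this
      have h6 : (0 : ℤ) < (Nat.card G : ℤ) := by exact_mod_cast Nat.card_pos
      have h7 : (0 : ℤ) ≤ 4 * ν * d := by positivity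
      have h8 : (0 : ℤ) < ((Nat.card G : ℤ)) ^ 2 := by positivity
      omega
    · exact e
  subst hεneg
  -- integer form of the relation
  have hE : (f₁ : ℤ) * f₂ * d + a₁ * f₂ * d + a₂ * f₁ * d = 9 * (f₁ * f₂) := by
    have : (((f₁ : ℤ) * f₂ * d + a₁ * f₂ * d + a₂ * f₁ * d : ℤ) : ℂ) = ((9 * (f₁ * f₂) : ℤ) : ℂ) := by
      push_cast at hQ ⊢
      field_simp at hQ
      linear_combination hQ
    exact Int.cast_injective this
  have hD : 1 + a₁ * (f₁ : ℤ) + a₂ * f₂ = d := by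
    have e1 := T.deg ψ₁ hψ₁1
    rw [← hf₁, ← hf₂, ← hd] at e1
    linarith
  obtain ⟨m₁, hm₁⟩ := Table.deg_const h T.al₁
  obtain ⟨m₂, hm₂⟩ := Table.deg_const h T.al₂
  obtain ⟨m₃, hm₃⟩ := deg_eta h T hψ₁1
  rw [← hf₁] at hm₁
  rw [← hf₂] at hm₂
  rw [← hd] at hm₃
  have hP16' : (16 : ℤ) ≤ Nat.card P := by exact_mod_cast hP16
  have hv : ∀ (χ : IrrCharacter G) (c : ℤ), χ ≠ irrOne G → (∀ ψ : ↥P →* ℂˣ, ψ ≠ 1 → alpha P ψ χ = c) → c = 1 →
      charDegree (χ : G → ℂ) ≠ 1 := by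
    intro χ c hχ hal hc1 hdeg
    apply value_ne_of_not_normal hnorm hχ
    rw [Table.val_const h hal ht1, hc1, apply_one_eq_charDegree (IsIrrCharacter.isCharacter χ.2), hdeg]
    simp
  refine even_arith (Pc := (Nat.card P : ℤ)) hP16' T.ha₁ T.ha₂ p₁ p₂ p₃ hm₁ hm₂ (m₃ := m₃) (by rw [hm₃]; ring) ?_ ?_ hD hE
  · intro e1 e2
    apply hv χ₁ a₁ T.ne₁ T.al₁ e1
    rw [← hf₁]
    exact_mod_cast e2
  · intro e1 e2
    apply hv χ₂ a₂ T.ne₂ T.al₂ e1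
    rw [← hf₂]
    exact_mod_cast e2

end Table

end Cfsg.Agent.Lib.Char.E3
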