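import Cfsg.Agent.Lib.Char.FTBound
import Cfsg.Agent.Lib.Char.Kernel
import Cfsg.Agent.Lib.Char.Linear

/-!
# The Feit–Thompson bound for abelian subgroups: the second inequality.
-/

set_option autoImplicit false

namespace Cfsg.Agent.Lib.Char.FT

open Cfsg Cfsg.Agent.Lib.Char
open scoped ComplexConjugate

variable {G : Type*} [Group G] [Fintype G] {H : Subgroup G} [Fintype H]

/-- The number of fixed points on `H`, as a function of a class function. -/
noncomputable def cH (H : Subgroup G) [Fintype H] (θ : G → ℂ) : ℂ := (Nat.card H : ℂ)⁻¹ * ∑ h : H, θ h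

theorem cH_eq_classInner (θ : G → ℂ) : cH H θ = classInner (fun h : H => θ h) (fun _ => 1) := by
  simp [cH, classInner]

theorem cH_nat {θ : G → ℂ} (hθ : IsCharacter G θ) : ∃ n : ℕ, cH H θ = n := by
  rw [cH_eq_classInner]
  exact IsCharacter.classInner_nat (IsCharacter.comp hθ H.subtype)
    (IsIrrCharacter.isCharacter (isIrrCharacter_one (G := H)))

/-- For an abelian subgroup, the norm of the restriction is at least the degree. -/
theorem degree_le_norm (hab : ∀ a ∈ H, ∀ b ∈ H, a * b = b * a) {χ : G → ℂ} (hχ : IsCharacter G χ)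
    {x B : ℕ} (hx : χ 1 = x) (hB : cH H (fun g => χ g * conj (χ g)) = B) : x ≤ B := by
  classical
  have hχH : IsCharacter H (fun h : H => χ h) := IsCharacter.comp hχ H.subtype
  obtain ⟨l, hl, hs⟩ := IsCharacter.exists_eq_sum hχH
  have hcomm : ∀ a b : H, a * b = b * a := fun a b => Subtype.ext (hab a a.2 b b.2)
  have hlin : ∀ lm : IrrCharacter H, (lm : H → ℂ) 1 = 1 :=
    (comm_iff_irr_degree_one (G := H)).mp hcomm
  have h1 : (x : ℂ) = ∑ lm : IrrCharacter H, (l lm : ℂ) := by
    have h2 := congrFun hs 1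
    simp only [Finset.sum_apply, Pi.smul_apply] at h2
    simp only [hlin, nsmul_eq_mul, mul_one] at h2
    rw [← hx]
    exact h2
  have h2 : (B : ℂ) = ∑ lm : IrrCharacter H, (l lm : ℂ) ^ 2 := by
    rw [← hB]
    have h3 := classInner_eq_sum_coeffs _ _ (IsCharacter.isClassFunction hχH) (IsCharacter.isClassFunction hχH)
    simp only [hl, map_natCast] at h3
    have h4 : cH H (fun g => χ g * conj (χ g)) = classInner (fun h : H => χ h) (fun h : H => χ h) := by
      simp [cH, classInner]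
    rw [h4, h3]
    refine Finset.sum_congr rfl fun lm _ => ?_
    ring
  have h3 : x = ∑ lm : IrrCharacter H, l lm := by exact_mod_cast h1
  have h4 : B = ∑ lm : IrrCharacter H, l lm ^ 2 := by exact_mod_cast h2
  rw [h3, h4]
  exact Finset.sum_le_sum fun lm _ => Nat.le_self_pow two_ne_zero _

/-- The first inequality with natural numbers. -/
theorem first_ineq_nat (hab : ∀ a ∈ H, ∀ b ∈ H, a * b = b * a) (hZ : H ⊓ Subgroup.center G = ⊥)
    (hone : CentHyp H) {χ : G → ℂ} (hχ : IsIrrCharacter G χ) (hker : ∃ h ∈ H, χ h ≠ χ 1) {c x : ℕ}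
    (hc : cH H χ = c) (hx : χ 1 = x) : Nat.card H * c ^ 2 < x ^ 2 := by
  have h1 := first_ineq hab hZ hone hχ hker
  have h2 : (Nat.card H : ℂ)⁻¹ * ∑ h : H, χ h = c := hc
  rw [h2, hx, Complex.norm_natCast, Complex.norm_natCast] at h1
  exact_mod_cast h1

/-- A nontrivial irreducible character is nontrivial on `H` when `H` lies in no proper normal subgroup. -/
theorem exists_ne_of_irr (hmin : ∀ M : Subgroup G, M.Normal → H ≤ M → M = ⊤) {ψ : G → ℂ}
    (hψ : IsIrrCharacter G ψ) (hψ1 : ψ ≠ fun _ => 1) : ∃ h ∈ H, ψ h ≠ ψ 1 := by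
  by_contra hcon
  push Not at hcon
  have hc := IsIrrCharacter.isCharacter hψ
  have h1 : charKer ψ = ⊤ := by
    apply hmin _ (charKer_normal hc)
    intro h hh
    exact (mem_charKer hc).mpr (hcon h hh)
  have h2 : ∀ g, ψ g = ψ 1 := by
    intro g
    have : g ∈ charKer ψ := by rw [h1]; trivial
    exact (mem_charKer hc).mp this
  have h3 := classInner_irr_of_ne hψ isIrrCharacter_one hψ1
  have h4 : classInner ψ (fun _ => 1) = ψ 1 := by
    simp only [classInner, h2, map_one, mul_one, Finset.sum_const, Finset.card_univ, nsmul_eq_mul]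
    rw [← Nat.card_eq_fintype_card]
    have : (Nat.card G : ℂ) ≠ 0 := by exact_mod_cast Nat.card_pos.ne'
    field_simp
  rw [h4] at h3
  exact IsIrrCharacter.apply_one_ne_zero hψ h3

/-- The second inequality. -/
theorem second_ineq (hab : ∀ a ∈ H, ∀ b ∈ H, a * b = b * a) (hZ : H ⊓ Subgroup.center G = ⊥)
    (hone : CentHyp H) {χ : G → ℂ} (hχ : IsIrrCharacter G χ) (hχ1 : χ 1 ≠ 1)
    (hmin : ∀ M : Subgroup G, M.Normal → H ≤ M → M = ⊤) {x : ℕ} (hx : χ 1 = x) :
    Nat.card H < (1 + x) ^ 2 := by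
  classical
  by_contra hcon
  push Not at hcon
  have hχc := IsIrrCharacter.isCharacter hχ
  have hxpos : 0 < x := by
    obtain ⟨n, hn, h⟩ := IsIrrCharacter.apply_one hχ
    rw [hx] at h
    have : x = n := by exact_mod_cast h
    omega
  have hx2 : 2 ≤ x := by
    have : x ≠ 1 := by
      rintro rfl
      apply hχ1
      rw [hx]
      simp
    omega
  -- coefficients
  let θ : G → ℂ := fun g => χ g * conj (χ g)
  have hθ : IsCharacter G θ := IsCharacter.mul hχc (IsCharacter.conj hχc)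
  obtain ⟨m, hm, hs⟩ := IsCharacter.exists_eq_sum hθ
  have hcn : ∀ ψ : IrrCharacter G, ∃ n : ℕ, cH H (ψ : G → ℂ) = n := fun ψ =>
    cH_nat (IsIrrCharacter.isCharacter ψ.2)
  choose c hc using hcn
  have hdn : ∀ ψ : IrrCharacter G, ∃ n : ℕ, (ψ : G → ℂ) 1 = n := fun ψ =>
    IsCharacter.apply_one (IsIrrCharacter.isCharacter ψ.2)
  choose d hd using hdn
  let one : IrrCharacter G := ⟨fun _ => 1, isIrrCharacter_one⟩
  have hm1 : m one = 1 := by
    have h1 := hm one
    have h2 : classInner θ (one : G → ℂ) = classInner χ χ := by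
      simp [classInner, θ, one]
    rw [h2, classInner_irr_self hχ] at h1
    exact_mod_cast h1.symm
  have hd1 : d one = 1 := by
    have h1 := hd one
    have h2 : (one : G → ℂ) 1 = 1 := rfl
    rw [h2] at h1
    exact_mod_cast h1.symm
  have hc1 : c one = 1 := by
    have h1 := hc one
    have h2 : cH H (one : G → ℂ) = 1 := by
      rw [cH_eq_classInner]
      exact classInner_irr_self (isIrrCharacter_one (G := H))
    rw [h2] at h1
    exact_mod_cast h1.symm
  -- the key inequality on the coefficients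
  have hkey : ∀ ψ : IrrCharacter G, ψ ≠ one → (1 + x) * c ψ < d ψ := by
    intro ψ hψ
    have hne : (ψ : G → ℂ) ≠ fun _ => 1 := fun h => hψ (Subtype.ext h)
    have h1 := first_ineq_nat hab hZ hone ψ.2 (exists_ne_of_irr hmin ψ.2 hne) (hc ψ) (hd ψ)
    have h2 : (1 + x) ^ 2 * c ψ ^ 2 ≤ Nat.card H * c ψ ^ 2 := Nat.mul_le_mul_right _ hcon
    have h3 : ((1 + x) * c ψ) ^ 2 < d ψ ^ 2 := by
      rw [mul_pow]
      exact lt_of_le_of_lt h2 h1
    exact lt_of_pow_lt_pow_left₀ 2 (Nat.zero_le _) h3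
  -- degrees
  have hdeg : x ^ 2 = ∑ ψ : IrrCharacter G, m ψ * d ψ := by
    have h1 := congrFun hs 1
    simp only [Finset.sum_apply, Pi.smul_apply] at h1
    simp only [nsmul_eq_mul, hd] at h1
    have h2 : θ 1 = (x : ℂ) ^ 2 := by
      simp only [θ, hx, map_natCast]
      ring
    rw [h2] at h1
    exact_mod_cast h1
  obtain ⟨B, hB⟩ : ∃ B : ℕ, cH H θ = B := cH_nat hθ
  have hBeq : B = ∑ ψ : IrrCharacter G, m ψ * c ψ := by
    have h1 : cH H θ = ∑ ψ : IrrCharacter G, (m ψ : ℂ) * cH H (ψ : G → ℂ) := by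
      simp only [cH, Finset.mul_sum]
      have h2 : ∀ h : H, θ h = ∑ ψ : IrrCharacter G, (m ψ : ℂ) * (ψ : G → ℂ) h := by
        intro h
        have h3 := congrFun hs (h : G)
        simp only [Finset.sum_apply, Pi.smul_apply] at h3
        simpa only [nsmul_eq_mul] using h3
      simp only [h2, Finset.mul_sum]
      rw [Finset.sum_comm]
      refine Finset.sum_congr rfl fun ψ _ => Finset.sum_congr rfl fun h _ => ?_
      ring
    rw [hB] at h1
    simp only [hc] at h1
    exact_mod_cast h1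
  have hBge : x ≤ B := degree_le_norm hab hχc hx hB
  -- split off the trivial character
  have h1 := Finset.add_sum_erase Finset.univ (fun ψ : IrrCharacter G => m ψ * d ψ) (Finset.mem_univ one)
  have h2 := Finset.add_sum_erase Finset.univ (fun ψ : IrrCharacter G => m ψ * c ψ) (Finset.mem_univ one)
  simp only [hm1, hd1, hc1, one_mul] at h1 h2
  rw [← hdeg] at h1
  rw [← hBeq] at h2
  set R := ∑ ψ ∈ Finset.univ.erase one, m ψ * d ψ with hR
  set Q := ∑ ψ ∈ Finset.univ.erase one, m ψ * c ψ with hQ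
  have hRpos : 0 < R := by
    have : 2 ^ 2 ≤ x ^ 2 := Nat.pow_le_pow_left hx2 2
    omega
  have hlt : (1 + x) * Q < R := by
    rw [hQ, hR, Finset.mul_sum]
    obtain ⟨ψ₀, hψ₀, hψ₀2⟩ : ∃ ψ ∈ Finset.univ.erase one, 0 < m ψ * d ψ := by
      by_contra hcon2
      push Not at hcon2
      have : R = 0 := Finset.sum_eq_zero fun ψ hψ => Nat.le_zero.mp (hcon2 ψ hψ)
      omega
    apply Finset.sum_lt_sum
    · intro ψ hψ
      have := hkey ψ (Finset.ne_of_mem_erase hψ)
      calc (1 + x) * (m ψ * c ψ) = m ψ * ((1 + x) * c ψ) := by ring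
        _ ≤ m ψ * d ψ := Nat.mul_le_mul_left _ this.le
    · refine ⟨ψ₀, hψ₀, ?_⟩
      have := hkey ψ₀ (Finset.ne_of_mem_erase hψ₀)
      have hm0 : 0 < m ψ₀ := Nat.pos_of_mul_pos_right hψ₀2 
      calc (1 + x) * (m ψ₀ * c ψ₀) = m ψ₀ * ((1 + x) * c ψ₀) := by ring
        _ < m ψ₀ * d ψ₀ := Nat.mul_lt_mul_of_pos_left this hm0
  -- conclude
  have hR2 : R = (x - 1) * (x + 1) := by
    obtain ⟨y, rfl⟩ : ∃ y, x = y + 1 := ⟨x - 1, by omega⟩
    simp only [Nat.add_sub_cancel]
    have : (y + 1) ^ 2 = y * (y + 1 + 1) + 1 := by ring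
    omega
  have hQ2 : x - 1 ≤ Q := by omega
  have h3 : (1 + x) * (x - 1) ≤ (1 + x) * Q := Nat.mul_le_mul_left _ hQ2
  rw [hR2] at hlt
  have h4 : (1 + x) * (x - 1) = (x - 1) * (x + 1) := by ring
  omega

end Cfsg.Agent.Lib.Char.FT
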