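import Cfsg.Agent.Lib.Char.FTIto
import Cfsg.Agent.Lib.Char.FTBound2

/-!
# Feit–Thompson: a normal Sylow `p`-subgroup for faithful characters of small degree.
-/

set_option autoImplicit false
set_option linter.unusedSectionVars false

namespace Cfsg.Agent.Lib.Char.FT

open Cfsg Cfsg.Agent.Lib.Char
open scoped ComplexConjugate

universe u

/-- An irreducible character not containing a commutator in its kernel is nonlinear. -/
theorem degree_ne_one_of_comm_ne {A : Type u} [Group A] [Finite A] {θ : A → ℂ}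
    (hθ : IsCharacter A θ) {a b : A} (h : θ (a * b * a⁻¹ * b⁻¹) ≠ θ 1) : θ 1 ≠ 1 := by
  intro hθ1
  obtain ⟨lam, hlam⟩ := IsCharacter.exists_monoidHom hθ hθ1
  apply h
  rw [hθ1, hlam]
  simp [map_mul, map_inv]

section Main

variable {Γ : Type u} [Group Γ] [Finite Γ] {p : ℕ} [Fact p.Prime]

/-- `p`-subgroups are abelian when there is a faithful character of degree `< p`. -/
theorem pgroup_comm {n : ℕ} (hnp : n < p) {ψ : Γ → ℂ} (hψ : IsCharacter Γ ψ)
    (hfaith : ∀ g, ψ g = ψ 1 → g = 1) (h1 : ψ 1 = n) {R : Subgroup Γ} (hR : IsPGroup p R) :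
    ∀ a ∈ R, ∀ b ∈ R, a * b = b * a := by
  intro a ha b hb
  by_contra hne
  letI : Fintype R := Fintype.ofFinite R
  have hc1 : (⟨a, ha⟩ * ⟨b, hb⟩ * (⟨a, ha⟩ : R)⁻¹ * (⟨b, hb⟩ : R)⁻¹ : R) ≠ 1 := by
    intro h
    apply hne
    have h2 : a * b * a⁻¹ * b⁻¹ = 1 := congrArg Subtype.val h
    have h3 : a * b * a⁻¹ = b := mul_inv_eq_one.mp h2
    exact mul_inv_eq_iff_eq_mul.mp h3
  have hψR : IsCharacter R (ψ ∘ R.subtype) := IsCharacter.comp hψ R.subtype
  obtain ⟨θ, hθ, hcθ, hθc⟩ := exists_constituent_ne hψR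
    (fun g hg => Subtype.ext (hfaith _ hg)) hc1
  have hθch := IsIrrCharacter.isCharacter hθ
  obtain ⟨d, hd⟩ := IsCharacter.apply_one hθch
  have hdle : d ≤ n := by
    have h2 := IsCharacter.degree_ge_of_classInner_ne_zero hψR hθ hcθ
    have h3 : (ψ ∘ R.subtype) 1 = n := h1
    rw [hd, h3] at h2
    simpa using h2
  have hd1 : d ≠ 1 := by
    rintro rfl
    exact degree_ne_one_of_comm_ne hθch hθc (by rw [hd]; simp)
  have hdvd : d ∣ Nat.card R := degree_dvd_card hθ hd
  obtain ⟨m, hm⟩ := IsPGroup.iff_card.mp hR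
  rw [hm] at hdvd
  obtain ⟨j, _, rfl⟩ := (Nat.dvd_prime_pow Fact.out).mp hdvd
  rcases Nat.eq_zero_or_pos j with rfl | hj
  · simp at hd1
  · have : p ≤ p ^ j := Nat.le_self_pow hj.ne' p
    omega

/-- A subgroup with a normal Sylow `p`-subgroup has a largest `p`-subgroup. -/
theorem exists_largest_psub (K : Subgroup Γ) (h : ∀ Q : Sylow p K, (Q : Subgroup K).Normal) :
    ∃ O : Subgroup Γ, O ≤ K ∧ IsPGroup p O ∧ ∀ R : Subgroup Γ, R ≤ K → IsPGroup p R → R ≤ O := by
  obtain ⟨Q₀⟩ : Nonempty (Sylow p K) := inferInstance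
  refine ⟨(Q₀ : Subgroup K).map K.subtype, Subgroup.map_subtype_le _, Q₀.2.map _, ?_⟩
  intro R hRK hR
  have hR' : IsPGroup p (R.subgroupOf K) := hR.comap_of_injective K.subtype Subtype.val_injective
  obtain ⟨Q', hQ'⟩ := hR'.exists_le_sylow
  haveI := Sylow.unique_of_normal Q₀ (h Q₀)
  have hQ : Q' = Q₀ := Subsingleton.elim _ _
  rw [hQ] at hQ'
  intro r hr
  exact ⟨⟨r, hRK hr⟩, hQ' hr, rfl⟩

variable {n : ℕ} {ψ : Γ → ℂ}

theorem centralizer_ne_top {u : Γ} (hu : u ∉ Subgroup.center Γ) :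
    Subgroup.centralizer ({u} : Set Γ) ≠ ⊤ := by
  intro h
  apply hu
  rw [Subgroup.mem_center_iff]
  intro g
  have : g ∈ Subgroup.centralizer ({u} : Set Γ) := by rw [h]; trivial
  exact Subgroup.mem_centralizer_singleton_iff.mp this

theorem mem_centralizer_of_comm {u g : Γ} (h : g * u = u * g) :
    g ∈ Subgroup.centralizer ({u} : Set Γ) :=
  Subgroup.mem_centralizer_singleton_iff.mpr h

/-- Every `p`-subgroup of the centralizer of a noncentral element of an abelian Sylow subgroup `S`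
lies in `S`. -/
theorem psub_le_of_centralizer (hcomm : ∀ R : Subgroup Γ, IsPGroup p R → ∀ a ∈ R, ∀ b ∈ R, a * b = b * a)
    (hsub : ∀ K : Subgroup Γ, K ≠ ⊤ → ∀ Q : Sylow p K, (Q : Subgroup K).Normal) {S : Sylow p Γ} {u : Γ}
    (hu : u ∈ S) (huZ : u ∉ Subgroup.center Γ) {R : Subgroup Γ}
    (hR : R ≤ Subgroup.centralizer ({u} : Set Γ)) (hRp : IsPGroup p R) : R ≤ S := by
  obtain ⟨O, hOK, hO, hmax⟩ := exists_largest_psub _ (hsub _ (centralizer_ne_top huZ))
  have hSC : (S : Subgroup Γ) ≤ Subgroup.centralizer ({u} : Set Γ) := by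
    intro x hx
    exact mem_centralizer_of_comm (hcomm S S.2 x hx u hu)
  have hSO : (S : Subgroup Γ) ≤ O := hmax _ hSC S.2
  have hOS : O = S := S.is_maximal' hO hSO
  rw [← hOS]
  exact hmax R hR hRp

theorem zpowers_isPGroup_of_mem {R : Subgroup Γ} (hR : IsPGroup p R) {v : Γ} (hv : v ∈ R) :
    IsPGroup p (Subgroup.zpowers v) :=
  hR.to_le (Subgroup.zpowers_le.mpr hv)

theorem zpowers_le_centralizer {u v : Γ} (h : v * u = u * v) :
    Subgroup.zpowers v ≤ Subgroup.centralizer ({u} : Set Γ) :=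
  Subgroup.zpowers_le.mpr (mem_centralizer_of_comm h)

/-- The centralizer hypothesis for the bound. -/
theorem centHyp_sylow (hcomm : ∀ R : Subgroup Γ, IsPGroup p R → ∀ a ∈ R, ∀ b ∈ R, a * b = b * a)
    (hsub : ∀ K : Subgroup Γ, K ≠ ⊤ → ∀ Q : Sylow p K, (Q : Subgroup K).Normal) (P : Sylow p Γ)
    (hZ : (P : Subgroup Γ) ⊓ Subgroup.center Γ = ⊥) : CentHyp (P : Subgroup Γ) := by
  have hS : ∀ a : Γ, (P : Subgroup Γ).map (MulAut.conj a).toMonoidHom = ((a • P : Sylow p Γ) : Subgroup Γ) := by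
    intro a
    rw [Sylow.coe_subgroup_smul]
    rfl
  have hNC : ∀ (a : Γ) (w : Γ), w ∈ ((a • P : Sylow p Γ) : Subgroup Γ) → w ≠ 1 → w ∉ Subgroup.center Γ := by
    intro a w hw hw1 hwZ
    rw [← hS a] at hw
    obtain ⟨x, hx, rfl⟩ := hw
    have h1 : MulAut.conj a x = a * x * a⁻¹ := rfl
    have hw2 : (MulAut.conj a).toMonoidHom x = x := by
      show a * x * a⁻¹ = x
      have h2 := Subgroup.mem_center_iff.mp hwZ a
      have h3 : a * (a * x * a⁻¹) = a * x * a⁻¹ * a := h2
      have h4 : a * x * a⁻¹ * a = a * x := by group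
      rw [h4] at h3
      exact mul_left_cancel h3
    rw [hw2] at hw1 hwZ
    have : x ∈ (P : Subgroup Γ) ⊓ Subgroup.center Γ := ⟨hx, hwZ⟩
    rw [hZ, Subgroup.mem_bot] at this
    exact hw1 this
  intro g hg a b h1 h2
  rw [hS a] at h1 ⊢
  rw [hS b] at h2 ⊢
  obtain ⟨u, hu, hu1⟩ := (Subgroup.bot_or_exists_ne_one _).resolve_left h1
  obtain ⟨v, hv, hv1⟩ := (Subgroup.bot_or_exists_ne_one _).resolve_left h2
  obtain ⟨O, hOK, hO, hmax⟩ := exists_largest_psub _ (hsub _ (centralizer_ne_top hg))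
  have huO : u ∈ O := hmax _ (Subgroup.zpowers_le.mpr hu.1)
    (zpowers_isPGroup_of_mem (a • P : Sylow p Γ).2 hu.2) (Subgroup.mem_zpowers u)
  have hvO : v ∈ O := hmax _ (Subgroup.zpowers_le.mpr hv.1)
    (zpowers_isPGroup_of_mem (b • P : Sylow p Γ).2 hv.2) (Subgroup.mem_zpowers v)
  have huv := hcomm O hO v hvO u huO
  have hva : v ∈ ((a • P : Sylow p Γ) : Subgroup Γ) :=
    psub_le_of_centralizer hcomm hsub (S := a • P) hu.2 (hNC a u hu.2 hu1)
      (zpowers_le_centralizer huv) (zpowers_isPGroup_of_mem (b • P : Sylow p Γ).2 hv.2)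
      (Subgroup.mem_zpowers v)
  have hle : ((b • P : Sylow p Γ) : Subgroup Γ) ≤ ((a • P : Sylow p Γ) : Subgroup Γ) :=
    psub_le_of_centralizer hcomm hsub (S := a • P) hva (hNC b v hv.2 hv1)
      (fun x hx => mem_centralizer_of_comm (hcomm _ (b • P : Sylow p Γ).2 x hx v hv.2))
      (b • P : Sylow p Γ).2
  exact (b • P : Sylow p Γ).is_maximal' (a • P : Sylow p Γ).2 hle

/-- A non-normal Sylow subgroup: no proper normal subgroup contains it. -/
theorem min_of_not_normal (hsub : ∀ K : Subgroup Γ, K ≠ ⊤ → ∀ Q : Sylow p K, (Q : Subgroup K).Normal)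
    {P : Sylow p Γ} (hP : ¬ (P : Subgroup Γ).Normal) :
    ∀ M : Subgroup Γ, M.Normal → (P : Subgroup Γ) ≤ M → M = ⊤ := by
  intro M hM hPM
  by_contra hne
  obtain ⟨O, hOK, hO, hmax⟩ := exists_largest_psub _ (hsub _ hne)
  have hOP : O = P := P.is_maximal' hO (hmax _ hPM P.2)
  apply hP
  constructor
  intro x hx g
  have h2 : ((P : Subgroup Γ).map (MulAut.conj g).toMonoidHom) ≤ O := by
    apply hmax
    · rintro _ ⟨y, hy, rfl⟩
      exact hM.conj_mem y (hPM hy) g
    · exact P.2.map _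
  rw [hOP] at h2
  exact h2 ⟨x, hx, rfl⟩

/-- Case `P ∩ Z(G) = 1`: the Sylow subgroup is small. -/
theorem card_lt_of_inf_center (hnp : n < p) (hψ : IsCharacter Γ ψ)
    (hfaith : ∀ g, ψ g = ψ 1 → g = 1) (h1 : ψ 1 = n)
    (hsub : ∀ K : Subgroup Γ, K ≠ ⊤ → ∀ Q : Sylow p K, (Q : Subgroup K).Normal) {P : Sylow p Γ}
    (hP : ¬ (P : Subgroup Γ).Normal) (hZ : (P : Subgroup Γ) ⊓ Subgroup.center Γ = ⊥) :
    Nat.card P < (1 + n) ^ 2 := by
  letI : Fintype Γ := Fintype.ofFinite Γ
  letI : Fintype (P : Subgroup Γ) := Fintype.ofFinite _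
  have hcomm : ∀ R : Subgroup Γ, IsPGroup p R → ∀ a ∈ R, ∀ b ∈ R, a * b = b * a :=
    fun R hR => pgroup_comm hnp hψ hfaith h1 hR
  have hone := centHyp_sylow hcomm hsub P hZ
  have hmin := min_of_not_normal hsub hP
  -- a nonlinear constituent
  have hnonab : ∃ a b : Γ, a * b * a⁻¹ * b⁻¹ ≠ 1 := by
    by_contra hcon
    push Not at hcon
    apply hP
    constructor
    intro x hx g
    have h3 : g * x * g⁻¹ * x⁻¹ = 1 := hcon g x
    have h4 : g * x * g⁻¹ = x := mul_inv_eq_one.mp h3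
    rw [h4]
    exact hx
  obtain ⟨a, b, hab⟩ := hnonab
  obtain ⟨θ, hθ, hcθ, hθc⟩ := exists_constituent_ne hψ hfaith hab
  have hθch := IsIrrCharacter.isCharacter hθ
  obtain ⟨d, hd⟩ := IsCharacter.apply_one hθch
  have hdle : d ≤ n := by
    have h2 := IsCharacter.degree_ge_of_classInner_ne_zero hψ hθ hcθ
    rw [hd, h1] at h2
    simpa using h2
  have hlt := second_ineq (hcomm P P.2) hZ hone hθ (degree_ne_one_of_comm_ne hθch hθc) hmin hd
  have hle : (1 + d) ^ 2 ≤ (1 + n) ^ 2 := Nat.pow_le_pow_left (by omega) 2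
  exact lt_of_lt_of_le hlt hle

/-- Normal `p`-subgroups are central when the Sylow subgroups generate. -/
theorem normal_psub_central (hnp : n < p) (hψ : IsCharacter Γ ψ)
    (hfaith : ∀ g, ψ g = ψ 1 → g = 1) (h1 : ψ 1 = n) {P : Sylow p Γ}
    (hmin : ∀ M : Subgroup Γ, M.Normal → (P : Subgroup Γ) ≤ M → M = ⊤) {O : Subgroup Γ} (hN : O.Normal)
    (hO : IsPGroup p O) : O ≤ Subgroup.center Γ := by
  classical
  letI : Fintype O := Fintype.ofFinite O
  have hψO : IsCharacter O (ψ ∘ O.subtype) := IsCharacter.comp hψ O.subtype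
  have hfaithO : ∀ g : O, (ψ ∘ O.subtype) g = (ψ ∘ O.subtype) 1 → g = 1 :=
    fun g hg => Subtype.ext (hfaith _ hg)
  have h1O : (ψ ∘ O.subtype) 1 = n := h1
  have hcommO : ∀ a b : O, a * b = b * a := fun a b =>
    Subtype.ext (pgroup_comm hnp hψ hfaith h1 hO a a.2 b b.2)
  have hinv : ∀ g : Γ, ∀ y ∈ O, MulAut.conj g y ∈ O := fun g y hy => hN.conj_mem y hy g
  -- the stabilizer of all constituents
  let Good : Γ → Prop := fun g => ∀ θ, IsIrrCharacter O θ → classInner (ψ ∘ O.subtype) θ ≠ 0 →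
    ∀ w : O, θ (restrictAut (MulAut.conj g) O (hinv g) w) = θ w
  let N : Subgroup Γ :=
    { carrier := {g | Good g}
      one_mem' := by
        intro θ _ _ w
        congr 1
        apply Subtype.ext
        simp
      mul_mem' := by
        intro a b ha hb θ hθ hc w
        have h2 : restrictAut (MulAut.conj (a * b)) O (hinv (a * b)) w =
            restrictAut (MulAut.conj a) O (hinv a) (restrictAut (MulAut.conj b) O (hinv b) w) := by
          apply Subtype.ext
          simp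
        rw [h2, ha θ hθ hc, hb θ hθ hc]
      inv_mem' := by
        intro a ha θ hθ hc w
        have h2 : restrictAut (MulAut.conj a) O (hinv a) (restrictAut (MulAut.conj a⁻¹) O (hinv a⁻¹) w) = w := by
          apply Subtype.ext
          simp only [coe_restrictAut, MulAut.conj_apply]
          group
        have h3 := ha θ hθ hc (restrictAut (MulAut.conj a⁻¹) O (hinv a⁻¹) w)
        rw [h2] at h3
        exact h3.symm }
  have hgood_p : ∀ g : Γ, ∀ k : ℕ, g ^ p ^ k = 1 → g ∈ N := by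
    intro g k hg θ hθ hc w
    have hf : (MulAut.conj g) ^ p ^ k = 1 := by
      rw [← map_pow, hg, map_one]
    refine constituent_comp_eq hnp (f := restrictAut (MulAut.conj g) O (hinv g))
      (restrictAut_pow_eq_one (hinv g) hf) hψO h1O ?_ hθ hc w
    intro x
    exact IsCharacter.isClassFunction hψ (x : Γ) g
  have hNtop : N = ⊤ := by
    have h2 := hmin (Subgroup.normalClosure (P : Set Γ)) (Subgroup.normalClosure_normal)
      Subgroup.subset_normalClosure
    rw [eq_top_iff, ← h2, Subgroup.normalClosure, Subgroup.closure_le]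
    intro x hx
    rw [Group.mem_conjugatesOfSet_iff] at hx
    obtain ⟨a, ha, hax⟩ := hx
    obtain ⟨k, hk⟩ := IsPGroup.iff_card.mp P.2
    have hak : a ^ p ^ k = 1 := by
      rw [← hk]
      have := pow_card_eq_one' (x := (⟨a, ha⟩ : P))
      exact congrArg Subtype.val this
    obtain ⟨c, rfl⟩ := isConj_iff.mp hax
    apply hgood_p _ k
    rw [conj_pow, hak]
    group
  intro z hz
  rw [Subgroup.mem_center_iff]
  intro g
  by_contra hne
  have hgood : g ∈ N := by rw [hNtop]; trivial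
  let z' : O := ⟨z, hz⟩
  let c : O := restrictAut (MulAut.conj g) O (hinv g) z' * z'⁻¹
  have hc1 : c ≠ 1 := by
    intro h
    apply hne
    have h2 : g * z * g⁻¹ * z⁻¹ = 1 := congrArg Subtype.val h
    have h3 : g * z * g⁻¹ = z := mul_inv_eq_one.mp h2
    exact mul_inv_eq_iff_eq_mul.mp h3
  obtain ⟨θ, hθ, hcθ, hθc⟩ := exists_constituent_ne hψO hfaithO hc1
  have hθ1 : θ 1 = 1 := (comm_iff_irr_degree_one (G := O)).mp hcommO ⟨θ, hθ⟩
  obtain ⟨lam, hlam⟩ := IsCharacter.exists_monoidHom (IsIrrCharacter.isCharacter hθ) hθ1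
  apply hθc
  have h3 := hgood θ hθ hcθ z'
  rw [hlam] at h3
  have h4 : lam (restrictAut (MulAut.conj g) O (hinv g) z') = lam z' := Units.ext h3
  rw [hθ1, hlam]
  show ((lam c : ℂˣ) : ℂ) = 1
  have h5 : lam c = 1 := by
    show lam (restrictAut (MulAut.conj g) O (hinv g) z' * z'⁻¹) = 1
    rw [map_mul, h4, map_inv, mul_inv_cancel]
  rw [h5]
  simp

/-- Transfer: a nontrivial central `p`-element in an abelian Sylow subgroup gives a proper normal
subgroup of `p`-power index. -/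
theorem exists_ker_of_central (P : Sylow p Γ)
    (hcomm : ∀ a ∈ (P : Subgroup Γ), ∀ b ∈ (P : Subgroup Γ), a * b = b * a) {u : Γ}
    (hu : u ∈ (P : Subgroup Γ)) (huZ : u ∈ Subgroup.center Γ) (hu1 : u ≠ 1) :
    ∃ K : Subgroup Γ, K.Normal ∧ K ≠ ⊤ ∧ ∃ m, K.index = p ^ m := by
  letI : CommGroup (P : Subgroup Γ) :=
    { (inferInstance : Group (P : Subgroup Γ)) with
      mul_comm := fun a b => Subtype.ext (hcomm a a.2 b b.2) }
  let ϕ : (P : Subgroup Γ) →* (P : Subgroup Γ) := MonoidHom.id _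
  let V : Γ →* (P : Subgroup Γ) := MonoidHom.transfer ϕ
  have hkey : ∀ (k : ℕ) (g₀ : Γ), g₀⁻¹ * u ^ k * g₀ ∈ (P : Subgroup Γ) → g₀⁻¹ * u ^ k * g₀ = u ^ k := by
    intro k g₀ _
    have h2 : u ^ k ∈ Subgroup.center Γ := Subgroup.pow_mem _ huZ k
    have h3 := Subgroup.mem_center_iff.mp h2 g₀
    rw [mul_assoc, ← h3]
    group
  have hV : V u = ⟨u ^ (P : Subgroup Γ).index, MonoidHom.transfer_eq_pow_aux u hkey⟩ :=
    MonoidHom.transfer_eq_pow ϕ u hkey
  refine ⟨V.ker, MonoidHom.normal_ker V, ?_, ?_⟩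
  · intro htop
    have h2 : u ∈ V.ker := by rw [htop]; trivial
    have h3 : V u = 1 := h2
    rw [hV] at h3
    have h4 : u ^ (P : Subgroup Γ).index = 1 := congrArg Subtype.val h3
    apply hu1
    obtain ⟨k, hk⟩ := IsPGroup.iff_card.mp P.2
    have hak : u ^ p ^ k = 1 := by
      rw [← hk]
      have := pow_card_eq_one' (x := (⟨u, hu⟩ : (P : Subgroup Γ)))
      exact congrArg Subtype.val this
    have h5 : orderOf u ∣ p ^ k := orderOf_dvd_of_pow_eq_one hak
    have h6 : orderOf u ∣ (P : Subgroup Γ).index := orderOf_dvd_of_pow_eq_one h4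
    have hcop : Nat.Coprime (p ^ k) (P : Subgroup Γ).index :=
      Nat.Coprime.pow_left _ ((Nat.Prime.coprime_iff_not_dvd Fact.out).mpr P.not_dvd_index)
    exact orderOf_eq_one_iff.mp (Nat.eq_one_of_dvd_coprimes hcop h5 h6)
  · rw [Subgroup.index_ker]
    obtain ⟨k, hk⟩ := IsPGroup.iff_card.mp P.2
    have h2 : Nat.card V.range ∣ p ^ k := by
      rw [← hk]
      exact Subgroup.card_subgroup_dvd_card _
    obtain ⟨j, _, hj⟩ := (Nat.dvd_prime_pow Fact.out).mp h2
    exact ⟨j, hj⟩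

/-- Case `P ∩ Z(G) ≠ 1`. -/
theorem false_of_central (hn : n + 1 < p) (hψ : IsCharacter Γ ψ)
    (hfaith : ∀ g, ψ g = ψ 1 → g = 1) (h1 : ψ 1 = n)
    (hsub : ∀ K : Subgroup Γ, K ≠ ⊤ → ∀ Q : Sylow p K, (Q : Subgroup K).Normal) {P : Sylow p Γ}
    (hP : ¬ (P : Subgroup Γ).Normal) {u : Γ} (hu : u ∈ (P : Subgroup Γ))
    (huZ : u ∈ Subgroup.center Γ) (hu1 : u ≠ 1) : False := by
  classical
  have hnp : n < p := by omega
  have hcomm : ∀ R : Subgroup Γ, IsPGroup p R → ∀ a ∈ R, ∀ b ∈ R, a * b = b * a :=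
    fun R hR => pgroup_comm hnp hψ hfaith h1 hR
  obtain ⟨K, hKn, hKtop, m, hKm⟩ := exists_ker_of_central P (hcomm P P.2) hu huZ hu1
  have hmin := min_of_not_normal hsub hP
  -- the Sylow subgroup of `K`
  obtain ⟨Q₀⟩ : Nonempty (Sylow p K) := inferInstance
  have hQn : (Q₀ : Subgroup K).Normal := hsub K hKtop Q₀
  obtain ⟨O, hOK, hO, hmax⟩ := exists_largest_psub K (hsub K hKtop)
  -- `O` is the image of `Q₀`
  have hQO : (Q₀ : Subgroup K).map K.subtype ≤ O := hmax _ (Subgroup.map_subtype_le _) (Q₀.2.map _)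
  have hOn : O.Normal := by
    constructor
    intro x hx g
    have h2 : O.map (MulAut.conj g).toMonoidHom ≤ O := by
      apply hmax
      · rintro _ ⟨y, hy, rfl⟩
        exact hKn.conj_mem y (hOK hy) g
      · exact hO.map _
    exact h2 ⟨x, hx, rfl⟩
  have hOZ := normal_psub_central hnp hψ hfaith h1 hmin hOn hO
  have hQZ : ∀ q ∈ (Q₀ : Subgroup K), ∀ k : K, k * q = q * k := by
    intro q hq k
    have h2 : (q : Γ) ∈ O := hQO ⟨q, hq, rfl⟩
    have h3 := Subgroup.mem_center_iff.mp (hOZ h2) (k : Γ)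
    exact Subtype.ext h3
  obtain ⟨a, ha⟩ := IsPGroup.iff_card.mp Q₀.2
  have hcopQ : Nat.Coprime (Nat.card (Q₀ : Subgroup K)) (Q₀ : Subgroup K).index := by
    rw [ha]
    exact Nat.Coprime.pow_left _ ((Nat.Prime.coprime_iff_not_dvd Fact.out).mpr Q₀.not_dvd_index)
  obtain ⟨Y₀, hY₀⟩ := Subgroup.exists_right_complement'_of_coprime hcopQ
  have hY₀card : Nat.card Y₀ = (Q₀ : Subgroup K).index := hY₀.symm.index_eq_card.symm
  have hY₀idx : Y₀.index = Nat.card (Q₀ : Subgroup K) := hY₀.index_eq_card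
  set m₀ := Nat.card Y₀ with hm₀
  have hm₀p : Nat.Coprime m₀ p := by
    rw [hY₀card]
    exact ((Nat.Prime.coprime_iff_not_dvd Fact.out).mpr Q₀.not_dvd_index).symm
  -- characterization of `Y₀`
  have hchar : ∀ k : K, k ^ m₀ = 1 → k ∈ Y₀ := by
    intro k hk
    obtain ⟨⟨q, y⟩, hqy, -⟩ := Subgroup.IsComplement.existsUnique hY₀ k
    simp only at hqy
    have hym : (y : K) ^ m₀ = 1 := by
      have := pow_card_eq_one' (x := y)
      exact congrArg Subtype.val this
    have hc : Commute (q : K) (y : K) := (hQZ q q.2 y).symm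
    have hqm : (q : K) ^ m₀ = 1 := by
      have h2 := hk
      rw [← hqy, hc.mul_pow, hym, mul_one] at h2
      exact h2
    have hqa : (q : K) ^ p ^ a = 1 := by
      rw [← ha]
      have := pow_card_eq_one' (x := q)
      exact congrArg Subtype.val this
    have hq1 : (q : K) = 1 := by
      have h5 : orderOf (q : K) ∣ m₀ := orderOf_dvd_of_pow_eq_one hqm
      have h6 : orderOf (q : K) ∣ p ^ a := orderOf_dvd_of_pow_eq_one hqa
      exact orderOf_eq_one_iff.mp (Nat.eq_one_of_dvd_coprimes (Nat.Coprime.pow_right _ hm₀p) h5 h6)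
    rw [← hqy, hq1, one_mul]
    exact y.2
  let Y : Subgroup Γ := Y₀.map K.subtype
  have hYn : Y.Normal := by
    constructor
    rintro _ ⟨y, hy, rfl⟩ g
    have hgy : g * (y : Γ) * g⁻¹ ∈ K := hKn.conj_mem _ y.2 g
    let k : K := ⟨g * (y : Γ) * g⁻¹, hgy⟩
    have hk : k ^ m₀ = 1 := by
      apply Subtype.ext
      show (g * (y : Γ) * g⁻¹) ^ m₀ = 1
      rw [conj_pow]
      have h3 : (y : K) ^ m₀ = 1 := by
        have := pow_card_eq_one' (x := (⟨y, hy⟩ : Y₀))
        exact congrArg Subtype.val this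
      have h4 : (y : Γ) ^ m₀ = 1 := congrArg Subtype.val h3
      rw [h4]
      group
    exact ⟨k, hchar k hk, rfl⟩
  have hYcard : Nat.card Y = m₀ := by
    rw [hm₀]
    exact Subgroup.card_map_of_injective K.subtype_injective
  have hcent : ∀ x ∈ (P : Subgroup Γ), ∀ y ∈ Y, x * y = y * x := by
    intro x hx
    obtain ⟨k, hk⟩ := IsPGroup.iff_card.mp P.2
    have hxk : x ^ p ^ k = 1 := by
      rw [← hk]
      have := pow_card_eq_one' (x := (⟨x, hx⟩ : (P : Subgroup Γ)))
      exact congrArg Subtype.val this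
    exact ito_core hn hψ hfaith h1 hxk Y (fun y hy => hYn.conj_mem y hy x) (by rw [hYcard]; exact hm₀p)
  -- index computation
  have hYidx : Y.index = p ^ a * p ^ m := by
    have h2 : Y ≤ K := Subgroup.map_subtype_le _
    rw [← Subgroup.relIndex_mul_index h2, hKm, ← ha, ← hY₀idx]
    congr 1
    show (Y.subgroupOf K).index = _
    rw [Subgroup.subgroupOf, Subgroup.comap_map_eq_self_of_injective K.subtype_injective]
  have htop : Y ⊔ (P : Subgroup Γ) = ⊤ := by
    apply Subgroup.index_eq_one.mp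
    have h2 : (Y ⊔ (P : Subgroup Γ)).index ∣ p ^ (a + m) := by
      rw [pow_add, ← hYidx]
      exact Subgroup.index_dvd_of_le le_sup_left
    have h3 : (Y ⊔ (P : Subgroup Γ)).index ∣ (P : Subgroup Γ).index :=
      Subgroup.index_dvd_of_le le_sup_right
    have hcop : Nat.Coprime (p ^ (a + m)) (P : Subgroup Γ).index :=
      Nat.Coprime.pow_left _ ((Nat.Prime.coprime_iff_not_dvd Fact.out).mpr P.not_dvd_index)
    exact Nat.eq_one_of_dvd_coprimes hcop h2 h3
  apply hP
  rw [← Subgroup.normalizer_eq_top_iff, eq_top_iff, ← htop]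
  refine sup_le ?_ Subgroup.le_normalizer
  intro y hy
  rw [Subgroup.mem_normalizer_iff]
  intro x
  constructor
  · intro hx
    have : y * x * y⁻¹ = x := by
      rw [← hcent x hx y hy]
      group
    rw [this]
    exact hx
  · intro hx
    have h4 := hcent _ hx y hy
    have h5 : y * x * y⁻¹ * y = y * x := by group
    rw [h5] at h4
    have h6 : x = y * x * y⁻¹ := mul_left_cancel h4
    rw [h6]
    exact hx

end Main

/-- Sylow normality transports along isomorphisms. -/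
theorem sylow_normal_of_equiv {p : ℕ} [Fact p.Prime] {A B : Type*} [Group A] [Group B] [Finite A] [Finite B]
    (e : A ≃* B) (h : ∀ Q : Sylow p B, (Q : Subgroup B).Normal) (Q : Sylow p A) :
    (Q : Subgroup A).Normal := by
  have h2 : ((Q : Subgroup A).map e.toMonoidHom).Normal :=
    h (Sylow.mapSurjective (f := e.toMonoidHom) e.surjective Q)
  have h3 := h2.comap e.toMonoidHom
  rwa [Subgroup.comap_map_eq_self_of_injective e.injective] at h3

/-- **Feit–Thompson.** A finite group with a faithful character of degree `n` with `n + 1 < p`, and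
with `(n + 1)^2 ≤ p` or every subgroup of order not divisible by `p^2` being `p`-closed, has a normal
Sylow `p`-subgroup. -/
theorem sylow_normal_main {p : ℕ} [Fact p.Prime] {n : ℕ} (hn : n + 1 < p) :
    ∀ (N : ℕ) (Γ : Type u) [Group Γ] [Finite Γ] (ψ : Γ → ℂ), Nat.card Γ = N → IsCharacter Γ ψ →
      (∀ g, ψ g = ψ 1 → g = 1) → ψ 1 = n →
      ((n + 1) ^ 2 ≤ p ∨ ∀ K : Subgroup Γ, ¬ p ^ 2 ∣ Nat.card K → ∀ Q : Sylow p K, (Q : Subgroup K).Normal) →
      ∀ P : Sylow p Γ, (P : Subgroup Γ).Normal := by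
  intro N
  induction N using Nat.strong_induction_on with
  | _ N ih =>
  intro Γ _ _ ψ hN hψ hfaith h1 hcond P
  by_contra hP
  have hsub : ∀ K : Subgroup Γ, K ≠ ⊤ → ∀ Q : Sylow p K, (Q : Subgroup K).Normal := by
    intro K hK
    have hlt : Nat.card K < N := by
      rw [← hN]
      refine lt_of_le_of_ne (Subgroup.card_le_card_group K) fun h => hK ?_
      exact Subgroup.eq_top_of_card_eq K h
    refine ih _ hlt K (ψ ∘ K.subtype) rfl (IsCharacter.comp hψ K.subtype)
      (fun g hg => Subtype.ext (hfaith _ hg)) h1 ?_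
    rcases hcond with h | h
    · exact Or.inl h
    · right
      intro K' hK' Q
      have hcard : Nat.card (K'.map K.subtype) = Nat.card K' :=
        Subgroup.card_map_of_injective K.subtype_injective
      exact sylow_normal_of_equiv (K'.equivMapOfInjective K.subtype K.subtype_injective)
        (h _ (by rw [hcard]; exact hK')) Q
  by_cases hZ : (P : Subgroup Γ) ⊓ Subgroup.center Γ = ⊥
  · have hlt := card_lt_of_inf_center (by omega) hψ hfaith h1 hsub hP hZ
    obtain ⟨k, hk⟩ := IsPGroup.iff_card.mp P.2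
    have hk0 : k ≠ 0 := by
      rintro rfl
      apply hP
      have : (P : Subgroup Γ) = ⊥ := by
        apply Subgroup.eq_bot_of_card_eq
        rw [hk, pow_zero]
      rw [this]
      infer_instance
    have hpk : p ≤ p ^ k := Nat.le_self_pow hk0 p
    rw [hk] at hlt
    have hadd : 1 + n = n + 1 := by omega
    rw [hadd] at hlt
    rcases hcond with h | h
    · omega
    · apply hP
      have hk2 : k < 2 := by
        by_contra hge
        push Not at hge
        have h3 : p ^ 2 ≤ p ^ k := Nat.pow_le_pow_right (Nat.Prime.pos Fact.out) hge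
        have h4 : (n + 1) ^ 2 < p ^ 2 := Nat.pow_lt_pow_left hn two_ne_zero
        omega
      have h2 : ¬ p ^ 2 ∣ Nat.card (⊤ : Subgroup Γ) := by
        rw [Subgroup.card_top]
        intro hd
        have h3 := Sylow.pow_dvd_card_of_pow_dvd_card P hd
        rw [hk] at h3
        have h4 := (Nat.pow_dvd_pow_iff_le_right (Nat.Prime.one_lt Fact.out)).mp h3
        omega
      exact sylow_normal_of_equiv Subgroup.topEquiv.symm (h ⊤ h2) P
  · obtain ⟨u, hu, hu1⟩ := (Subgroup.bot_or_exists_ne_one _).resolve_left hZ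
    exact false_of_central hn hψ hfaith h1 hsub hP hu.1 hu.2 hu1

end Cfsg.Agent.Lib.Char.FT
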