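import Cfsg.Agent.Lib.Char.FWBase

/-! # Frobenius-Wielandt fixed point formula: reductions inside linear algebra. -/

set_option autoImplicit false

namespace Cfsg.Agent.Lib.Char.FW

open Module TensorProduct

universe w

section Avg

variable {K W F : Type*} [Field K] [AddCommGroup W] [Module K W] [Group F] [Finite F]

/-- The average over a subgroup. -/
noncomputable def avg (ρ : F →* Module.End K W) (A : Subgroup F) : Module.End K W :=
  letI : Fintype A := Fintype.ofFinite A
  ((Nat.card A : K)⁻¹) • ∑ a : A, ρ a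

theorem avg_of_fix (ρ : F →* Module.End K W) (A : Subgroup F) (hA : (Nat.card A : K) ≠ 0) {v : W}
    (hv : v ∈ fixSub ρ A) : avg ρ A v = v := by
  letI : Fintype A := Fintype.ofFinite A
  have h1 : ∀ a : A, ρ a v = v := fun a => hv a a.2
  simp only [avg, LinearMap.smul_apply, LinearMap.sum_apply, h1, Finset.sum_const, Finset.card_univ,
    ← Nat.card_eq_fintype_card]
  rw [← Nat.cast_smul_eq_nsmul K, smul_smul, inv_mul_cancel₀ hA, one_smul]

theorem avg_mem (ρ : F →* Module.End K W) (A : Subgroup F) (v : W) : avg ρ A v ∈ fixSub ρ A := by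
  letI : Fintype A := Fintype.ofFinite A
  intro a ha
  simp only [avg, LinearMap.smul_apply, LinearMap.sum_apply, map_smul, map_sum]
  congr 1
  refine Fintype.sum_equiv (Equiv.mulLeft ⟨a, ha⟩) _ _ fun b => ?_
  simp [← Module.End.mul_apply, ← map_mul]

theorem avg_avg (ρ : F →* Module.End K W) (A : Subgroup F) (hA : (Nat.card A : K) ≠ 0) (v : W) :
    avg ρ A (avg ρ A v) = avg ρ A v :=
  avg_of_fix ρ A hA (avg_mem ρ A v)

theorem avg_comm (ρ : F →* Module.End K W) (A : Subgroup F) (g : F)
    (hg : ∀ a ∈ A, g * a * g⁻¹ ∈ A) (hg' : ∀ a ∈ A, g⁻¹ * a * g ∈ A) (v : W) :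
    ρ g (avg ρ A v) = avg ρ A (ρ g v) := by
  letI : Fintype A := Fintype.ofFinite A
  simp only [avg, LinearMap.smul_apply, LinearMap.sum_apply, map_smul, map_sum]
  congr 1
  let t : A ≃ A :=
    { toFun := fun a => ⟨g * a * g⁻¹, hg a a.2⟩
      invFun := fun a => ⟨g⁻¹ * a * g, hg' a a.2⟩
      left_inv := fun a => Subtype.ext (by simp [mul_assoc])
      right_inv := fun a => Subtype.ext (by simp [mul_assoc]) }
  refine Fintype.sum_equiv t _ _ fun a => ?_
  show ρ g (ρ a v) = ρ (g * a * g⁻¹) (ρ g v)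
  rw [← Module.End.mul_apply, ← Module.End.mul_apply, ← map_mul, ← map_mul]
  simp

theorem range_avg (ρ : F →* Module.End K W) (A : Subgroup F) (hA : (Nat.card A : K) ≠ 0) :
    LinearMap.range (avg ρ A) = fixSub ρ A := by
  ext v
  constructor
  · rintro ⟨w, rfl⟩
    exact avg_mem ρ A w
  · intro hv
    exact ⟨v, avg_of_fix ρ A hA hv⟩

end Avg

section SubRep

variable {K W F : Type*} [Field K] [AddCommGroup W] [Module K W] [Group F]

/-- A subrepresentation. -/
def subRep (ρ : F →* Module.End K W) (T : Submodule K W) (hT : ∀ f, ∀ v ∈ T, ρ f v ∈ T) :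
    F →* Module.End K T where
  toFun f := (ρ f).restrict (hT f)
  map_one' := by
    ext v
    simp [LinearMap.restrict_apply]
  map_mul' f g := by
    ext v
    simp [LinearMap.restrict_apply]

theorem subRep_coe (ρ : F →* Module.End K W) (T : Submodule K W) (hT : ∀ f, ∀ v ∈ T, ρ f v ∈ T)
    (f : F) (v : T) : ((subRep ρ T hT f v : T) : W) = ρ f v := rfl

theorem finrank_fix_subRep (ρ : F →* Module.End K W) (T : Submodule K W)
    (hT : ∀ f, ∀ v ∈ T, ρ f v ∈ T) (E : Subgroup F) :
    finrank K (fixSub (subRep ρ T hT) E) = finrank K (fixSub ρ E ⊓ T : Submodule K W) := by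
  have h0 : (fixSub (subRep ρ T hT) E).map T.subtype = fixSub ρ E ⊓ T := by
    ext v
    constructor
    · rintro ⟨⟨v, hv⟩, h1, rfl⟩
      refine ⟨fun e he => ?_, hv⟩
      have := h1 e he
      exact congrArg Subtype.val this
    · rintro ⟨h1, h2⟩
      refine ⟨⟨v, h2⟩, fun e he => Subtype.ext (h1 e he), rfl⟩
  rw [← Submodule.finrank_map_subtype_eq T (fixSub (subRep ρ T hT) E), h0]

/-- Splitting by a commuting idempotent. -/
theorem finrank_fix_split [FiniteDimensional K W] (ρ : F →* Module.End K W) (E : Subgroup F)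
    (P : Module.End K W) (hP : ∀ v, P (P v) = P v) (hc : ∀ e ∈ E, ∀ v, ρ e (P v) = P (ρ e v)) :
    finrank K (fixSub ρ E) = finrank K (fixSub ρ E ⊓ LinearMap.range P : Submodule K W) +
      finrank K (fixSub ρ E ⊓ LinearMap.ker P : Submodule K W) := by
  have h1 := Submodule.finrank_sup_add_finrank_inf_eq
    (fixSub ρ E ⊓ LinearMap.range P) (fixSub ρ E ⊓ LinearMap.ker P)
  have h2 : (fixSub ρ E ⊓ LinearMap.range P) ⊓ (fixSub ρ E ⊓ LinearMap.ker P) = ⊥ := by
    rw [eq_bot_iff]
    rintro v ⟨⟨-, w, rfl⟩, -, h3⟩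
    have h3' : P (P w) = 0 := h3
    rw [hP] at h3'
    rw [Submodule.mem_bot]
    exact h3'
  have h3 : (fixSub ρ E ⊓ LinearMap.range P) ⊔ (fixSub ρ E ⊓ LinearMap.ker P) = fixSub ρ E := by
    refine le_antisymm (sup_le inf_le_left inf_le_left) ?_
    intro v hv
    have hPv : P v ∈ fixSub ρ E := fun e he => by rw [hc e he, hv e he]
    have h4 : v = P v + (v - P v) := by abel
    rw [h4]
    refine Submodule.add_mem_sup ⟨hPv, v, rfl⟩ ⟨Submodule.sub_mem _ hv hPv, ?_⟩
    show P (v - P v) = 0
    rw [map_sub, hP, sub_self]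
  rw [h2, h3, finrank_bot, add_zero] at h1
  exact h1

end SubRep

section Chain

variable {K : Type*} [Field K] {F : Type*} [Group F] [Finite F]

theorem cast_ne_zero_of_dvd {a b : ℕ} (h : a ∣ b) (hb : (b : K) ≠ 0) : (a : K) ≠ 0 := by
  intro h0
  obtain ⟨c, rfl⟩ := h
  apply hb
  push_cast
  rw [h0, zero_mul]

theorem exists_comm_eq {U E A : Subgroup F} (hfree : ∀ e ∈ E, e ≠ 1 → ∀ u ∈ U, e * u = u * e → u = 1)
    (hAU : A ≤ U) (hAE : ∀ e ∈ E, ∀ a ∈ A, e * a * e⁻¹ ∈ A) {e : F} (he : e ∈ E) (he1 : e ≠ 1)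
    {a : F} (ha : a ∈ A) : ∃ x ∈ A, a = x⁻¹ * (e * x * e⁻¹) := by
  let f : A → A := fun x => ⟨(x : F)⁻¹ * (e * x * e⁻¹), A.mul_mem (A.inv_mem x.2) (hAE e he x x.2)⟩
  have hf : Function.Injective f := by
    intro x y hxy
    have h1 : (x : F)⁻¹ * (e * x * e⁻¹) = (y : F)⁻¹ * (e * y * e⁻¹) := congrArg Subtype.val hxy
    have h2 : e * ((y : F) * (x : F)⁻¹) = ((y : F) * (x : F)⁻¹) * e := by
      have h3 : (x : F)⁻¹ * (e * x) = (y : F)⁻¹ * (e * y) := by
        have := congrArg (· * e) h1
        simpa [mul_assoc] using this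
      calc e * ((y : F) * (x : F)⁻¹) = y * ((y : F)⁻¹ * (e * y)) * (x : F)⁻¹ := by group
        _ = y * ((x : F)⁻¹ * (e * x)) * (x : F)⁻¹ := by rw [h3]
        _ = ((y : F) * (x : F)⁻¹) * e := by group
    have h4 := hfree e he he1 _ (U.mul_mem (hAU y.2) (U.inv_mem (hAU x.2))) h2
    apply Subtype.ext
    exact (mul_inv_eq_one.mp h4).symm
  obtain ⟨x, hx⟩ := Finite.surjective_of_injective hf ⟨a, ha⟩
  exact ⟨x, x.2, (congrArg Subtype.val hx).symm⟩

variable [IsAlgClosed K]

/-- The chain argument. -/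
theorem chain_claim (hF : (Nat.card F : K) ≠ 0) (U E : Subgroup F)
    (hfree : ∀ e ∈ E, e ≠ 1 → ∀ u ∈ U, e * u = u * e → u = 1)
    (Zs : ℕ → Subgroup F) (n : ℕ) (hZn : Zs n = U) (hZle : ∀ i, Zs i ≤ U)
    (hZF : ∀ i, ∀ f : F, ∀ z ∈ Zs i, f * z * f⁻¹ ∈ Zs i)
    (hZcomm : ∀ i, ∀ x ∈ Zs (i + 1), ∀ y ∈ Zs (i + 1), x * y * x⁻¹ * y⁻¹ ∈ Zs i) :
    ∀ k i, i + k = n → ∀ (W : Type w) [AddCommGroup W] [Module K W] [FiniteDimensional K W]
      (ρ : F →* Module.End K W), (∀ z ∈ Zs i, ∀ v, ρ z v = v) → (∀ v, (∀ u ∈ U, ρ u v = v) → v = 0) →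
      finrank K W = Nat.card E * finrank K (fixSub ρ E) := by
  intro k
  induction k with
  | zero =>
    intro i hi W _ _ _ ρ h1 h2
    have hi' : i = n := by omega
    subst hi'
    rw [hZn] at h1
    have h3 : ∀ v : W, v = 0 := fun v => h2 v fun u hu => h1 u hu v
    haveI : Subsingleton W := ⟨fun a b => by rw [h3 a, h3 b]⟩
    rw [finrank_zero_of_subsingleton]
    have : finrank K (fixSub ρ E) = 0 := by
      haveI : Subsingleton (fixSub ρ E) := ⟨fun a b => Subtype.ext (by rw [h3 a, h3 b])⟩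
      exact finrank_zero_of_subsingleton
    rw [this, mul_zero]
  | succ k ih =>
    intro i hi W _ _ _ ρ h1 h2
    let A := Zs (i + 1)
    have hAcard : (Nat.card A : K) ≠ 0 := cast_ne_zero_of_dvd (Subgroup.card_subgroup_dvd_card A) hF
    let P := avg ρ A
    have hPP : ∀ v, P (P v) = P v := avg_avg ρ A hAcard
    have hPc : ∀ f, ∀ v, ρ f (P v) = P (ρ f v) := fun f v =>
      avg_comm ρ A f (fun a ha => hZF _ f a ha) (fun a ha => by
        have := hZF _ f⁻¹ a ha
        simpa using this) v
    let T₁ := LinearMap.range P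
    let T₂ := LinearMap.ker P
    have hT₁ : ∀ f, ∀ v ∈ T₁, ρ f v ∈ T₁ := by
      rintro f _ ⟨w, rfl⟩
      exact ⟨ρ f w, (hPc f w).symm⟩
    have hT₂ : ∀ f, ∀ v ∈ T₂, ρ f v ∈ T₂ := by
      intro f v hv
      rw [LinearMap.mem_ker] at hv ⊢
      rw [← hPc, hv, map_zero]
    have hsplit := finrank_fix_split ρ E P hPP (fun e _ v => hPc e v)
    have hrn := LinearMap.finrank_range_add_finrank_ker P
    -- the part fixed by `A`
    have hpart1 : finrank K T₁ = Nat.card E * finrank K (fixSub (subRep ρ T₁ hT₁) E) := by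
      refine ih (i + 1) (by omega) T₁ (subRep ρ T₁ hT₁) ?_ ?_
      · rintro z hz ⟨_, w, rfl⟩
        apply Subtype.ext
        exact avg_mem ρ A w z hz
      · rintro ⟨v, hv⟩ h3
        apply Subtype.ext
        exact h2 v fun u hu => congrArg Subtype.val (h3 u hu)
    -- the other part
    have hpart2 : finrank K T₂ = Nat.card E * finrank K (fixSub (subRep ρ T₂ hT₂) E) := by
      let σ₀ : ↥A →* Module.End K T₂ := (subRep ρ T₂ hT₂).comp A.subtype
      have hσ₀ : commutator ↥A ≤ σ₀.ker := by
        rw [commutator_def, Subgroup.commutator_le]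
        rintro x - y -
        rw [MonoidHom.mem_ker]
        apply LinearMap.ext
        rintro ⟨v, hv⟩
        apply Subtype.ext
        have h3 := h1 _ (hZcomm i x x.2 y y.2) v
        exact h3
      let σ : Abelianization ↥A →* Module.End K T₂ := QuotientGroup.lift (commutator ↥A) σ₀ hσ₀
      have hσ : ∀ a : ↥A, σ (Abelianization.of a) = σ₀ a := fun a => rfl
      let cj : ↥E → (↥A →* ↥A) := fun e =>
        { toFun := fun a => ⟨e * a * (e : F)⁻¹, hZF _ e a a.2⟩
          map_one' := Subtype.ext (by simp)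
          map_mul' := fun a b => Subtype.ext (by simp [mul_assoc]) }
      have hcj : ∀ (e : E) (a : ↥A), ((cj e a : ↥A) : F) = e * a * (e : F)⁻¹ := fun _ _ => rfl
      let τ : ↥E →* Monoid.End (Abelianization ↥A) :=
        { toFun := fun e => Abelianization.map (cj e)
          map_one' := by
            apply Abelianization.hom_ext
            ext a
            show Abelianization.of (cj 1 a) = Abelianization.of a
            congr 1
            apply Subtype.ext
            simp [hcj]
          map_mul' := fun e f => by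
            apply Abelianization.hom_ext
            ext a
            show Abelianization.of (cj (e * f) a) = Abelianization.of (cj e (cj f a))
            congr 1
            apply Subtype.ext
            simp [hcj, mul_assoc] }
      have hτ : ∀ (e : E) (a : ↥A), τ e (Abelianization.of a) = Abelianization.of (cj e a) :=
        fun _ _ => rfl
      have := finrank_eq_of_weights (subRep ρ T₂ hT₂) E σ τ ?_ ?_ ?_ ?_
      · exact this
      · intro e b
        obtain ⟨a, rfl⟩ := QuotientGroup.mk_surjective b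
        show _ * σ (Abelianization.of a) = σ (τ e (Abelianization.of a)) * _
        rw [hτ, hσ, hσ]
        apply LinearMap.ext
        rintro ⟨v, hv⟩
        apply Subtype.ext
        show ρ e (ρ a v) = ρ (cj e a : ↥A) (ρ e v)
        rw [hcj, ← Module.End.mul_apply, ← Module.End.mul_apply, ← map_mul, ← map_mul]
        simp
      · intro e he b
        obtain ⟨a, rfl⟩ := QuotientGroup.mk_surjective b
        have he1 : (e : F) ≠ 1 := fun h => he (Subtype.ext h)
        obtain ⟨x, hx, hxa⟩ := exists_comm_eq hfree (hZle (i + 1)) (fun e _ a ha => hZF _ e a ha) e.2 he1 a.2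
        refine ⟨Abelianization.of ⟨x, hx⟩, ?_⟩
        show Abelianization.of a = _
        rw [hτ, ← map_inv, ← map_mul]
        congr 1
        exact Subtype.ext hxa
      · rintro ⟨v, hv⟩ h3
        apply Subtype.ext
        have h4 : v ∈ fixSub ρ A := fun a ha => by
          have := h3 (Abelianization.of ⟨a, ha⟩)
          rw [hσ] at this
          exact congrArg Subtype.val this
        have h5 : P v = v := avg_of_fix ρ A hAcard h4
        have h6 : P v = 0 := hv
        show v = 0
        rw [← h5]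
        exact h6
      · refine cast_ne_zero_of_dvd (K := K) ?_ hAcard
        exact Subgroup.card_quotient_dvd_card _
    rw [finrank_fix_subRep] at hpart1 hpart2
    rw [← hrn, hpart1, hpart2, hsplit]
    ring

end Chain

end Cfsg.Agent.Lib.Char.FW
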