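import Cfsg.Agent.Lib.Char.FW2

/-! # Frobenius-Wielandt fixed point formula: base change and the linear formula. -/

set_option autoImplicit false

namespace Cfsg.Agent.Lib.Char.FW

open Module TensorProduct
open scoped commutatorElement

universe w

section LA3

variable {K : Type*} [Field K] {F : Type*} [Group F] [Finite F] [IsAlgClosed K]

/-- Over an algebraically closed field. -/
theorem free_of_alg_closed (hF : (Nat.card F : K) ≠ 0) (U E : Subgroup F)
    (hfree : ∀ e ∈ E, e ≠ 1 → ∀ u ∈ U, e * u = u * e → u = 1)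
    (hU : ∀ f : F, ∀ u ∈ U, f * u * f⁻¹ ∈ U) (hnil : Group.IsNilpotent U)
    (W : Type w) [AddCommGroup W] [Module K W] [FiniteDimensional K W]
    (ρ : F →* Module.End K W) (hfix : ∀ v, (∀ u ∈ U, ρ u v = v) → v = 0) :
    finrank K W = Nat.card E * finrank K (fixSub ρ E) := by
  haveI hUn : U.Normal := ⟨fun u hu g => hU g u hu⟩
  obtain ⟨n, hn⟩ := Group.IsNilpotent.nilpotent U
  let Zs : ℕ → Subgroup F := fun i => (Subgroup.upperCentralSeries U i).map U.subtype
  refine chain_claim (K := K) hF U E hfree Zs n ?_ ?_ ?_ ?_ n 0 (by omega) W ρ ?_ hfix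
  · show Subgroup.map U.subtype (Subgroup.upperCentralSeries U n) = U
    rw [hn, ← MonoidHom.range_eq_map, Subgroup.range_subtype]
  · intro i
    exact Subgroup.map_subtype_le _
  · rintro i f _ ⟨z, hz, rfl⟩
    refine ⟨MulAut.conjNormal f z, ?_, ?_⟩
    · have h1 := (inferInstance : (Subgroup.upperCentralSeries U i).Characteristic).fixed (MulAut.conjNormal f)⁻¹
      have h2 : (MulAut.conjNormal f) z ∈ Subgroup.comap (MulAut.conjNormal f)⁻¹.toMonoidHom
          (Subgroup.upperCentralSeries (↥U) i) := by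
        rw [Subgroup.mem_comap]
        simpa using hz
      rw [h1] at h2
      exact h2
    · simp [MulAut.conjNormal_apply]
  · rintro i _ ⟨x, hx, rfl⟩ _ ⟨y, hy, rfl⟩
    refine ⟨⁅x, y⁆, (Subgroup.mem_upperCentralSeries_succ_iff.mp hx) y, ?_⟩
    simp [commutatorElement_def]
  · rintro z ⟨z', hz', rfl⟩ v
    rw [Subgroup.upperCentralSeries_zero] at hz'
    have hz2 : z' = 1 := hz'
    subst hz2
    simp

end LA3

section BaseChange

variable {k : Type*} [Field k] {F : Type*} [Group F] {W : Type*} [AddCommGroup W] [Module k W]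

/-- The base change of a representation. -/
noncomputable def baseRep (K : Type*) [Field K] [Algebra k K] (ρ : F →* Module.End k W) :
    F →* Module.End K (K ⊗[k] W) :=
  (Module.End.baseChangeHom k K W : Module.End k W →* Module.End K (K ⊗[k] W)).comp ρ

theorem baseRep_apply (K : Type*) [Field K] [Algebra k K] (ρ : F →* Module.End k W) (f : F) :
    baseRep K ρ f = (ρ f).baseChange K := rfl

/-- Rank is unchanged under base change, for idempotents. -/
theorem finrank_range_baseChange_of_idem [FiniteDimensional k W] (K : Type*) [Field K] [Algebra k K]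
    (P : Module.End k W) (hP : ∀ v, P (P v) = P v) :
    finrank K (LinearMap.range (P.baseChange K)) = finrank k (LinearMap.range P) := by
  let T := LinearMap.range P
  let π : W →ₗ[k] T := P.rangeRestrict
  let ι : T →ₗ[k] W := T.subtype
  have h1 : π ∘ₗ ι = LinearMap.id := by
    ext ⟨_, w, rfl⟩
    exact hP w
  have h2 : ι ∘ₗ π = P := rfl
  have h3 : (π.baseChange K) ∘ₗ (ι.baseChange K) = LinearMap.id := by
    rw [← LinearMap.baseChange_comp, h1]
    exact LinearMap.baseChange_id
  have h4 : (ι.baseChange K) ∘ₗ (π.baseChange K) = P.baseChange K := by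
    rw [← LinearMap.baseChange_comp, h2]
  have hinj : Function.Injective (ι.baseChange K) :=
    Function.LeftInverse.injective (g := π.baseChange K) (fun x => LinearMap.congr_fun h3 x)
  have hsurj : Function.Surjective (π.baseChange K) :=
    Function.RightInverse.surjective (g := ι.baseChange K) (fun x => LinearMap.congr_fun h3 x)
  have h5 : LinearMap.range (P.baseChange K) = LinearMap.range (ι.baseChange K) := by
    rw [← h4, LinearMap.range_comp, LinearMap.range_eq_top.mpr hsurj, Submodule.map_top]
  rw [h5, LinearMap.finrank_range_of_inj hinj]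
  exact Module.finrank_baseChange

variable [Finite F]

/-- Fixed points and base change. -/
theorem fix_baseRep_eq (K : Type*) [Field K] [Algebra k K] (ρ : F →* Module.End k W)
    (A : Subgroup F) (hA : (Nat.card A : k) ≠ 0) :
    fixSub (baseRep K ρ) A = LinearMap.range ((avg ρ A).baseChange K) := by
  letI : Fintype A := Fintype.ofFinite A
  have hA' : (Nat.card A : k)⁻¹ * (Nat.card A : k) = 1 := inv_mul_cancel₀ hA
  have hform : (avg ρ A).baseChange K = (Nat.card A : k)⁻¹ • ∑ a : A, baseRep K ρ a := by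
    have h1 : (avg ρ A) = (Nat.card A : k)⁻¹ • ∑ a : A, ρ a := rfl
    rw [h1, LinearMap.baseChange_smul]
    congr 1
    have := map_sum (LinearMap.baseChangeHom k K W W) (fun a : A => ρ a) Finset.univ
    exact this
  ext v
  constructor
  · intro hv
    refine ⟨v, ?_⟩
    rw [hform, LinearMap.smul_apply, LinearMap.sum_apply]
    have h1 : ∀ a : A, baseRep K ρ a v = v := fun a => hv a a.2
    simp only [h1, Finset.sum_const, Finset.card_univ, ← Nat.card_eq_fintype_card]
    rw [← Nat.cast_smul_eq_nsmul k, smul_smul, hA', one_smul]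
  · rintro ⟨w, rfl⟩ a ha
    show ((ρ a).baseChange K) ((avg ρ A).baseChange K w) = _
    rw [← Module.End.mul_apply, ← LinearMap.baseChange_mul]
    have h1 : ρ a * avg ρ A = avg ρ A := by
      ext v
      exact avg_mem ρ A v a ha
    rw [h1]

theorem finrank_fix_baseRep [FiniteDimensional k W] (K : Type*) [Field K] [Algebra k K]
    (ρ : F →* Module.End k W) (A : Subgroup F) (hA : (Nat.card A : k) ≠ 0) :
    finrank K (fixSub (baseRep K ρ) A) = finrank k (fixSub ρ A) := by
  rw [fix_baseRep_eq K ρ A hA, finrank_range_baseChange_of_idem K _ (avg_avg ρ A hA), range_avg ρ A hA]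

/-- Freeness over any field. -/
theorem free_of_field [FiniteDimensional k W] (hF : (Nat.card F : k) ≠ 0) (U E : Subgroup F)
    (hfree : ∀ e ∈ E, e ≠ 1 → ∀ u ∈ U, e * u = u * e → u = 1)
    (hU : ∀ f : F, ∀ u ∈ U, f * u * f⁻¹ ∈ U) (hnil : Group.IsNilpotent U)
    (ρ : F →* Module.End k W) (hfix : ∀ v, (∀ u ∈ U, ρ u v = v) → v = 0) :
    finrank k W = Nat.card E * finrank k (fixSub ρ E) := by
  let K := AlgebraicClosure k
  have hF' : (Nat.card F : K) ≠ 0 := by
    intro h0
    apply hF
    apply (algebraMap k K).injective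
    rw [map_natCast, h0, map_zero]
  have hUc : (Nat.card U : k) ≠ 0 := cast_ne_zero_of_dvd (Subgroup.card_subgroup_dvd_card U) hF
  have hEc : (Nat.card E : k) ≠ 0 := cast_ne_zero_of_dvd (Subgroup.card_subgroup_dvd_card E) hF
  have hfixK : ∀ v, (∀ u ∈ U, baseRep K ρ u v = v) → v = 0 := by
    intro v hv
    have h1 : v ∈ fixSub (baseRep K ρ) U := hv
    rw [fix_baseRep_eq K ρ U hUc] at h1
    have h2 : avg ρ U = 0 := by
      ext w
      exact hfix _ (avg_mem ρ U w)
    obtain ⟨w, rfl⟩ := h1
    rw [h2, LinearMap.baseChange_zero]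
    rfl
  have h1 := free_of_alg_closed (K := K) hF' U E hfree hU hnil (K ⊗[k] W) (baseRep K ρ) hfixK
  rw [finrank_fix_baseRep K ρ E hEc, Module.finrank_baseChange] at h1
  exact h1

/-- The linear form of the formula. -/
theorem linear_formula [FiniteDimensional k W] (hF : (Nat.card F : k) ≠ 0) (U E : Subgroup F)
    (hfree : ∀ e ∈ E, e ≠ 1 → ∀ u ∈ U, e * u = u * e → u = 1)
    (hU : ∀ f : F, ∀ u ∈ U, f * u * f⁻¹ ∈ U) (hnil : Group.IsNilpotent U) (htop : U ⊔ E = ⊤)
    (ρ : F →* Module.End k W) :
    finrank k W + Nat.card E * finrank k (fixSub ρ ⊤) =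
      finrank k (fixSub ρ U) + Nat.card E * finrank k (fixSub ρ E) := by
  have hUc : (Nat.card U : k) ≠ 0 := cast_ne_zero_of_dvd (Subgroup.card_subgroup_dvd_card U) hF
  let P := avg ρ U
  have hPP : ∀ v, P (P v) = P v := avg_avg ρ U hUc
  have hPc : ∀ f, ∀ v, ρ f (P v) = P (ρ f v) := fun f v =>
    avg_comm ρ U f (fun a ha => hU f a ha) (fun a ha => by
      have := hU f⁻¹ a ha
      simpa using this) v
  have hT₂ : ∀ f, ∀ v ∈ LinearMap.ker P, ρ f v ∈ LinearMap.ker P := by
    intro f v hv
    rw [LinearMap.mem_ker] at hv ⊢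
    rw [← hPc, hv, map_zero]
  have hsplit := finrank_fix_split ρ E P hPP (fun e _ v => hPc e v)
  have hrn := LinearMap.finrank_range_add_finrank_ker P
  have h2 := free_of_field hF U E hfree hU hnil (subRep ρ (LinearMap.ker P) hT₂) (by
    rintro ⟨v, hv⟩ h1
    apply Subtype.ext
    have h3 : v ∈ fixSub ρ U := fun u hu => congrArg Subtype.val (h1 u hu)
    have h4 : P v = v := avg_of_fix ρ U hUc h3
    have h5 : P v = 0 := hv
    show v = 0
    rw [← h4]
    exact h5)
  rw [finrank_fix_subRep] at h2
  have h3 : fixSub ρ ⊤ = fixSub ρ E ⊓ LinearMap.range P := by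
    rw [range_avg ρ U hUc]
    ext v
    constructor
    · intro hv
      exact ⟨fun e _ => hv e (Subgroup.mem_top e), fun u _ => hv u (Subgroup.mem_top u)⟩
    · rintro ⟨h4, h5⟩ f -
      let S : Subgroup F :=
        { carrier := {f | ρ f v = v}
          one_mem' := by simp
          mul_mem' := fun {a b} ha hb => by
            show ρ (a * b) v = v
            rw [map_mul, Module.End.mul_apply]
            rw [Set.mem_ofPred_eq.mp hb, Set.mem_ofPred_eq.mp ha]
          inv_mem' := fun {a} ha => by
            show ρ a⁻¹ v = v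
            conv_lhs => rw [← Set.mem_ofPred_eq.mp ha]
            exact rho_inv_mul ρ a v }
      have h6 : U ⊔ E ≤ S := sup_le (fun u hu => h5 u hu) (fun e he => h4 e he)
      rw [htop] at h6
      exact h6 (Subgroup.mem_top f)
  rw [h3, hsplit, ← hrn, h2, range_avg ρ U hUc]
  ring

end BaseChange

end Cfsg.Agent.Lib.Char.FW
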