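import Cfsg.Agent.Lib.Char.FW3

/-! # Frobenius-Wielandt fixed point formula: elementary abelian groups. -/

set_option autoImplicit false

namespace Cfsg.Agent.Lib.Char.FW

open Module

theorem formula_mod {Q F : Type*} [CommGroup Q] [Finite Q] [Group F] [Finite F] {r : ℕ} [hr : Fact r.Prime]
    [Module (ZMod r) (Additive Q)] (φ : F →* Monoid.End Q)
    (hrF : ¬ r ∣ Nat.card F) (U E : Subgroup F)
    (hfree : ∀ e ∈ E, e ≠ 1 → ∀ u ∈ U, e * u = u * e → u = 1)
    (hU : ∀ f : F, ∀ u ∈ U, f * u * f⁻¹ ∈ U) (hnil : Group.IsNilpotent U) (htop : U ⊔ E = ⊤) :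
    Nat.card {x : Q // ∀ a ∈ (⊤ : Subgroup F), φ a x = x} ^ Nat.card E * Nat.card Q =
      Nat.card {x : Q // ∀ a ∈ U, φ a x = x} * Nat.card {x : Q // ∀ a ∈ E, φ a x = x} ^ Nat.card E := by
  let ρ₀ : F → (Additive Q →+ Additive Q) := fun f =>
    { toFun := fun x => Additive.ofMul (φ f x.toMul)
      map_zero' := congrArg Additive.ofMul (map_one (φ f))
      map_add' := fun x y => congrArg Additive.ofMul (map_mul (φ f) x.toMul y.toMul) }
  let ρ : F →* Module.End (ZMod r) (Additive Q) :=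
    { toFun := fun f => AddMonoidHom.toZModLinearMap r (ρ₀ f)
      map_one' := by
        apply LinearMap.ext
        intro x
        show Additive.ofMul (φ 1 x.toMul) = x
        rw [map_one]
        rfl
      map_mul' := fun f g => by
        apply LinearMap.ext
        intro x
        show Additive.ofMul (φ (f * g) x.toMul) = Additive.ofMul (φ f (φ g x.toMul))
        rw [map_mul]
        rfl }
  have hρ : ∀ (f : F) (x : Q), ρ f (Additive.ofMul x) = Additive.ofMul (φ f x) := fun _ _ => rfl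
  have hF : ((Nat.card F : ℕ) : ZMod r) ≠ 0 := by
    rwa [Ne, ZMod.natCast_eq_zero_iff]
  haveI : Finite (Additive Q) := inferInstanceAs (Finite Q)
  haveI : Module.Finite (ZMod r) (Additive Q) := Module.Finite.of_finite
  have hlin := linear_formula hF U E hfree hU hnil htop ρ
  have hcard : ∀ (M : Type _) [AddCommGroup M] [Module (ZMod r) M] [Finite M],
      Nat.card M = r ^ finrank (ZMod r) M := by
    intro M _ _ _
    haveI : Module.Finite (ZMod r) M := Module.Finite.of_finite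
    rw [Module.natCard_eq_pow_finrank (K := ZMod r), Nat.card_zmod]
  have hc : ∀ A : Subgroup F, Nat.card {x : Q // ∀ a ∈ A, φ a x = x} = r ^ finrank (ZMod r) (fixSub ρ A) := by
    intro A
    rw [← hcard (fixSub ρ A)]
    refine Nat.card_congr ⟨fun x => ⟨Additive.ofMul x.1, fun a ha => ?_⟩,
      fun v => ⟨v.1.toMul, fun a ha => ?_⟩, fun _ => rfl, fun _ => rfl⟩
    · rw [hρ, x.2 a ha]
    · have := v.2 a ha
      exact congrArg Additive.toMul this
  have hQ : Nat.card Q = r ^ finrank (ZMod r) (Additive Q) := hcard (Additive Q)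
  rw [hc, hc, hc, hQ, ← pow_mul, ← pow_add, ← pow_mul, ← pow_add]
  congr 1
  rw [mul_comm (finrank _ _) (Nat.card E), mul_comm (finrank _ (fixSub ρ E)) (Nat.card E), add_comm]
  exact hlin

theorem formula_comm {Q F : Type*} [CommGroup Q] [Finite Q] [Group F] [Finite F] {r : ℕ} [hr : Fact r.Prime]
    (hexp : ∀ x : Q, x ^ r = 1) (φ : F →* Monoid.End Q)
    (hrF : ¬ r ∣ Nat.card F) (U E : Subgroup F)
    (hfree : ∀ e ∈ E, e ≠ 1 → ∀ u ∈ U, e * u = u * e → u = 1)
    (hU : ∀ f : F, ∀ u ∈ U, f * u * f⁻¹ ∈ U) (hnil : Group.IsNilpotent U) (htop : U ⊔ E = ⊤) :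
    Nat.card {x : Q // ∀ a ∈ (⊤ : Subgroup F), φ a x = x} ^ Nat.card E * Nat.card Q =
      Nat.card {x : Q // ∀ a ∈ U, φ a x = x} * Nat.card {x : Q // ∀ a ∈ E, φ a x = x} ^ Nat.card E := by
  letI : Module (ZMod r) (Additive Q) := AddCommGroup.zmodModule (n := r) (fun x => by
    show Additive.ofMul (x.toMul ^ r) = 0
    rw [hexp]
    rfl)
  exact formula_mod φ hrF U E hfree hU hnil htop

theorem formula_abstract {Q F : Type*} [Group Q] [Finite Q] [Group F] [Finite F] {r : ℕ} [hr : Fact r.Prime]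
    (hcomm : ∀ x y : Q, x * y = y * x) (hexp : ∀ x : Q, x ^ r = 1) (φ : F →* Monoid.End Q)
    (hrF : ¬ r ∣ Nat.card F) (U E : Subgroup F)
    (hfree : ∀ e ∈ E, e ≠ 1 → ∀ u ∈ U, e * u = u * e → u = 1)
    (hU : ∀ f : F, ∀ u ∈ U, f * u * f⁻¹ ∈ U) (hnil : Group.IsNilpotent U) (htop : U ⊔ E = ⊤) :
    Nat.card {x : Q // ∀ a ∈ (⊤ : Subgroup F), φ a x = x} ^ Nat.card E * Nat.card Q =
      Nat.card {x : Q // ∀ a ∈ U, φ a x = x} * Nat.card {x : Q // ∀ a ∈ E, φ a x = x} ^ Nat.card E := by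
  letI inst : CommGroup Q := { ‹Group Q› with mul_comm := hcomm }
  exact formula_comm hexp φ hrF U E hfree hU hnil htop

end Cfsg.Agent.Lib.Char.FW
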