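import Cfsg.Agent.Lib.Char.FW4
import Cfsg.Agent.Lib.Coprime.Action

/-! # Frobenius-Wielandt fixed point formula: sections. -/

set_option autoImplicit false

namespace Cfsg.Agent.Lib.Char.FW

open Subgroup
open Cfsg.Agent.Lib.Coprime

variable {X : Type*} [Group X] [Finite X]

section Section

variable (F₀ K : Subgroup X) (hK : ∀ f ∈ F₀, ∀ k ∈ K, f * k * f⁻¹ ∈ K)

/-- Conjugation on `K` by an element normalizing it. -/
def psi (f : F₀) : ↥K →* ↥K where
  toFun k := ⟨f * k * (f : X)⁻¹, hK f f.2 k k.2⟩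
  map_one' := Subtype.ext (by simp)
  map_mul' a b := Subtype.ext (by simp [mul_assoc])

theorem psi_coe (f : F₀) (k : K) : ((psi F₀ K hK f k : K) : X) = f * k * (f : X)⁻¹ := rfl

variable (N₀ : Subgroup K) [N₀.Normal] (hN : ∀ f : F₀, ∀ x ∈ N₀, psi F₀ K hK f x ∈ N₀)

/-- The action on a section. -/
def phi : F₀ →* Monoid.End (↥K ⧸ N₀) where
  toFun f := QuotientGroup.map N₀ N₀ (psi F₀ K hK f) (fun x hx => hN f x hx)
  map_one' := by
    ext x
    obtain ⟨x, rfl⟩ := QuotientGroup.mk_surjective x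
    show ((psi F₀ K hK 1 x : K) : ↥K ⧸ N₀) = x
    congr 1
    apply Subtype.ext
    simp [psi_coe]
  map_mul' f g := by
    ext x
    obtain ⟨x, rfl⟩ := QuotientGroup.mk_surjective x
    show ((psi F₀ K hK (f * g) x : K) : ↥K ⧸ N₀) = ((psi F₀ K hK f (psi F₀ K hK g x) : K) : ↥K ⧸ N₀)
    congr 1
    apply Subtype.ext
    simp [psi_coe, mul_assoc]

theorem phi_mk (f : F₀) (x : K) :
    phi F₀ K hK N₀ hN f (x : ↥K ⧸ N₀) = ((psi F₀ K hK f x : K) : ↥K ⧸ N₀) := rfl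

/-- The orders of centralizers in a section. -/
theorem section_card (A : Subgroup X) (hAF : A ≤ F₀) (A' : Subgroup F₀)
    (hAA' : ∀ a : F₀, a ∈ A' ↔ (a : X) ∈ A) (hact : CoprimeAction A K) :
    Nat.card ↥(K ⊓ centralizer (A : Set X)) =
      Nat.card ↥(N₀.map K.subtype ⊓ centralizer (A : Set X)) *
        Nat.card {x : ↥K ⧸ N₀ // ∀ a ∈ A', phi F₀ K hK N₀ hN a x = x} := by
  let g : ↥(K ⊓ centralizer (A : Set X)) →* ↥K ⧸ N₀ :=
    (QuotientGroup.mk' N₀).comp (Subgroup.inclusion inf_le_left)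
  have hg : ∀ x : ↥(K ⊓ centralizer (A : Set X)),
      g x = ((⟨x, x.2.1⟩ : K) : ↥K ⧸ N₀) := fun _ => rfl
  have h1 := Subgroup.card_mul_index g.ker
  rw [Subgroup.index_ker] at h1
  have hker : Nat.card g.ker = Nat.card ↥(N₀.map K.subtype ⊓ centralizer (A : Set X)) := by
    refine Nat.card_congr ⟨fun x => ⟨x.1.1, ?_, x.1.2.2⟩, fun y => ⟨⟨y.1, ?_⟩, ?_⟩, fun _ => rfl, fun _ => rfl⟩
    · have h2 := x.2
      rw [MonoidHom.mem_ker, hg, QuotientGroup.eq_one_iff] at h2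
      exact ⟨_, h2, rfl⟩
    · obtain ⟨⟨n, hn, h3⟩, h4⟩ := y.2
      refine ⟨?_, h4⟩
      rw [← h3]
      exact n.2
    · obtain ⟨⟨n, hn, h3⟩, h4⟩ := y.2
      rw [MonoidHom.mem_ker, hg, QuotientGroup.eq_one_iff]
      have h6 : ∀ (p : (y.1 : X) ∈ K), (⟨y.1, p⟩ : K) ∈ N₀ := by
        intro p
        have h7 : (⟨y.1, p⟩ : K) = n := Subtype.ext h3.symm
        rw [h7]
        exact hn
      exact h6 _
  have hrange : Nat.card g.range = Nat.card {x : ↥K ⧸ N₀ // ∀ a ∈ A', phi F₀ K hK N₀ hN a x = x} := by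
    refine Nat.card_congr (Equiv.subtypeEquivRight fun x => ?_)
    constructor
    · rintro ⟨c, rfl⟩ a ha
      rw [hg, phi_mk]
      congr 1
      apply Subtype.ext
      have h3 : (a : X) ∈ A := (hAA' a).mp ha
      have h4 := (Subgroup.mem_centralizer_iff.mp c.2.2) a h3
      simp only [psi_coe]
      rw [h4]
      simp
    · intro hx
      obtain ⟨x, rfl⟩ := QuotientGroup.mk_surjective x
      have hc : ∀ a ∈ A, (x : X) * a * (x : X)⁻¹ * a⁻¹ ∈ N₀.map K.subtype := by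
        intro a ha
        have h3 := hx ⟨a, hAF ha⟩ ((hAA' _).mpr ha)
        rw [phi_mk, QuotientGroup.eq] at h3
        have h4 := Subgroup.Normal.conj_mem ‹N₀.Normal› _ h3 x
        refine ⟨_, h4, ?_⟩
        simp [psi_coe, mul_assoc]
      have hNnorm : A ≤ normalizer ((N₀.map K.subtype : Subgroup X) : Set X) := by
        intro a ha
        rw [Subgroup.mem_normalizer_iff]
        intro n
        constructor
        · rintro ⟨n₀, hn₀, rfl⟩
          exact ⟨_, hN ⟨a, hAF ha⟩ n₀ hn₀, rfl⟩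
        · rintro ⟨n₀, hn₀, h3⟩
          have h4 := hN ⟨a⁻¹, A.inv_mem ha |> hAF⟩ n₀ hn₀
          refine ⟨_, h4, ?_⟩
          have h5 : (n₀ : X) = a * n * a⁻¹ := h3
          simp [psi_coe, h5, mul_assoc]
      obtain ⟨n, hn, c, hc1, hxc⟩ := hact.exists_mul_centralizer (N := N₀.map K.subtype)
        (Subgroup.map_subtype_le _) hNnorm x.2 hc
      refine ⟨⟨c, hc1⟩, ?_⟩
      rw [hg]
      rw [QuotientGroup.eq]
      obtain ⟨n₀, hn₀, rfl⟩ := hn
      have h5 : (⟨c, hc1.1⟩ : K)⁻¹ * x = (⟨c, hc1.1⟩ : K)⁻¹ * n₀ * ⟨c, hc1.1⟩ := by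
        apply Subtype.ext
        simp [hxc, mul_assoc]
      rw [h5]
      have h6 := Subgroup.Normal.conj_mem ‹N₀.Normal› _ hn₀ (⟨c, hc1.1⟩ : K)⁻¹
      simpa using h6
  rw [← hker, ← hrange, h1]

end Section

end Cfsg.Agent.Lib.Char.FW
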