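import Mathlib

/-! # Frobenius-Wielandt fixed point formula: the linear algebra over a splitting field.

If a Frobenius group `A E` with `A` commutative on `W` acts on `W` and `C_W(A) = 0` then `W` is free
over `E`, so `dim W = |E| dim C_W(E)`. -/

set_option autoImplicit false

namespace Cfsg.Agent.Lib.Char.FW

open Module

section Basic

variable {K W F : Type*} [Field K] [AddCommGroup W] [Module K W] [Group F]

/-- The fixed points of a subgroup. -/
def fixSub (ρ : F →* Module.End K W) (A : Subgroup F) : Submodule K W where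
  carrier := {v | ∀ a ∈ A, ρ a v = v}
  add_mem' := fun {x y} hx hy a ha => by rw [map_add, hx a ha, hy a ha]
  zero_mem' := fun a _ => map_zero _
  smul_mem' := fun c x hx a ha => by rw [map_smul, hx a ha]

theorem mem_fixSub {ρ : F →* Module.End K W} {A : Subgroup F} {v : W} :
    v ∈ fixSub ρ A ↔ ∀ a ∈ A, ρ a v = v := Iff.rfl

theorem rho_inv_mul (ρ : F →* Module.End K W) (g : F) (v : W) : ρ g⁻¹ (ρ g v) = v := by
  rw [← Module.End.mul_apply, ← map_mul]; simp

theorem rho_mul_inv (ρ : F →* Module.End K W) (g : F) (v : W) : ρ g (ρ g⁻¹ v) = v := by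
  rw [← Module.End.mul_apply, ← map_mul]; simp

/-- Freeness from a single idempotent with orthogonal conjugates summing to `1`. -/
theorem finrank_eq_of_Q [FiniteDimensional K W] (ρ : F →* Module.End K W) (E : Subgroup F)
    [Fintype E] (Q : Module.End K W) (hQ : ∀ v, Q (Q v) = Q v)
    (hQg : ∀ g ∈ E, g ≠ 1 → ∀ v, Q (ρ g (Q v)) = 0)
    (hsum : ∀ v, ∑ g : E, ρ g (Q (ρ (g : F)⁻¹ v)) = v) :
    finrank K W = Nat.card E * finrank K (fixSub ρ E) := by
  classical
  let T := LinearMap.range Q
  have hQT : ∀ t : T, Q t = t := by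
    rintro ⟨_, v, rfl⟩
    exact hQ v
  have hQT0 : ∀ g ∈ E, g ≠ 1 → ∀ t : T, Q (ρ g t) = 0 := by
    rintro g hg hg1 ⟨_, v, rfl⟩
    exact hQg g hg hg1 v
  let e1 : W ≃ₗ[K] (E → T) :=
    { toFun := fun v g => ⟨Q (ρ (g : F)⁻¹ v), v |> fun _ => ⟨_, rfl⟩⟩
      map_add' := fun x y => by
        funext g
        apply Subtype.ext
        simp
      map_smul' := fun c x => by
        funext g
        apply Subtype.ext
        simp
      invFun := fun t => ∑ g : E, ρ g (t g)
      left_inv := fun v => hsum v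
      right_inv := fun t => by
        funext g
        apply Subtype.ext
        show Q (ρ (g : F)⁻¹ (∑ h : E, ρ h (t h))) = t g
        rw [map_sum, map_sum, Finset.sum_eq_single g]
        · rw [rho_inv_mul, hQT]
        · intro h _ hh
          rw [← Module.End.mul_apply (ρ (g : F)⁻¹), ← map_mul]
          apply hQT0 _ (E.mul_mem (E.inv_mem g.2) h.2)
          intro h1
          apply hh
          apply Subtype.ext
          have := inv_mul_eq_one.mp h1
          exact this.symm
        · simp }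
  let e2 : fixSub ρ E ≃ₗ[K] T :=
    { toFun := fun v => ⟨Q v, ⟨_, rfl⟩⟩
      map_add' := fun x y => by
        apply Subtype.ext
        simp
      map_smul' := fun c x => by
        apply Subtype.ext
        simp
      invFun := fun t => ⟨∑ g : E, ρ g t, fun a ha => by
        rw [map_sum]
        refine Fintype.sum_equiv (Equiv.mulLeft ⟨a, ha⟩) _ _ fun g => ?_
        simp [← Module.End.mul_apply, ← map_mul]⟩
      left_inv := fun v => by
        apply Subtype.ext
        show ∑ g : E, ρ g (Q v) = v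
        conv_rhs => rw [← hsum v]
        refine Finset.sum_congr rfl fun g _ => ?_
        rw [(v.2 _ (E.inv_mem g.2))]
      right_inv := fun t => by
        apply Subtype.ext
        show Q (∑ g : E, ρ g t) = t
        rw [map_sum, Finset.sum_eq_single (1 : E)]
        · simp [hQT]
        · intro g _ hg
          apply hQT0 g g.2
          intro h
          exact hg (Subtype.ext h)
        · simp }
  rw [e1.finrank_eq, Module.finrank_pi_fintype, e2.finrank_eq]
  simp [Nat.card_eq_fintype_card]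

end Basic

section Orbits

variable {E Λ : Type*} [Group E] [MulAction E Λ] [Fintype E] [Fintype Λ]

/-- A transversal for an action free away from one fixed point. -/
theorem exists_transversal (o : Λ) (hfree : ∀ (g : E) (l : Λ), g • l = l → g = 1 ∨ l = o)
    (ho : ∀ g : E, g • o = o) :
    ∃ S : Finset Λ, (∀ l ∈ S, ∀ m ∈ S, ∀ g : E, g • m = l → m = l) ∧
      ∀ {M : Type*} [AddCommMonoid M] (f : Λ → M), f o = 0 →
        ∑ g : E, ∑ s ∈ S, f (g • s) = ∑ l, f l := by
  classical
  letI : Fintype (MulAction.orbitRel.Quotient E Λ) := Fintype.ofFinite _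
  let out : MulAction.orbitRel.Quotient E Λ → Λ := Quotient.out
  have hout : Function.Injective out := Quotient.out_injective
  have hmk : ∀ l : Λ, ∃ g : E, g • out (Quotient.mk'' l) = l := by
    intro l
    have h1 : (MulAction.orbitRel E Λ) (out (Quotient.mk'' l)) l := Quotient.mk_out l
    rw [MulAction.orbitRel_apply] at h1
    obtain ⟨g, hg⟩ := h1
    exact ⟨g⁻¹, by rw [← hg]; simp⟩
  have hsame : ∀ (g : E) (ω : MulAction.orbitRel.Quotient E Λ),
      (Quotient.mk'' (g • out ω) : MulAction.orbitRel.Quotient E Λ) = ω := by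
    intro g ω
    have h1 : (Quotient.mk'' (out ω) : MulAction.orbitRel.Quotient E Λ) = ω := Quotient.out_eq ω
    conv_rhs => rw [← h1]
    apply Quotient.sound
    show (MulAction.orbitRel E Λ) _ _
    rw [MulAction.orbitRel_apply]
    exact ⟨g, rfl⟩
  refine ⟨Finset.univ.image out, ?_, ?_⟩
  · intro l hl m hm g hg
    obtain ⟨ω, -, rfl⟩ := Finset.mem_image.mp hl
    obtain ⟨ω', -, rfl⟩ := Finset.mem_image.mp hm
    have h1 := hsame g ω'
    have h2 : (Quotient.mk'' (out ω) : MulAction.orbitRel.Quotient E Λ) = ω := Quotient.out_eq ω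
    rw [hg, h2] at h1
    rw [h1]
  · intro M _ f hf
    rw [Finset.sum_comm]
    simp only [Finset.sum_image (fun _ _ _ _ h => hout h)]
    rw [← Finset.sum_fiberwise Finset.univ (fun l : Λ => (Quotient.mk'' l : MulAction.orbitRel.Quotient E Λ)) f]
    refine Finset.sum_congr rfl fun ω _ => ?_
    by_cases ho' : out ω = o
    · have h1 : ∀ g : E, f (g • out ω) = 0 := fun g => by rw [ho', ho, hf]
      have h2 : ∑ l with (Quotient.mk'' l : MulAction.orbitRel.Quotient E Λ) = ω, f l = 0 := by
        apply Finset.sum_eq_zero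
        intro l hl
        have hl' := (Finset.mem_filter.mp hl).2
        obtain ⟨g, hg⟩ := hmk l
        rw [hl'] at hg
        rw [← hg]
        exact h1 g
      rw [h2]
      exact Finset.sum_eq_zero fun g _ => h1 g
    · refine Finset.sum_bij (fun g _ => g • out ω) ?_ ?_ ?_ ?_
      · intro g _
        simp [hsame]
      · intro g _ g' _ h
        have h1 : (g'⁻¹ * g) • out ω = out ω := by
          rw [mul_smul, h]
          simp
        rcases hfree _ _ h1 with h2 | h2
        · exact (inv_mul_eq_one.mp h2).symm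
        · exact absurd h2 ho'
      · intro l hl
        have hl' := (Finset.mem_filter.mp hl).2
        obtain ⟨g, hg⟩ := hmk l
        rw [hl'] at hg
        exact ⟨g, Finset.mem_univ _, hg⟩
      · intro g _
        rfl

end Orbits

section Weights

variable {K W F A : Type*} [Field K] [AddCommGroup W] [Module K W] [Group F] [CommGroup A] [Finite A]

/-- The action of automorphisms on weights. -/
@[instance_reducible] def weightAct {E : Type*} [Group E] (τ : E →* Monoid.End A) : MulAction E (A →* Kˣ) where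
  smul e l := l.comp (τ e⁻¹)
  one_smul l := by
    ext a
    show ((l.comp (τ 1⁻¹)) a : K) = _
    rw [inv_one, map_one]
    rfl
  mul_smul e f l := by
    ext a
    show ((l.comp (τ (e * f)⁻¹)) a : K) = ((l.comp (τ f⁻¹)).comp (τ e⁻¹) a : K)
    rw [mul_inv_rev, map_mul]
    rfl

/-- Weight idempotents. -/
noncomputable def pOp [Fintype A] (σ : A →* Module.End K W) (l : A →* Kˣ) : Module.End K W :=
  ((Fintype.card A : K)⁻¹) • ∑ a : A, ((l a⁻¹ : Kˣ) : K) • σ a

theorem sum_weight_mul [Fintype A] (l m : A →* Kˣ) [Decidable (l = m)] (hn : (Fintype.card A : K) ≠ 0) :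
    ∑ a : A, ((l a⁻¹ : Kˣ) : K) * ((m a : Kˣ) : K) = if l = m then (Fintype.card A : K) else 0 := by
  split_ifs with h
  · subst h
    have : ∀ a : A, ((l a⁻¹ : Kˣ) : K) * ((l a : Kˣ) : K) = 1 := fun a => by
      rw [← Units.val_mul, ← map_mul]; simp
    simp [this]
  · let ν : A →* K := (Units.coeHom K).comp (l⁻¹ * m)
    have hν : ν ≠ 1 := by
      intro h1
      apply h
      ext a
      have h2 := DFunLike.congr_fun h1 a
      simp only [ν, MonoidHom.comp_apply, Units.coeHom_apply, MonoidHom.mul_apply, MonoidHom.inv_apply,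
        MonoidHom.one_apply] at h2
      have h3 : ((l a : Kˣ) : K) = ((l a : Kˣ) : K) * (((l a)⁻¹ * m a : Kˣ) : K) := by
        rw [h2, mul_one]
      rw [h3, ← Units.val_mul]
      simp
    have h4 := sum_hom_units_eq_zero ν hν
    rw [← h4]
    refine Finset.sum_congr rfl fun a _ => ?_
    simp [ν]

theorem pOp_mul_pOp [Fintype A] (σ : A →* Module.End K W) (l m : A →* Kˣ) [Decidable (l = m)]
    (hn : (Fintype.card A : K) ≠ 0) :
    pOp σ l * pOp σ m = if l = m then pOp σ l else 0 := by
  classical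
  have h1 : (∑ a : A, ((l a⁻¹ : Kˣ) : K) • σ a) * (∑ b : A, ((m b⁻¹ : Kˣ) : K) • σ b) =
      (∑ a : A, ((l a⁻¹ : Kˣ) : K) * ((m a : Kˣ) : K)) • ∑ c : A, ((m c⁻¹ : Kˣ) : K) • σ c := by
    rw [Finset.sum_mul_sum, Finset.sum_smul]
    refine Finset.sum_congr rfl fun a _ => ?_
    rw [Finset.smul_sum]
    refine Fintype.sum_equiv (Equiv.mulLeft a) _ _ fun b => ?_
    simp only [Equiv.coe_mulLeft, smul_mul_assoc, mul_smul_comm, smul_smul, ← map_mul, mul_inv_rev]
    congr 1
    rw [mul_comm b⁻¹ a⁻¹, map_mul, Units.val_mul]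
    have : ((m a⁻¹ : Kˣ) : K) * ((m a : Kˣ) : K) = 1 := by
      rw [← Units.val_mul, ← map_mul]; simp
    linear_combination (-((m b⁻¹ : Kˣ) : K) * ((l a⁻¹ : Kˣ) : K)) * this
  unfold pOp
  rw [smul_mul_smul_comm, h1, sum_weight_mul l m hn]
  split_ifs with h
  · subst h
    rw [smul_smul]
    field_simp
  · simp

theorem pOp_trivial [Fintype A] (σ : A →* Module.End K W) (hn : (Fintype.card A : K) ≠ 0)
    (hfix : ∀ v, (∀ a, σ a v = v) → v = 0) : pOp σ (1 : A →* Kˣ) = 0 := by
  apply LinearMap.ext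
  intro v
  rw [LinearMap.zero_apply]
  apply hfix
  intro b
  simp only [pOp, MonoidHom.one_apply, Units.val_one, one_smul, LinearMap.smul_apply, LinearMap.sum_apply,
    map_smul, map_sum]
  congr 1
  refine Fintype.sum_equiv (Equiv.mulLeft b) _ _ fun a => ?_
  simp [← Module.End.mul_apply, ← map_mul]

/-- The heart of the matter. -/
theorem finrank_eq_of_weights [IsAlgClosed K] [FiniteDimensional K W] (ρ : F →* Module.End K W)
    (E : Subgroup F) [Finite E]
    (σ : A →* Module.End K W) (τ : ↥E →* Monoid.End A)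
    (hτ : ∀ (e : E) (a : A), ρ e * σ a = σ (τ e a) * ρ e)
    (hfree : ∀ e : E, e ≠ 1 → ∀ a : A, ∃ x : A, a = x⁻¹ * τ e x)
    (hfix : ∀ v, (∀ a, σ a v = v) → v = 0)
    (hchar : (Nat.card A : K) ≠ 0) :
    finrank K W = Nat.card E * finrank K (fixSub ρ E) := by
  classical
  letI : Fintype A := Fintype.ofFinite A
  letI : Fintype E := Fintype.ofFinite E
  have hn : (Fintype.card A : K) ≠ 0 := by rwa [← Nat.card_eq_fintype_card]
  haveI hne : NeZero ((Monoid.exponent A : ℕ) : K) := ⟨by
    intro h0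
    apply hchar
    obtain ⟨c, hc⟩ := Group.exponent_dvd_nat_card (G := A)
    rw [hc]
    push_cast
    rw [h0, zero_mul]⟩
  haveI : Finite (A →* Kˣ) := by
    obtain ⟨e⟩ := CommGroup.monoidHom_mulEquiv_of_hasEnoughRootsOfUnity A K
    exact Finite.of_equiv _ e.symm.toEquiv
  letI : Fintype (A →* Kˣ) := Fintype.ofFinite _
  have hcardL : Fintype.card (A →* Kˣ) = Fintype.card A := by
    rw [← Nat.card_eq_fintype_card, ← Nat.card_eq_fintype_card]
    exact CommGroup.card_monoidHom_of_hasEnoughRootsOfUnity A K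
  letI act : MulAction E (A →* Kˣ) := weightAct τ
  have hsmul : ∀ (e : E) (l : A →* Kˣ) (a : A), (e • l) a = l (τ e⁻¹ a) := fun _ _ _ => rfl
  have hττ : ∀ (e : E) (a : A), τ e⁻¹ (τ e a) = a := fun e a => by
    show (τ e⁻¹ * τ e) a = a
    rw [← map_mul]
    simp
  have hττ' : ∀ (e : E) (a : A), τ e (τ e⁻¹ a) = a := fun e a => by
    show (τ e * τ e⁻¹) a = a
    rw [← map_mul]
    simp
  let p : (A →* Kˣ) → Module.End K W := pOp σ
  have hp : ∀ l, p l = ((Fintype.card A : K)⁻¹) • ∑ a : A, ((l a⁻¹ : Kˣ) : K) • σ a := fun _ => rfl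
  have hp1 : p 1 = 0 := pOp_trivial σ hn hfix
  have horth : ∀ l m, p l * p m = if l = m then p l else 0 := fun l m => pOp_mul_pOp σ l m hn
  have hsuml : ∀ a : A, ∑ l : A →* Kˣ, ((l a⁻¹ : Kˣ) : K) = if a = 1 then (Fintype.card A : K) else 0 := by
    intro a
    split_ifs with h
    · subst h
      simp [hcardL]
    · obtain ⟨l₀, hl₀⟩ := CommGroup.exists_apply_ne_one_of_hasEnoughRootsOfUnity A K
        (a := a⁻¹) (inv_ne_one.mpr h)
      have h1 : ((l₀ a⁻¹ : Kˣ) : K) * ∑ l : A →* Kˣ, ((l a⁻¹ : Kˣ) : K) =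
          ∑ l : A →* Kˣ, ((l a⁻¹ : Kˣ) : K) := by
        rw [Finset.mul_sum]
        refine Fintype.sum_equiv (Equiv.mulLeft l₀) _ _ fun l => ?_
        simp
      have h2 : ((l₀ a⁻¹ : Kˣ) : K) ≠ 1 := fun h3 => hl₀ (Units.ext h3)
      have h3 : (((l₀ a⁻¹ : Kˣ) : K) - 1) * ∑ l : A →* Kˣ, ((l a⁻¹ : Kˣ) : K) = 0 := by
        rw [sub_mul, h1, one_mul, sub_self]
      exact (mul_eq_zero.mp h3).resolve_left (sub_ne_zero.mpr h2)
  have hsum : ∑ l, p l = 1 := by
    simp only [hp]
    rw [← Finset.smul_sum, Finset.sum_comm]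
    have h1 : ∀ a : A, ∑ l : A →* Kˣ, ((l a⁻¹ : Kˣ) : K) • σ a =
        (if a = 1 then (Fintype.card A : K) else 0) • σ a := fun a => by
      rw [← hsuml, Finset.sum_smul]
    simp only [h1]
    rw [Finset.sum_eq_single (1 : A)]
    · simp [smul_smul, inv_mul_cancel₀ hn]
    · intro a _ ha
      simp [ha]
    · simp
  have hconj : ∀ (e : E) l, ρ e * p l = p (e • l) * ρ e := by
    intro e l
    simp only [hp, Finset.mul_sum, Finset.sum_mul, mul_smul_comm, smul_mul_assoc]
    congr 1
    let t : A ≃ A :=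
      { toFun := τ e, invFun := τ e⁻¹, left_inv := hττ e, right_inv := hττ' e }
    refine Fintype.sum_equiv t _ _ fun a => ?_
    show ((l a⁻¹ : Kˣ) : K) • (ρ e * σ a) = (((e • l) (τ e a)⁻¹ : Kˣ) : K) • (σ (τ e a) * ρ e)
    rw [hτ, hsmul, ← map_inv, hττ]
  have hfreeL : ∀ (e : E) (l : A →* Kˣ), e • l = l → e = 1 ∨ l = 1 := by
    intro e l hl
    by_cases he : e = 1
    · exact Or.inl he
    · right
      have hl' : e⁻¹ • l = l := by
        rw [inv_smul_eq_iff, hl]
      ext a
      obtain ⟨x, hx⟩ := hfree e he a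
      have h1 : l (τ e x) = l x := by
        have h2 := hsmul e⁻¹ l x
        rw [hl', inv_inv] at h2
        exact h2.symm
      rw [hx, map_mul, map_inv, h1]
      simp
  have ho : ∀ e : E, e • (1 : A →* Kˣ) = 1 := by
    intro e
    ext a
    rw [hsmul]
    simp
  obtain ⟨S, hS1, hS2⟩ := exists_transversal (1 : A →* Kˣ) hfreeL ho
  let Q : Module.End K W := ∑ s ∈ S, p s
  have hQQ : Q * Q = Q := by
    simp only [Q]
    rw [Finset.sum_mul_sum]
    refine Finset.sum_congr rfl fun s hs => ?_
    simp only [horth]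
    rw [Finset.sum_ite_eq]
    simp [hs]
  refine finrank_eq_of_Q ρ E Q ?_ ?_ ?_
  · intro v
    rw [← Module.End.mul_apply, hQQ]
  · intro g hg hg1 v
    have h1 : Q * ρ g * Q = 0 := by
      simp only [Q]
      rw [Finset.sum_mul, Finset.sum_mul_sum]
      refine Finset.sum_eq_zero fun s hs => Finset.sum_eq_zero fun t ht => ?_
      have h2 : p s * ρ g * p t = p s * p ((⟨g, hg⟩ : E) • t) * ρ g := by
        rw [mul_assoc, mul_assoc]
        congr 1
        exact hconj ⟨g, hg⟩ t
      rw [h2, horth]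
      split_ifs with h3
      · have h4 := hS1 s hs t ht ⟨g, hg⟩ h3.symm
        have h5 : (⟨g, hg⟩ : E) • t = t := by rw [← h3, h4]
        rcases hfreeL _ _ h5 with h6 | h6
        · exact absurd (congrArg Subtype.val h6) hg1
        · rw [← h4, h6, hp1, zero_mul]
      · rw [zero_mul]
    exact LinearMap.congr_fun h1 v
  · intro v
    have h1 : ∀ g : E, ρ g (Q (ρ (g : F)⁻¹ v)) = ∑ s ∈ S, p (g • s) v := by
      intro g
      simp only [Q, LinearMap.sum_apply, map_sum]
      refine Finset.sum_congr rfl fun s _ => ?_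
      have h2 := LinearMap.congr_fun (hconj g s) (ρ (g : F)⁻¹ v)
      rw [Module.End.mul_apply, Module.End.mul_apply, rho_mul_inv] at h2
      exact h2
    simp only [h1]
    have h2 := hS2 (fun l => p l v) (by simp [hp1])
    rw [h2, ← LinearMap.sum_apply, hsum]
    rfl

end Weights

end Cfsg.Agent.Lib.Char.FW
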