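import Cfsg.Agent.Lib.Char.Galois

set_option autoImplicit false

namespace Cfsg.Agent.Lib.Char

open Cfsg

/-- A ring automorphism of a subfield of `ℂ` extends to a ring automorphism of `ℂ`. -/
theorem pc_exists_ringEquiv_extend (K₀ : IntermediateField ℚ ℂ) (f : K₀ ≃+* K₀) :
    ∃ σ : ℂ ≃+* ℂ, ∀ x : K₀, σ (x : ℂ) = (f x : ℂ) := by
  classical
  obtain ⟨s, hs⟩ := exists_isTranscendenceBasis K₀ ℂ
  let e₁ : MvPolynomial s K₀ ≃ₐ[K₀] Algebra.adjoin K₀ (Set.range ((↑) : s → ℂ)) := hs.1.aevalEquiv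
  let τ : MvPolynomial s K₀ ≃+* MvPolynomial s K₀ := MvPolynomial.mapEquiv s f
  let B := Algebra.adjoin K₀ (Set.range ((↑) : s → ℂ))
  let φ : B ≃+* B := (e₁.symm.toRingEquiv.trans τ).trans e₁.toRingEquiv
  haveI halg : Algebra.IsAlgebraic B ℂ := hs.isAlgebraic
  haveI : IsAlgClosure B ℂ := ⟨inferInstance, halg⟩
  refine ⟨IsAlgClosure.equivOfEquiv ℂ ℂ φ, fun x => ?_⟩
  have h2 := IsAlgClosure.equivOfEquiv_algebraMap ℂ ℂ φ (algebraMap K₀ B x)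
  have h3 : algebraMap B ℂ (algebraMap K₀ B x) = (x : ℂ) := rfl
  rw [h3] at h2
  rw [h2]
  have h4 : e₁.symm (algebraMap K₀ B x) = MvPolynomial.C x := by
    rw [AlgEquiv.commutes]
    rfl
  have h5 : τ (MvPolynomial.C x) = MvPolynomial.C (f x) := by
    exact MvPolynomial.map_C _ _
  have h6 : e₁ (MvPolynomial.C (f x)) = algebraMap K₀ B (f x) := by
    exact AlgEquiv.commutes e₁ (f x)
  show algebraMap B ℂ (e₁ (τ (e₁.symm (algebraMap K₀ B x)))) = _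
  rw [h4, h5, h6]
  rfl

/-- The automorphism of `ℂ` acting as `ε ↦ ε ^ k` on `n`-th roots of unity. -/
theorem pc_exists_sigma (n : ℕ) [NeZero n] (k : ℕ) (hk : k.Coprime n) :
    ∃ σ : ℂ ≃+* ℂ, ∀ ε : ℂ, ε ^ n = 1 → σ ε = ε ^ k := by
  obtain ⟨f, hf⟩ := exists_aut n k hk
  obtain ⟨σ, hσ⟩ := pc_exists_ringEquiv_extend (cycField n) f.toRingEquiv
  refine ⟨σ, fun ε hε => ?_⟩
  obtain ⟨j, -, rfl⟩ := (isPrimitiveRoot_zetaC n).eq_pow_of_pow_eq_one hε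
  have h1 : σ (zetaC n) = zetaC n ^ k := by
    have := hσ (zetaK n)
    simp only [AlgEquiv.coe_ringEquiv, hf] at this
    exact this
  rw [map_pow, h1, ← pow_mul, ← pow_mul, mul_comm]

end Cfsg.Agent.Lib.Char
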