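import Cfsg.Agent.Lib.Char.FTIto
import Cfsg.Agent.Lib.Char.FTSylow
import Cfsg.Agent.Lib.Blocks.FongGeneral
import Cfsg.Agent.Lib.Coprime.PSolvable
import Cfsg.Agent.Lib.PGroups.TwoClass

/-!
# The sharp form of the Ito-type lemma

For a faithful character of degree `n < p` the only exception to "a `p`-automorphism is trivial on
`p'`-groups" is `n + 1 = p` with `n` a power of `2`.
-/

set_option autoImplicit false
set_option linter.unusedSectionVars false

namespace Cfsg.Agent.Lib.Char.FT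

open Cfsg Cfsg.Agent.Lib.Char
open scoped ComplexConjugate

universe u

section QgroupSharp

variable {Y : Type u} [Group Y] [Finite Y] {p : ℕ} [Fact p.Prime] {k : ℕ} {f : Y ≃* Y}

theorem ito_qgroup_sharp {q : ℕ} [Fact q.Prime] (hq : IsPGroup q Y) {n : ℕ} (hnlt : n < p)
    (hno : ¬ (n + 1 = p ∧ ∃ m, n = 2 ^ m))
    (hf : f ^ p ^ k = 1) (hcop : Nat.Coprime (Nat.card Y) p)
    {ψ : Y → ℂ} [Fintype Y] (hψ : IsCharacter Y ψ) (hfaith : ∀ g, ψ g = ψ 1 → g = 1) (h1 : ψ 1 = n)
    (hinv : ∀ g, ψ (f g) = ψ g)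
    (hIH : ∀ K : Subgroup Y, K ≠ ⊤ → (∀ y ∈ K, f y ∈ K) → ∀ y ∈ K, f y = y) : ∀ y, f y = y := by
  classical
  by_contra hne
  push Not at hne
  have hW := closure_eq_top_of_minimal hf hcop hIH hne
  by_cases hZ : Subgroup.center Y = ⊤
  · -- abelian case
    obtain ⟨y, hy⟩ := hne
    have hy1 : y ≠ 1 := by
      rintro rfl
      exact hy (map_one f)
    obtain ⟨θ, hθ, hc, hθy⟩ := exists_constituent_ne hψ hfaith hy1
    have hcomm : ∀ a b : Y, a * b = b * a := by
      intro a b
      have : a ∈ Subgroup.center Y := by rw [hZ]; trivial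
      exact (Subgroup.mem_center_iff.mp this b).symm
    have hθ1 : θ 1 = 1 := (comm_iff_irr_degree_one (G := Y)).mp hcomm ⟨θ, hθ⟩
    obtain ⟨lam, hlam⟩ := IsCharacter.exists_monoidHom (IsIrrCharacter.isCharacter hθ) hθ1
    have hinvθ := constituent_comp_eq hnlt hf hψ h1 hinv hθ hc
    have hl : ∀ y, lam (f y) = lam y := by
      intro y
      apply Units.ext
      have := hinvθ y
      rw [hlam] at this
      exact this
    have := hom_trivial_of_closure hW lam hl y
    apply hθy
    rw [hθ1, hlam]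
    show ((lam y : ℂˣ) : ℂ) = 1
    rw [this]
    simp
  · -- non-abelian case
    have hfixZ : ∀ z ∈ Subgroup.center Y, f z = z := hIH _ hZ (center_invariant f)
    have hnil : Group.IsNilpotent Y := hq.isNilpotent
    have hZ2mem : ∀ w, w ∈ Subgroup.upperCentralSeries Y 2 ↔
        ∀ y, w * y * w⁻¹ * y⁻¹ ∈ Subgroup.center Y := by
      intro w
      rw [show (2 : ℕ) = 1 + 1 from rfl, Subgroup.mem_upperCentralSeries_succ_iff,
        Subgroup.upperCentralSeries_one]
      rfl
    have hcommC : ∀ (w : Y) (hw : ∀ y, w * y * w⁻¹ * y⁻¹ ∈ Subgroup.center Y), f w = w → w ∈ Subgroup.center Y := by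
      intro w hw hfw
      have hφ : ∀ y, commHom w hw (f y) = commHom w hw y := by
        intro y
        rw [commHom_apply, commHom_apply]
        have h2 := conj_comm_map f w y
        rw [hfw] at h2
        rw [h2]
        exact hfixZ _ (hw y)
      have h3 := hom_trivial_of_closure hW (commHom w hw) hφ
      rw [Subgroup.mem_center_iff]
      intro g
      have h4 := h3 g
      rw [commHom_apply] at h4
      have h5 : w * g * w⁻¹ = g := by
        exact mul_inv_eq_one.mp h4
      have h6 : w * g = g * w := by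
        exact mul_inv_eq_iff_eq_mul.mp h5
      exact h6.symm
    have hZ2 : Subgroup.upperCentralSeries Y 2 = ⊤ := by
      by_contra hZ2ne
      have hinv2 : ∀ w ∈ Subgroup.upperCentralSeries Y 2, f w ∈ Subgroup.upperCentralSeries Y 2 := by
        intro w hw
        rw [hZ2mem] at hw ⊢
        intro y
        obtain ⟨y', rfl⟩ := f.surjective y
        rw [conj_comm_map]
        exact center_invariant f _ (hw y')
      have hfix2 := hIH _ hZ2ne hinv2
      obtain ⟨w, hwZ, hw⟩ := exists_second_center hnil hZ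
      exact hwZ (hcommC w hw (hfix2 w ((hZ2mem w).mpr hw)))
    have hcomm2 : ∀ w y : Y, w * y * w⁻¹ * y⁻¹ ∈ Subgroup.center Y := by
      intro w
      have : w ∈ Subgroup.upperCentralSeries Y 2 := by rw [hZ2]; trivial
      exact (hZ2mem w).mp this
    have hCZ : ∀ c, f c = c ↔ c ∈ Subgroup.center Y := fun c =>
      ⟨fun hc => hcommC c (hcomm2 c) hc, hfixZ c⟩
    -- fixed points
    have hcount : Nat.card Y ≡ Nat.card (Subgroup.center Y) [MOD p] := by
      let σ : Function.End Y := fun y => f y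
      have hσ : ∀ (m : ℕ) (y : Y), (σ ^ m) y = (f ^ m) y := by
        intro m
        induction m with
        | zero => intro y; rfl
        | succ m ih =>
          intro y
          rw [pow_succ', pow_succ']
          show f ((σ ^ m) y) = f ((f ^ m) y)
          rw [ih]
      have hσp : σ ^ p ^ k = 1 := by
        funext y
        rw [hσ, hf]
        rfl
      have h2 := Equiv.Perm.card_fixedPoints_modEq (f := σ) (p := p) (n := k) hσp
      have h3 : Fintype.card (Function.fixedPoints σ) = Nat.card (Subgroup.center Y) := by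
        rw [← Nat.card_eq_fintype_card]
        apply Nat.card_congr
        exact Equiv.subtypeEquivRight fun y => hCZ y
      rw [Nat.card_eq_fintype_card, ← h3]
      exact h2
    -- a noncentral element and a commutator
    obtain ⟨y0, hy0⟩ : ∃ y0, y0 ∉ Subgroup.center Y := by
      by_contra hcon
      push Not at hcon
      exact hZ (eq_top_iff.mpr fun y _ => hcon y)
    obtain ⟨w0, hw0⟩ : ∃ w0, w0 * y0 ≠ y0 * w0 := by
      by_contra hcon
      push Not at hcon
      exact hy0 (Subgroup.mem_center_iff.mpr hcon)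
    have hc1 : y0 * w0 * y0⁻¹ * w0⁻¹ ≠ 1 := by
      intro h
      apply hw0
      have h2 : y0 * w0 * y0⁻¹ = w0 := mul_inv_eq_one.mp h
      exact (mul_inv_eq_iff_eq_mul.mp h2).symm
    obtain ⟨θ, hθ, hcθ, hθc⟩ := exists_constituent_ne hψ hfaith hc1
    have hθch := IsIrrCharacter.isCharacter hθ
    have hinvθ := constituent_comp_eq hnlt hf hψ h1 hinv hθ hcθ
    -- degree
    obtain ⟨d, hd⟩ := IsCharacter.apply_one hθch
    have hdle : d ≤ n := by
      have h2 := IsCharacter.degree_ge_of_classInner_ne_zero hψ hθ hcθ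
      rw [hd, h1] at h2
      simpa using h2
    have hd0 : d ≠ 0 := by
      rintro rfl
      exact IsIrrCharacter.apply_one_ne_zero hθ (by rw [hd]; simp)
    have hd1 : d ≠ 1 := by
      rintro rfl
      have hθ1 : θ 1 = 1 := by rw [hd]; simp
      obtain ⟨lam, hlam⟩ := IsCharacter.exists_monoidHom hθch hθ1
      apply hθc
      rw [hθ1, hlam]
      simp [map_mul, map_inv, mul_comm]
    -- the subgroup T
    haveI : (charKer θ).Normal := charKer_normal hθch
    let T : Subgroup Y := Subgroup.upperCentralSeriesStep (charKer θ)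
    have hTmem : ∀ y, y ∈ T ↔ ∀ w, θ (y * w * y⁻¹ * w⁻¹) = θ 1 := by
      intro y
      rw [show y ∈ T ↔ y ∈ Subgroup.upperCentralSeriesStep (charKer θ) from Iff.rfl,
        Subgroup.mem_upperCentralSeriesStep]
      refine forall_congr' fun w => ?_
      rw [mem_charKer hθch]
      rfl
    have hTinv : ∀ y ∈ T, f y ∈ T := by
      intro y hy
      rw [hTmem] at hy ⊢
      intro w
      obtain ⟨w', rfl⟩ := f.surjective w
      rw [conj_comm_map, hinvθ]
      exact hy w'
    have hTne : T ≠ ⊤ := by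
      intro h
      have : y0 ∈ T := by rw [h]; trivial
      exact hθc ((hTmem y0).mp this w0)
    have hTZ : ∀ y ∈ T, y ∈ Subgroup.center Y := fun y hy => (hCZ y).mp (hIH T hTne hTinv y hy)
    have hzero : ∀ y, y ∉ Subgroup.center Y → θ y = 0 := by
      intro y hy
      have hyT : y ∉ T := fun h => hy (hTZ y h)
      rw [hTmem] at hyT
      push Not at hyT
      obtain ⟨w, hw⟩ := hyT
      set z := y * w * y⁻¹ * w⁻¹ with hz
      have hzC : z ∈ Subgroup.center Y := hcomm2 y w
      have h2 := apply_mul_of_mem_center hθ hzC y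
      have h3 : w⁻¹ * y * w = y * z := by
        have hzw : z * y = y * z := (Subgroup.mem_center_iff.mp hzC y).symm
        rw [← hzw, hz]
        have h4 : w⁻¹ * y * w = w⁻¹ * (y * w * y⁻¹ * w⁻¹) * w * y := by group
        rw [h4, ← hz]
        have hzw' : z * w = w * z := (Subgroup.mem_center_iff.mp hzC w).symm
        rw [mul_assoc w⁻¹, hzw']
        group
      have h4 : θ (y * z) = θ y := by
        rw [← h3]
        have := IsCharacter.isClassFunction hθch y w⁻¹
        rw [inv_inv] at this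
        exact this
      rw [h4] at h2
      have h5 : θ y * (θ 1 - θ z) = 0 := by
        rw [mul_sub, ← h2]
        ring
      rcases mul_eq_zero.mp h5 with h6 | h6
      · exact h6
      · exact absurd (sub_eq_zero.mp h6).symm hw
    -- the count
    have hsum : (Nat.card (Subgroup.center Y) : ℝ) * (d : ℝ) ^ 2 = Nat.card Y := by
      rw [← sum_norm_sq_irr hθ]
      have h2 : ∀ g : Y, ‖θ g‖ ^ 2 = if g ∈ Subgroup.center Y then (d : ℝ) ^ 2 else 0 := by
        intro g
        split_ifs with hg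
        · rw [norm_of_mem_center hθ hg, hd]
          simp
        · rw [hzero g hg]
          simp
      simp only [h2]
      rw [Finset.sum_ite]
      simp only [Finset.sum_const_zero, add_zero, Finset.sum_const, nsmul_eq_mul]
      congr 2
      rw [Nat.card_eq_fintype_card, Fintype.card_subtype]
    have hsumN : Nat.card (Subgroup.center Y) * d ^ 2 = Nat.card Y := by
      exact_mod_cast hsum
    have hcopZ : Nat.Coprime (Nat.card (Subgroup.center Y)) p :=
      Nat.Coprime.coprime_dvd_left (Dvd.intro _ hsumN) hcop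
    have hmod : d ^ 2 ≡ 1 [MOD p] := by
      have h2 : Nat.card (Subgroup.center Y) * d ^ 2 ≡ Nat.card (Subgroup.center Y) * 1 [MOD p] := by
        rw [hsumN, mul_one]
        exact hcount
      exact Nat.ModEq.cancel_left_of_coprime (by rw [Nat.gcd_comm]; exact hcopZ) h2
    have hpd : p ∣ (d - 1) * (d + 1) := by
      have h2 : (d - 1) * (d + 1) = d ^ 2 - 1 := by
        obtain ⟨e, rfl⟩ : ∃ e, d = e + 1 := ⟨d - 1, by omega⟩
        simp only [Nat.add_sub_cancel]
        have : (e + 1) ^ 2 = e * (e + 1 + 1) + 1 := by ring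
        omega
      rw [h2]
      exact (Nat.modEq_iff_dvd' (Nat.one_le_pow _ _ (by omega))).mp hmod.symm
    rcases (Nat.Prime.dvd_mul Fact.out).mp hpd with h2 | h2
    · have := Nat.le_of_dvd (by omega) h2
      omega
    · have hp' := Nat.le_of_dvd (by omega) h2
      have hd' : d + 1 = p := by omega
      have hnd : n = d := by omega
      apply hno
      refine ⟨by omega, ?_⟩
      obtain ⟨s, hs⟩ := IsPGroup.iff_card.mp hq
      have hdvd : d ∣ q ^ s := by
        rw [← hs, ← hsumN]
        exact Dvd.dvd.mul_left (dvd_pow_self d two_ne_zero) _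
      obtain ⟨e, -, he⟩ := (Nat.dvd_prime_pow Fact.out).mp hdvd
      have hq2 : q = 2 := by
        by_contra hq2
        have hodd : Odd q := (Fact.out : q.Prime).odd_of_ne_two hq2
        have h3 : Even (d + 1) := by
          rw [he]
          exact (hodd.pow).add_odd odd_one
        rw [hd'] at h3
        have h4 : p = 2 := ((Fact.out : p.Prime).even_iff.mp h3 |> fun h => by
          have h5 := (Fact.out : p.Prime).two_le
          omega)
        omega
      exact ⟨e, by rw [hnd, he, hq2]⟩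


end QgroupSharp

/-- **Ito-type lemma (abstract form).** -/
theorem ito_abs_sharp {p : ℕ} [Fact p.Prime] {k n : ℕ} (hnlt : n < p)
    (hno : ¬ (n + 1 = p ∧ ∃ m, n = 2 ^ m)) :
    ∀ (N : ℕ) (Y : Type u) [Group Y] [Finite Y] (f : Y ≃* Y) (ψ : Y → ℂ), Nat.card Y = N → f ^ p ^ k = 1 →
      Nat.Coprime (Nat.card Y) p → IsCharacter Y ψ → (∀ g, ψ g = ψ 1 → g = 1) → ψ 1 = n →
      (∀ g, ψ (f g) = ψ g) → ∀ y, f y = y := by
  intro N
  induction N using Nat.strong_induction_on with
  | _ N ih =>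
  intro Y _ _ f ψ hN hf hcop hψ hfaith h1 hinv
  letI : Fintype Y := Fintype.ofFinite Y
  have hIH : ∀ K : Subgroup Y, K ≠ ⊤ → (∀ y ∈ K, f y ∈ K) → ∀ y ∈ K, f y = y := by
    intro K hK hKf y hy
    have hlt : Nat.card K < N := by
      rw [← hN]
      refine lt_of_le_of_ne (Subgroup.card_le_card_group K) fun h => hK ?_
      exact Subgroup.eq_top_of_card_eq K h
    have hcopK : Nat.Coprime (Nat.card K) p :=
      Nat.Coprime.coprime_dvd_left (Subgroup.card_subgroup_dvd_card K) hcop
    have := ih _ hlt K (restrictAut f K hKf) (ψ ∘ K.subtype) rfl (restrictAut_pow_eq_one hKf hf) hcopK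
      (IsCharacter.comp hψ K.subtype)
      (fun g hg => Subtype.ext (hfaith _ hg)) h1 (fun g => hinv g) ⟨y, hy⟩
    exact congrArg Subtype.val this
  by_contra hne
  let C : Subgroup Y := (f.toMonoidHom).eqLocus (MonoidHom.id Y)
  have hCmem : ∀ y, y ∈ C ↔ f y = y := fun y => Iff.rfl
  have hCne : C ≠ ⊤ := by
    intro h
    apply hne
    intro y
    have : y ∈ C := by rw [h]; trivial
    exact this
  have hA : Nat.Coprime (Nat.card (Subgroup.zpowers f)) (Nat.card Y) := by
    have h2 : Nat.card (Subgroup.zpowers f) ∣ p ^ k := by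
      rw [Nat.card_zpowers]
      exact orderOf_dvd_of_pow_eq_one hf
    exact Nat.Coprime.coprime_dvd_left h2 (Nat.Coprime.pow_left _ hcop.symm)
  have hprime : ∀ q : ℕ, q.Prime → ¬ q ∣ C.index := by
    intro q hq hdvd
    haveI : Fact q.Prime := ⟨hq⟩
    obtain ⟨Q, hQp, hQi, hQinv⟩ := Cfsg.Agent.Lib.Struct.exists_invariant_sylow_abs
      (A := Subgroup.zpowers f) (G := Y) (Subgroup.zpowers f).subtype hA
      (Or.inl inferInstance) q
    have hQf : ∀ y ∈ Q, f y ∈ Q := fun y hy => hQinv ⟨f, Subgroup.mem_zpowers f⟩ y hy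
    by_cases hQ : Q = ⊤
    · have hpg : IsPGroup q Y := by
        subst hQ
        exact hQp.of_equiv Subgroup.topEquiv
      exact hne (ito_qgroup_sharp hpg hnlt hno hf hcop hψ hfaith h1 hinv hIH)
    · have hle : Q ≤ C := fun y hy => hIH Q hQ hQf y hy
      exact hQi (hdvd.trans (Subgroup.index_dvd_of_le hle))
  have hindex : C.index = 1 := by
    by_contra h
    obtain ⟨q, hq, hd⟩ := Nat.exists_prime_and_dvd h
    exact hprime q hq hd
  exact hCne (Subgroup.index_eq_one.mp hindex)

/-- **Ito-type lemma.** A `p`-element normalizing a `p'`-subgroup centralizes it, when there is a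
faithful character of degree `n` with `n + 1 < p`. -/
theorem ito_core_sharp {Γ : Type u} [Group Γ] [Finite Γ] {p : ℕ} [Fact p.Prime] {k n : ℕ} (hnlt : n < p)
    (hno : ¬ (n + 1 = p ∧ ∃ m, n = 2 ^ m))
    {ψ : Γ → ℂ} (hψ : IsCharacter Γ ψ) (hfaith : ∀ g, ψ g = ψ 1 → g = 1) (h1 : ψ 1 = n) {x : Γ}
    (hx : x ^ p ^ k = 1) (Y : Subgroup Γ) (hY : ∀ y ∈ Y, x * y * x⁻¹ ∈ Y)
    (hcop : Nat.Coprime (Nat.card Y) p) : ∀ y ∈ Y, x * y = y * x := by
  intro y hy
  have hY' : ∀ y ∈ Y, MulAut.conj x y ∈ Y := hY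
  have hf : (MulAut.conj x) ^ p ^ k = 1 := by
    rw [← map_pow, hx, map_one]
  have := ito_abs_sharp hnlt hno _ Y (restrictAut (MulAut.conj x) Y hY') (ψ ∘ Y.subtype) rfl
    (restrictAut_pow_eq_one hY' hf) hcop (IsCharacter.comp hψ Y.subtype)
    (fun g hg => Subtype.ext (hfaith _ hg)) h1
    (fun g => IsCharacter.isClassFunction hψ (g : Γ) x) ⟨y, hy⟩
  have h2 : x * y * x⁻¹ = y := congrArg Subtype.val this
  exact mul_inv_eq_iff_eq_mul.mp h2


/-- A `p`-soluble group with a faithful character of degree `n < p` has a normal Sylow `p`-subgroup,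
unless `n + 1 = p` and `n` is a power of `2`. -/
theorem sylow_normal_sharp {G : Type u} [Group G] [Finite G] {p : ℕ} [Fact p.Prime] {n : ℕ}
    (hnlt : n < p) (hno : ¬ (n + 1 = p ∧ ∃ m, n = 2 ^ m)) {ψ : G → ℂ} (hψ : IsCharacter G ψ)
    (hfaith : ∀ g, ψ g = ψ 1 → g = 1) (h1 : ψ 1 = n) (hsolv : IsPSolvable p G) (P : Sylow p G) :
    (P : Subgroup G).Normal := by
  classical
  letI : Fintype G := Fintype.ofFinite G
  haveI hKn : (pPrimeCore p G).Normal := Cfsg.Agent.Lib.Basic.pPrimeCore_normal p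
  set K := pPrimeCore p G with hK
  set L := pPrimePCore p G with hL
  haveI hLn : L.Normal := by
    rw [hL, pPrimePCore]
    exact Subgroup.Normal.comap (Cfsg.Agent.Lib.Basic.pCore_normal p) _
  have hKL : K ≤ L := Cfsg.Agent.Lib.Blocks.pPrimeCore_le_pPrimePCore
  obtain ⟨j, hj⟩ := Cfsg.Agent.Lib.Blocks.relIndex_pPrimeCore (p := p) (G := G)
  have hpP : ¬ p ∣ (P : Subgroup G).index := P.not_dvd_index
  -- `P ⊓ L` has index prime to `p` in `L`
  have hQS : ¬ p ∣ ((P : Subgroup G) ⊓ L).relIndex L := by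
    rw [inf_comm]
    exact Cfsg.Agent.Lib.PGroups.TwoClass.not_dvd_relIndex_inf P L (by
      rw [Subgroup.normalizer_eq_top_iff.mpr hLn]
      exact le_top)
  -- `P` is abelian
  have hab := pgroup_comm hnlt hψ hfaith h1 P.isPGroup'
  have hPL : (P : Subgroup G) ≤ L := by
    have h2 : (P : Subgroup G) ≤ Subgroup.centralizer ((((P : Subgroup G) ⊓ L : Subgroup G)) : Set G) := by
      intro x hx
      rw [Subgroup.mem_centralizer_iff]
      intro y hy
      exact hab y hy.1 x hx
    exact h2.trans (Cfsg.Agent.Lib.Blocks.centralizer_le_pPrimePCore hsolv inf_le_right hQS)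
  have hKp : Nat.Coprime (Nat.card K) p := Cfsg.Agent.Lib.Basic.pPrimeCore_coprime p
  have hPK : ∀ x ∈ (P : Subgroup G), ∀ y ∈ K, x * y = y * x := by
    intro x hx y hy
    obtain ⟨a, ha⟩ := IsPGroup.iff_card.mp P.isPGroup'
    have hxa : x ^ p ^ a = 1 := by
      rw [← ha]
      have := pow_card_eq_one' (x := (⟨x, hx⟩ : (P : Subgroup G)))
      exact congrArg Subtype.val this
    exact ito_core_sharp hnlt hno hψ hfaith h1 hxa K (fun y hy => hKn.conj_mem y hy x) hKp y hy
  have hLK : L ≤ K ⊔ (P : Subgroup G) := by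
    set T := K ⊔ (P : Subgroup G) with hT
    have hTL : T ≤ L := sup_le hKL hPL
    have h2 : K.relIndex T * T.relIndex L = K.relIndex L :=
      Subgroup.relIndex_mul_relIndex K T L le_sup_left hTL
    have h3 : T.relIndex L ∣ p ^ j := ⟨K.relIndex T, by rw [← hj, ← h2, mul_comm]⟩
    have h4 : T.relIndex L = 1 := by
      obtain ⟨i, -, hi⟩ := (Nat.dvd_prime_pow Fact.out).mp h3
      have h5 : T.relIndex L ∣ (P : Subgroup G).index :=
        (Dvd.intro _ (Subgroup.relIndex_mul_index hTL)).trans (Subgroup.index_dvd_of_le le_sup_right)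
      have hi0 : i = 0 := by
        by_contra h0
        apply hpP
        rw [hi] at h5
        exact (dvd_pow_self p h0).trans h5
      rw [hi, hi0, pow_zero]
    exact Subgroup.relIndex_eq_one.mp h4
  constructor
  intro x hx g
  have hgx : g * x * g⁻¹ ∈ L := hLn.conj_mem x (hPL hx) g
  obtain ⟨k, hk, u, hu, hku⟩ := Subgroup.mem_sup_of_normal_left.mp (hLK hgx)
  obtain ⟨a, ha⟩ := IsPGroup.iff_card.mp P.isPGroup'
  have hxa : x ^ p ^ a = 1 := by
    rw [← ha]
    have := pow_card_eq_one' (x := (⟨x, hx⟩ : (P : Subgroup G)))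
    exact congrArg Subtype.val this
  have hua : u ^ p ^ a = 1 := by
    rw [← ha]
    have := pow_card_eq_one' (x := (⟨u, hu⟩ : (P : Subgroup G)))
    exact congrArg Subtype.val this
  have hc : Commute k u := (hPK u hu k hk).symm
  have h2 : (g * x * g⁻¹) ^ p ^ a = 1 := by
    rw [conj_pow, hxa]
    group
  rw [← hku, hc.mul_pow, hua, mul_one] at h2
  have hk1 : k = 1 := by
    have h5 : orderOf k ∣ p ^ a := orderOf_dvd_of_pow_eq_one h2
    have h6 : orderOf k ∣ Nat.card K := by
      rw [← Subgroup.orderOf_mk k hk]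
      exact orderOf_dvd_natCard _
    have hcop : Nat.Coprime (p ^ a) (Nat.card K) := Nat.Coprime.pow_left _ hKp.symm
    exact orderOf_eq_one_iff.mp (Nat.eq_one_of_dvd_coprimes hcop h5 h6)
  rw [← hku, hk1, one_mul]
  exact hu


/-- If `θ` has degree `a` with `a + 1 < p` then `P · ker θ` is normal. -/
theorem sup_ker_normal {G : Type u} [Group G] [Finite G] {p : ℕ} [Fact p.Prime] {a : ℕ}
    (ha : a + 1 < p) {θ : G → ℂ} (hθ : IsCharacter G θ) (h1 : θ 1 = a) (hsolv : IsPSolvable p G)
    (P : Sylow p G) : haveI := charKer_normal hθ; ((P : Subgroup G) ⊔ charKer θ).Normal := by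
  classical
  letI : Fintype G := Fintype.ofFinite G
  haveI hKn : (charKer θ).Normal := charKer_normal hθ
  set K := charKer θ with hK
  obtain ⟨β, hβ, hθβ⟩ := exists_deflate_character K hθ le_rfl
  have hβ1 : β 1 = a := by
    have : inflate K β 1 = a := by rw [← hθβ]; exact h1
    exact this
  have hfaith : ∀ g, β g = β 1 → g = 1 := by
    intro g
    induction g using QuotientGroup.induction_on with
    | H g =>
      intro h
      have h2 : θ g = θ 1 := by
        rw [hθβ]
        exact h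
      exact (QuotientGroup.eq_one_iff g).mpr ((mem_charKer hθ).mpr h2)
  have hno : ¬ (a + 1 = p ∧ ∃ m, a = 2 ^ m) := fun h => by omega
  have hs' : IsPSolvable p (G ⧸ K) :=
    Cfsg.Agent.Lib.Coprime.isPSolvable_map (QuotientGroup.mk' K) (QuotientGroup.mk'_surjective K) hsolv
  have h2 := sylow_normal_sharp (by omega) hno hβ hfaith hβ1 hs'
    (Sylow.mapSurjective (f := QuotientGroup.mk' K) (QuotientGroup.mk'_surjective K) P)
  have h3 : ((P : Subgroup G).map (QuotientGroup.mk' K)).Normal := h2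
  have h4 := h3.comap (QuotientGroup.mk' K)
  rw [Subgroup.comap_map_eq, QuotientGroup.ker_mk'] at h4
  exact h4

/-- The `p`-power exponent on `P ⊔ K`. -/
theorem pow_mem_of_mem_sup {G : Type u} [Group G] [Finite G] {p : ℕ} [Fact p.Prime] (P : Sylow p G)
    (K : Subgroup G) [hK : K.Normal] {x : G} (hx : x ∈ (P : Subgroup G) ⊔ K) :
    ∃ a, x ^ p ^ a ∈ K := by
  obtain ⟨u, hu, k, hk, rfl⟩ := Subgroup.mem_sup_of_normal_right.mp hx
  obtain ⟨a, ha⟩ := IsPGroup.iff_card.mp P.isPGroup'
  have hua : u ^ p ^ a = 1 := by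
    rw [← ha]
    have := pow_card_eq_one' (x := (⟨u, hu⟩ : (P : Subgroup G)))
    exact congrArg Subtype.val this
  refine ⟨a, ?_⟩
  rw [← QuotientGroup.eq_one_iff, QuotientGroup.mk_pow, QuotientGroup.mk_mul]
  have h2 : ((k : G) : G ⧸ K) = 1 := (QuotientGroup.eq_one_iff k).mpr hk
  rw [h2, mul_one, ← QuotientGroup.mk_pow, hua]
  rfl

/-- Form of S4468. -/
theorem sharp_main {G : Type u} [Group G] [Finite G] (χ : G → ℂ) (hχ : IsCharacter G χ)
    (hfaith : ∀ g : G, χ g = χ 1 → g = 1) (n : ℕ) (hn : charDegree χ = n) (p : ℕ) (hp : p.Prime)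
    (hsolv : IsPSolvable p G) (hnp : n + 1 ≤ p) (P : Sylow p G) (hP : ¬ (P : Subgroup G).Normal) :
    n + 1 = p ∧ (∃ k : ℕ, n = 2 ^ k) ∧ IsIrrCharacter G χ := by
  classical
  haveI : Fact p.Prime := ⟨hp⟩
  letI : Fintype G := Fintype.ofFinite G
  have h1 : χ 1 = n := by rw [apply_one_eq_charDegree hχ, hn]
  have hex : n + 1 = p ∧ ∃ m, n = 2 ^ m := by
    by_contra hno
    exact hP (sylow_normal_sharp (by omega) hno hχ hfaith h1 hsolv P)
  refine ⟨hex.1, hex.2, ?_⟩
  obtain ⟨hnp1, m, hm⟩ := hex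
  have hn0 : n ≠ 0 := by
    rw [hm]
    positivity
  by_contra hirr
  obtain ⟨c, hc, hsum⟩ := IsCharacter.exists_eq_sum hχ
  -- a constituent
  obtain ⟨ψ₀, hψ₀⟩ : ∃ ψ₀ : IrrCharacter G, c ψ₀ ≠ 0 := by
    by_contra hcon
    push Not at hcon
    have h2 : χ = 0 := by
      rw [hsum]
      apply Finset.sum_eq_zero
      intro ψ _
      rw [hcon ψ, zero_smul]
    rw [h2] at h1
    have h3 : (n : ℂ) = 0 := h1.symm
    exact hn0 (by exact_mod_cast h3)
  -- the rest
  set β : G → ℂ := ∑ ψ : IrrCharacter G, (if ψ = ψ₀ then c ψ - 1 else c ψ) • (ψ : G → ℂ) with hβdef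
  have hβ : IsCharacter G β := IsCharacter.sum _ fun ψ _ =>
    IsCharacter.nsmul (IsIrrCharacter.isCharacter ψ.2) _
  have hdec : χ = (ψ₀ : G → ℂ) + β := by
    rw [hsum, hβdef, ← Finset.add_sum_erase _ _ (Finset.mem_univ ψ₀),
      ← Finset.add_sum_erase (a := ψ₀) _ (fun ψ : IrrCharacter G => (if ψ = ψ₀ then c ψ - 1 else c ψ) • (ψ : G → ℂ)) (Finset.mem_univ ψ₀)]
    rw [if_pos rfl, ← add_assoc]
    congr 1
    · obtain ⟨e, he⟩ : ∃ e, c ψ₀ = e + 1 := ⟨c ψ₀ - 1, by omega⟩
      rw [he, Nat.add_sub_cancel, add_smul, one_smul, add_comm]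
    · apply Finset.sum_congr rfl
      intro ψ hψ
      rw [if_neg (Finset.ne_of_mem_erase hψ)]
  have hψ₀c := IsIrrCharacter.isCharacter ψ₀.2
  obtain ⟨a, ha⟩ := IsCharacter.apply_one hψ₀c
  obtain ⟨b, hb⟩ := IsCharacter.apply_one hβ
  have hab : a + b = n := by
    have h2 : χ 1 = (ψ₀ : G → ℂ) 1 + β 1 := by
      rw [hdec]
      rfl
    rw [h1, ha, hb] at h2
    exact_mod_cast h2.symm
  have ha0 : a ≠ 0 := by
    rintro rfl
    exact IsIrrCharacter.apply_one_ne_zero ψ₀.2 (by rw [ha]; simp)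
  have hb0 : b ≠ 0 := by
    rintro rfl
    apply hirr
    have h2 : β = 0 := by
      funext g
      have h3 := IsCharacter.norm_le hβ g
      rw [hb] at h3
      simpa using h3
    rw [hdec, h2, add_zero]
    exact ψ₀.2
  haveI h1n : (charKer (ψ₀ : G → ℂ)).Normal := charKer_normal hψ₀c
  haveI h2n : (charKer β).Normal := charKer_normal hβ
  have hn1 := sup_ker_normal (by omega) hψ₀c ha hsolv P
  have hn2 := sup_ker_normal (by omega) hβ hb hsolv P
  set O : Subgroup G := ((P : Subgroup G) ⊔ charKer (ψ₀ : G → ℂ)) ⊓ ((P : Subgroup G) ⊔ charKer β) with hO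
  have hOn : O.Normal := Subgroup.normal_inf_normal _ _
  have hOp : IsPGroup p O := by
    rintro ⟨x, hx1, hx2⟩
    obtain ⟨e₁, he₁⟩ := pow_mem_of_mem_sup P _ hx1
    obtain ⟨e₂, he₂⟩ := pow_mem_of_mem_sup P _ hx2
    refine ⟨e₁ + e₂, Subtype.ext ?_⟩
    show x ^ p ^ (e₁ + e₂) = 1
    apply hfaith
    have h3 : x ^ p ^ (e₁ + e₂) ∈ charKer (ψ₀ : G → ℂ) := by
      rw [pow_add, pow_mul]
      exact Subgroup.pow_mem _ he₁ _
    have h4 : x ^ p ^ (e₁ + e₂) ∈ charKer β := by
      rw [add_comm, pow_add, pow_mul]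
      exact Subgroup.pow_mem _ he₂ _
    rw [mem_charKer hψ₀c] at h3
    rw [mem_charKer hβ] at h4
    rw [hdec]
    show (ψ₀ : G → ℂ) _ + β _ = (ψ₀ : G → ℂ) 1 + β 1
    rw [h3, h4]
  have hPO : (P : Subgroup G) ≤ O := le_inf le_sup_left le_sup_left
  have h5 := P.is_maximal' hOp hPO
  apply hP
  rw [← h5]
  exact hOn

end Cfsg.Agent.Lib.Char.FT
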