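import Cfsg.Agent.Lib.Char.Basic
import Cfsg.Agent.Lib.Char.Linear
import Cfsg.Agent.Lib.Char.Gallagher
import Mathlib.Analysis.InnerProductSpace.Basic
import Mathlib.Analysis.InnerProductSpace.PiL2
import Mathlib.Analysis.SpecialFunctions.Trigonometric.Bounds
import Mathlib.Analysis.SpecialFunctions.Complex.Arg

/-!
# Jordan's theorem: Blichfeldt's abelian normal subgroup

Let `τ` be a unitary representation of the finite group `G` (faithful). The elements `g` with
`‖τ g - 1‖² < 2 - √3` (all eigenvalues within an arc of length `π/3` around `1`) commute pairwise.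
They therefore generate an abelian normal subgroup `A`, and for every abelian subgroup `H` the index
`[H : H ∩ A]` is at most `12 ^ n`.
-/

set_option autoImplicit false

namespace Cfsg.Agent.Lib.Char.Jordan

open Cfsg Cfsg.Agent.Lib.Char Module
open scoped ComplexConjugate InnerProductSpace

section Core

variable {E : Type*} [NormedAddCommGroup E] [InnerProductSpace ℂ E]
variable {G : Type*} [Group G] (τ : G →* (E →L[ℂ] E)) (hτ : ∀ g v, ‖τ g v‖ = ‖v‖)

/-- The scalar `√3 / 2`. -/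
noncomputable def c₀ : ℝ := Real.sqrt 3 / 2

theorem c₀_sq : c₀ ^ 2 = 3 / 4 := by
  unfold c₀
  rw [div_pow, Real.sq_sqrt (by norm_num)]
  norm_num

theorem c₀_gt : 1 / 2 < c₀ := by
  unfold c₀
  have : (1 : ℝ) < Real.sqrt 3 := by
    rw [show (1 : ℝ) = Real.sqrt 1 by simp]
    exact Real.sqrt_lt_sqrt (by norm_num) (by norm_num)
  linarith

/-- The scalar operator. -/
noncomputable def Cc : E →L[ℂ] E := ((c₀ : ℝ) : ℂ) • 1

include hτ in
theorem norm_tau_le (g : G) : ‖τ g‖ ≤ 1 :=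
  ContinuousLinearMap.opNorm_le_bound _ zero_le_one fun v => by rw [hτ, one_mul]

theorem mul_sub_comm_aux {R : Type*} [Ring R] (a b c : R) (h : c * b = b * c) :
    (a - c) * (b - 1) - (b - 1) * (a - c) = a * b - b * a := by
  simp only [sub_mul, mul_sub, mul_one, one_mul]
  rw [h]
  abel

omit hτ in
theorem Cc_comm (T : E →L[ℂ] E) : (Cc : E →L[ℂ] E) * T = T * Cc := by
  ext v
  simp [Cc]

include hτ in
/-- The basic commutator estimate. -/
theorem comm_bound (x y : G) :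
    ‖τ (x * y * x⁻¹ * y⁻¹) - 1‖ ≤ 2 * ‖τ x - Cc‖ * ‖τ y - 1‖ := by
  have h1 : τ (x * y * x⁻¹ * y⁻¹) - 1 = (τ x * τ y - τ y * τ x) * τ (x⁻¹ * y⁻¹) := by
    rw [sub_mul, ← map_mul, ← map_mul, ← map_mul, ← map_mul]
    have h2 : y * x * (x⁻¹ * y⁻¹) = 1 := by group
    have h3 : x * y * (x⁻¹ * y⁻¹) = x * y * x⁻¹ * y⁻¹ := by group
    rw [h2, h3, map_one]
  rw [h1, ← mul_sub_comm_aux (τ x) (τ y) Cc (Cc_comm _)]
  calc _ ≤ ‖(τ x - Cc) * (τ y - 1) - (τ y - 1) * (τ x - Cc)‖ * ‖τ (x⁻¹ * y⁻¹)‖ := norm_mul_le _ _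
    _ ≤ ‖(τ x - Cc) * (τ y - 1) - (τ y - 1) * (τ x - Cc)‖ * 1 := by
        gcongr
        exact norm_tau_le τ hτ _
    _ = ‖(τ x - Cc) * (τ y - 1) - (τ y - 1) * (τ x - Cc)‖ := mul_one _
    _ ≤ ‖(τ x - Cc) * (τ y - 1)‖ + ‖(τ y - 1) * (τ x - Cc)‖ := norm_sub_le _ _
    _ ≤ ‖τ x - Cc‖ * ‖τ y - 1‖ + ‖τ y - 1‖ * ‖τ x - Cc‖ := add_le_add (norm_mul_le _ _) (norm_mul_le _ _)
    _ = 2 * ‖τ x - Cc‖ * ‖τ y - 1‖ := by ring

include hτ in
/-- Conjugation does not increase the distance to a central operator. -/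
theorem norm_conj_sub_le (g x : G) (C : E →L[ℂ] E) (hC : ∀ T : E →L[ℂ] E, C * T = T * C) :
    ‖τ (g * x * g⁻¹) - C‖ ≤ ‖τ x - C‖ := by
  have h0 : τ g * C * τ g⁻¹ = C := by
    rw [← hC (τ g), mul_assoc, ← map_mul, mul_inv_cancel, map_one, mul_one]
  have h1 : τ (g * x * g⁻¹) - C = τ g * (τ x - C) * τ g⁻¹ := by
    rw [mul_sub, sub_mul, map_mul, map_mul, h0]
  rw [h1]
  calc _ ≤ ‖τ g * (τ x - C)‖ * ‖τ g⁻¹‖ := norm_mul_le _ _
    _ ≤ (‖τ g‖ * ‖τ x - C‖) * 1 := by
        gcongr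
        · exact norm_mul_le _ _
        · exact norm_tau_le τ hτ _
    _ ≤ (1 * ‖τ x - C‖) * 1 := by
        gcongr
        exact norm_tau_le τ hτ _
    _ = _ := by ring

/-- The set of elements close to the identity. -/
def IsClose (g : G) : Prop := ‖τ g - 1‖ ^ 2 < 2 - Real.sqrt 3

include hτ in
theorem isClose_conj {g x : G} (h : IsClose τ x) : IsClose τ (g * x * g⁻¹) := by
  have h1 := norm_conj_sub_le τ hτ g x 1 (fun T => by rw [one_mul, mul_one])
  unfold IsClose at *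
  calc _ ≤ ‖τ x - 1‖ ^ 2 := by gcongr
    _ < _ := h

include hτ in
/-- A close element is within distance `1/2` of the scalar `√3/2`. -/
theorem near_of_isClose {y : G} (h : IsClose τ y) : ‖τ y - Cc‖ < 1 / 2 := by
  set s := ‖τ y - 1‖ with hs
  set B : ℝ := 7 / 4 - Real.sqrt 3 + Real.sqrt 3 * s ^ 2 / 2 with hB
  have h3 : 0 < Real.sqrt 3 := Real.sqrt_pos.mpr (by norm_num)
  have h33 : Real.sqrt 3 * Real.sqrt 3 = 3 := Real.mul_self_sqrt (by norm_num)
  have hBlt : B < 1 / 4 := by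
    have : Real.sqrt 3 * s ^ 2 < Real.sqrt 3 * (2 - Real.sqrt 3) := mul_lt_mul_of_pos_left h h3
    nlinarith
  set T : E →L[ℂ] E := τ y - Cc with hT
  have hv : ∀ v : E, ‖T v‖ ^ 2 ≤ B * ‖v‖ ^ 2 := by
    intro v
    have h1 : (τ y - 1 : E →L[ℂ] E) v = τ y v - v := by simp
    have h2 : T v = τ y v - ((c₀ : ℝ) : ℂ) • v := by simp [T, Cc]
    set R := RCLike.re (⟪τ y v, v⟫_ℂ) with hR
    have e1 := @norm_sub_sq ℂ E _ _ _ (τ y v) v
    rw [hτ] at e1
    have h4 : ‖(τ y - 1 : E →L[ℂ] E) v‖ ≤ s * ‖v‖ := ContinuousLinearMap.le_opNorm _ _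
    rw [h1] at h4
    have h5 : ‖τ y v - v‖ ^ 2 ≤ s ^ 2 * ‖v‖ ^ 2 := by
      rw [← mul_pow]
      gcongr
    have e2 := @norm_sub_sq ℂ E _ _ _ (τ y v) (((c₀ : ℝ) : ℂ) • v)
    rw [hτ, inner_smul_right, norm_smul] at e2
    have e3 : RCLike.re (((c₀ : ℝ) : ℂ) * ⟪τ y v, v⟫_ℂ) = c₀ * R := by
      rw [hR]
      simp
    rw [e3] at e2
    have e4 : ‖((c₀ : ℝ) : ℂ)‖ = c₀ := by
      rw [Complex.norm_real, Real.norm_eq_abs, abs_of_pos (lt_trans (by norm_num) c₀_gt)]
    rw [e4, mul_pow, c₀_sq] at e2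
    rw [h2, e2]
    have e5 : c₀ = Real.sqrt 3 / 2 := rfl
    rw [e5, hB]
    have e6 : ‖v‖ ^ 2 - 2 * R + ‖v‖ ^ 2 ≤ s ^ 2 * ‖v‖ ^ 2 := by
      rw [← e1]
      exact h5
    nlinarith
  have hBnn : 0 ≤ B := by
    by_contra hneg
    push Not at hneg
    by_cases hE : ∃ v : E, v ≠ 0
    · obtain ⟨v, hv0⟩ := hE
      have h1 := hv v
      have h2 : 0 < ‖v‖ ^ 2 := by positivity
      have h3 : B * ‖v‖ ^ 2 < 0 := mul_neg_of_neg_of_pos hneg h2
      have h4 : 0 ≤ ‖T v‖ ^ 2 := by positivity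
      linarith
    · push Not at hE
      -- the space is trivial, so `s = 0`
      have h5 : s = 0 := by
        rw [hs, norm_eq_zero]
        ext v
        rw [hE v]
        simp
      rw [hB, h5] at hneg
      have h6 : Real.sqrt 3 < 7 / 4 := by
        rw [Real.sqrt_lt' (by norm_num)]
        norm_num
      nlinarith
  have hbd : ‖T‖ ≤ Real.sqrt B := by
    refine ContinuousLinearMap.opNorm_le_bound _ (Real.sqrt_nonneg _) fun v => ?_
    have h1 := hv v
    have h2 : Real.sqrt (‖T v‖ ^ 2) ≤ Real.sqrt (B * ‖v‖ ^ 2) := Real.sqrt_le_sqrt h1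
    rwa [Real.sqrt_sq (norm_nonneg _), Real.sqrt_mul hBnn, Real.sqrt_sq (norm_nonneg _)] at h2
  refine lt_of_le_of_lt hbd ?_
  rw [show (1 / 2 : ℝ) = Real.sqrt (1 / 4) by
    rw [show (1 / 4 : ℝ) = (1 / 2) ^ 2 by norm_num, Real.sqrt_sq (by norm_num)]]
  exact Real.sqrt_lt_sqrt hBnn hBlt

end Core

section Comm

variable {E : Type*} [NormedAddCommGroup E] [InnerProductSpace ℂ E]
variable {G : Type*} [Group G] [Finite G] (τ : G →* (E →L[ℂ] E)) (hτ : ∀ g v, ‖τ g v‖ = ‖v‖)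

include hτ in
/-- Blichfeldt's lemma: a commutator with a nearly scalar element, central in the subgroup generated,
is trivial. -/
theorem blichfeldt {x y c : G} (hc : c = x * y * x⁻¹ * y⁻¹) (hcx : c * x = x * c)
    (hcy : c * y = y * c) (hx : ‖τ x - Cc‖ < 1 / 2) : τ c = 1 := by
  classical
  by_contra hne
  obtain ⟨v₀, hv₀⟩ : ∃ v₀, τ c v₀ ≠ v₀ := by
    by_contra h
    push Not at h
    exact hne (ContinuousLinearMap.ext fun v => by simpa using h v)
  set m := orderOf c with hm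
  have hm0 : 0 < m := orderOf_pos c
  have hmC : ((m : ℕ) : ℂ) ≠ 0 := by exact_mod_cast hm0.ne'
  have hw : y⁻¹ * x * y = c * x := by
    have h1 : y * c = x * y * x⁻¹ := by
      rw [← hcy, hc]
      group
    calc y⁻¹ * x * y = y⁻¹ * (x * y * x⁻¹) * x := by group
      _ = y⁻¹ * (y * c) * x := by rw [h1]
      _ = c * x := by group
  have hcyinv : c * y⁻¹ = y⁻¹ * c := (Commute.inv_right (show Commute c y from hcy)).eq
  have hconj : ∀ k : ℕ, y⁻¹ ^ k * x * (y⁻¹ ^ k)⁻¹ = c ^ k * x := by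
    intro k
    induction k with
    | zero => simp
    | succ k ih =>
      have h1 : y⁻¹ ^ (k + 1) * x * (y⁻¹ ^ (k + 1))⁻¹ = y⁻¹ * (y⁻¹ ^ k * x * (y⁻¹ ^ k)⁻¹) * y⁻¹⁻¹ := by
        rw [pow_succ']
        group
      rw [h1, ih]
      have h2 : y⁻¹ * c ^ k = c ^ k * y⁻¹ := ((Commute.pow_left hcyinv k).eq).symm
      calc y⁻¹ * (c ^ k * x) * y⁻¹⁻¹ = (y⁻¹ * c ^ k) * x * y := by simp [mul_assoc]
        _ = c ^ k * (y⁻¹ * x * y) := by rw [h2]; group
        _ = c ^ (k + 1) * x := by rw [hw, pow_succ]; group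
  let e : E →L[ℂ] E := ((m : ℂ))⁻¹ • ∑ k ∈ Finset.range m, τ (c ^ k)
  have hshift : τ c * ∑ k ∈ Finset.range m, τ (c ^ k) = ∑ k ∈ Finset.range m, τ (c ^ k) := by
    rw [Finset.mul_sum]
    have h1 : ∀ k, τ c * τ (c ^ k) = τ (c ^ (k + 1)) := fun k => by rw [← map_mul, pow_succ']
    simp only [h1]
    have h2 := Finset.sum_range_succ' (fun k => τ (c ^ k)) m
    have h3 := Finset.sum_range_succ (fun k => τ (c ^ k)) m
    have h4 : c ^ m = 1 := pow_orderOf_eq_one c
    simp only [pow_zero, map_one] at h2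
    rw [h3, h4, map_one] at h2
    exact (add_right_cancel h2).symm
  have hce : τ c * e = e := by
    simp only [e]
    rw [mul_smul_comm, hshift]
  have hcke : ∀ k : ℕ, τ (c ^ k) * e = e := by
    intro k
    induction k with
    | zero => simp
    | succ k ih =>
      rw [pow_succ, map_mul, mul_assoc, hce, ih]
  have hee : e * e = e := by
    have h1 : e * e = ((m : ℂ))⁻¹ • ∑ k ∈ Finset.range m, τ (c ^ k) * e := by
      simp only [e]
      rw [← Finset.sum_mul, smul_mul_assoc]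
    rw [h1]
    simp only [hcke]
    rw [Finset.sum_const, Finset.card_range, ← Nat.cast_smul_eq_nsmul ℂ, smul_smul,
      inv_mul_cancel₀ hmC, one_smul]
  have hxe : τ x * e = e * τ x := by
    simp only [e]
    rw [mul_smul_comm, smul_mul_assoc, Finset.mul_sum, Finset.sum_mul]
    congr 1
    refine Finset.sum_congr rfl fun k _ => ?_
    rw [← map_mul, ← map_mul]
    congr 1
    exact ((Commute.pow_left hcx k).eq).symm
  have hnear : ‖e * τ x - Cc‖ ≤ ‖τ x - Cc‖ := by
    have h1 : e * τ x - Cc = ((m : ℂ))⁻¹ • ∑ k ∈ Finset.range m, (τ (c ^ k * x) - Cc) := by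
      simp only [e]
      rw [Finset.sum_sub_distrib, Finset.sum_const, Finset.card_range, smul_sub,
        ← Nat.cast_smul_eq_nsmul ℂ, smul_smul, inv_mul_cancel₀ hmC, one_smul, smul_mul_assoc,
        Finset.sum_mul]
      simp only [map_mul]
    rw [h1, norm_smul, norm_inv, Complex.norm_natCast]
    have h2 : ‖∑ k ∈ Finset.range m, (τ (c ^ k * x) - Cc)‖ ≤ m * ‖τ x - Cc‖ := by
      refine (norm_sum_le _ _).trans ?_
      have h3 : ∀ k ∈ Finset.range m, ‖τ (c ^ k * x) - Cc‖ ≤ ‖τ x - Cc‖ := by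
        intro k _
        rw [← hconj k]
        exact norm_conj_sub_le τ hτ _ x Cc (Cc_comm)
      refine (Finset.sum_le_sum h3).trans ?_
      simp
    have hmR : (0 : ℝ) < m := by exact_mod_cast hm0
    calc _ ≤ (m : ℝ)⁻¹ * (m * ‖τ x - Cc‖) := by gcongr
      _ = _ := by field_simp
  set v := v₀ - e v₀ with hvdef
  have hev : e v = 0 := by
    have h1 : e (e v₀) = e v₀ := by
      have := congrArg (fun T : E →L[ℂ] E => T v₀) hee
      simpa using this
    simp [hvdef, h1]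
  have hv0 : v ≠ 0 := by
    intro h
    apply hv₀
    have h1 : v₀ = e v₀ := sub_eq_zero.mp h
    have h2 : τ c (e v₀) = e v₀ := by
      have := congrArg (fun T : E →L[ℂ] E => T v₀) hce
      simpa using this
    rw [h1, h2, ← h1]
  have hval : (e * τ x - Cc : E →L[ℂ] E) v = -(((c₀ : ℝ) : ℂ) • v) := by
    have h1 : (e * τ x) v = 0 := by
      rw [← hxe]
      simp [hev]
    simp [Cc, h1]
  have hbd := ContinuousLinearMap.le_opNorm (e * τ x - Cc) v
  rw [hval, norm_neg, norm_smul, Complex.norm_real, Real.norm_eq_abs,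
    abs_of_pos (lt_trans (by norm_num) c₀_gt)] at hbd
  have hvpos : 0 < ‖v‖ := norm_pos_iff.mpr hv0
  have h3 : c₀ ≤ ‖e * τ x - Cc‖ := le_of_mul_le_mul_right hbd hvpos
  have h4 := c₀_gt
  linarith

variable (hinj : Function.Injective τ)

include hτ hinj in
/-- Any two close elements commute. -/
theorem comm_of_isClose {x y : G} (hx : IsClose τ x) (hy : IsClose τ y) : x * y = y * x := by
  by_contra hne
  let S := {p : G × G // IsClose τ p.1 ∧ IsClose τ p.2 ∧ p.1 * p.2 ≠ p.2 * p.1}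
  haveI : Nonempty S := ⟨⟨(x, y), hx, hy, hne⟩⟩
  obtain ⟨⟨⟨a, b⟩, ha, hb, hab⟩, hp₀⟩ :=
    Finite.exists_min (fun p : S => ‖τ (p.1.1 * p.1.2 * p.1.1⁻¹ * p.1.2⁻¹) - 1‖)
  simp only at ha hb hab hp₀
  set c := a * b * a⁻¹ * b⁻¹ with hcdef
  have hc1 : c ≠ 1 := by
    intro h
    apply hab
    have h2 : a * b * a⁻¹ = b := mul_inv_eq_one.mp h
    exact mul_inv_eq_iff_eq_mul.mp h2
  have hτc : τ c ≠ 1 := fun h => hc1 (hinj (by rw [h, map_one]))
  have hcpos : 0 < ‖τ c - 1‖ := norm_pos_iff.mpr (sub_ne_zero.mpr hτc)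
  have hb1 : τ b ≠ 1 := by
    intro h
    apply hab
    have h1 : b = 1 := hinj (by rw [h, map_one])
    rw [h1, mul_one, one_mul]
  have hbpos : 0 < ‖τ b - 1‖ := norm_pos_iff.mpr (sub_ne_zero.mpr hb1)
  have hna := near_of_isClose τ hτ ha
  have hnb := near_of_isClose τ hτ hb
  have hcb : ‖τ c - 1‖ < ‖τ b - 1‖ := by
    calc _ ≤ 2 * ‖τ a - Cc‖ * ‖τ b - 1‖ := comm_bound τ hτ a b
      _ < 2 * (1 / 2) * ‖τ b - 1‖ := by gcongr
      _ = _ := by ring
  have hcClose : IsClose τ c := by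
    unfold IsClose at *
    calc _ < ‖τ b - 1‖ ^ 2 := by gcongr
      _ < _ := hb
  have key : ∀ z, ‖τ z - Cc‖ < 1 / 2 → IsClose τ z → c * z = z * c := by
    intro z hz hzC
    by_contra hne2
    have h1 := hp₀ ⟨(z, c), hzC, hcClose, fun h => hne2 h.symm⟩
    simp only at h1
    have h2 : ‖τ (z * c * z⁻¹ * c⁻¹) - 1‖ ≤ 2 * ‖τ z - Cc‖ * ‖τ c - 1‖ := comm_bound τ hτ z c
    have h3 : 2 * ‖τ z - Cc‖ * ‖τ c - 1‖ < 2 * (1 / 2) * ‖τ c - 1‖ := by gcongr
    linarith
  exact hτc (blichfeldt τ hτ hcdef (key a hna ha) (key b hnb hb) hna)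

/-- The subgroup generated by the close elements. -/
noncomputable def closeSubgroup : Subgroup G := Subgroup.closure {g | IsClose τ g}

include hτ hinj in
theorem closeSubgroup_comm : ∀ a ∈ closeSubgroup τ, ∀ b ∈ closeSubgroup τ, a * b = b * a := by
  intro a ha b hb
  have h := Subgroup.isMulCommutative_closure (k := {g | IsClose τ g})
    (fun x hx y hy => comm_of_isClose τ hτ hinj hx hy)
  have h2 := h.is_comm.comm (⟨a, ha⟩ : closeSubgroup τ) ⟨b, hb⟩
  exact congrArg Subtype.val h2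

include hτ in
theorem closeSubgroup_normal : (closeSubgroup τ).Normal := by
  constructor
  intro n hn g
  refine Subgroup.closure_induction (p := fun n _ => g * n * g⁻¹ ∈ closeSubgroup τ) ?_ ?_ ?_ ?_ hn
  · intro x hx
    exact Subgroup.subset_closure (isClose_conj τ hτ hx)
  · simp [one_mem]
  · intro x y _ _ hx hy
    have h : g * (x * y) * g⁻¹ = (g * x * g⁻¹) * (g * y * g⁻¹) := by group
    rw [h]
    exact mul_mem hx hy
  · intro x _ hx
    have h : g * x⁻¹ * g⁻¹ = (g * x * g⁻¹)⁻¹ := by group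
    rw [h]
    exact inv_mem hx

end Comm

section Pigeon

variable {E : Type*} [NormedAddCommGroup E] [InnerProductSpace ℂ E]
variable {H : Type*} [Group H] [Fintype H] (σ : H →* (E →L[ℂ] E)) (hσ : ∀ g v, ‖σ g v‖ = ‖v‖)
  (hab : ∀ a b : H, a * b = b * a)

/-- The projection onto the `χ`-isotypic part. -/
noncomputable def proj (χ : H → ℂ) : E →L[ℂ] E :=
  ((Nat.card H : ℂ))⁻¹ • ∑ h, conj (χ h) • σ h

include hab in
theorem irr_one (χ : IrrCharacter H) : (χ : H → ℂ) 1 = 1 :=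
  (comm_iff_irr_degree_one (G := H)).mp hab χ

include hab in
theorem irr_mul (χ : IrrCharacter H) (g h : H) : (χ : H → ℂ) (g * h) = (χ : H → ℂ) g * (χ : H → ℂ) h := by
  obtain ⟨lam, hlam⟩ := IsCharacter.exists_monoidHom (IsIrrCharacter.isCharacter χ.2) (irr_one hab χ)
  rw [hlam]
  simp

include hab in
theorem irr_norm (χ : IrrCharacter H) (g : H) : ‖(χ : H → ℂ) g‖ = 1 :=
  norm_eq_one_of_degree_one (IsIrrCharacter.isCharacter χ.2) (irr_one hab χ) g

omit [Fintype H] in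
theorem irr_conj [Finite H] (χ : IrrCharacter H) (g : H) : conj ((χ : H → ℂ) g) = (χ : H → ℂ) g⁻¹ :=
  (IsCharacter.apply_inv (IsIrrCharacter.isCharacter χ.2) g).symm

include hab in
theorem irr_mul_conj (χ : IrrCharacter H) (g : H) : (χ : H → ℂ) g * conj ((χ : H → ℂ) g) = 1 := by
  rw [irr_conj, ← irr_mul hab, mul_inv_cancel, irr_one hab]

include hab in
theorem sigma_mul_proj (χ : IrrCharacter H) (g : H) :
    σ g * proj σ (χ : H → ℂ) = (χ : H → ℂ) g • proj σ (χ : H → ℂ) := by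
  simp only [proj]
  rw [mul_smul_comm, smul_comm]
  congr 1
  rw [Finset.mul_sum, Finset.smul_sum]
  refine Fintype.sum_equiv (Equiv.mulLeft g) _ _ fun h => ?_
  simp only [Equiv.coe_mulLeft]
  rw [mul_smul_comm, ← map_mul, irr_mul hab, smul_smul]
  congr 1
  rw [map_mul, ← mul_assoc, irr_mul_conj hab, one_mul]

include hab in
theorem sum_proj : ∑ χ : IrrCharacter H, proj σ (χ : H → ℂ) = 1 := by
  classical
  simp only [proj]
  rw [← Finset.smul_sum, Finset.sum_comm]
  have h1 : ∀ h : H, ∑ χ : IrrCharacter H, conj ((χ : H → ℂ) h) • σ h =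
      (if h = 1 then (Nat.card H : ℂ) else 0) • σ h := by
    intro h
    rw [← Finset.sum_smul]
    congr 1
    have h2 := sum_irr_degree_mul_apply (G := H) h⁻¹
    simp only [irr_one hab, one_mul] at h2
    simp only [irr_conj]
    rw [h2]
    simp
  simp only [h1]
  rw [Finset.sum_eq_single 1]
  · rw [if_pos rfl, map_one, smul_smul, inv_mul_cancel₀ (NeZero.ne _), one_smul]
  · intro h _ hne
    rw [if_neg hne, zero_smul]
  · simp

include hσ hab in
theorem inner_proj_eq_zero {χ ψ : IrrCharacter H} (hne : χ ≠ ψ) (u w : E) :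
    ⟪proj σ (χ : H → ℂ) u, proj σ (ψ : H → ℂ) w⟫_ℂ = 0 := by
  obtain ⟨g, hg⟩ : ∃ g, (χ : H → ℂ) g ≠ (ψ : H → ℂ) g := by
    by_contra hcon
    push Not at hcon
    exact hne (Subtype.ext (funext hcon))
  set a := proj σ (χ : H → ℂ) u
  set b := proj σ (ψ : H → ℂ) w
  have ha : σ g a = (χ : H → ℂ) g • a := by
    have := congrArg (fun T : E →L[ℂ] E => T u) (sigma_mul_proj σ hab χ g)
    simpa using this
  have hb : σ g b = (ψ : H → ℂ) g • b := by
    have := congrArg (fun T : E →L[ℂ] E => T w) (sigma_mul_proj σ hab ψ g)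
    simpa using this
  let L : E →ₗᵢ[ℂ] E := ⟨(σ g).toLinearMap, hσ g⟩
  have h1 : ⟪σ g a, σ g b⟫_ℂ = ⟪a, b⟫_ℂ := L.inner_map_map a b
  rw [ha, hb, inner_smul_left, inner_smul_right] at h1
  by_contra hab0
  have h2 : conj ((χ : H → ℂ) g) * (ψ : H → ℂ) g = 1 := by
    have : (conj ((χ : H → ℂ) g) * (ψ : H → ℂ) g) * ⟪a, b⟫_ℂ = 1 * ⟪a, b⟫_ℂ := by
      rw [one_mul, mul_assoc]
      exact h1
    exact mul_right_cancel₀ hab0 this
  apply hg
  have h3 := irr_mul_conj hab χ g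
  calc (χ : H → ℂ) g = (χ : H → ℂ) g * (conj ((χ : H → ℂ) g) * (ψ : H → ℂ) g) := by rw [h2, mul_one]
    _ = (ψ : H → ℂ) g := by rw [← mul_assoc, h3, one_mul]

/-- Pythagoras for a finite orthogonal family. -/
theorem norm_sq_sum_of_orth {ι : Type*} [Fintype ι] (w : ι → E)
    (hw : ∀ i j, i ≠ j → ⟪w i, w j⟫_ℂ = 0) : ‖∑ i, w i‖ ^ 2 = ∑ i, ‖w i‖ ^ 2 := by
  classical
  have h1 : ((‖∑ i, w i‖ ^ 2 : ℝ) : ℂ) = ((∑ i, ‖w i‖ ^ 2 : ℝ) : ℂ) := by
    have h2 := inner_self_eq_norm_sq_to_K (𝕜 := ℂ) (∑ i, w i)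
    push_cast
    rw [show ((‖∑ i, w i‖ : ℝ) : ℂ) ^ 2 = ⟪∑ i, w i, ∑ i, w i⟫_ℂ by simpa using h2.symm]
    rw [sum_inner]
    refine Finset.sum_congr rfl fun i _ => ?_
    rw [inner_sum, Finset.sum_eq_single i]
    · simpa using inner_self_eq_norm_sq_to_K (𝕜 := ℂ) (w i)
    · intro j _ hj
      exact hw i j hj.symm
    · simp
  exact_mod_cast h1

include hσ hab in
/-- A bound for `σ g - 1` from the values of the irreducible characters on `g`. -/
theorem norm_sub_one_sq_le (g : H) {M : ℝ} (hM0 : 0 ≤ M)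
    (hM : ∀ χ : IrrCharacter H, proj σ (χ : H → ℂ) ≠ 0 → ‖(χ : H → ℂ) g - 1‖ ^ 2 ≤ M) :
    ‖σ g - 1‖ ^ 2 ≤ M := by
  have hv : ∀ v : E, ‖(σ g - 1 : E →L[ℂ] E) v‖ ^ 2 ≤ M * ‖v‖ ^ 2 := by
    intro v
    have h0 : v = ∑ χ : IrrCharacter H, proj σ (χ : H → ℂ) v := by
      have := congrArg (fun T : E →L[ℂ] E => T v) (sum_proj σ hab)
      simpa [ContinuousLinearMap.sum_apply] using this.symm
    have h1 : (σ g - 1 : E →L[ℂ] E) v =
        ∑ χ : IrrCharacter H, ((χ : H → ℂ) g - 1) • proj σ (χ : H → ℂ) v := by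
      conv_lhs => rw [h0]
      rw [map_sum]
      refine Finset.sum_congr rfl fun χ _ => ?_
      have := congrArg (fun T : E →L[ℂ] E => T v) (sigma_mul_proj σ hab χ g)
      simp only [ContinuousLinearMap.mul_apply, ContinuousLinearMap.smul_apply] at this
      simp only [ContinuousLinearMap.sub_apply, ContinuousLinearMap.one_apply, sub_smul, one_smul]
      rw [this]
    have h2 : ‖v‖ ^ 2 = ∑ χ : IrrCharacter H, ‖proj σ (χ : H → ℂ) v‖ ^ 2 := by
      conv_lhs => rw [h0]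
      exact norm_sq_sum_of_orth _ fun χ ψ hne => inner_proj_eq_zero σ hσ hab hne v v
    rw [h1, norm_sq_sum_of_orth, h2, Finset.mul_sum]
    · refine Finset.sum_le_sum fun χ _ => ?_
      rw [norm_smul, mul_pow]
      by_cases hχ : proj σ (χ : H → ℂ) = 0
      · simp [hχ]
      · exact mul_le_mul_of_nonneg_right (hM χ hχ) (by positivity)
    · intro χ ψ hne
      rw [inner_smul_left, inner_smul_right, inner_proj_eq_zero σ hσ hab hne v v]
      simp
  have hbd : ‖σ g - 1‖ ≤ Real.sqrt M := by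
    refine ContinuousLinearMap.opNorm_le_bound _ (Real.sqrt_nonneg _) fun v => ?_
    have h1 := hv v
    have h2 : Real.sqrt (‖(σ g - 1 : E →L[ℂ] E) v‖ ^ 2) ≤ Real.sqrt (M * ‖v‖ ^ 2) := Real.sqrt_le_sqrt h1
    rwa [Real.sqrt_sq (norm_nonneg _), Real.sqrt_mul hM0, Real.sqrt_sq (norm_nonneg _)] at h2
  calc ‖σ g - 1‖ ^ 2 ≤ Real.sqrt M ^ 2 := by gcongr
    _ = M := Real.sq_sqrt hM0

include hσ hab in
theorem card_support_le [FiniteDimensional ℂ E] :
    Nat.card {χ : IrrCharacter H // proj σ (χ : H → ℂ) ≠ 0} ≤ finrank ℂ E := by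
  classical
  rw [Nat.card_eq_fintype_card]
  have hex : ∀ χ : {χ : IrrCharacter H // proj σ (χ : H → ℂ) ≠ 0},
      ∃ u : E, proj σ ((χ.1 : IrrCharacter H) : H → ℂ) u ≠ 0 := by
    intro χ
    by_contra hcon
    push Not at hcon
    exact χ.2 (ContinuousLinearMap.ext fun v => by simpa using hcon v)
  choose u hu using hex
  have hli : LinearIndependent ℂ
      (fun χ : {χ : IrrCharacter H // proj σ (χ : H → ℂ) ≠ 0} =>
        proj σ ((χ.1 : IrrCharacter H) : H → ℂ) (u χ)) := by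
    refine linearIndependent_of_ne_zero_of_inner_eq_zero hu ?_
    intro χ ψ hne
    exact inner_proj_eq_zero σ hσ hab (fun h => hne (Subtype.ext h)) _ _
  exact hli.fintype_card_le_finrank

end Pigeon

section Bucket

/-- Which of the twelve half-open arcs a complex number lies on. -/
noncomputable def bk (z : ℂ) : Fin 12 :=
  ⟨⌈(Complex.arg z + Real.pi) * 6 / Real.pi⌉₊ - 1, by
    have h1 : (Complex.arg z + Real.pi) * 6 / Real.pi ≤ 12 := by
      have hpi := Real.pi_pos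
      rw [div_le_iff₀ hpi]
      have := Complex.arg_le_pi z
      nlinarith
    have h2 : ⌈(Complex.arg z + Real.pi) * 6 / Real.pi⌉₊ ≤ 12 := by
      rw [Nat.ceil_le]
      exact_mod_cast h1
    omega⟩

theorem norm_sub_one_sq_of_bk_eq {z z' : ℂ} (hz : ‖z‖ = 1) (hz' : ‖z'‖ = 1) (h : bk z = bk z') :
    ‖conj z * z' - 1‖ ^ 2 < 2 - Real.sqrt 3 := by
  have hpi := Real.pi_pos
  set θ := Complex.arg z with hθ
  set θ' := Complex.arg z' with hθ'
  set x := (θ + Real.pi) * 6 / Real.pi with hx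
  set x' := (θ' + Real.pi) * 6 / Real.pi with hx'
  have hx0 : 0 < x := by
    have := Complex.neg_pi_lt_arg z
    rw [hx]
    apply div_pos _ hpi
    nlinarith
  have hx'0 : 0 < x' := by
    have := Complex.neg_pi_lt_arg z'
    rw [hx']
    apply div_pos _ hpi
    nlinarith
  have hk : ⌈x⌉₊ = ⌈x'⌉₊ := by
    have h1 : ⌈x⌉₊ - 1 = ⌈x'⌉₊ - 1 := congrArg Fin.val h
    have h2 : 0 < ⌈x⌉₊ := Nat.ceil_pos.mpr hx0
    have h3 : 0 < ⌈x'⌉₊ := Nat.ceil_pos.mpr hx'0
    omega
  have h1 : x ≤ ⌈x⌉₊ := Nat.le_ceil x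
  have h2 : (⌈x⌉₊ : ℝ) < x + 1 := Nat.ceil_lt_add_one hx0.le
  have h3 : x' ≤ ⌈x'⌉₊ := Nat.le_ceil x'
  have h4 : (⌈x'⌉₊ : ℝ) < x' + 1 := Nat.ceil_lt_add_one hx'0.le
  rw [hk] at h1 h2
  have hxx : |x' - x| < 1 := by
    rw [abs_lt]
    constructor <;> linarith
  have hd : |θ' - θ| < Real.pi / 6 := by
    have h5 : x' - x = (θ' - θ) * (6 / Real.pi) := by
      rw [hx, hx']
      field_simp
      ring
    rw [h5, abs_mul, abs_of_pos (by positivity : (0 : ℝ) < 6 / Real.pi)] at hxx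
    have h6 : |θ' - θ| * 6 / Real.pi < 1 := by
      rwa [mul_div_assoc]
    rw [div_lt_one hpi] at h6
    linarith
  have hc : Real.sqrt 3 / 2 < Real.cos (θ' - θ) := by
    rw [← Real.cos_pi_div_six, ← Real.cos_abs (θ' - θ)]
    exact Real.cos_lt_cos_of_nonneg_of_le_pi (abs_nonneg _) (by linarith) hd
  have hzexp : z = Complex.exp ((θ : ℂ) * Complex.I) := by
    have := Complex.norm_mul_exp_arg_mul_I z
    rw [hz] at this
    simpa using this.symm
  have hzexp' : z' = Complex.exp ((θ' : ℂ) * Complex.I) := by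
    have := Complex.norm_mul_exp_arg_mul_I z'
    rw [hz'] at this
    simpa using this.symm
  have hw : conj z * z' = Complex.exp (((θ' - θ : ℝ) : ℂ) * Complex.I) := by
    rw [hzexp, hzexp', ← Complex.exp_conj, ← Complex.exp_add]
    congr 1
    simp only [map_mul, Complex.conj_ofReal, Complex.conj_I]
    push_cast
    ring
  rw [hw, ← Complex.normSq_eq_norm_sq, Complex.normSq_apply]
  simp only [Complex.sub_re, Complex.sub_im, Complex.one_re, Complex.one_im,
    Complex.exp_ofReal_mul_I_re, Complex.exp_ofReal_mul_I_im]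
  have h7 := Real.sin_sq_add_cos_sq (θ' - θ)
  nlinarith

end Bucket

section Index

variable {E : Type*} [NormedAddCommGroup E] [InnerProductSpace ℂ E] [FiniteDimensional ℂ E]
variable {G : Type*} [Group G] [Finite G] (τ : G →* (E →L[ℂ] E)) (hτ : ∀ g v, ‖τ g v‖ = ‖v‖)

theorem exists_bound {ι : Type*} (S : Finset ι) (f : ι → ℝ) (hf : ∀ i, 0 ≤ f i) {a : ℝ} (ha : 0 < a)
    (h : ∀ i ∈ S, f i < a) : ∃ M, 0 ≤ M ∧ M < a ∧ ∀ i ∈ S, f i ≤ M := by
  by_cases hS : S.Nonempty
  · obtain ⟨i, hi, hmax⟩ := Finset.exists_max_image S f hS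
    exact ⟨f i, hf i, h i hi, hmax⟩
  · rw [Finset.not_nonempty_iff_eq_empty] at hS
    exact ⟨0, le_rfl, ha, by simp [hS]⟩

include hτ in
/-- The pigeonhole bound. -/
theorem index_le (A : Subgroup G) (hclose : ∀ g, IsClose τ g → g ∈ A) (H : Subgroup G)
    (hab : ∀ x ∈ H, ∀ y ∈ H, x * y = y * x) : (A.subgroupOf H).index ≤ 12 ^ finrank ℂ E := by
  classical
  letI : Fintype H := Fintype.ofFinite H
  let σ : H →* (E →L[ℂ] E) := τ.comp H.subtype
  have hσ : ∀ g v, ‖σ g v‖ = ‖v‖ := fun g v => hτ g v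
  have hab' : ∀ a b : H, a * b = b * a := fun a b => Subtype.ext (hab _ a.2 _ b.2)
  let S := {χ : IrrCharacter H // proj σ (χ : H → ℂ) ≠ 0}
  let φ : H → (S → Fin 12) := fun h χ => bk (((χ.1 : IrrCharacter H) : H → ℂ) h)
  have h3 : 0 < 2 - Real.sqrt 3 := by
    have : Real.sqrt 3 < 2 := by
      rw [Real.sqrt_lt' (by norm_num)]
      norm_num
    linarith
  have key : ∀ h h' : H, φ h = φ h' → h⁻¹ * h' ∈ A.subgroupOf H := by
    intro h h' heq
    rw [Subgroup.mem_subgroupOf]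
    apply hclose
    have hlt : ∀ χ : IrrCharacter H, χ ∈ (Finset.univ.filter fun χ : IrrCharacter H =>
        proj σ (χ : H → ℂ) ≠ 0) →
        ‖(χ : H → ℂ) (h⁻¹ * h') - 1‖ ^ 2 < 2 - Real.sqrt 3 := by
      intro χ hχ
      have hne : proj σ (χ : H → ℂ) ≠ 0 := (Finset.mem_filter.mp hχ).2
      have h1 : bk ((χ : H → ℂ) h) = bk ((χ : H → ℂ) h') := congrFun heq ⟨χ, hne⟩
      have h2 := norm_sub_one_sq_of_bk_eq (irr_norm hab' χ h) (irr_norm hab' χ h') h1
      rwa [irr_conj, ← irr_mul hab'] at h2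
    obtain ⟨M, hM0, hMa, hM⟩ := exists_bound _ (fun χ : IrrCharacter H => ‖(χ : H → ℂ) (h⁻¹ * h') - 1‖ ^ 2)
      (fun _ => by positivity) h3 hlt
    have h4 := norm_sub_one_sq_le σ hσ hab' (h⁻¹ * h') hM0
      (fun χ hχ => hM χ (Finset.mem_filter.mpr ⟨Finset.mem_univ _, hχ⟩))
    exact lt_of_le_of_lt h4 hMa
  let ψ : H ⧸ A.subgroupOf H → (S → Fin 12) := fun q => φ q.out
  have hψ : Function.Injective ψ := by
    intro q q' hq
    have h1 := key _ _ hq
    rw [← QuotientGroup.eq] at h1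
    simpa using h1
  have h1 : Nat.card (H ⧸ A.subgroupOf H) ≤ Nat.card (S → Fin 12) :=
    Nat.card_le_card_of_injective ψ hψ
  have h2 : Nat.card (S → Fin 12) = 12 ^ Nat.card S := by
    rw [Nat.card_fun]
    simp
  rw [h2] at h1
  have h5 : Nat.card S ≤ finrank ℂ E := card_support_le σ hσ hab'
  calc (A.subgroupOf H).index ≤ 12 ^ Nat.card S := h1
    _ ≤ _ := Nat.pow_le_pow_right (by norm_num) h5

include hτ in
/-- The unitary form of the theorem. -/
theorem exists_abelian_unitary (hinj : Function.Injective τ) :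
    ∃ A : Subgroup G, A.Normal ∧ (∀ x ∈ A, ∀ y ∈ A, x * y = y * x) ∧
      (∀ H : Subgroup G, (∀ x ∈ H, ∀ y ∈ H, x * y = y * x) → (A.subgroupOf H).index ≤ 12 ^ finrank ℂ E) ∧
      ∀ g, IsClose τ g → g ∈ A :=
  ⟨closeSubgroup τ, closeSubgroup_normal τ hτ, closeSubgroup_comm τ hτ hinj,
    fun H hH => index_le τ hτ _ (fun _ hg => Subgroup.subset_closure hg) H hH,
    fun _ hg => Subgroup.subset_closure hg⟩

end Index

section Generic

/-- The theorem for an arbitrary faithful representation: an invariant inner product. -/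
theorem exists_abelian_rep {G : Type*} [Group G] [Finite G] {F : Type*} [AddCommGroup F] [Module ℂ F]
    [FiniteDimensional ℂ F] (ρ : Representation ℂ G F) (hinj : Function.Injective ρ) :
    ∃ A : Subgroup G, A.Normal ∧ (∀ x ∈ A, ∀ y ∈ A, x * y = y * x) ∧
      ∀ H : Subgroup G, (∀ x ∈ H, ∀ y ∈ H, x * y = y * x) → (A.subgroupOf H).index ≤ 12 ^ finrank ℂ F := by
  classical
  letI : Fintype G := Fintype.ofFinite G
  let b := Module.finBasis ℂ F
  let B₀ : F → F → ℂ := fun u v => ∑ i, conj (b.repr u i) * b.repr v i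
  let B : F → F → ℂ := fun u v => ∑ g : G, B₀ (ρ g u) (ρ g v)
  have hB₀self : ∀ u, B₀ u u = ((∑ i, Complex.normSq (b.repr u i) : ℝ) : ℂ) := by
    intro u
    simp only [B₀]
    push_cast
    refine Finset.sum_congr rfl fun i _ => ?_
    rw [mul_comm, Complex.mul_conj]
  let core : InnerProductSpace.Core ℂ F :=
    { inner := B
      conj_inner_symm := by
        intro x y
        simp only [B, B₀, map_sum, map_mul, Complex.conj_conj]
        refine Finset.sum_congr rfl fun g _ => Finset.sum_congr rfl fun i _ => ?_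
        ring
      re_inner_nonneg := by
        intro x
        simp only [B]
        rw [map_sum]
        refine Finset.sum_nonneg fun g _ => ?_
        rw [hB₀self]
        simp only [RCLike.re_to_complex, Complex.ofReal_re]
        exact Finset.sum_nonneg fun i _ => Complex.normSq_nonneg _
      add_left := by
        intro x y z
        simp only [B, B₀, map_add, Finsupp.add_apply, Finset.sum_add_distrib, add_mul]
      smul_left := by
        intro x y r
        simp only [B, B₀, map_smul, Finsupp.smul_apply, smul_eq_mul, map_mul, Finset.mul_sum]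
        refine Finset.sum_congr rfl fun g _ => Finset.sum_congr rfl fun i _ => ?_
        ring
      definite := by
        intro x hx
        have h1 : ∀ g ∈ Finset.univ, (0 : ℝ) ≤ ∑ i, Complex.normSq (b.repr (ρ g x) i) := fun g _ =>
          Finset.sum_nonneg fun i _ => Complex.normSq_nonneg _
        have h2 : (∑ g : G, ∑ i, Complex.normSq (b.repr (ρ g x) i) : ℝ) = 0 := by
          have : ((∑ g : G, ∑ i, Complex.normSq (b.repr (ρ g x) i) : ℝ) : ℂ) = 0 := by
            rw [← hx]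
            simp only [B]
            push_cast
            refine Finset.sum_congr rfl fun g _ => ?_
            rw [hB₀self]
            push_cast
            rfl
          exact_mod_cast this
        have h3 := (Finset.sum_eq_zero_iff_of_nonneg h1).mp h2 1 (Finset.mem_univ _)
        have h4 := (Finset.sum_eq_zero_iff_of_nonneg fun i _ => Complex.normSq_nonneg _).mp h3
        simp only [map_one, Module.End.one_apply] at h4
        apply b.repr.injective
        ext i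
        have := h4 i (Finset.mem_univ _)
        simpa using this }
  letI : NormedAddCommGroup F := core.toNormedAddCommGroup
  letI : InnerProductSpace ℂ F := InnerProductSpace.ofCore core.toCore
  let τf : G → (F →L[ℂ] F) := fun g => LinearMap.toContinuousLinearMap (ρ g)
  let τ : G →* (F →L[ℂ] F) :=
    { toFun := τf
      map_one' := by
        ext v
        simp [τf]
      map_mul' := by
        intro g h
        ext v
        simp [τf] }
  have hinv : ∀ h u v, B (ρ h u) (ρ h v) = B u v := by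
    intro h u v
    simp only [B]
    refine Fintype.sum_equiv (Equiv.mulRight h) _ _ fun g => ?_
    simp [map_mul]
  have hτ : ∀ g v, ‖τ g v‖ = ‖v‖ := by
    intro g v
    have h1 : ⟪τ g v, τ g v⟫_ℂ = ⟪v, v⟫_ℂ := hinv g v v
    rw [inner_self_eq_norm_sq_to_K, inner_self_eq_norm_sq_to_K] at h1
    have h2 : ‖τ g v‖ ^ 2 = ‖v‖ ^ 2 := by exact_mod_cast h1
    exact (pow_left_inj₀ (norm_nonneg _) (norm_nonneg _) two_ne_zero).mp h2
  have hτinj : Function.Injective τ := by
    intro g h hgh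
    apply hinj
    ext v
    have := congrArg (fun T : F →L[ℂ] F => T v) hgh
    simpa [τ, τf] using this
  obtain ⟨A, h1, h2, h3, -⟩ := exists_abelian_unitary τ hτ hτinj
  exact ⟨A, h1, h2, h3⟩

end Generic

end Cfsg.Agent.Lib.Char.Jordan
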