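import Cfsg.Agent.Lib.Char.MGroup
import Cfsg.Agent.Lib.Char.FTSylow
import Cfsg.Agent.Lib.Char.Blichfeldt
import Cfsg.Agent.S4470
import Cfsg.Agent.Lib.Char.Degree
import Mathlib.NumberTheory.PrimeCounting

/-!
# Jordan's bound

A nilpotent group with a faithful character of degree `n` has an abelian subgroup of index
dividing `n!`; together with the abelian normal subgroup of `S4470` and the abelian Hall subgroup
of Blichfeldt this bounds the index of an abelian normal subgroup by `n! · 12 ^ (n (π(n+1) + 1))`.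
-/

set_option autoImplicit false
set_option linter.unusedSectionVars false

namespace Cfsg.Agent.Lib.Char.JB

open Cfsg Cfsg.Agent.Lib.Char
open scoped ComplexConjugate

universe u

section Mono

variable {Q : Type u} [Group Q] [Fintype Q]

theorem indFun_comm_eq {U : Subgroup Q} (lam : U →* ℂˣ) {x y : Q}
    (hx : ∀ t : Q, t⁻¹ * x * t ∈ U) (hy : ∀ t : Q, t⁻¹ * y * t ∈ U) :
    indFun U (fun h => (lam h : ℂ)) (x * y * x⁻¹ * y⁻¹) = indFun U (fun h => (lam h : ℂ)) 1 := by
  classical
  letI : Fintype U := Fintype.ofFinite _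
  simp only [indFun_apply]
  congr 1
  refine Finset.sum_congr rfl fun t _ => ?_
  have hc : t⁻¹ * (x * y * x⁻¹ * y⁻¹) * t = (t⁻¹ * x * t) * (t⁻¹ * y * t) * (t⁻¹ * x * t)⁻¹ * (t⁻¹ * y * t)⁻¹ := by
    group
  have h1 : (t⁻¹ * 1 * t : Q) = 1 := by group
  have hm : t⁻¹ * (x * y * x⁻¹ * y⁻¹) * t ∈ U := by
    rw [hc]
    exact U.mul_mem (U.mul_mem (U.mul_mem (hx t) (hy t)) (U.inv_mem (hx t))) (U.inv_mem (hy t))
  rw [extendByZero_of_mem U _ hm, h1, extendByZero_of_mem U _ U.one_mem]
  have h2 : (⟨t⁻¹ * (x * y * x⁻¹ * y⁻¹) * t, hm⟩ : U) =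
      ⟨t⁻¹ * x * t, hx t⟩ * ⟨t⁻¹ * y * t, hy t⟩ * (⟨t⁻¹ * x * t, hx t⟩ : U)⁻¹ * (⟨t⁻¹ * y * t, hy t⟩ : U)⁻¹ := by
    apply Subtype.ext
    exact hc
  rw [h2]
  simp only [map_mul, map_inv]
  rw [mul_comm (lam ⟨t⁻¹ * x * t, hx t⟩), mul_assoc, mul_assoc]
  have h3 : lam (⟨1, U.one_mem⟩ : U) = 1 := map_one lam
  rw [h3]
  simp

/-- A nilpotent group with a faithful character of degree `n` has an abelian subgroup of index
dividing `n!`. -/
theorem monomial_abelian [Group.IsNilpotent Q] {χ : Q → ℂ} (hχ : IsCharacter Q χ)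
    (hf : ∀ g, χ g = χ 1 → g = 1) {n : ℕ} (h1 : χ 1 = n) :
    ∃ B : Subgroup Q, (∀ x ∈ B, ∀ y ∈ B, x * y = y * x) ∧ B.index ∣ n.factorial := by
  classical
  obtain ⟨m, hm, hs⟩ := IsCharacter.exists_eq_sum hχ
  have hind : ∀ θ : IrrCharacter Q, ∃ (U : Subgroup Q) (lam : U →* ℂˣ),
      (θ : Q → ℂ) = indFun U (fun h => (lam h : ℂ)) :=
    fun θ => isInducedLinear_of_nilpotent_aux _ Q rfl θ θ.2
  choose U lam hU using hind
  let ι := {θ : IrrCharacter Q // m θ ≠ 0}
  let X := Σ θ : ι, Q ⧸ U θ.1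
  letI : Fintype ι := Fintype.ofFinite _
  letI : ∀ θ : ι, Fintype (Q ⧸ U θ.1) := fun _ => Fintype.ofFinite _
  letI : Fintype X := Sigma.instFintype
  let φ : Q →* Equiv.Perm X := MulAction.toPermHom Q X
  refine ⟨φ.ker, ?_, ?_⟩
  · intro x hx y hy
    have hmemU : ∀ {x : Q}, x ∈ φ.ker → ∀ θ : IrrCharacter Q, m θ ≠ 0 → ∀ t : Q, t⁻¹ * x * t ∈ U θ := by
      intro x hx θ hθ t
      have h2 : φ x = 1 := hx
      have h3 : φ x ⟨⟨θ, hθ⟩, (t : Q ⧸ U θ)⟩ = ⟨⟨θ, hθ⟩, (t : Q ⧸ U θ)⟩ := by
        rw [h2]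
        rfl
      have h4 : (x • (t : Q ⧸ U θ)) = (t : Q ⧸ U θ) := by
        have := Sigma.mk.inj_iff.mp h3
        exact eq_of_heq this.2
      have h5 : ((x * t : Q) : Q ⧸ U θ) = (t : Q ⧸ U θ) := h4
      have h6 := QuotientGroup.eq.mp h5.symm
      rwa [← mul_assoc] at h6
    have hc : χ (x * y * x⁻¹ * y⁻¹) = χ 1 := by
      rw [hs]
      simp only [Finset.sum_apply, Pi.smul_apply]
      refine Finset.sum_congr rfl fun θ _ => ?_
      by_cases hθ : m θ = 0
      · simp [hθ]
      · congr 1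
        rw [hU θ]
        exact indFun_comm_eq (lam θ) (hmemU hx θ hθ) (hmemU hy θ hθ)
    have h2 := hf _ hc
    have h3 : x * y * x⁻¹ = y := mul_inv_eq_one.mp h2
    exact mul_inv_eq_iff_eq_mul.mp h3
  · have hcardX : Fintype.card X ≤ n := by
      have hd : ∀ θ : IrrCharacter Q, (θ : Q → ℂ) 1 = ((U θ).index : ℂ) := by
        intro θ
        letI : Fintype (U θ) := Fintype.ofFinite _
        rw [hU θ, indFun_one]
        simp
      have hn : (n : ℂ) = ∑ θ : IrrCharacter Q, ((m θ * (U θ).index : ℕ) : ℂ) := by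
        rw [← h1, hs]
        simp only [Finset.sum_apply, Pi.smul_apply]
        refine Finset.sum_congr rfl fun θ _ => ?_
        rw [hd θ]
        simp
      have hn' : n = ∑ θ : IrrCharacter Q, m θ * (U θ).index := by exact_mod_cast hn
      have hX : Fintype.card X = ∑ θ : ι, (U θ.1).index := by
        rw [Fintype.card_sigma]
        refine Finset.sum_congr rfl fun θ _ => ?_
        rw [← Nat.card_eq_fintype_card, Subgroup.index_eq_card]
      rw [hX, hn']
      calc ∑ θ : ι, (U θ.1).index = ∑ θ ∈ Finset.univ.filter (fun θ : IrrCharacter Q => m θ ≠ 0), (U θ).index := by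
            rw [Finset.sum_subtype (p := fun θ : IrrCharacter Q => m θ ≠ 0) _ (by simp)]
        _ ≤ ∑ θ ∈ Finset.univ.filter (fun θ : IrrCharacter Q => m θ ≠ 0), m θ * (U θ).index := by
            refine Finset.sum_le_sum fun θ hθ => ?_
            have : m θ ≠ 0 := (Finset.mem_filter.mp hθ).2
            exact Nat.le_mul_of_pos_left _ (Nat.pos_of_ne_zero this)
        _ ≤ ∑ θ : IrrCharacter Q, m θ * (U θ).index :=
            Finset.sum_le_sum_of_subset (Finset.subset_univ _)
    have h2 : φ.ker.index ∣ (Fintype.card X).factorial := by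
      rw [Subgroup.index_ker, ← Fintype.card_perm, ← Nat.card_eq_fintype_card]
      exact Subgroup.card_subgroup_dvd_card _
    exact h2.trans (Nat.factorial_dvd_factorial hcardX)

end Mono

section Arith

open Finset

theorem prod_pow_fact_of_subset {c : ℕ} (hc : c ≠ 0) {T : Finset ℕ} (hT : c.primeFactors ⊆ T) :
    ∏ q ∈ T, q ^ c.factorization q = c := by
  conv_rhs => rw [← Nat.prod_factorization_pow_eq_self hc]
  rw [Finsupp.prod_of_support_subset _ (s := T) (by simpa using hT)]
  intro i _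
  simp

theorem prod_pow_fact_le {c : ℕ} (hc : c ≠ 0) (S : Finset ℕ) :
    ∏ q ∈ S, q ^ c.factorization q ≤ c := by
  classical
  have h1 : ∏ q ∈ S, q ^ c.factorization q ∣ ∏ q ∈ S ∪ c.primeFactors, q ^ c.factorization q :=
    Finset.prod_dvd_prod_of_subset _ _ _ Finset.subset_union_left
  rw [prod_pow_fact_of_subset hc Finset.subset_union_right] at h1
  exact Nat.le_of_dvd (Nat.pos_of_ne_zero hc) h1

/-- The arithmetic heart of Jordan's bound. -/
theorem bound_of_local {m n E : ℕ} (hm : m ≠ 0)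
    (hsmall : ∀ q : ℕ, q.Prime → q ≤ n + 1 → q ^ m.factorization q ≤ E * q ^ (n.factorial).factorization q)
    (hbig : ∃ e : ℕ, e ≠ 0 ∧ e ≤ E ∧ ∀ q : ℕ, q.Prime → n + 1 < q → m.factorization q ≤ e.factorization q) :
    m ≤ n.factorial * E ^ (Nat.primeCounting (n + 1) + 1) := by
  classical
  obtain ⟨e, he0, heE, hq⟩ := hbig
  let T₁ := (Finset.range (n + 2)).filter Nat.Prime
  let T₂ := m.primeFactors.filter (fun q => n + 1 < q)
  have hdis : Disjoint T₁ T₂ := by
    rw [Finset.disjoint_left]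
    intro q h1 h2
    have h3 := (Finset.mem_filter.mp h1).1
    have h4 := (Finset.mem_filter.mp h2).2
    rw [Finset.mem_range] at h3
    omega
  have hsub : m.primeFactors ⊆ T₁ ∪ T₂ := by
    intro q hq'
    by_cases h : n + 1 < q
    · exact Finset.mem_union_right _ (Finset.mem_filter.mpr ⟨hq', h⟩)
    · refine Finset.mem_union_left _ (Finset.mem_filter.mpr ⟨?_, Nat.prime_of_mem_primeFactors hq'⟩)
      rw [Finset.mem_range]
      omega
  have hsplit := prod_pow_fact_of_subset hm hsub
  rw [Finset.prod_union hdis] at hsplit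
  have hcard : T₁.card = Nat.primeCounting (n + 1) := by
    rw [Nat.primeCounting, Nat.primeCounting', Nat.count_eq_card_filter_range]
  have hfacT : ∏ q ∈ T₁, q ^ (n.factorial).factorization q = n.factorial := by
    apply prod_pow_fact_of_subset (Nat.factorial_ne_zero n)
    intro q hq'
    have hp := Nat.prime_of_mem_primeFactors hq'
    have hd := Nat.dvd_of_mem_primeFactors hq'
    refine Finset.mem_filter.mpr ⟨?_, hp⟩
    rw [Finset.mem_range]
    have := (Nat.Prime.dvd_factorial hp).mp hd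
    omega
  have h1 : ∏ q ∈ T₁, q ^ m.factorization q ≤ n.factorial * E ^ Nat.primeCounting (n + 1) := by
    calc ∏ q ∈ T₁, q ^ m.factorization q
        ≤ ∏ q ∈ T₁, (E * q ^ (n.factorial).factorization q) := by
          refine Finset.prod_le_prod' ?_
          intro q hq'
          have h3 := Finset.mem_filter.mp hq'
          have h4 := Finset.mem_range.mp h3.1
          exact hsmall q h3.2 (by omega)
      _ = n.factorial * E ^ Nat.primeCounting (n + 1) := by
          rw [Finset.prod_mul_distrib, hfacT, Finset.prod_const, hcard, mul_comm]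
  have h2 : ∏ q ∈ T₂, q ^ m.factorization q ≤ E := by
    calc ∏ q ∈ T₂, q ^ m.factorization q ≤ ∏ q ∈ T₂, q ^ e.factorization q := by
          refine Finset.prod_le_prod' ?_
          intro q hq'
          have h3 := Finset.mem_filter.mp hq'
          have hp := Nat.prime_of_mem_primeFactors h3.1
          exact Nat.pow_le_pow_right hp.pos (hq q hp h3.2)
      _ ≤ e := prod_pow_fact_le he0 _
      _ ≤ E := heE
  calc m = (∏ q ∈ T₁, q ^ m.factorization q) * ∏ q ∈ T₂, q ^ m.factorization q := hsplit.symm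
    _ ≤ (n.factorial * E ^ Nat.primeCounting (n + 1)) * E := Nat.mul_le_mul h1 h2
    _ = _ := by rw [pow_succ, mul_assoc]

end Arith

section Main

variable {G : Type u} [Group G] [Finite G]

/-- The local bound at a prime `p`. -/
theorem local_bound {χ : G → ℂ} (hχ : IsCharacter G χ) (hf : ∀ g, χ g = χ 1 → g = 1) {n : ℕ}
    (h1 : χ 1 = n) (A : Subgroup G) {E : ℕ}
    (hA : ∀ H : Subgroup G, (∀ x ∈ H, ∀ y ∈ H, x * y = y * x) → (A.subgroupOf H).index ≤ E)
    (p : ℕ) (hp : p.Prime) :
    p ^ A.index.factorization p ≤ E * p ^ (n.factorial).factorization p := by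
  classical
  haveI : Fact p.Prime := ⟨hp⟩
  obtain ⟨P⟩ : Nonempty (Sylow p G) := Sylow.nonempty
  letI : Fintype (P : Subgroup G) := Fintype.ofFinite _
  haveI : Group.IsNilpotent (P : Subgroup G) := P.isPGroup'.isNilpotent
  obtain ⟨B₀, hB₀c, hB₀i⟩ := monomial_abelian (Q := (P : Subgroup G)) (χ := fun y => χ y)
    (IsCharacter.comp hχ (P : Subgroup G).subtype) (fun g hg => Subtype.ext (hf _ hg)) h1
  let B : Subgroup G := B₀.map (P : Subgroup G).subtype
  have hBc : ∀ x ∈ B, ∀ y ∈ B, x * y = y * x := by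
    rintro _ ⟨x, hx, rfl⟩ _ ⟨y, hy, rfl⟩
    exact congrArg Subtype.val (hB₀c x hx y hy)
  have hcB : Nat.card B = Nat.card B₀ :=
    Subgroup.card_map_of_injective (Subgroup.subtype_injective _)
  have hG0 : Nat.card G ≠ 0 := Nat.card_pos.ne'
  have hA0 : Nat.card A ≠ 0 := Nat.card_pos.ne'
  have hi0 : A.index ≠ 0 := Subgroup.index_ne_zero_of_finite
  have hvG : (Nat.card G).factorization p = (Nat.card A).factorization p + A.index.factorization p := by
    rw [← Subgroup.card_mul_index A, Nat.factorization_mul hA0 hi0]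
    rfl
  have hcP : Nat.card (P : Subgroup G) = p ^ (Nat.card G).factorization p := P.card_eq_multiplicity
  -- the `p`-group pieces
  set D := A.subgroupOf B with hD
  have hcD : Nat.card D * D.index = Nat.card B := Subgroup.card_mul_index D
  have hcB₀ : Nat.card B₀ * B₀.index = Nat.card (P : Subgroup G) := Subgroup.card_mul_index B₀
  have hDA : Nat.card D ∣ Nat.card A := by
    have h2 : D.map B.subtype ≤ A := by
      rintro _ ⟨x, hx, rfl⟩
      exact hx
    have h3 : Nat.card (D.map B.subtype) = Nat.card D :=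
      Subgroup.card_map_of_injective (Subgroup.subtype_injective _)
    rw [← h3]
    exact Subgroup.card_dvd_of_le h2
  have hDP : Nat.card D ∣ p ^ (Nat.card G).factorization p := by
    rw [← hcP, ← hcB₀, ← hcB, ← hcD, mul_assoc]
    exact dvd_mul_right _ _
  have hB₀P : B₀.index ∣ p ^ (Nat.card G).factorization p := by
    rw [← hcP, ← hcB₀]
    exact dvd_mul_left _ _
  obtain ⟨j, _, hj⟩ := (Nat.dvd_prime_pow hp).mp hDP
  obtain ⟨i, _, hi⟩ := (Nat.dvd_prime_pow hp).mp hB₀P
  have hjle : j ≤ (Nat.card A).factorization p := by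
    rw [hj] at hDA
    exact (Nat.Prime.pow_dvd_iff_le_factorization hp hA0).mp hDA
  have hile : i ≤ (n.factorial).factorization p := by
    rw [hi] at hB₀i
    exact (Nat.Prime.pow_dvd_iff_le_factorization hp (Nat.factorial_ne_zero n)).mp hB₀i
  have hE := hA B hBc
  have hkey : p ^ (Nat.card A).factorization p * p ^ A.index.factorization p =
      p ^ j * D.index * p ^ i := by
    rw [← pow_add, ← hvG, ← hcP, ← hcB₀, ← hcB, ← hcD, hj, hi]
  have hposA : 0 < p ^ (Nat.card A).factorization p := pow_pos hp.pos _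
  have hle1 : p ^ j ≤ p ^ (Nat.card A).factorization p := Nat.pow_le_pow_right hp.pos hjle
  have hle2 : p ^ i ≤ p ^ (n.factorial).factorization p := Nat.pow_le_pow_right hp.pos hile
  apply Nat.le_of_mul_le_mul_left _ hposA
  rw [hkey]
  calc p ^ j * D.index * p ^ i ≤ p ^ (Nat.card A).factorization p * E * p ^ (n.factorial).factorization p :=
        Nat.mul_le_mul (Nat.mul_le_mul hle1 hE) hle2
    _ = _ := by ring

/-- **Jordan's theorem**, with the explicit bound. -/
theorem jordan_bound {χ : G → ℂ} (hχ : IsCharacter G χ) (hf : ∀ g, χ g = χ 1 → g = 1) {n : ℕ}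
    (hn : charDegree χ = n) : ∃ A : Subgroup G, A.Normal ∧ (∀ x ∈ A, ∀ y ∈ A, x * y = y * x) ∧
      A.index ≤ n.factorial * 12 ^ (n * (Nat.primeCounting (n + 1) + 1)) := by
  classical
  have h1 : χ 1 = (n : ℂ) := by
    rw [← hn]
    exact apply_one_eq_charDegree hχ
  obtain ⟨A, hAn, hAc, hAb⟩ := Cfsg.Agent.S4470.result χ hχ hf n hn
  refine ⟨A, hAn, hAc, ?_⟩
  obtain ⟨H, hHc, hHpi, hHi⟩ := Blich.exists_hall χ hχ hf h1
  have hi0 : A.index ≠ 0 := Subgroup.index_ne_zero_of_finite
  rw [pow_mul]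
  apply bound_of_local hi0
  · intro q hq _
    exact local_bound hχ hf h1 A hAb q hq
  · refine ⟨(A.subgroupOf H).index, Subgroup.index_ne_zero_of_finite, hAb H hHc, fun q hq hnq => ?_⟩
    set D := A.subgroupOf H with hD
    have hA0 : Nat.card A ≠ 0 := Nat.card_pos.ne'
    have hH0 : Nat.card H ≠ 0 := Nat.card_pos.ne'
    have hD0 : Nat.card D ≠ 0 := Nat.card_pos.ne'
    have hDi0 : D.index ≠ 0 := Subgroup.index_ne_zero_of_finite
    have hHi0 : H.index ≠ 0 := Subgroup.index_ne_zero_of_finite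
    have hv1 : (Nat.card G).factorization q = (Nat.card A).factorization q + A.index.factorization q := by
      rw [← Subgroup.card_mul_index A, Nat.factorization_mul hA0 hi0]
      rfl
    have hqH : ¬ q ∣ H.index := fun hd => by
      have := hHi q hq hd
      omega
    have hv2 : (Nat.card G).factorization q = (Nat.card H).factorization q := by
      rw [← Subgroup.card_mul_index H, Nat.factorization_mul hH0 hHi0, Finsupp.add_apply,
        Nat.factorization_eq_zero_of_not_dvd hqH, add_zero]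
    have hv3 : (Nat.card H).factorization q = (Nat.card D).factorization q + D.index.factorization q := by
      rw [← Subgroup.card_mul_index D, Nat.factorization_mul hD0 hDi0]
      rfl
    have hDA : Nat.card D ∣ Nat.card A := by
      have h2 : D.map H.subtype ≤ A := by
        rintro _ ⟨x, hx, rfl⟩
        exact hx
      have h3 : Nat.card (D.map H.subtype) = Nat.card D :=
        Subgroup.card_map_of_injective (Subgroup.subtype_injective _)
      rw [← h3]
      exact Subgroup.card_dvd_of_le h2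
    have hv4 : (Nat.card D).factorization q ≤ (Nat.card A).factorization q :=
      (Nat.factorization_le_iff_dvd hD0 hA0).mpr hDA q
    omega

end Main

end Cfsg.Agent.Lib.Char.JB
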