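import Cfsg.Agent.Lib.Char.CanonExt
import Cfsg.Agent.Lib.Char.Clifford
import Cfsg.Agent.Lib.Char.Equiv
import Cfsg.Agent.Lib.Char.Gallagher
import Cfsg.Agent.Lib.H8Group.Extension
import Cfsg.Agent.Lib.H8Group.LinearExt
import Cfsg.Agent.Lib.H8Group.FongReynolds
import Cfsg.Agent.Lib.Blocks.FongGeneral
import Cfsg.Agent.Lib.Blocks.FongHeight
import Cfsg.Agent.Lib.Basic.SchurZassenhaus

/-! # Sets of characters with block-orthogonal sums in `p`-solvable groups (Kiyota--Okuyama) -/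

set_option autoImplicit false
set_option linter.unusedSectionVars false

namespace Cfsg.Agent.Lib.Char.KO

open Cfsg Cfsg.Agent.Lib.Char Cfsg.Agent.Lib.H8Group
open scoped ComplexConjugate

universe u

section SumNormal

variable {G : Type u} [Group G] [Fintype G] (K : Subgroup G) [hK : K.Normal] [Fintype K]

theorem ko_sum_normal {τ : K → ℂ} (hinv : ∀ g : G, conjFun K g τ = τ) {χ : G → ℂ} (hχ : IsIrrCharacter G χ) (u : G) :
    ∑ k : K, conj (τ k) * χ (k * u) = (Nat.card K : ℂ) * classInner (resFun K χ) τ / χ 1 * χ u := by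
  have hF : ∀ g : G, conjFun K g (fun k => conj (τ k)) = fun k => conj (τ k) := by
    intro g
    funext n
    have := congrFun (hinv g) n
    simp only [conjFun_apply] at this ⊢
    rw [this]
  have h1 := sum_normal_mul_irr K (fun k => conj (τ k)) hF hχ u
  rw [h1]
  congr 2
  unfold classInner
  have hc : (Nat.card K : ℂ) ≠ 0 := NeZero.ne _
  rw [mul_inv_cancel_left₀ hc]
  refine Finset.sum_congr rfl fun k _ => ?_
  rw [resFun]
  ring

theorem ko_inertia_top {τ : K → ℂ} (hinv : ∀ g : G, conjFun K g τ = τ) : inertia K τ = ⊤ := by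
  rw [eq_top_iff]
  intro g _
  exact (mem_inertia K).mpr (hinv g)

theorem ko_degree {τ : K → ℂ} (hτ : IsIrrCharacter K τ) (hinv : ∀ g : G, conjFun K g τ = τ) {χ : G → ℂ}
    (hχ : IsIrrCharacter G χ) (h : classInner (resFun K χ) τ ≠ 0) :
    χ 1 = classInner (resFun K χ) τ * τ 1 := by
  have h1 := clifford_degree K hχ hτ h
  rw [ko_inertia_top K hinv, Subgroup.index_top] at h1
  simpa using h1

theorem ko_res {τ : K → ℂ} (hτ : IsIrrCharacter K τ) (hinv : ∀ g : G, conjFun K g τ = τ) {χ : G → ℂ}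
    (hχ : IsIrrCharacter G χ) (h : classInner (resFun K χ) τ ≠ 0) (n : K) :
    χ n = classInner (resFun K χ) τ * τ n := by
  have h1 := clifford_sum K hχ hτ h n
  rw [ko_inertia_top K hinv] at h1
  have h2 : ∀ g : G, conjFun K g τ n = τ n := fun g => congrFun (hinv g) n
  simp only [h2, Finset.sum_const, Finset.card_univ, nsmul_eq_mul] at h1
  have h3 : (Nat.card (⊤ : Subgroup G) : ℂ) = (Fintype.card G : ℂ) := by
    rw [Subgroup.card_top, Nat.card_eq_fintype_card]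
  rw [h3] at h1
  have h4 : (Fintype.card G : ℂ) ≠ 0 := by
    have := Fintype.card_pos (α := G)
    exact_mod_cast this.ne'
  apply mul_left_cancel₀ h4
  rw [h1]
  ring

/-- The isotypic projection on an irreducible character. -/
theorem ko_sum_over {τ : K → ℂ} (hτ : IsIrrCharacter K τ) (hinv : ∀ g : G, conjFun K g τ = τ) {χ : G → ℂ}
    (hχ : IsIrrCharacter G χ) (h : classInner (resFun K χ) τ ≠ 0) (u : G) :
    ∑ k : K, conj (τ k) * χ (k * u) = (Nat.card K : ℂ) / τ 1 * χ u := by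
  rw [ko_sum_normal K hinv hχ u, ko_degree K hτ hinv hχ h]
  have h1 : τ 1 ≠ 0 := IsIrrCharacter.apply_one_ne_zero hτ
  field_simp

theorem ko_sum_not_over {τ : K → ℂ} (hinv : ∀ g : G, conjFun K g τ = τ) {χ : G → ℂ}
    (hχ : IsIrrCharacter G χ) (h : classInner (resFun K χ) τ = 0) (u : G) :
    ∑ k : K, conj (τ k) * χ (k * u) = 0 := by
  rw [ko_sum_normal K hinv hχ u, h]
  simp

end SumNormal

section Extension

variable {U : Type u} [Group U] [Fintype U] (N' : Subgroup U) [hN' : N'.Normal] [Fintype N']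
  {p : ℕ} [hp : Fact p.Prime] {b : ℕ}

theorem ko_index_coprime_of (hidx : N'.index = p ^ b) {c : ℕ} (hc : Nat.Coprime c p) : Nat.Coprime N'.index c := by
  rw [hidx]
  exact Nat.Coprime.pow_left _ hc.symm

/-- Existence of an extension with trivial determinant on `p`-elements. -/
theorem ko_exists_det_ext (hidx : N'.index = p ^ b) (hcop : Nat.Coprime (Nat.card N') p) {θ : N' → ℂ}
    (hθ : IsIrrCharacter N' θ) (hinv : ∀ g : U, conjFun N' g θ = θ) :
    ∃ τ : U → ℂ, IsIrrCharacter U τ ∧ (∀ n : N', τ n = θ n) ∧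
      ∀ t : U, t ^ p ^ b = 1 → detChar τ t = 1 := by
  classical
  have hθc := IsIrrCharacter.isCharacter hθ
  obtain ⟨δ, hδ⟩ := exists_detHom hθc
  have hδinv : ∀ (t n : U) (hn : n ∈ N'), δ ⟨t * n * t⁻¹, hN'.conj_mem n hn t⟩ = δ ⟨n, hn⟩ := by
    intro t n hn
    apply Units.ext
    rw [← hδ, ← hδ]
    have h1 := congrFun (detChar_comp (MulAut.conjNormal t : N' ≃* N').toMonoidHom hθc) ⟨n, hn⟩
    have h2 : (fun h : N' => θ ((MulAut.conjNormal t : N' ≃* N').toMonoidHom h)) = θ := by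
      funext h
      have h3 := congrFun (hinv t⁻¹) h
      simp only [conjFun_apply] at h3
      rw [← h3]
      refine congrArg _ (Subtype.ext ?_)
      show (((MulAut.conjNormal t : N' ≃* N') h : N') : U) = (t⁻¹)⁻¹ * h * t⁻¹
      rw [MulAut.conjNormal_apply]
      simp
    rw [h2] at h1
    rw [h1]
    congr 1
  have hδm : ∀ x : N', δ x ^ Nat.card N' = 1 := by
    intro x
    rw [← map_pow, pow_card_eq_one', map_one]
  obtain ⟨μ, hμ1, hμm⟩ := H8Group.exists_ext_linear N' δ hδinv hδm (ko_index_coprime_of N' hidx hcop)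
  obtain ⟨d, hd⟩ : ∃ d : ℕ, θ 1 = d := IsCharacter.apply_one hθc
  have hdvd : d ∣ Nat.card N' := by
    have h1 := charDegree_dvd_card hθ
    rwa [charDegree_eq hd] at h1
  have hdp : Nat.Coprime d p := Nat.Coprime.coprime_dvd_left hdvd hcop
  have hq : IsPGroup p (U ⧸ N') := by
    apply IsPGroup.of_card (n := b)
    rw [← Subgroup.index_eq_card]
    exact hidx
  haveI : Group.IsSolvable (U ⧸ N') := by
    haveI := hq.isNilpotent
    infer_instance
  obtain ⟨χ, hχ1, hχ2, hχ3⟩ := exists_ext_det_of_solvable (Nat.card U) U N' θ hθ hinv d hd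
    (ko_index_coprime_of N' hidx hdp) μ (fun n => by rw [hμ1, hδ]) rfl
  refine ⟨χ, hχ1, hχ2, fun t ht => ?_⟩
  rw [hχ3]
  have h1 : μ t ^ p ^ b = 1 := by rw [← map_pow, ht, map_one]
  have h2 := hμm t
  have h3 : μ t = 1 := by
    have h4 : orderOf (μ t) ∣ Nat.gcd (p ^ b) (Nat.card N') :=
      Nat.dvd_gcd (orderOf_dvd_of_pow_eq_one h1) (orderOf_dvd_of_pow_eq_one h2)
    have h5 : Nat.gcd (p ^ b) (Nat.card N') = 1 := Nat.Coprime.pow_left _ hcop.symm
    rw [h5, Nat.dvd_one, orderOf_eq_one_iff] at h4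
    exact h4
  rw [h3]
  simp

/-- Uniqueness of this extension. -/
theorem ko_ext_unique (hidx : N'.index = p ^ b) (hcop : Nat.Coprime (Nat.card N') p) {τ₁ τ₂ : U → ℂ}
    (h₁ : IsIrrCharacter U τ₁) (h₂ : IsIrrCharacter U τ₂) (hres : ∀ n : N', τ₂ n = τ₁ n)
    (hirr : IsIrrCharacter N' (resFun N' τ₁))
    (hdet₁ : ∀ t : U, t ^ p ^ b = 1 → detChar τ₁ t = 1) (hdet₂ : ∀ t : U, t ^ p ^ b = 1 → detChar τ₂ t = 1) :
    τ₂ = τ₁ := by
  classical
  letI : Fintype (U ⧸ N') := Fintype.ofFinite _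
  have hc₁ := IsIrrCharacter.isCharacter h₁
  have hover : classInner (resFun N' τ₂) (resFun N' τ₁) ≠ 0 := by
    have h3 : resFun N' τ₂ = resFun N' τ₁ := funext hres
    rw [h3, classInner_irr_self hirr]
    exact one_ne_zero
  obtain ⟨β, hβ, hτ⟩ := exists_gallagher N' hc₁ hirr h₂ hover
  have hone : τ₂ 1 = τ₁ 1 := hres 1
  have hne : τ₁ 1 ≠ 0 := IsIrrCharacter.apply_one_ne_zero h₁
  have hβ1 : β 1 = 1 := by
    have h3 := congrFun hτ 1
    simp only [inflate, QuotientGroup.mk_one] at h3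
    rw [hone] at h3
    exact mul_right_cancel₀ hne (by rw [← h3, one_mul])
  obtain ⟨lam, hlam⟩ := IsCharacter.exists_monoidHom (IsIrrCharacter.isCharacter hβ) hβ1
  let lam' : U →* ℂˣ := lam.comp (QuotientGroup.mk' N')
  have hτ' : τ₂ = fun g => ((lam' g : ℂˣ) : ℂ) * τ₁ g := by
    rw [hτ]
    funext g
    simp only [inflate, hlam]
    rfl
  obtain ⟨d, hd⟩ : ∃ d : ℕ, τ₁ 1 = d := IsCharacter.apply_one hc₁
  have hdvd : d ∣ Nat.card N' := by
    have h1 := charDegree_dvd_card hirr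
    rwa [charDegree_eq (show resFun N' τ₁ 1 = d from hd)] at h1
  have hdp : Nat.Coprime d p := Nat.Coprime.coprime_dvd_left hdvd hcop
  have hq : ∀ z : U, (z : U ⧸ N') ^ p ^ b = 1 := by
    intro z
    rw [← hidx, Subgroup.index_eq_card]
    exact pow_card_eq_one'
  have hlamp : ∀ t : U, t ^ p ^ b = 1 → lam' t = 1 := by
    intro t ht
    have h1 := hdet₂ t ht
    rw [hτ', detChar_twist lam' hc₁ hd t, hdet₁ t ht, mul_one] at h1
    have h2 : (lam' t) ^ d = 1 := by
      apply Units.ext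
      simpa using h1
    have h3 : (lam' t) ^ p ^ b = 1 := by rw [← map_pow, ht, map_one]
    have h4 : orderOf (lam' t) ∣ Nat.gcd d (p ^ b) :=
      Nat.dvd_gcd (orderOf_dvd_of_pow_eq_one h2) (orderOf_dvd_of_pow_eq_one h3)
    have h5 : Nat.gcd d (p ^ b) = 1 := Nat.Coprime.pow_right _ hdp
    rw [h5, Nat.dvd_one, orderOf_eq_one_iff] at h4
    exact h4
  have hlamall : ∀ z : U, lam' z = 1 := by
    intro z
    set m := Nat.card N' with hm
    have hcop3 : Nat.Coprime m (p ^ b) := Nat.Coprime.pow_right _ hcop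
    have hbez := Nat.gcd_eq_gcd_ab m (p ^ b)
    rw [hcop3] at hbez
    set A := Nat.gcdA m (p ^ b) with hA
    set C := Nat.gcdB m (p ^ b) with hC
    have hzN : z ^ p ^ b ∈ N' := by
      rw [← QuotientGroup.eq_one_iff]
      rw [QuotientGroup.mk_pow]
      exact hq z
    have hzm : z ^ (p ^ b * m) = 1 := by
      rw [pow_mul]
      have h1 : (⟨z ^ p ^ b, hzN⟩ : N') ^ m = 1 := pow_card_eq_one'
      exact congrArg Subtype.val h1
    set t : U := z ^ ((m : ℤ) * A) with ht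
    have ht1 : t ^ p ^ b = 1 := by
      rw [ht, ← zpow_natCast, ← zpow_mul]
      have h2 : ((m : ℤ) * A) * ((p ^ b : ℕ) : ℤ) = ((p ^ b * m : ℕ) : ℤ) * A := by
        push_cast
        ring
      rw [h2, zpow_mul, zpow_natCast, hzm, one_zpow]
    have h3 := hlamp t ht1
    have h4 : z = t * z ^ (((p ^ b : ℕ) : ℤ) * C) := by
      rw [ht, ← zpow_add]
      have h5 : ((m : ℤ) * A) + ((p ^ b : ℕ) : ℤ) * C = 1 := by
        have h6 : ((1 : ℕ) : ℤ) = (m : ℤ) * A + ((p ^ b : ℕ) : ℤ) * C := hbez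
        rw [← h6]
        simp
      rw [h5, zpow_one]
    have h5 : lam' (z ^ (((p ^ b : ℕ) : ℤ) * C)) = 1 := by
      rw [zpow_mul, zpow_natCast, map_zpow]
      have h6 : lam' (z ^ p ^ b) = 1 := by
        show lam ((z ^ p ^ b : U) : U ⧸ N') = 1
        rw [QuotientGroup.mk_pow, hq z, map_one]
      rw [h6, one_zpow]
    rw [h4, map_mul, h3, h5, one_mul]
  rw [hτ']
  funext g
  rw [hlamall g]
  simp

end Extension

section Inv

variable {G : Type u} [Group G] [Fintype G] (N L : Subgroup G) [hN : N.Normal] [hL : L.Normal] [Fintype N] [Fintype L]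
  (hNL : N ≤ L) {p : ℕ} [hp : Fact p.Prime] {b : ℕ}

/-- The canonical extension of an invariant character to a normal subgroup of `p`-power relative index. -/
theorem ko_exists_inv_ext (hidx : N.relIndex L = p ^ b) (hcop : Nat.Coprime (Nat.card N) p) {θ : N → ℂ}
    (hθ : IsIrrCharacter N θ) (hinv : ∀ g : G, conjFun N g θ = θ) :
    ∃ τ : L → ℂ, IsIrrCharacter L τ ∧ (∀ n : N, τ ⟨n, hNL n.2⟩ = θ n) ∧ ∀ g : G, conjFun L g τ = τ := by
  classical
  letI : Fintype (N.subgroupOf L) := Fintype.ofFinite _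
  set N' := N.subgroupOf L with hN'
  let e : N' ≃* N := Subgroup.subgroupOfEquivOfLe hNL
  have he : ∀ n : N', ((e n : N) : G) = ((n : L) : G) := fun n => rfl
  have hcard : Nat.card N' = Nat.card N := Nat.card_congr e.toEquiv
  have hcop' : Nat.Coprime (Nat.card N') p := by rwa [hcard]
  have hidx' : N'.index = p ^ b := hidx
  let θ' : N' → ℂ := fun n => θ (e n)
  have hθ' : IsIrrCharacter N' θ' := isIrrCharacter_comp_mulEquiv e hθ
  have hinv' : ∀ t : L, conjFun N' t θ' = θ' := by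
    intro t
    funext n
    have h1 := congrFun (hinv (t : G)) (e n)
    simp only [conjFun_apply] at h1 ⊢
    show θ (e _) = θ (e n)
    rw [← h1]
    refine congrArg θ (Subtype.ext ?_)
    rfl
  obtain ⟨τ, hτ, hres, hdet⟩ := ko_exists_det_ext N' hidx' hcop' hθ' hinv'
  have hresθ : ∀ n : N', τ n = θ (e n) := hres
  refine ⟨τ, hτ, fun n => ?_, fun g => ?_⟩
  · have h1 := hres ⟨⟨n, hNL n.2⟩, n.2⟩
    rw [show ((⟨⟨n, hNL n.2⟩, n.2⟩ : N') : L) = ⟨n, hNL n.2⟩ from rfl] at h1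
    rw [h1]
    rfl
  · have hτg : IsIrrCharacter L (conjFun L g τ) := isIrrCharacter_conjFun L g hτ
    have hτc := IsIrrCharacter.isCharacter hτ
    refine ko_ext_unique N' hidx' hcop' hτ hτg (fun n => ?_) ?_ hdet (fun t ht => ?_)
    · have h1 := congrFun (hinv g) (e n)
      simp only [conjFun_apply] at h1 ⊢
      rw [hresθ n, ← h1]
      have h2 := hresθ ⟨⟨g⁻¹ * n * g, hL.conj_mem' _ (n : L).2 g⟩, hN.conj_mem' _ (show ((n : L) : G) ∈ N from n.2) g⟩
      refine h2.trans ?_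
      rfl
    · have h1 : resFun N' τ = θ' := funext hres
      rw [h1]
      exact hθ'
    · rw [conjFun_eq_comp]
      have h1 := congrFun (detChar_comp (conjEquiv L g).toMonoidHom hτc) t
      have h2 : (τ ∘ (conjEquiv L g)) = (fun h : L => τ ((conjEquiv L g).toMonoidHom h)) := rfl
      rw [h2, h1]
      apply hdet
      have h3 : (conjEquiv L g).toMonoidHom t ^ p ^ b = 1 := by
        rw [← map_pow, ht, map_one]
      exact h3

end Inv

section Collapse

variable {G : Type u} [Group G] [Fintype G] {N L : Subgroup G} [hN : N.Normal] [hL : L.Normal] [Fintype N] [Fintype L]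

/-- The elements `x n (g x⁻¹ g⁻¹)` of `L`. -/
def koL (hNL : N ≤ L) (g : G) (x : L) (n : N) : L :=
  ⟨x * n * (g * (x : G)⁻¹ * g⁻¹), L.mul_mem (L.mul_mem x.2 (hNL n.2)) (hL.conj_mem _ (L.inv_mem x.2) g)⟩

theorem koL_coe (hNL : N ≤ L) (g : G) (x : L) (n : N) :
    ((koL hNL g x n : L) : G) = x * n * (g * (x : G)⁻¹ * g⁻¹) := rfl

theorem koL_mul (hNL : N ≤ L) (g : G) (x : L) (n : N) : ((koL hNL g x n : L) : G) * g = x * (n * g) * (x : G)⁻¹ := by
  rw [koL_coe]
  group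

/-- The key identity: a class function summed over a coset of `N` does not see conjugation by `L`. -/
theorem ko_collapse (hNL : N ≤ L) {τ : L → ℂ} (hτ : IsIrrCharacter L τ)
    (hθ : IsIrrCharacter N (fun n : N => τ ⟨n, hNL n.2⟩)) (hinv : ∀ g : G, conjFun L g τ = τ)
    {f : G → ℂ} (hf : IsClassFunction G f) (g : G) (x : L) :
    ∑ n : N, f ((n : G) * g) * conj (τ (koL hNL g x n)) = ∑ n : N, f ((n : G) * g) * conj (τ ⟨n, hNL n.2⟩) := by
  classical
  obtain ⟨d, ρ, hirr, rfl⟩ := hτ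
  haveI := hirr
  have hc : IsCharacter L ρ.character := isCharacter_character ρ
  have hinvρ : ∀ (g : G) (n : L), ρ.character (Triple.cn L g n) = ρ.character n := by
    intro g n
    have h1 := congrFun (hinv g⁻¹) n
    simp only [conjFun_apply] at h1
    rw [← h1]
    refine congrArg _ (Subtype.ext ?_)
    simp
  obtain ⟨y, hy⟩ := Triple.exists_lift L ρ hinvρ g
  have hyg : (y : G × Triple.UEnd d).1 = g := hy
  set S := (y : G × Triple.UEnd d).2 with hS
  have hSl : ∀ l : L, (S : Module.End ℂ (Fin d → ℂ)) * ρ l = ρ (Triple.cn L g l) * (S : Module.End ℂ (Fin d → ℂ)) := by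
    intro l
    have h1 := Triple.Gam_intertwine L ρ y l
    rw [hyg] at h1
    have h2 := congrArg (fun u : Triple.UEnd d => (u : Module.End ℂ (Fin d → ℂ))) h1
    simpa using h2
  let ι : N → L := fun n => ⟨n, hNL n.2⟩
  have hιm : ∀ a b : N, ι (a * b) = ι a * ι b := fun _ _ => rfl
  have hιi : ∀ a : N, ι a⁻¹ = (ι a)⁻¹ := fun _ => rfl
  let Y : Module.End ℂ (Fin d → ℂ) := ∑ n : N, f ((n : G) * g) • ρ (ι n⁻¹)
  -- the twisted commutation of `Y`
  have hY : ∀ m : N, ρ (Triple.cn L g (ι m)) * Y = Y * ρ (ι m) := by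
    intro m
    simp only [Y, Finset.mul_sum, Finset.sum_mul, mul_smul_comm, smul_mul_assoc]
    symm
    let m' : N := ⟨g * m * g⁻¹, hN.conj_mem m m.2 g⟩
    let ε : N ≃ N :=
      { toFun := fun n => m⁻¹ * n * m'
        invFun := fun n => m * n * m'⁻¹
        left_inv := fun n => by group
        right_inv := fun n => by group }
    refine Fintype.sum_equiv ε _ _ fun n => ?_
    have h1 : f ((ε n : G) * g) = f ((n : G) * g) := by
      have h2 := hf ((n : G) * g) (m : G)⁻¹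
      rw [← h2]
      congr 1
      show ((m : G)⁻¹ * n * (g * m * g⁻¹)) * g = (m : G)⁻¹ * (n * g) * ((m : G)⁻¹)⁻¹
      group
    rw [h1]
    congr 1
    rw [← map_mul, ← map_mul]
    congr 1
    apply Subtype.ext
    show ((n : G))⁻¹ * m = (g * ((m : G) ) * g⁻¹) * ((((ε n : N) : G))⁻¹)
    show ((n : G))⁻¹ * m = (g * ((m : G) ) * g⁻¹) * (((m : G)⁻¹ * n * (g * m * g⁻¹))⁻¹)
    group
  -- `ρ` restricted to `N` is irreducible
  let ρN : Representation ℂ N (Fin d → ℂ) := ρ.comp (Subgroup.inclusion hNL)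
  have hρNc : ρN.character = fun n : N => ρ.character ⟨n, hNL n.2⟩ := rfl
  obtain ⟨d', σ, hσ, hσc⟩ := id hθ
  haveI := hσ
  obtain ⟨φ⟩ := equiv_of_character_eq σ ρN (by rw [hσc, hρNc])
  haveI : ρN.IsIrreducible := isIrreducible_of_equiv φ
  -- Schur
  let T : Module.End ℂ (Fin d → ℂ) := ((S⁻¹ : Triple.UEnd d) : Module.End ℂ (Fin d → ℂ)) * Y
  have hSS : ((S⁻¹ : Triple.UEnd d) : Module.End ℂ (Fin d → ℂ)) * (S : Module.End ℂ (Fin d → ℂ)) = 1 := by
    rw [← Units.val_mul, inv_mul_cancel, Units.val_one]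
  have hSS' : (S : Module.End ℂ (Fin d → ℂ)) * ((S⁻¹ : Triple.UEnd d) : Module.End ℂ (Fin d → ℂ)) = 1 := by
    rw [← Units.val_mul, mul_inv_cancel, Units.val_one]
  have hT : ∀ m : N, T ∘ₗ ρN m = ρN m ∘ₗ T := by
    intro m
    have h1 := hY m
    have h2 := hSl (ι m)
    have e1 : T * ρN m = ρN m * T := by
      show ((S⁻¹ : Triple.UEnd d) : Module.End ℂ (Fin d → ℂ)) * Y * ρ (ι m) =
        ρ (ι m) * (((S⁻¹ : Triple.UEnd d) : Module.End ℂ (Fin d → ℂ)) * Y)
      rw [mul_assoc, ← h1]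
      have h3 : ((S⁻¹ : Triple.UEnd d) : Module.End ℂ (Fin d → ℂ)) * ρ (Triple.cn L g (ι m)) =
          ρ (ι m) * ((S⁻¹ : Triple.UEnd d) : Module.End ℂ (Fin d → ℂ)) := by
        calc ((S⁻¹ : Triple.UEnd d) : Module.End ℂ (Fin d → ℂ)) * ρ (Triple.cn L g (ι m))
            = ((S⁻¹ : Triple.UEnd d) : Module.End ℂ (Fin d → ℂ)) * ρ (Triple.cn L g (ι m)) *
                ((S : Module.End ℂ (Fin d → ℂ)) * ((S⁻¹ : Triple.UEnd d) : Module.End ℂ (Fin d → ℂ))) := by
                rw [hSS', mul_one]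
          _ = ((S⁻¹ : Triple.UEnd d) : Module.End ℂ (Fin d → ℂ)) *
                (ρ (Triple.cn L g (ι m)) * (S : Module.End ℂ (Fin d → ℂ))) *
                ((S⁻¹ : Triple.UEnd d) : Module.End ℂ (Fin d → ℂ)) := by noncomm_ring
          _ = ρ (ι m) * ((S⁻¹ : Triple.UEnd d) : Module.End ℂ (Fin d → ℂ)) := by
                rw [← h2, ← mul_assoc, hSS, one_mul]
      rw [← mul_assoc, h3, mul_assoc]
    exact e1
  obtain ⟨c, hcT⟩ := schur_scalar ρN T hT
  have hYS : Y = c • (S : Module.End ℂ (Fin d → ℂ)) := by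
    have h1 : (S : Module.End ℂ (Fin d → ℂ)) * T = Y := by
      show (S : Module.End ℂ (Fin d → ℂ)) * (((S⁻¹ : Triple.UEnd d) : Module.End ℂ (Fin d → ℂ)) * Y) = Y
      rw [← mul_assoc, hSS', one_mul]
    rw [← h1, hcT]
    ext v i
    simp
  have hYx : ∀ l : L, ρ (Triple.cn L g l) * Y = Y * ρ l := by
    intro l
    rw [hYS, mul_smul_comm, smul_mul_assoc, hSl l]
  -- the trace
  have hconj : ∀ l : L, conj (ρ.character l) = LinearMap.trace ℂ (Fin d → ℂ) (ρ l⁻¹) := by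
    intro l
    rw [← IsCharacter.apply_inv hc]
    rfl
  have hL1 : ∑ n : N, f ((n : G) * g) * conj (ρ.character (koL hNL g x n)) =
      LinearMap.trace ℂ (Fin d → ℂ) (ρ (Triple.cn L g x) * Y * ρ x⁻¹) := by
    simp only [Y, Finset.mul_sum, Finset.sum_mul, mul_smul_comm, smul_mul_assoc, map_sum, map_smul, smul_eq_mul]
    refine Finset.sum_congr rfl fun n _ => ?_
    rw [hconj, ← map_mul, ← map_mul]
    congr 3
    apply Subtype.ext
    show ((x : G) * n * (g * (x : G)⁻¹ * g⁻¹))⁻¹ = (g * (x : G) * g⁻¹) * (n : G)⁻¹ * (x : G)⁻¹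
    group
  have hR1 : ∑ n : N, f ((n : G) * g) * conj (ρ.character ⟨n, hNL n.2⟩) = LinearMap.trace ℂ (Fin d → ℂ) Y := by
    simp only [Y, map_sum, map_smul, smul_eq_mul]
    refine Finset.sum_congr rfl fun n _ => ?_
    rw [hconj]
    rfl
  rw [hL1, hR1, hYx x, mul_assoc, ← map_mul, mul_inv_cancel, map_one, mul_one]

end Collapse

section Lift

variable {X : Type u} [Group X] [Finite X] {p : ℕ} [hp : Fact p.Prime]

/-- Two `p'`-elements congruent modulo a normal `p`-subgroup are conjugate by this subgroup. -/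
theorem ko_conj_of_pgroup (P : Subgroup X) [hP : P.Normal] (hPp : IsPGroup p P) {a b : X} (ha : ¬ p ∣ orderOf a)
    (hb : ¬ p ∣ orderOf b) (hab : b * a⁻¹ ∈ P) : ∃ y ∈ P, b = y * a * y⁻¹ := by
  classical
  have hpp : p.Prime := hp.out
  have hco : ∀ {c : X}, ¬ p ∣ orderOf c → Nat.Coprime (Nat.card P) (Nat.card (Subgroup.zpowers c)) := by
    intro c hc
    obtain ⟨k, hk⟩ := IsPGroup.iff_card.mp hPp
    rw [hk, Nat.card_zpowers]
    exact Nat.Coprime.pow_left _ ((Nat.Prime.coprime_iff_not_dvd hpp).mpr hc)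
  have hnorm : ∀ c : X, Subgroup.zpowers c ≤ Subgroup.normalizer (P : Set X) := by
    intro c x _
    rw [Subgroup.normalizer_eq_top_iff.mpr hP]
    exact Subgroup.mem_top x
  have hsup : Subgroup.zpowers a ⊔ P = Subgroup.zpowers b ⊔ P := by
    apply le_antisymm
    · rw [sup_le_iff]
      refine ⟨?_, le_sup_right⟩
      rw [Subgroup.zpowers_le]
      have h1 : a = (a * b⁻¹) * b := by group
      rw [h1]
      refine Subgroup.mul_mem _ ?_ ?_
      · apply Subgroup.mem_sup_right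
        have h2 : a * b⁻¹ = (b * a⁻¹)⁻¹ := by group
        rw [h2]
        exact P.inv_mem hab
      · exact Subgroup.mem_sup_left (Subgroup.mem_zpowers b)
    · rw [sup_le_iff]
      refine ⟨?_, le_sup_right⟩
      rw [Subgroup.zpowers_le]
      have h1 : b = (b * a⁻¹) * a := by group
      rw [h1]
      refine Subgroup.mul_mem _ ?_ ?_
      · exact Subgroup.mem_sup_right hab
      · exact Subgroup.mem_sup_left (Subgroup.mem_zpowers a)
  haveI : Group.IsSolvable P := by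
    haveI := hPp.isNilpotent
    infer_instance
  obtain ⟨y, hy, hconj⟩ := Cfsg.Agent.Lib.Basic.schurZassenhaus_conj_rel P (Subgroup.zpowers a) (Subgroup.zpowers b)
    (hnorm a) (hnorm b) (hco ha) (hco hb) hsup (Or.inl inferInstance)
  refine ⟨y, hy, ?_⟩
  have hmem : y * a * y⁻¹ ∈ Subgroup.zpowers b := by
    rw [← hconj]
    exact ⟨a, Subgroup.mem_zpowers a, rfl⟩
  set c := y * a * y⁻¹ with hc
  have h1 : c * b⁻¹ ∈ P := by
    have h2 : c * b⁻¹ = y * (a * y⁻¹ * a⁻¹) * (b * a⁻¹)⁻¹ := by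
      rw [hc]
      group
    rw [h2]
    exact P.mul_mem (P.mul_mem hy (hP.conj_mem _ (P.inv_mem hy) a)) (P.inv_mem hab)
  have h2 : c * b⁻¹ ∈ Subgroup.zpowers b := Subgroup.mul_mem _ hmem (Subgroup.inv_mem _ (Subgroup.mem_zpowers b))
  have h3 : c * b⁻¹ = 1 := by
    have h4 := hPp ⟨_, h1⟩
    obtain ⟨k, hk⟩ := h4
    have h5 : (c * b⁻¹) ^ p ^ k = 1 := congrArg Subtype.val hk
    obtain ⟨i, hi⟩ := Subgroup.mem_zpowers_iff.mp h2
    have h6 : (c * b⁻¹) ^ orderOf b = 1 := by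
      rw [← hi, ← zpow_natCast, ← zpow_mul, mul_comm, zpow_mul, zpow_natCast, pow_orderOf_eq_one, one_zpow]
    have h7 : orderOf (c * b⁻¹) ∣ Nat.gcd (p ^ k) (orderOf b) :=
      Nat.dvd_gcd (orderOf_dvd_of_pow_eq_one h5) (orderOf_dvd_of_pow_eq_one h6)
    have h8 : Nat.gcd (p ^ k) (orderOf b) = 1 :=
      Nat.Coprime.pow_left _ ((Nat.Prime.coprime_iff_not_dvd hpp).mpr hb)
    rw [h8, Nat.dvd_one, orderOf_eq_one_iff] at h7
    exact h7
  exact (mul_inv_eq_one.mp h3).symm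

variable {G : Type u} [Group G] [Finite G] {N L : Subgroup G} [hN : N.Normal] [hL : L.Normal]

theorem ko_pow_mem {b : ℕ} (hNL : N ≤ L) (hidx : N.relIndex L = p ^ b) {l : G} (hl : l ∈ L) : l ^ p ^ b ∈ N := by
  have h1 : ((⟨l, hl⟩ : L) : L ⧸ N.subgroupOf L) ^ Nat.card (L ⧸ N.subgroupOf L) = 1 := pow_card_eq_one'
  have h2 : Nat.card (L ⧸ N.subgroupOf L) = p ^ b := by
    rw [← Subgroup.index_eq_card]
    exact hidx
  rw [h2, ← QuotientGroup.mk_pow, QuotientGroup.eq_one_iff] at h1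
  exact h1

theorem ko_lift {b : ℕ} (hNL : N ≤ L) (hidx : N.relIndex L = p ^ b) {g l : G} (hg : ¬ p ∣ orderOf g) (hl : l ∈ L)
    (hlg : ¬ p ∣ orderOf (l * g)) : ∃ x ∈ L, ∃ n ∈ N, l * g = x * (n * g) * x⁻¹ := by
  classical
  let π := QuotientGroup.mk' N
  let P : Subgroup (G ⧸ N) := L.map π
  haveI hPn : P.Normal := Subgroup.Normal.map hL _ (QuotientGroup.mk'_surjective N)
  have hPp : IsPGroup p P := by
    rintro ⟨y, l', hl', rfl⟩
    refine ⟨b, Subtype.ext ?_⟩
    show π l' ^ p ^ b = 1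
    rw [← map_pow]
    exact (QuotientGroup.eq_one_iff _).mpr (ko_pow_mem hNL hidx hl')
  have hnd : ∀ {z : G}, ¬ p ∣ orderOf z → ¬ p ∣ orderOf (π z) := fun {z} hz h =>
    hz (h.trans (orderOf_map_dvd π z))
  obtain ⟨y, hy, hyb⟩ := ko_conj_of_pgroup P hPp (hnd hg) (hnd hlg)
    (by
      rw [map_mul, mul_inv_cancel_right]
      exact ⟨l, hl, rfl⟩)
  obtain ⟨x, hx, rfl⟩ := hy
  have h1 : π (l * g) = π (x * g * x⁻¹) := by
    rw [hyb]
    simp only [map_mul, map_inv]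
  have h2 : (x * g * x⁻¹)⁻¹ * (l * g) ∈ N := QuotientGroup.eq.mp h1.symm
  set n₀ := (x * g * x⁻¹)⁻¹ * (l * g) with hn₀
  refine ⟨x, hx, g * (x⁻¹ * n₀ * x) * g⁻¹, hN.conj_mem _ (by simpa using hN.conj_mem' n₀ h2 x) g, ?_⟩
  rw [hn₀]
  group

end Lift

section FU

variable {G : Type u} [Group G] [Fintype G]

/-- The sum `∑_{χ ∈ U} χ(1) χ`. -/
noncomputable def fU (U : Finset (IrrCharacter G)) (x : G) : ℂ := ∑ χ ∈ U, (χ : G → ℂ) 1 * (χ : G → ℂ) x

theorem fU_class (U : Finset (IrrCharacter G)) : IsClassFunction G (fU U) := by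
  intro g h
  simp only [fU]
  refine Finset.sum_congr rfl fun χ _ => ?_
  rw [IsCharacter.isClassFunction (IsIrrCharacter.isCharacter χ.2) g h]

theorem fU_inner {V U : Finset (IrrCharacter G)} (hVU : V ⊆ U) :
    ∑ x, fU V x * conj (fU U x) = (Nat.card G : ℂ) * fU V 1 := by
  classical
  have h : ∀ x, fU V x * conj (fU U x) =
      ∑ χ ∈ V, ∑ ψ ∈ U, ((χ : G → ℂ) 1 * conj ((ψ : G → ℂ) 1)) * ((χ : G → ℂ) x * conj ((ψ : G → ℂ) x)) := by
    intro x
    simp only [fU, map_sum, map_mul]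
    rw [Finset.sum_mul_sum]
    refine Finset.sum_congr rfl fun χ _ => Finset.sum_congr rfl fun ψ _ => ?_
    ring
  simp_rw [h]
  rw [Finset.sum_comm]
  simp only [fU, Finset.mul_sum]
  refine Finset.sum_congr rfl fun χ hχ => ?_
  rw [Finset.sum_comm]
  rw [Finset.sum_eq_single χ]
  · have h1 : ∑ x, (χ : G → ℂ) x * conj ((χ : G → ℂ) x) = (Nat.card G : ℂ) := by
      have h2 := classInner_irr_self χ.2
      unfold classInner at h2
      have hc : (Nat.card G : ℂ) ≠ 0 := NeZero.ne _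
      field_simp at h2
      exact h2
    have h3 : conj ((χ : G → ℂ) 1) = (χ : G → ℂ) 1 := by
      rw [apply_one_eq_charDegree (IsIrrCharacter.isCharacter χ.2)]
      simp
    rw [← Finset.mul_sum, h1, h3]
    ring
  · intro ψ _ hne
    have h1 : ∑ x, (χ : G → ℂ) x * conj ((ψ : G → ℂ) x) = 0 := by
      have h2 := classInner_irr_of_ne χ.2 ψ.2 (fun h => hne (Subtype.ext h.symm))
      unfold classInner at h2
      have hc : (Nat.card G : ℂ) ≠ 0 := NeZero.ne _
      field_simp at h2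
      simpa using h2
    rw [← Finset.mul_sum, h1, mul_zero]
  · intro h
    exact absurd (hVU hχ) h

theorem fU_one_pos {U : Finset (IrrCharacter G)} (hU : U.Nonempty) : fU U 1 ≠ 0 := by
  simp only [fU]
  have h1 : ∀ χ ∈ U, (χ : G → ℂ) 1 * (χ : G → ℂ) 1 = ((charDegree (χ : G → ℂ) * charDegree (χ : G → ℂ) : ℕ) : ℂ) := by
    intro χ _
    rw [apply_one_eq_charDegree (IsIrrCharacter.isCharacter χ.2)]
    push_cast
    ring
  rw [Finset.sum_congr rfl h1, ← Nat.cast_sum]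
  have h2 : 0 < ∑ χ ∈ U, charDegree (χ : G → ℂ) * charDegree (χ : G → ℂ) :=
    Finset.sum_pos (fun χ _ => Nat.mul_pos (charDegree_pos χ.2) (charDegree_pos χ.2)) hU
  exact_mod_cast h2.ne'

end FU
section Count

variable {G : Type u} [Group G] [Fintype G] {N L : Subgroup G} [hN : N.Normal] [hL : L.Normal] [Fintype N] [Fintype L]

/-- The number of elements of `L` fixing the coset `N g` under conjugation. -/
noncomputable def koC (N : Subgroup G) (L : Subgroup G) [Fintype L] (g : G) : ℕ :=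
  open scoped Classical in (Finset.univ.filter fun c : L => (c : G)⁻¹ * g * c * g⁻¹ ∈ N).card

theorem koC_pos (g : G) : 0 < koC N L g := by
  classical
  unfold koC
  rw [Finset.card_pos]
  refine ⟨1, ?_⟩
  simp

theorem koC_le (g : G) : koC N L g ≤ Nat.card L := by
  classical
  unfold koC
  rw [Nat.card_eq_fintype_card]
  exact Finset.card_le_univ _

theorem koC_one : koC N L 1 = Nat.card L := by
  classical
  unfold koC
  rw [Nat.card_eq_fintype_card, Finset.filter_true_of_mem]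
  · rfl
  · intro c _
    simp [N.one_mem]

theorem koC_eq_card_imp {g : G} (h : koC N L g = Nat.card L) (x : G) (hx : x ∈ L) : x * g * x⁻¹ * g⁻¹ ∈ N := by
  classical
  unfold koC at h
  rw [Nat.card_eq_fintype_card] at h
  have h1 := Finset.eq_univ_of_card _ h
  have h2 : (⟨x⁻¹, L.inv_mem hx⟩ : L) ∈ (Finset.univ.filter fun c : L => (c : G)⁻¹ * g * c * g⁻¹ ∈ N) := by
    rw [h1]
    exact Finset.mem_univ _
  simpa using (Finset.mem_filter.mp h2).2

/-- Double counting of the elements `koL g x n`. -/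
theorem ko_double (hNL : N ≤ L) (g : G) (H : L → ℂ) (hH : ∀ l : L, H l ≠ 0 → ∃ x n, l = koL hNL g x n) :
    ∑ x : L, ∑ n : N, H (koL hNL g x n) = (koC N L g : ℂ) * ∑ l : L, H l := by
  classical
  rw [← Fintype.sum_prod_type' (f := fun x n => H (koL hNL g x n))]
  rw [← Finset.sum_fiberwise Finset.univ (fun q : L × N => koL hNL g q.1 q.2)]
  rw [Finset.mul_sum]
  refine Finset.sum_congr rfl fun l _ => ?_
  have h1 : ∑ q ∈ Finset.univ.filter (fun q : L × N => koL hNL g q.1 q.2 = l), H (koL hNL g q.1 q.2) =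
      ((Finset.univ.filter (fun q : L × N => koL hNL g q.1 q.2 = l)).card : ℂ) * H l := by
    rw [Finset.sum_congr rfl (g := fun _ => H l)]
    · rw [Finset.sum_const, nsmul_eq_mul]
    · intro q hq
      rw [(Finset.mem_filter.mp hq).2]
  rw [h1]
  by_cases hl : H l = 0
  · rw [hl, mul_zero, mul_zero]
  obtain ⟨x₀, n₀, rfl⟩ := hH l hl
  congr 2
  -- the fibre is parametrised by the stabilizer of the coset
  unfold koC
  have hmem : ∀ c : L, (c : G)⁻¹ * g * c * g⁻¹ ∈ N → (c : G)⁻¹ * (n₀ * g) * c * g⁻¹ ∈ N := by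
    intro c hc
    have h2 : (c : G)⁻¹ * (n₀ * g) * c * g⁻¹ = ((c : G)⁻¹ * n₀ * c) * ((c : G)⁻¹ * g * c * g⁻¹) := by group
    rw [h2]
    refine N.mul_mem ?_ hc
    simpa using hN.conj_mem' _ n₀.2 c
  symm
  refine Finset.card_bij' (i := fun c _ => (x₀ * c, (⟨(c : G)⁻¹ * (n₀ * g) * c * g⁻¹, hmem c (by
      simp only [Finset.mem_filter, Finset.mem_univ, true_and] at *
      assumption)⟩ : N))) (j := fun q _ => x₀⁻¹ * q.1) ?_ ?_ ?_ ?_
  · intro c hc
    simp only [Finset.mem_filter, Finset.mem_univ, true_and]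
    apply Subtype.ext
    rw [koL_coe, koL_coe]
    simp only [Subgroup.coe_mul]
    group
  · rintro ⟨x, n⟩ hq
    simp only [Finset.mem_filter, Finset.mem_univ, true_and] at hq ⊢
    have h2 := congrArg Subtype.val hq
    rw [koL_coe, koL_coe] at h2
    have h3 : ((x₀⁻¹ * x : L) : G)⁻¹ * g * (x₀⁻¹ * x : L) * g⁻¹ =
        ((x : G)⁻¹ * x₀ * (n₀ : G)⁻¹ * (x₀ : G)⁻¹ * x) * ((x : G)⁻¹ * x₀ * n₀ * g * (x₀ : G)⁻¹ * x * g⁻¹) := by
      simp only [Subgroup.coe_mul, Subgroup.coe_inv]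
      group
    rw [h3]
    have h4 : (x : G)⁻¹ * x₀ * n₀ * g * (x₀ : G)⁻¹ * x * g⁻¹ = n := by
      have h5 : (x₀ : G) * n₀ * (g * (x₀ : G)⁻¹ * g⁻¹) = (x : G) * n * (g * (x : G)⁻¹ * g⁻¹) := h2.symm
      have h6 : (x₀ : G) * n₀ * g * (x₀ : G)⁻¹ = (x : G) * n * g * (x : G)⁻¹ := by
        have h7 := congrArg (· * g) h5
        calc (x₀ : G) * n₀ * g * (x₀ : G)⁻¹ = (x₀ : G) * n₀ * (g * (x₀ : G)⁻¹ * g⁻¹) * g := by group
          _ = (x : G) * n * (g * (x : G)⁻¹ * g⁻¹) * g := h7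
          _ = _ := by group
      calc (x : G)⁻¹ * x₀ * n₀ * g * (x₀ : G)⁻¹ * x * g⁻¹ = (x : G)⁻¹ * ((x₀ : G) * n₀ * g * (x₀ : G)⁻¹) * x * g⁻¹ := by group
        _ = (x : G)⁻¹ * ((x : G) * n * g * (x : G)⁻¹) * x * g⁻¹ := by rw [h6]
        _ = n := by group
    rw [h4]
    refine N.mul_mem ?_ n.2
    have h8 := hN.conj_mem _ (N.inv_mem n₀.2) ((x : G)⁻¹ * x₀)
    have h9 : (x : G)⁻¹ * x₀ * (n₀ : G)⁻¹ * (x₀ : G)⁻¹ * x = (x : G)⁻¹ * x₀ * (n₀ : G)⁻¹ * ((x : G)⁻¹ * x₀)⁻¹ := by group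
    rw [h9]
    exact h8
  · intro c hc
    simp
  · rintro ⟨x, n⟩ hq
    simp only [Finset.mem_filter, Finset.mem_univ, true_and] at hq
    have h2 := congrArg Subtype.val hq
    rw [koL_coe, koL_coe] at h2
    apply Prod.ext
    · simp
    · apply Subtype.ext
      show ((x₀⁻¹ * x : L) : G)⁻¹ * (n₀ * g) * ((x₀⁻¹ * x : L) : G) * g⁻¹ = n
      have h5 : (x₀ : G) * n₀ * (g * (x₀ : G)⁻¹ * g⁻¹) = (x : G) * n * (g * (x : G)⁻¹ * g⁻¹) := h2.symm
      have h6 : (x₀ : G) * n₀ * g * (x₀ : G)⁻¹ = (x : G) * n * g * (x : G)⁻¹ := by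
        have h7 := congrArg (· * g) h5
        calc (x₀ : G) * n₀ * g * (x₀ : G)⁻¹ = (x₀ : G) * n₀ * (g * (x₀ : G)⁻¹ * g⁻¹) * g := by group
          _ = (x : G) * n * (g * (x : G)⁻¹ * g⁻¹) * g := h7
          _ = _ := by group
      simp only [Subgroup.coe_mul, Subgroup.coe_inv]
      calc ((x₀ : G)⁻¹ * x)⁻¹ * (n₀ * g) * ((x₀ : G)⁻¹ * x) * g⁻¹
          = (x : G)⁻¹ * ((x₀ : G) * n₀ * g * (x₀ : G)⁻¹) * x * g⁻¹ := by group
        _ = (x : G)⁻¹ * ((x : G) * n * g * (x : G)⁻¹) * x * g⁻¹ := by rw [h6]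
        _ = n := by group

end Count
section Main

variable {G : Type u} [Group G] [Fintype G] {N L : Subgroup G} [hN : N.Normal] [hL : L.Normal] [Fintype N] [Fintype L]
  {p : ℕ} [hp : Fact p.Prime]

theorem ko_pointwise (hNL : N ≤ L) {b : ℕ} (hidx : N.relIndex L = p ^ b)
    {θ : N → ℂ} (hθ : IsIrrCharacter N θ) (hinv : ∀ g : G, conjFun N g θ = θ)
    {τ : L → ℂ} (hτ : IsIrrCharacter L τ) (hτN : ∀ n : N, τ ⟨n, hNL n.2⟩ = θ n) (hτinv : ∀ g : G, conjFun L g τ = τ)
    (U : Finset (IrrCharacter G)) (hover : ∀ χ ∈ U, classInner (resFun N (χ : G → ℂ)) θ ≠ 0)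
    (hval : ∀ x : G, p ∣ orderOf x → fU U x = 0)
    (V : Finset (IrrCharacter G)) (hV : ∀ χ, χ ∈ V ↔ χ ∈ U ∧ classInner (resFun L (χ : G → ℂ)) τ ≠ 0)
    {g : G} (hg : ¬ p ∣ orderOf g) :
    (koC N L g : ℂ) * fU V g = (Nat.card N : ℂ) * fU U g := by
  classical
  have hτ1 : τ 1 = θ 1 := hτN 1
  have hθ1 : θ 1 ≠ 0 := IsIrrCharacter.apply_one_ne_zero hθ
  have hLc : (Nat.card L : ℂ) ≠ 0 := NeZero.ne _
  -- the sum over `L`
  have hA : ∑ l : L, conj (τ l) * fU U ((l : G) * g) = (Nat.card L : ℂ) / θ 1 * fU V g := by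
    simp only [fU, Finset.mul_sum]
    rw [Finset.sum_comm]
    have hV' : V = U.filter (fun χ : IrrCharacter G => classInner (resFun L (χ : G → ℂ)) τ ≠ 0) := by
      ext χ
      rw [hV, Finset.mem_filter]
    rw [hV', Finset.sum_filter]
    refine Finset.sum_congr rfl fun χ _ => ?_
    have h1 : ∑ l : L, conj (τ l) * ((χ : G → ℂ) 1 * (χ : G → ℂ) ((l : G) * g)) =
        (χ : G → ℂ) 1 * ∑ l : L, conj (τ l) * (χ : G → ℂ) ((l : G) * g) := by
      rw [Finset.mul_sum]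
      refine Finset.sum_congr rfl fun l _ => ?_
      ring
    rw [h1]
    by_cases hc : classInner (resFun L (χ : G → ℂ)) τ ≠ 0
    · rw [if_pos hc, ko_sum_over L hτ hτinv χ.2 hc g, hτ1]
      ring
    · rw [if_neg hc, ko_sum_not_over L hτinv χ.2 (not_not.mp hc) g, mul_zero]
  -- the sum over `N`
  have hNs : ∑ n : N, conj (θ n) * fU U ((n : G) * g) = (Nat.card N : ℂ) / θ 1 * fU U g := by
    simp only [fU, Finset.mul_sum]
    rw [Finset.sum_comm]
    refine Finset.sum_congr rfl fun χ hχ => ?_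
    have h1 : ∑ n : N, conj (θ n) * ((χ : G → ℂ) 1 * (χ : G → ℂ) ((n : G) * g)) =
        (χ : G → ℂ) 1 * ∑ n : N, conj (θ n) * (χ : G → ℂ) ((n : G) * g) := by
      rw [Finset.mul_sum]
      refine Finset.sum_congr rfl fun l _ => ?_
      ring
    rw [h1, ko_sum_over N hθ hinv χ.2 (hover χ hχ) g]
    ring
  -- double counting
  let H : L → ℂ := fun l => fU U ((l : G) * g) * conj (τ l)
  have hH : ∀ l : L, H l ≠ 0 → ∃ x n, l = koL hNL g x n := by
    intro l hl
    have h1 : ¬ p ∣ orderOf ((l : G) * g) := by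
      intro hd
      apply hl
      simp only [H]
      rw [hval _ hd, zero_mul]
    obtain ⟨x, hx, n, hn, hxn⟩ := ko_lift hNL hidx hg l.2 h1
    refine ⟨⟨x, hx⟩, ⟨n, hn⟩, Subtype.ext ?_⟩
    apply mul_right_cancel (b := g)
    rw [koL_mul]
    exact hxn
  have hd := ko_double hNL g H hH
  have hcoll : ∀ x : L, ∑ n : N, H (koL hNL g x n) = (Nat.card N : ℂ) / θ 1 * fU U g := by
    intro x
    have h1 : ∀ n : N, H (koL hNL g x n) = fU U ((n : G) * g) * conj (τ (koL hNL g x n)) := by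
      intro n
      simp only [H]
      rw [koL_mul]
      congr 1
      exact fU_class U _ _
    simp only [h1]
    have hθ' : IsIrrCharacter N (fun n : N => τ ⟨n, hNL n.2⟩) := by
      have h2 : (fun n : N => τ ⟨n, hNL n.2⟩) = θ := funext hτN
      rw [h2]
      exact hθ
    rw [ko_collapse hNL hτ hθ' hτinv (fU_class U) g x, ← hNs]
    refine Finset.sum_congr rfl fun n _ => ?_
    rw [hτN, mul_comm]
  simp only [hcoll, Finset.sum_const, Finset.card_univ, nsmul_eq_mul] at hd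
  have hHs : ∑ l : L, H l = (Nat.card L : ℂ) / θ 1 * fU V g := by
    rw [← hA]
    refine Finset.sum_congr rfl fun l _ => ?_
    simp only [H]
    ring
  rw [hHs, ← Nat.card_eq_fintype_card] at hd
  field_simp at hd
  linear_combination -hd

theorem ko_vanish (hNL : N ≤ L) {b : ℕ} (hidx : N.relIndex L = p ^ b)
    {θ : N → ℂ} (hθ : IsIrrCharacter N θ) (hinv : ∀ g : G, conjFun N g θ = θ)
    {τ : L → ℂ} (hτ : IsIrrCharacter L τ) (hτN : ∀ n : N, τ ⟨n, hNL n.2⟩ = θ n) (hτinv : ∀ g : G, conjFun L g τ = τ)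
    (U : Finset (IrrCharacter G)) (hover : ∀ χ ∈ U, classInner (resFun N (χ : G → ℂ)) θ ≠ 0)
    (hval : ∀ x : G, p ∣ orderOf x → fU U x = 0)
    (hHH : ∀ g : G, (∀ x ∈ L, x * g * x⁻¹ * g⁻¹ ∈ N) → g ∈ L) (g : G) (hg : g ∉ N) : fU U g = 0 := by
  classical
  have hpp : p.Prime := hp.out
  set V : Finset (IrrCharacter G) := U.filter (fun χ : IrrCharacter G => classInner (resFun L (χ : G → ℂ)) τ ≠ 0) with hVdef
  have hVU : V ⊆ U := Finset.filter_subset _ _
  have hpw : ∀ {y : G}, ¬ p ∣ orderOf y → (koC N L y : ℂ) * fU V y = (Nat.card N : ℂ) * fU U y := fun {y} hy =>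
    ko_pointwise hNL hidx hθ hinv hτ hτN hτinv U hover hval V (fun χ => by rw [hVdef, Finset.mem_filter]) hy
  have h1 := fU_inner hVU
  have h2 := fU_inner (Finset.Subset.refl U)
  have h3 : (Nat.card L : ℂ) * fU V 1 = (Nat.card N : ℂ) * fU U 1 := by
    have h4 := hpw (y := 1) (by simpa using hpp.one_lt.ne')
    rwa [koC_one] at h4
  have hNc : (Nat.card N : ℂ) ≠ 0 := NeZero.ne _
  have hLc : (Nat.card L : ℂ) ≠ 0 := NeZero.ne _
  have hk : ∀ y : G, (koC N L y : ℂ) ≠ 0 := fun y => by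
    exact_mod_cast (koC_pos (N := N) (L := L) y).ne'
  -- the pointwise identity, multiplied by `conj f`
  have h5 : ∀ y : G, fU V y * conj (fU U y) =
      ((Nat.card N : ℂ) / (koC N L y : ℂ)) * (fU U y * conj (fU U y)) := by
    intro y
    by_cases hy : fU U y = 0
    · rw [hy]
      simp
    · have hy' : ¬ p ∣ orderOf y := fun h => hy (hval y h)
      have h6 := hpw hy'
      have h7 := hk y
      field_simp
      linear_combination (conj (fU U y)) * h6
  simp_rw [h5] at h1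
  -- passing to real numbers
  let a : G → ℝ := fun y => Complex.normSq (fU U y)
  have ha : ∀ y, fU U y * conj (fU U y) = (a y : ℂ) := fun y => Complex.mul_conj _
  have hanon : ∀ y, 0 ≤ a y := fun y => Complex.normSq_nonneg _
  let w : G → ℝ := fun y => ((Nat.card N : ℝ) / (koC N L y : ℝ) - (Nat.card N : ℝ) / (Nat.card L : ℝ)) * a y
  have hLr : (0 : ℝ) < Nat.card L := by exact_mod_cast Nat.card_pos
  have hNr : (0 : ℝ) < Nat.card N := by exact_mod_cast Nat.card_pos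
  have hkr : ∀ y, (0 : ℝ) < koC N L y := fun y => by exact_mod_cast koC_pos (N := N) (L := L) y
  have hwnon : ∀ y, 0 ≤ w y := by
    intro y
    apply mul_nonneg _ (hanon y)
    have h6 : (koC N L y : ℝ) ≤ Nat.card L := by exact_mod_cast koC_le (N := N) (L := L) y
    rw [sub_nonneg]
    exact div_le_div_of_nonneg_left hNr.le (hkr y) h6
  have hwsum : ∑ y, w y = 0 := by
    have h6 : ((∑ y, w y : ℝ) : ℂ) = 0 := by
      simp only [w]
      push_cast
      simp only [sub_mul, Finset.sum_sub_distrib]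
      have e1 : ∑ y, ((Nat.card N : ℂ) / (koC N L y : ℂ)) * (a y : ℂ) = (Nat.card G : ℂ) * fU V 1 := by
        rw [← h1]
        refine Finset.sum_congr rfl fun y _ => ?_
        rw [ha]
      have e2 : ∑ y, ((Nat.card N : ℂ) / (Nat.card L : ℂ)) * (a y : ℂ) =
          ((Nat.card N : ℂ) / (Nat.card L : ℂ)) * ((Nat.card G : ℂ) * fU U 1) := by
        rw [← h2, Finset.mul_sum]
        refine Finset.sum_congr rfl fun y _ => ?_
        rw [ha]
      rw [e1, e2]
      field_simp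
      linear_combination (Nat.card G : ℂ) * h3
    exact_mod_cast h6
  have hw0 := (Finset.sum_eq_zero_iff_of_nonneg (fun y _ => hwnon y)).mp hwsum g (Finset.mem_univ g)
  by_contra hfg
  have hag : 0 < a g := Complex.normSq_pos.mpr hfg
  have h6 : (Nat.card N : ℝ) / (koC N L g : ℝ) - (Nat.card N : ℝ) / (Nat.card L : ℝ) = 0 :=
    (mul_eq_zero.mp hw0).resolve_right hag.ne'
  have h7 : koC N L g = Nat.card L := by
    rw [sub_eq_zero] at h6
    have h8 := hkr g
    field_simp at h6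
    exact_mod_cast h6.symm
  have hgL : g ∈ L := hHH g (fun x hx => koC_eq_card_imp h7 x hx)
  have hgp : ¬ p ∣ orderOf g := fun h => hfg (hval g h)
  apply hg
  have h8 := ko_pow_mem hNL hidx hgL
  have hcop : Nat.Coprime (p ^ b) (orderOf g) :=
    Nat.Coprime.pow_left _ ((Nat.Prime.coprime_iff_not_dvd hpp).mpr hgp)
  have hbez := Nat.gcd_eq_gcd_ab (p ^ b) (orderOf g)
  rw [hcop] at hbez
  have h9 : g = (g ^ p ^ b) ^ (Nat.gcdA (p ^ b) (orderOf g)) := by
    rw [← zpow_natCast, ← zpow_mul]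
    have h10 : g ^ ((orderOf g : ℤ) * Nat.gcdB (p ^ b) (orderOf g)) = 1 := by
      rw [zpow_mul, zpow_natCast, pow_orderOf_eq_one, one_zpow]
    calc g = g ^ ((1 : ℕ) : ℤ) := by simp
      _ = g ^ (((p ^ b : ℕ) : ℤ) * Nat.gcdA (p ^ b) (orderOf g) + (orderOf g : ℤ) * Nat.gcdB (p ^ b) (orderOf g)) := by
          rw [hbez]
      _ = _ := by rw [zpow_add, h10, mul_one]
  rw [h9]
  exact N.zpow_mem h8 _

/-- **The main lemma.** -/
theorem ko_main (hNL : N ≤ L) {b : ℕ} (hidx : N.relIndex L = p ^ b) (hcop : Nat.Coprime (Nat.card N) p)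
    {θ : N → ℂ} (hθ : IsIrrCharacter N θ) (hinv : ∀ g : G, conjFun N g θ = θ)
    (U : Finset (IrrCharacter G)) (hUne : U.Nonempty) (hover : ∀ χ ∈ U, classInner (resFun N (χ : G → ℂ)) θ ≠ 0)
    (hval : ∀ x : G, p ∣ orderOf x → fU U x = 0)
    (hHH : ∀ g : G, (∀ x ∈ L, x * g * x⁻¹ * g⁻¹ ∈ N) → g ∈ L)
    (χ' : IrrCharacter G) (hχ' : classInner (resFun N (χ' : G → ℂ)) θ ≠ 0) : χ' ∈ U := by
  classical
  obtain ⟨τ, hτ, hτN, hτinv⟩ := ko_exists_inv_ext N L hNL hidx hcop hθ hinv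
  have hvan := ko_vanish hNL hidx hθ hinv hτ hτN hτinv U hover hval hHH
  by_contra hnot
  have hGc : (Nat.card G : ℂ) ≠ 0 := NeZero.ne _
  have hNc : (Nat.card N : ℂ) ≠ 0 := NeZero.ne _
  -- orthogonality
  have h1 : ∑ x, fU U x * conj ((χ' : G → ℂ) x) = 0 := by
    simp only [fU, Finset.sum_mul]
    rw [Finset.sum_comm]
    refine Finset.sum_eq_zero fun χ hχ => ?_
    have h2 : χ ≠ χ' := fun h => hnot (h ▸ hχ)
    have h3 := classInner_irr_of_ne χ.2 χ'.2 (fun h => h2 (Subtype.ext h))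
    unfold classInner at h3
    have h4 : ∑ x, (χ : G → ℂ) x * conj ((χ' : G → ℂ) x) = 0 := by
      field_simp at h3
      simpa using h3
    have h5 : ∑ x, (χ : G → ℂ) 1 * (χ : G → ℂ) x * conj ((χ' : G → ℂ) x) =
        (χ : G → ℂ) 1 * ∑ x, (χ : G → ℂ) x * conj ((χ' : G → ℂ) x) := by
      rw [Finset.mul_sum]
      refine Finset.sum_congr rfl fun x _ => ?_
      ring
    rw [h5, h4, mul_zero]
  -- reduction to `N`
  have h2 : ∑ x, fU U x * conj ((χ' : G → ℂ) x) = ∑ n : N, fU U n * conj ((χ' : G → ℂ) n) := by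
    rw [← sum_dite_mem N (fun n => fU U n * conj ((χ' : G → ℂ) n))]
    refine Finset.sum_congr rfl fun x _ => ?_
    by_cases hx : x ∈ N
    · rw [dif_pos hx]
    · rw [dif_neg hx, hvan x hx, zero_mul]
  set A : ℂ := ∑ χ ∈ U, (χ : G → ℂ) 1 * classInner (resFun N (χ : G → ℂ)) θ with hA
  have h3 : ∀ n : N, fU U n = A * θ n := by
    intro n
    simp only [fU, hA, Finset.sum_mul]
    refine Finset.sum_congr rfl fun χ hχ => ?_
    rw [ko_res N hθ hinv χ.2 (hover χ hχ) n]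
    ring
  have h4 : ∀ n : N, (χ' : G → ℂ) n = classInner (resFun N (χ' : G → ℂ)) θ * θ n :=
    ko_res N hθ hinv χ'.2 hχ'
  have h5 : ∑ n : N, θ n * conj (θ n) = (Nat.card N : ℂ) := by
    have h6 := classInner_irr_self hθ
    unfold classInner at h6
    field_simp at h6
    exact h6
  have h6 : ∑ n : N, fU U n * conj ((χ' : G → ℂ) n) =
      A * conj (classInner (resFun N (χ' : G → ℂ)) θ) * (Nat.card N : ℂ) := by
    rw [← h5, Finset.mul_sum]
    refine Finset.sum_congr rfl fun n _ => ?_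
    rw [h3, h4, map_mul]
    ring
  rw [h2, h6] at h1
  have h7 : A * conj (classInner (resFun N (χ' : G → ℂ)) θ) = 0 := by
    exact (mul_eq_zero.mp h1).resolve_right hNc
  have h8 : A = 0 := by
    refine (mul_eq_zero.mp h7).resolve_right ?_
    simpa using hχ'
  have h9 := h3 1
  rw [h8, zero_mul] at h9
  exact fU_one_pos hUne (by simpa using h9)

end Main

section Induct

theorem ko_singular {G : Type u} [Group G] [Finite G] {N : Subgroup G} [hN : N.Normal] {p : ℕ} (hpp : p.Prime)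
    (hcop : Nat.Coprime (Nat.card N) p) {n x : G} (hn : n ∈ N) (h : p ∣ orderOf x) : p ∣ orderOf (n * x) := by
  by_contra hm
  set m := orderOf (n * x) with hmdef
  have h1 : (n * x) ^ m = 1 := pow_orderOf_eq_one _
  have h2 : x ^ m ∈ N := by
    rw [← QuotientGroup.eq_one_iff]
    have h3 : ((n * x : G) : G ⧸ N) = (x : G ⧸ N) := by
      rw [QuotientGroup.mk_mul, (QuotientGroup.eq_one_iff n).mpr hn, one_mul]
    have h4 : (((n * x) ^ m : G) : G ⧸ N) = 1 := by rw [h1]; rfl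
    rw [QuotientGroup.mk_pow, h3] at h4
    rw [QuotientGroup.mk_pow]
    exact h4
  have h3 : (x ^ m) ^ Nat.card N = 1 := by
    have := pow_card_eq_one' (x := (⟨x ^ m, h2⟩ : N))
    exact congrArg Subtype.val this
  rw [← pow_mul] at h3
  have h4 : orderOf x ∣ m * Nat.card N := orderOf_dvd_of_pow_eq_one h3
  have h5 : p ∣ m * Nat.card N := h.trans h4
  rcases hpp.dvd_mul.mp h5 with h6 | h6
  · exact hm h6
  · have h7 := Nat.dvd_gcd h6 (dvd_refl p)
    rw [hcop] at h7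
    exact hpp.one_lt.ne' (Nat.dvd_one.mp h7)

theorem ko_hHH {G : Type u} [Group G] [Finite G] {p : ℕ} [hp : Fact p.Prime] (hsolv : IsPSolvable p G) (g : G)
    (h : ∀ x ∈ pPrimePCore p G, x * g * x⁻¹ * g⁻¹ ∈ pPrimeCore p G) : g ∈ pPrimePCore p G := by
  haveI hKn : (pPrimeCore p G).Normal := Cfsg.Agent.Lib.Basic.pPrimeCore_normal p
  have hsolv' : IsPSolvable p (G ⧸ pPrimeCore p G) :=
    Cfsg.Agent.Lib.Coprime.isPSolvable_map (QuotientGroup.mk' _) (QuotientGroup.mk'_surjective _) hsolv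
  have hbot : pPrimeCore p (G ⧸ pPrimeCore p G) = ⊥ := Cfsg.Agent.Lib.Basic.pPrimeCore_quotient_eq_bot p
  have hc := Cfsg.Agent.Lib.Char.centralizer_pCore_le_of_isPSolvable hsolv' hbot
  show QuotientGroup.mk' (pPrimeCore p G) g ∈ pCore p (G ⧸ pPrimeCore p G)
  apply hc
  rw [Subgroup.mem_centralizer_iff]
  intro y hy
  obtain ⟨x, rfl⟩ := QuotientGroup.mk'_surjective (pPrimeCore p G) y
  have hx : x ∈ pPrimePCore p G := hy
  have h1 := h x hx
  have h2 : (QuotientGroup.mk' (pPrimeCore p G)) (x * g * x⁻¹ * g⁻¹) = 1 := (QuotientGroup.eq_one_iff _).mpr h1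
  simp only [map_mul, map_inv] at h2
  have h3 : QuotientGroup.mk' (pPrimeCore p G) x * QuotientGroup.mk' (pPrimeCore p G) g =
      QuotientGroup.mk' (pPrimeCore p G) g * QuotientGroup.mk' (pPrimeCore p G) x := by
    have h4 := mul_inv_eq_one.mp h2
    exact mul_inv_eq_iff_eq_mul.mp h4
  exact h3

variable {G : Type u} [Group G] [Fintype G]

theorem ko_sum_fU (K : Subgroup G) [hK : K.Normal] [Fintype K] {τ : K → ℂ} (hτ : IsIrrCharacter K τ)
    (hinv : ∀ g : G, conjFun K g τ = τ) (U : Finset (IrrCharacter G)) (u : G) :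
    ∑ k : K, conj (τ k) * fU U ((k : G) * u) = (Nat.card K : ℂ) / τ 1 *
      fU (U.filter fun χ : IrrCharacter G => classInner (resFun K (χ : G → ℂ)) τ ≠ 0) u := by
  classical
  simp only [fU, Finset.mul_sum]
  rw [Finset.sum_comm, Finset.sum_filter]
  refine Finset.sum_congr rfl fun χ _ => ?_
  have h1 : ∑ l : K, conj (τ l) * ((χ : G → ℂ) 1 * (χ : G → ℂ) ((l : G) * u)) =
      (χ : G → ℂ) 1 * ∑ l : K, conj (τ l) * (χ : G → ℂ) ((l : G) * u) := by
    rw [Finset.mul_sum]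
    refine Finset.sum_congr rfl fun l _ => ?_
    ring
  rw [h1]
  by_cases hc : classInner (resFun K (χ : G → ℂ)) τ ≠ 0
  · rw [if_pos hc, ko_sum_over K hτ hinv χ.2 hc u]
    ring
  · rw [if_neg hc, ko_sum_not_over K hinv χ.2 (not_not.mp hc) u, mul_zero]

variable (N : Subgroup G) [hN : N.Normal] [Fintype N] {T : Subgroup G} [Fintype T] (hNT : N ≤ T)

theorem ko_T_sum {θ : N → ℂ} (hθ : IsIrrCharacter N θ) (hinvT : ∀ g : T, conjFun N (g : G) θ = θ)
    {ψ : T → ℂ} (hψ : IsIrrCharacter T ψ) (x : T) :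
    ∑ n : N, conj (θ n) * ψ (⟨n, hNT n.2⟩ * x) =
      if classInner (resTN N hNT ψ) θ ≠ 0 then (Nat.card N : ℂ) / θ 1 * ψ x else 0 := by
  classical
  let N' : Subgroup T := N.subgroupOf T
  haveI : N'.Normal := Subgroup.normal_subgroupOf
  let _ : Fintype N' := Fintype.ofFinite N'
  let e : N' ≃* N := Subgroup.subgroupOfEquivOfLe hNT
  have hres : resFun N' ψ = resTN N hNT ψ ∘ e := rfl
  have hθ' : IsIrrCharacter N' (θ ∘ e) := isIrrCharacter_comp_mulEquiv e hθ
  have hinner : classInner (resFun N' ψ) (θ ∘ e) = classInner (resTN N hNT ψ) θ := by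
    rw [hres]
    exact classInner_comp_mulEquiv e _ _
  have hinv' : ∀ g : T, conjFun N' g (θ ∘ e) = θ ∘ e := by
    intro g
    funext n
    have h1 := congrFun (hinvT g) (e n)
    simp only [conjFun_apply, Function.comp_apply] at h1 ⊢
    rw [← h1]
    rfl
  have h1 : ∑ n : N, conj (θ n) * ψ (⟨n, hNT n.2⟩ * x) = ∑ n' : N', conj ((θ ∘ e) n') * ψ ((n' : T) * x) := by
    rw [← e.toEquiv.sum_comp]
    rfl
  have hcard : Nat.card N' = Nat.card N := Nat.card_congr e.toEquiv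
  have hone : (θ ∘ e) 1 = θ 1 := by simp
  rw [h1]
  split_ifs with h
  · rw [← hinner] at h
    rw [ko_sum_over N' hθ' hinv' hψ h x, hcard, hone]
  · rw [← hinner] at h
    exact ko_sum_not_over N' hinv' hψ (not_not.mp h) x

theorem ko_G_sum {θ : N → ℂ} (hθ : IsIrrCharacter N θ) (hinvT : ∀ g : T, conjFun N (g : G) θ = θ)
    (hI : ∀ g, conjFun N g θ = θ → g ∈ T) (χ : IrrCharacter G) (x : T) :
    ∑ n : N, conj (θ n) * (χ : G → ℂ) ((n : G) * (x : G)) =
      (Nat.card N : ℂ) / θ 1 * ∑ ψ : IrrCharacter T,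
        if classInner (resTN N hNT (ψ : T → ℂ)) θ ≠ 0 ∧ (χ : G → ℂ) = indFun T (ψ : T → ℂ) then (ψ : T → ℂ) x else 0 := by
  classical
  have hχc : IsClassFunction G (χ : G → ℂ) := IsCharacter.isClassFunction (IsIrrCharacter.isCharacter χ.2)
  have hres : IsClassFunction T (fun t : T => (χ : G → ℂ) t) := by
    intro a b
    have := hχc (a : G) (b : G)
    simpa using this
  have hdec := classFunction_eq_sum (fun t : T => (χ : G → ℂ) t) hres
  have h1 : ∀ n : N, (χ : G → ℂ) ((n : G) * (x : G)) =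
      ∑ ψ : IrrCharacter T, classInner (fun t : T => (χ : G → ℂ) t) (ψ : T → ℂ) * (ψ : T → ℂ) (⟨n, hNT n.2⟩ * x) := by
    intro n
    have h2 := congrFun hdec (⟨n, hNT n.2⟩ * x)
    simpa [Finset.sum_apply] using h2
  simp only [h1, Finset.mul_sum]
  rw [Finset.sum_comm]
  refine Finset.sum_congr rfl fun ψ _ => ?_
  have h2 : ∑ n : N, conj (θ n) * (classInner (fun t : T => (χ : G → ℂ) t) (ψ : T → ℂ) * (ψ : T → ℂ) (⟨n, hNT n.2⟩ * x)) =
      classInner (fun t : T => (χ : G → ℂ) t) (ψ : T → ℂ) * ∑ n : N, conj (θ n) * (ψ : T → ℂ) (⟨n, hNT n.2⟩ * x) := by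
    rw [Finset.mul_sum]
    refine Finset.sum_congr rfl fun n _ => ?_
    ring
  rw [h2, ko_T_sum N hNT hθ hinvT ψ.2 x]
  by_cases hov : classInner (resTN N hNT (ψ : T → ℂ)) θ ≠ 0
  · have hirr := fr_irr N hNT ψ.2 hθ hI hov
    have h3 : classInner (fun t : T => (χ : G → ℂ) t) (ψ : T → ℂ) = if (χ : G → ℂ) = indFun T (ψ : T → ℂ) then 1 else 0 := by
      rw [← classInner_indFun_right T _ _ hχc, classInner_irr χ.2 hirr]
    rw [if_pos hov, h3]
    by_cases he : (χ : G → ℂ) = indFun T (ψ : T → ℂ)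
    · rw [if_pos he, if_pos ⟨hov, he⟩, one_mul]
    · rw [if_neg he, if_neg (fun h => he h.2), zero_mul, mul_zero]
  · rw [if_neg hov, if_neg (fun h => hov h.1), mul_zero, mul_zero]

/-- The set of characters of `T` over `θ` inducing a member of `U`. -/
noncomputable def koUT (θ : N → ℂ) (U : Finset (IrrCharacter G)) : Finset (IrrCharacter T) := by
  classical
  exact Finset.univ.filter fun ψ : IrrCharacter T =>
    classInner (resTN N hNT (ψ : T → ℂ)) θ ≠ 0 ∧ ∃ χ ∈ U, (χ : G → ℂ) = indFun T (ψ : T → ℂ)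

theorem mem_koUT {θ : N → ℂ} {U : Finset (IrrCharacter G)} {ψ : IrrCharacter T} :
    ψ ∈ koUT N hNT θ U ↔ classInner (resTN N hNT (ψ : T → ℂ)) θ ≠ 0 ∧ ∃ χ ∈ U, (χ : G → ℂ) = indFun T (ψ : T → ℂ) := by
  classical
  simp [koUT]

theorem ko_fU_T {θ : N → ℂ} (hθ : IsIrrCharacter N θ) (hinvT : ∀ g : T, conjFun N (g : G) θ = θ)
    (hI : ∀ g, conjFun N g θ = θ → g ∈ T) (U : Finset (IrrCharacter G)) (x : T) :
    ∑ n : N, conj (θ n) * fU U ((n : G) * (x : G)) =
      (Nat.card N : ℂ) / θ 1 * (T.index : ℂ) * fU (koUT N hNT θ U) x := by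
  classical
  have hL : ∑ n : N, conj (θ n) * fU U ((n : G) * (x : G)) =
      ∑ χ ∈ U, (χ : G → ℂ) 1 * ∑ n : N, conj (θ n) * (χ : G → ℂ) ((n : G) * (x : G)) := by
    simp only [fU, Finset.mul_sum]
    rw [Finset.sum_comm]
    refine Finset.sum_congr rfl fun χ _ => Finset.sum_congr rfl fun n _ => ?_
    ring
  rw [hL]
  simp only [ko_G_sum N hNT hθ hinvT hI]
  have hswap : ∑ χ ∈ U, ((χ : G → ℂ) 1 * ((Nat.card N : ℂ) / θ 1 * ∑ ψ : IrrCharacter T,
        if classInner (resTN N hNT (ψ : T → ℂ)) θ ≠ 0 ∧ (χ : G → ℂ) = indFun T (ψ : T → ℂ) then (ψ : T → ℂ) x else 0)) =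
      (Nat.card N : ℂ) / θ 1 * ∑ ψ : IrrCharacter T, ∑ χ ∈ U, (χ : G → ℂ) 1 *
        if classInner (resTN N hNT (ψ : T → ℂ)) θ ≠ 0 ∧ (χ : G → ℂ) = indFun T (ψ : T → ℂ) then (ψ : T → ℂ) x else 0 := by
    simp only [Finset.mul_sum]
    rw [Finset.sum_comm]
    refine Finset.sum_congr rfl fun χ _ => Finset.sum_congr rfl fun ψ _ => ?_
    ring
  rw [hswap]
  have hterm : ∀ ψ : IrrCharacter T, ∑ χ ∈ U, (χ : G → ℂ) 1 *
        (if classInner (resTN N hNT (ψ : T → ℂ)) θ ≠ 0 ∧ (χ : G → ℂ) = indFun T (ψ : T → ℂ) then (ψ : T → ℂ) x else 0) =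
      if ψ ∈ koUT N hNT θ U then (T.index : ℂ) * ((ψ : T → ℂ) 1 * (ψ : T → ℂ) x) else 0 := by
    intro ψ
    by_cases hψ : ψ ∈ koUT N hNT θ U
    · rw [if_pos hψ]
      obtain ⟨hov, χ₀, hχ₀, he⟩ := (mem_koUT N hNT).mp hψ
      rw [Finset.sum_eq_single χ₀]
      · rw [if_pos ⟨hov, he⟩, he, indFun_one]
        ring
      · intro χ _ hne
        rw [if_neg, mul_zero]
        rintro ⟨-, h⟩
        exact hne (Subtype.ext (h.trans he.symm))
      · intro h
        exact absurd hχ₀ h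
    · rw [if_neg hψ]
      refine Finset.sum_eq_zero fun χ hχ => ?_
      rw [if_neg, mul_zero]
      rintro ⟨hov, h⟩
      exact hψ ((mem_koUT N hNT).mpr ⟨hov, χ, hχ, h⟩)
  simp only [hterm]
  rw [← Finset.sum_filter, Finset.filter_mem_eq_inter, Finset.univ_inter, ← Finset.mul_sum]
  simp only [fU]
  ring

end Induct

section Final

variable {p : ℕ} [hp : Fact p.Prime] {M : Ideal AlgInt}

theorem ko_induct (hM : IsPModular p M) : ∀ (n : ℕ) (G : Type u) [Group G] [Fintype G], Nat.card G = n →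
    IsPSolvable p G → ∀ (U : Finset (IrrCharacter G)), (∀ x : G, p ∣ orderOf x → fU U x = 0) →
    ∀ χ ∈ U, ∀ ψ : IrrCharacter G, SameBlock M (χ : G → ℂ) (ψ : G → ℂ) → ψ ∈ U := by
  intro n
  induction n using Nat.strong_induction_on with
  | _ n ih =>
    intro G _ _ hn hsolv U hU χ hχU ψ hχψ
    classical
    have hpr := Cfsg.Agent.Lib.Blocks.isPrime_of_modular hM
    have hpp : p.Prime := hp.out
    haveI hKn : (pPrimeCore p G).Normal := Cfsg.Agent.Lib.Basic.pPrimeCore_normal p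
    letI : Fintype (pPrimeCore p G) := Fintype.ofFinite _
    obtain ⟨θ, hθ⟩ := Cfsg.Agent.Lib.Blocks.exists_constituent (pPrimeCore p G) χ
    have hcop : Nat.Coprime (Nat.card (pPrimeCore p G)) p := Cfsg.Agent.Lib.Basic.pPrimeCore_coprime (G := G) p
    have hKp : ¬ p ∣ Nat.card (pPrimeCore p G) := by
      intro h2
      have h3 := Nat.dvd_gcd h2 (dvd_refl p)
      rw [Nat.Coprime.gcd_eq_one hcop] at h3
      exact hpp.one_lt.ne' (Nat.dvd_one.mp h3)
    have hb : IsPBlock M ({θ} : Set (IrrCharacter (pPrimeCore p G))) := by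
      have h1 : ¬ p ∣ Nat.card (pPrimeCore p G) / charDegree (θ : pPrimeCore p G → ℂ) :=
        fun h => hKp (h.trans (Nat.div_dvd_of_dvd (charDegree_dvd_card θ.2)))
      have h2 := (Cfsg.Agent.Lib.Blocks.not_dvd_iff_blockOf_singleton hM θ).mp h1
      rw [← h2]
      exact Cfsg.Agent.Lib.Blocks.isPBlock_blockOf θ
    set T : Subgroup G := inertia (pPrimeCore p G) (θ : pPrimeCore p G → ℂ) with hTdef
    have hNT : pPrimeCore p G ≤ T := le_inertia _ (IsCharacter.isClassFunction (IsIrrCharacter.isCharacter θ.2))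
    have hTiff : ∀ x, x ∈ T ↔ ∀ θ' ∈ ({θ} : Set (IrrCharacter (pPrimeCore p G))),
        Cfsg.Agent.Lib.Blocks.conjIrr (pPrimeCore p G) x θ' ∈ ({θ} : Set (IrrCharacter (pPrimeCore p G))) := by
      intro x
      constructor
      · rintro hx θ' rfl
        exact Subtype.ext hx
      · intro h
        have := h θ rfl
        exact congrArg Subtype.val this
    letI : Fintype T := Fintype.ofFinite _
    have hθ1 : (θ : pPrimeCore p G → ℂ) 1 ≠ 0 := IsIrrCharacter.apply_one_ne_zero θ.2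
    have hNc : (Nat.card (pPrimeCore p G) : ℂ) ≠ 0 := NeZero.ne _
    by_cases hTtop : T = ⊤
    · -- the invariant case
      have hinvg : ∀ g : G, conjFun (pPrimeCore p G) g (θ : pPrimeCore p G → ℂ) = θ := by
        intro g
        have hg : g ∈ T := by rw [hTtop]; exact Subgroup.mem_top g
        exact hg
      have hinv : ∀ g : G, Cfsg.Agent.Lib.Blocks.conjIrr (pPrimeCore p G) g θ = θ := fun g => Subtype.ext (hinvg g)
      have hinv' : ∀ (g : G) (n : pPrimeCore p G), (θ : pPrimeCore p G → ℂ) ⟨g * n * g⁻¹, hKn.conj_mem n n.2 g⟩ =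
          (θ : pPrimeCore p G → ℂ) n := by
        intro g m
        have h1 := congrFun (congrArg Subtype.val (hinv g⁻¹)) m
        simp only [Cfsg.Agent.Lib.Blocks.conjIrr_coe, Cfsg.Agent.Lib.Char.conjFun_apply] at h1
        rw [← h1]
        refine congrArg _ (Subtype.ext ?_)
        simp
      obtain ⟨B₁, hB₁, hmem, -, -⟩ := Cfsg.Agent.Lib.Blocks.fong_pSolvable (M := M) hM hsolv (pPrimeCore p G) rfl θ hinv'
      have hχ₁ : χ ∈ B₁ := (hmem χ).mpr hθ
      have hψ₁ : ψ ∈ B₁ := by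
        rw [Cfsg.Agent.Lib.Blocks.blockOf_eq_of_mem hB₁ hχ₁]
        exact hχψ
      have hψo : classInner (resFun (pPrimeCore p G) (ψ : G → ℂ)) (θ : pPrimeCore p G → ℂ) ≠ 0 := (hmem ψ).mp hψ₁
      set U₀ : Finset (IrrCharacter G) := U.filter
        (fun χ : IrrCharacter G => classInner (resFun (pPrimeCore p G) (χ : G → ℂ)) (θ : pPrimeCore p G → ℂ) ≠ 0) with hU₀
      have hval₀ : ∀ x : G, p ∣ orderOf x → fU U₀ x = 0 := by
        intro x hx
        have h1 := ko_sum_fU (pPrimeCore p G) θ.2 hinvg U x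
        have h2 : ∑ k : pPrimeCore p G, conj ((θ : pPrimeCore p G → ℂ) k) * fU U ((k : G) * x) = 0 :=
          Finset.sum_eq_zero fun k _ => by rw [hU _ (ko_singular hpp hcop k.2 hx), mul_zero]
        rw [h2] at h1
        have h3 : (Nat.card (pPrimeCore p G) : ℂ) / (θ : pPrimeCore p G → ℂ) 1 ≠ 0 := div_ne_zero hNc hθ1
        exact (mul_eq_zero.mp h1.symm).resolve_left h3
      haveI hLn : (pPrimePCore p G).Normal := by
        rw [pPrimePCore]
        exact Subgroup.Normal.comap (Cfsg.Agent.Lib.Basic.pCore_normal p) _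
      letI : Fintype (pPrimePCore p G) := Fintype.ofFinite _
      obtain ⟨k, hk⟩ := Cfsg.Agent.Lib.Blocks.relIndex_pPrimeCore (p := p) (G := G)
      have hχ₀ : χ ∈ U₀ := Finset.mem_filter.mpr ⟨hχU, hθ⟩
      have key := ko_main Cfsg.Agent.Lib.Blocks.pPrimeCore_le_pPrimePCore hk hcop θ.2 hinvg U₀ ⟨χ, hχ₀⟩
        (fun χ' h => (Finset.mem_filter.mp h).2) hval₀ (ko_hHH hsolv) ψ hψo
      exact (Finset.mem_filter.mp key).1
    · -- the reduction
      have hcard : Nat.card T < n := by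
        rw [← hn, ← Subgroup.card_mul_index T]
        have h1 : T.index ≠ 1 := fun h => hTtop (Subgroup.index_eq_one.mp h)
        have h2 : T.index ≠ 0 := Subgroup.index_ne_zero_of_finite
        have h3 : 1 < T.index := by omega
        have h4 : 0 < Nat.card T := Nat.card_pos
        nlinarith
      have hB : IsPBlock M (blockOf M (χ : G → ℂ)) := Cfsg.Agent.Lib.Blocks.isPBlock_blockOf χ
      have hχB : χ ∈ blockOf M (χ : G → ℂ) := Cfsg.Agent.Lib.Blocks.self_mem_blockOf χ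
      have hψB : ψ ∈ blockOf M (χ : G → ℂ) := hχψ
      obtain ⟨B', hB', hcov', hind⟩ := fr_surj (pPrimeCore p G) hNT hb hTiff hB ⟨χ, hχB, θ, rfl, hθ⟩
      obtain ⟨C, hC, -, hirr, hmem⟩ := fr_main (pPrimeCore p G) hNT hb hTiff hB' hcov'
      have e := Cfsg.Agent.Lib.Blocks.IsInducedBlock.unique T hC hind
      rw [e] at hmem
      obtain ⟨χ', hχ', hχχ'⟩ := (hmem χ).mp hχB
      obtain ⟨ψ', hψ', hψψ'⟩ := (hmem ψ).mp hψB
      have hinvT : ∀ g : T, conjFun (pPrimeCore p G) (g : G) (θ : pPrimeCore p G → ℂ) = θ := fun g => g.2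
      have hI : ∀ g, conjFun (pPrimeCore p G) g (θ : pPrimeCore p G → ℂ) = θ → g ∈ T := fun g h => h
      have hvalT : ∀ x : T, p ∣ orderOf x → fU (koUT (pPrimeCore p G) hNT (θ : pPrimeCore p G → ℂ) U) x = 0 := by
        intro x hx
        have hx' : p ∣ orderOf (x : G) := by rwa [Subgroup.orderOf_coe]
        have h1 := ko_fU_T (pPrimeCore p G) hNT θ.2 hinvT hI U x
        have h2 : ∑ k : pPrimeCore p G, conj ((θ : pPrimeCore p G → ℂ) k) * fU U ((k : G) * (x : G)) = 0 :=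
          Finset.sum_eq_zero fun k _ => by rw [hU _ (ko_singular hpp hcop k.2 hx'), mul_zero]
        rw [h2] at h1
        have h3 : (Nat.card (pPrimeCore p G) : ℂ) / (θ : pPrimeCore p G → ℂ) 1 * (T.index : ℂ) ≠ 0 := by
          refine mul_ne_zero (div_ne_zero hNc hθ1) ?_
          exact_mod_cast (Subgroup.index_ne_zero_of_finite (H := T))
        exact (mul_eq_zero.mp h1.symm).resolve_left h3
      have hχ'U : χ' ∈ koUT (pPrimeCore p G) hNT (θ : pPrimeCore p G → ℂ) U := by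
        obtain ⟨θ', hθ', hθ'c⟩ := exists_over_of_covering (pPrimeCore p G) hNT hb hTiff hB' hcov' hχ'
        have hθθ' : θ' = θ := hθ'
        rw [hθθ'] at hθ'c
        exact (mem_koUT _ hNT).mpr ⟨hθ'c, χ, hχU, hχχ'⟩
      have hih := ih _ hcard T rfl (isPSolvable_subgroup hsolv T) _ hvalT χ' hχ'U ψ'
        (Cfsg.Agent.Lib.Blocks.sameBlock_of_mem hB' hχ' hψ')
      obtain ⟨-, χ'', hχ'', he⟩ := (mem_koUT _ hNT).mp hih
      have hψχ'' : ψ = χ'' := Subtype.ext (hψψ'.trans he.symm)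
      rw [hψχ'']
      exact hχ''

/-- **Kiyota--Okuyama.** -/
theorem ko_final {G : Type u} [Group G] [Finite G] (hM : IsPModular p M) (hsolv : IsPSolvable p G)
    (U : Set (IrrCharacter G))
    (hU : ∀ x : G, p ∣ orderOf x → ∑ᶠ χ ∈ U, (χ : G → ℂ) 1 * (χ : G → ℂ) x = 0)
    (χ : IrrCharacter G) (hχ : χ ∈ U) (ψ : IrrCharacter G)
    (hψ : SameBlock M (χ : G → ℂ) (ψ : G → ℂ)) : ψ ∈ U := by
  classical
  cases nonempty_fintype G
  have hfin : U.Finite := Set.toFinite U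
  have key := ko_induct hM _ G rfl hsolv hfin.toFinset (fun x hx => ?_) χ (hfin.mem_toFinset.mpr hχ) ψ hψ
  · exact hfin.mem_toFinset.mp key
  · have h1 := hU x hx
    rw [finsum_mem_eq_finite_toFinset_sum _ hfin] at h1
    exact h1

end Final

end Cfsg.Agent.Lib.Char.KO
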