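import Cfsg.Agent.Lib.Char.Exceptional
import Cfsg.Agent.Lib.Char.Constituent
import Cfsg.Agent.Lib.Char.Coherent

/-! # Sylow subgroups with all non-identity centralizers equal: the induction formula. -/

set_option autoImplicit false

namespace Cfsg.Agent.Lib.Char.Leo

open Cfsg Module
open scoped ComplexConjugate

universe u

variable {G : Type u} [Group G]

/-- The group theory of the situation: `P` central in `Y`, `N` normalizes both, and a retraction
`r : Y → P`. -/
structure Data (P Y N : Subgroup G) where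
  hPY : P ≤ Y
  hYN : Y ≤ N
  hcomm : ∀ y ∈ Y, ∀ z ∈ P, y * z = z * y
  hYnorm : ∀ n ∈ N, ∀ y ∈ Y, n * y * n⁻¹ ∈ Y
  hPnorm : ∀ n ∈ N, ∀ z ∈ P, n * z * n⁻¹ ∈ P
  r : Y →* P
  hr : ∀ z : P, r ⟨z, hPY z.2⟩ = z
  hrN : ∀ (n : N) (y : Y), ((r ⟨n * y * n⁻¹, hYnorm n n.2 y y.2⟩ : P) : G) = n * (r y : G) * n⁻¹
  hTI : ∀ (y : Y) (g : G), r y ≠ 1 → g * y * g⁻¹ ∈ Y → g ∈ N
  hfree : ∀ n ∈ N, n ∉ Y → ∀ w ∈ P, ∃ z ∈ P, w = z⁻¹ * (n⁻¹ * z * n)

namespace Data

variable {P Y N : Subgroup G} (D : Data P Y N)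

include D in
theorem conj_mem_Y (n : N) (y : Y) : ((n : G))⁻¹ * y * n ∈ Y := by
  have := D.hYnorm _ (N.inv_mem n.2) y y.2
  simpa using this

include D in
theorem conj_mem_P (n : N) (z : P) : ((n : G))⁻¹ * z * n ∈ P := by
  have := D.hPnorm _ (N.inv_mem n.2) z z.2
  simpa using this

/-- Conjugation on `Y`. -/
def cY (n : N) : Y ≃* Y where
  toFun y := ⟨(n : G)⁻¹ * y * n, D.conj_mem_Y n y⟩
  invFun y := ⟨n * y * (n : G)⁻¹, D.hYnorm n n.2 y y.2⟩
  left_inv y := by ext; simp [mul_assoc]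
  right_inv y := by ext; simp [mul_assoc]
  map_mul' a b := by ext; simp [mul_assoc]

/-- Conjugation on `P`. -/
def cP (n : N) : P ≃* P where
  toFun y := ⟨(n : G)⁻¹ * y * n, D.conj_mem_P n y⟩
  invFun y := ⟨n * y * (n : G)⁻¹, D.hPnorm n n.2 y y.2⟩
  left_inv y := by ext; simp [mul_assoc]
  right_inv y := by ext; simp [mul_assoc]
  map_mul' a b := by ext; simp [mul_assoc]

@[simp] theorem cY_coe (n : N) (y : Y) : ((D.cY n y : Y) : G) = (n : G)⁻¹ * y * n := rfl

@[simp] theorem cP_coe (n : N) (y : P) : ((D.cP n y : P) : G) = (n : G)⁻¹ * y * n := rfl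

theorem cY_mul (a b : N) (y : Y) : D.cY (a * b) y = D.cY b (D.cY a y) := by
  ext
  simp [mul_assoc]

theorem cP_mul (a b : N) (y : P) : D.cP (a * b) y = D.cP b (D.cP a y) := by
  ext
  simp [mul_assoc]

theorem cY_one (y : Y) : D.cY 1 y = y := by
  ext
  simp

theorem cP_one (y : P) : D.cP 1 y = y := by
  ext
  simp

/-- The inclusion of `P` in `Y`. -/
def incl (z : P) : Y := ⟨z, D.hPY z.2⟩

@[simp] theorem incl_coe (z : P) : ((D.incl z : Y) : G) = z := rfl

theorem r_incl (z : P) : D.r (D.incl z) = z := D.hr z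

theorem r_cY (n : N) (y : Y) : D.r (D.cY n y) = D.cP n (D.r y) := by
  ext
  have h := D.hrN n⁻¹ y
  simp only [InvMemClass.coe_inv, inv_inv] at h
  rw [cP_coe, ← h]
  rfl

theorem cY_incl (n : N) (z : P) : D.cY n (D.incl z) = D.incl (D.cP n z) := rfl

include D in
/-- `P` is abelian. -/
theorem P_comm (a b : P) : a * b = b * a := by
  ext
  exact D.hcomm _ (D.hPY a.2) _ b.2

/-- Elements of `Y` act trivially on `P`. -/
theorem cP_of_mem (d : N) (hd : (d : G) ∈ Y) (z : P) : D.cP d z = z := by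
  ext
  have := D.hcomm _ hd _ z.2
  simp only [cP_coe]
  rw [mul_assoc, ← this]
  simp

/-- The induction formula. -/
theorem classInner_ind [Fintype G] [Fintype Y] [Fintype N] (f f' : Y → ℂ)
    (hf : ∀ y, D.r y = 1 → f y = 0) :
    classInner (indFun Y f) (indFun Y f') =
      (Nat.card Y : ℂ)⁻¹ * ∑ n : N, classInner f (f' ∘ D.cY n) := by
  classical
  rw [classInner_indFun_left Y f _ (isClassFunction_indFun Y f')]
  have key : ∀ y : Y, f y * conj (indFun Y f' y) =
      (Nat.card Y : ℂ)⁻¹ * ∑ n : N, f y * conj ((f' ∘ D.cY n) y) := by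
    intro y
    by_cases hy : D.r y = 1
    · simp [hf y hy]
    · have h1 : indFun Y f' y = (Nat.card Y : ℂ)⁻¹ * ∑ n : N, (f' ∘ D.cY n) y := by
        rw [indFun_apply]
        congr 1
        have h2 : ∑ x : G, extendByZero Y f' (x⁻¹ * y * x) =
            ∑ x ∈ Finset.univ.filter (· ∈ N), extendByZero Y f' (x⁻¹ * y * x) := by
          refine (Finset.sum_filter_of_ne fun x _ hx => ?_).symm
          by_contra hxN
          apply hx
          apply extendByZero_of_notMem
          intro hmem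
          apply hxN
          have := D.hTI y x⁻¹ hy (by simpa using hmem)
          simpa using this
        rw [h2, Finset.sum_subtype (p := (· ∈ N)) (Finset.univ.filter (· ∈ N)) (by simp) _]
        refine Finset.sum_congr rfl fun n _ => ?_
        rw [extendByZero_of_mem Y f' (D.conj_mem_Y n y)]
        rfl
      rw [h1, map_mul, map_inv₀, map_natCast, map_sum, Finset.mul_sum, Finset.mul_sum, Finset.mul_sum]
      refine Finset.sum_congr rfl fun n _ => ?_
      ring
  simp only [classInner, Function.comp_apply] at key ⊢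
  simp only [key, Finset.mul_sum]
  rw [Finset.sum_comm]

/-- Induction does not see conjugation by `N`. -/
theorem indFun_comp_cY [Fintype G] (f : Y → ℂ) (n : N) : indFun Y (f ∘ D.cY n) = indFun Y f := by
  classical
  funext g
  rw [indFun_apply, indFun_apply]
  congr 1
  have h : ∀ w : G, extendByZero Y (f ∘ D.cY n) w = extendByZero Y f ((n : G)⁻¹ * w * n) := by
    intro w
    by_cases hw : w ∈ Y
    · rw [extendByZero_of_mem Y _ hw, extendByZero_of_mem Y f (D.conj_mem_Y n ⟨w, hw⟩)]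
      rfl
    · rw [extendByZero_of_notMem Y _ hw, extendByZero_of_notMem Y f]
      intro hmem
      apply hw
      have := D.hYnorm n n.2 _ hmem
      simpa [mul_assoc] using this
  simp only [h]
  refine Fintype.sum_equiv (Equiv.mulRight (n : G)) _ _ fun x => ?_
  simp only [Equiv.coe_mulRight]
  congr 1
  group

include D in
/-- Counting in fibres of a map constant on cosets of `Y`. -/
theorem card_fiber {X : Type*} [Fintype N] [Fintype Y] [DecidableEq X] (F : N → X)
    (hF : ∀ a b : N, F a = F b ↔ (a : G)⁻¹ * b ∈ Y) (a : N) :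
    (Finset.univ.filter (fun b => F b = F a)).card = Nat.card Y := by
  classical
  rw [Nat.card_eq_fintype_card, ← Finset.card_univ (α := Y)]
  symm
  refine Finset.card_bij (fun y _ => a * ⟨y, D.hYN y.2⟩) ?_ ?_ ?_
  · intro y _
    simp only [Finset.mem_filter, Finset.mem_univ, true_and]
    symm
    rw [hF]
    simp
  · intro y _ y' _ h
    have := mul_left_cancel h
    ext
    simpa using congrArg (fun x : N => (x : G)) this
  · intro b hb
    simp only [Finset.mem_filter, Finset.mem_univ, true_and] at hb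
    have := (hF a b).mp hb.symm
    refine ⟨⟨_, this⟩, Finset.mem_univ _, ?_⟩
    ext
    simp

include D in
/-- The size of the image of a map constant exactly on cosets of `Y`. -/
theorem card_image_mul {X : Type*} [Fintype N] [Fintype Y] [DecidableEq X] (F : N → X)
    (hF : ∀ a b : N, F a = F b ↔ (a : G)⁻¹ * b ∈ Y) :
    (Finset.univ.image F).card * Nat.card Y = Nat.card N := by
  classical
  rw [Nat.card_eq_fintype_card (α := N), ← Finset.card_univ (α := N),
    Finset.card_eq_sum_card_image F Finset.univ]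
  rw [Finset.sum_congr rfl (g := fun _ => Nat.card Y)]
  · simp
  · intro x hx
    obtain ⟨a, -, rfl⟩ := Finset.mem_image.mp hx
    exact D.card_fiber F hF a

/-- The sum of the twisted inner products of irreducible characters. -/
theorem S_of_rel [Fintype Y] [Fintype N] {ν ν' : Y → ℂ} (hν : IsIrrCharacter Y ν)
    (hν' : IsIrrCharacter Y ν')
    (hstab : ∀ a b : N, ν' ∘ D.cY a = ν' ∘ D.cY b ↔ (a : G)⁻¹ * b ∈ Y) (n₀ : N)
    (hn₀ : ν = ν' ∘ D.cY n₀) :
    (Nat.card Y : ℂ)⁻¹ * ∑ n : N, classInner ν (ν' ∘ D.cY n) = 1 := by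
  classical
  have h1 : ∀ n : N, classInner ν (ν' ∘ D.cY n) = if ν' ∘ D.cY n = ν' ∘ D.cY n₀ then 1 else 0 := by
    intro n
    have hirr : IsIrrCharacter Y (ν' ∘ D.cY n) := isIrrCharacter_comp_mulEquiv (D.cY n) hν'
    split_ifs with h
    · rw [h, ← hn₀]
      exact classInner_irr_self hν
    · apply classInner_irr_of_ne hν hirr
      rw [hn₀]
      exact fun h2 => h h2.symm
  simp only [h1]
  rw [Finset.sum_boole, D.card_fiber _ hstab n₀]
  have : (Nat.card Y : ℂ) ≠ 0 := by exact_mod_cast Nat.card_pos.ne'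
  field_simp

theorem S_of_not_rel [Fintype Y] [Fintype N] {ν ν' : Y → ℂ} (hν : IsIrrCharacter Y ν)
    (hν' : IsIrrCharacter Y ν') (h : ∀ n : N, ν ≠ ν' ∘ D.cY n) :
    (Nat.card Y : ℂ)⁻¹ * ∑ n : N, classInner ν (ν' ∘ D.cY n) = 0 := by
  have h1 : ∀ n : N, classInner ν (ν' ∘ D.cY n) = 0 := fun n =>
    classInner_irr_of_ne hν (isIrrCharacter_comp_mulEquiv (D.cY n) hν') (h n)
  simp [h1]

/-- The sum when the second function is invariant. -/
theorem S_of_invariant [Fintype Y] [Fintype N] (f k : Y → ℂ) (hk : ∀ n : N, k ∘ D.cY n = k) :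
    (Nat.card Y : ℂ)⁻¹ * ∑ n : N, classInner f (k ∘ D.cY n) =
      ((Nat.card N / Nat.card Y : ℕ) : ℂ) * classInner f k := by
  simp only [hk, Finset.sum_const, Finset.card_univ, nsmul_eq_mul]
  have hdvd : Nat.card Y ∣ Nat.card N := Subgroup.card_dvd_of_le D.hYN
  have h0 : (Nat.card Y : ℂ) ≠ 0 := by exact_mod_cast Nat.card_pos.ne'
  rw [Nat.cast_div hdvd h0, ← Nat.card_eq_fintype_card]
  ring

end Data

end Cfsg.Agent.Lib.Char.Leo
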