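import Cfsg.Agent.Lib.Char.Leo9

/-! # Faithful characters of small degree force a normal Sylow subgroup. -/

set_option autoImplicit false

namespace Cfsg.Agent.Lib.Char.Leo

open Cfsg Module
open scoped ComplexConjugate

universe u

variable {G : Type u} [Group G]

/-- A Sylow subgroup is normal if the group has a faithful character of small degree. -/
theorem normal_of_faithful {G : Type u} [Group G] [Finite G] (p : ℕ) (hp : p.Prime) (hpG : p ∣ Nat.card G)
    (P : Sylow p G)
    (hstar : ∀ x ∈ (P : Subgroup G), x ≠ 1 → Subgroup.centralizer ({x} : Set G) =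
      Subgroup.centralizer ((P : Subgroup G) : Set G))
    (n : ℕ) (hn : Nat.card P = p ^ n) (χ : G → ℂ) (hχ : IsCharacter G χ)
    (hfaith : ∀ g : G, χ g = χ 1 → g = 1) (hdeg : charDegree χ ^ 2 + 1 < p ^ n) :
    (P : Subgroup G).Normal := by
  classical
  letI : Fintype G := Fintype.ofFinite G
  haveI : Fact p.Prime := ⟨hp⟩
  have hne : (P : Subgroup G) ≠ ⊥ := P.ne_bot_of_dvd_card hpG
  let K : Subgroup G := Subgroup.normalClosure ((P : Subgroup G) : Set G)
  haveI hKn : K.Normal := Subgroup.normalClosure_normal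
  have hPK : (P : Subgroup G) ≤ K := Subgroup.le_normalClosure
  letI : Fintype K := Fintype.ofFinite K
  let P' : Sylow p K := P.subtype hPK
  have hP'coe : ∀ x : K, x ∈ (P' : Subgroup K) ↔ (x : G) ∈ (P : Subgroup G) := fun x => Iff.rfl
  have hstar' : ∀ x ∈ (P' : Subgroup K), x ≠ 1 → Subgroup.centralizer ({x} : Set K) =
      Subgroup.centralizer ((P' : Subgroup K) : Set K) := by
    intro x hx hx1
    have hx1' : (x : G) ≠ 1 := fun h => hx1 (Subtype.ext h)
    have h0 := hstar x hx hx1'
    ext y
    rw [Subgroup.mem_centralizer_singleton_iff, Subgroup.mem_centralizer_iff]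
    have h1 : (y : G) ∈ Subgroup.centralizer ({(x : G)} : Set G) ↔ (y : G) * x = x * y :=
      Subgroup.mem_centralizer_singleton_iff
    constructor
    · intro hy z hz
      have h2 : (y : G) ∈ Subgroup.centralizer ((P : Subgroup G) : Set G) := by
        rw [← h0]
        exact h1.mpr (congrArg Subtype.val hy)
      exact Subtype.ext (Subgroup.mem_centralizer_iff.mp h2 z hz)
    · intro hy
      have h2 : (y : G) ∈ Subgroup.centralizer ((P : Subgroup G) : Set G) := by
        rw [Subgroup.mem_centralizer_iff]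
        intro z hz
        have := hy ⟨z, hPK hz⟩ hz
        exact congrArg Subtype.val this
      rw [← h0] at h2
      exact Subtype.ext (h1.mp h2)
  have hn' : Nat.card P' = p ^ n := by
    rw [← hn]
    exact Nat.card_congr (Subgroup.subgroupOfEquivOfLe hPK).toEquiv
  have hn0 : n ≠ 0 := by
    rintro rfl
    apply hne
    rw [pow_zero] at hn
    exact Subgroup.card_eq_one.mp hn
  have hpK : p ∣ Nat.card K := by
    have h1 : p ∣ Nat.card P' := by
      rw [hn']
      exact dvd_pow_self p hn0
    exact h1.trans (Subgroup.card_subgroup_dvd_card _)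
  -- no proper normal subgroup of `K` contains `P`
  have hnon : ¬ ∃ K₀ : Subgroup K, K₀.Normal ∧ K₀ ≠ ⊤ ∧ (P' : Subgroup K) ≤ K₀ := by
    rintro ⟨K₀, hK₀, hK₀top, hle⟩
    apply hK₀top
    -- the Frattini argument
    have hfr := Sylow.normalizer_sup_eq_top' P hPK
    have hmem : ∀ g : G, ∃ k ∈ K, ∃ m ∈ Subgroup.normalizer ((P : Subgroup G) : Set G), g = k * m := by
      intro g
      have h1 : g⁻¹ ∈ Subgroup.normalizer ((P : Subgroup G) : Set G) ⊔ K := by
        have h2 : g⁻¹ ∈ (⊤ : Subgroup G) := Subgroup.mem_top _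
        rw [← hfr] at h2
        exact h2
      rw [Subgroup.mem_sup_of_normal_right] at h1
      obtain ⟨m, hm, k, hk, h⟩ := h1
      refine ⟨k⁻¹, K.inv_mem hk, m⁻¹, Subgroup.inv_mem _ hm, ?_⟩
      rw [← mul_inv_rev, h, inv_inv]
    let L : Subgroup G := K₀.map K.subtype
    have hPL : (P : Subgroup G) ≤ L.normalCore := by
      intro z hz
      change ∀ g : G, g * z * g⁻¹ ∈ L
      intro g
      obtain ⟨k, hk, m, hm, rfl⟩ := hmem g
      have h1 : m * z * m⁻¹ ∈ (P : Subgroup G) := (Subgroup.mem_normalizer_iff.mp hm z).mp hz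
      have h2 : (⟨m * z * m⁻¹, hPK h1⟩ : K) ∈ K₀ := hle h1
      have h3 := hK₀.conj_mem _ h2 ⟨k, hk⟩
      refine ⟨_, h3, ?_⟩
      simp only [Subgroup.coe_subtype, Subgroup.coe_mul, InvMemClass.coe_inv]
      group
    have hKL : K ≤ L.normalCore := Subgroup.normalClosure_le_normal hPL
    ext x
    simp only [Subgroup.mem_top, iff_true]
    obtain ⟨y, hy, hyx⟩ := L.normalCore_le (hKL x.2)
    have : y = x := Subtype.ext hyx
    rwa [← this]
  -- all constituents are linear
  have hχK : IsCharacter K (fun y : K => χ y) := IsCharacter.comp hχ K.subtype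
  have hlin : ∀ θ : IrrCharacter K, classInner (fun y : K => χ y) (θ : K → ℂ) ≠ 0 → (θ : K → ℂ) 1 = 1 := by
    intro θ hθ
    by_cases hθ1 : (θ : K → ℂ) = fun _ => 1
    · rw [hθ1]
    · have hle := IsCharacter.degree_ge_of_classInner_ne_zero hχK θ.2 hθ
      have hdegθ : charDegree (θ : K → ℂ) ^ 2 + 1 < p ^ n := by
        have h1 : charDegree (θ : K → ℂ) ≤ charDegree χ := Nat.floor_le_floor hle
        have h2 := Nat.pow_le_pow_left h1 2
        omega
      rcases small_degree p hp hpK P' hstar' n hn' θ hθ1 hdegθ with h | ⟨-, h⟩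
      · exact absurd h hnon
      · obtain ⟨d, -, hd⟩ := IsIrrCharacter.apply_one θ.2
        have h2 : charDegree (θ : K → ℂ) = d := by simp [charDegree, hd]
        rw [hd, ← h2, h]
        simp
  -- `K` is abelian
  have hab : ∀ a b : K, a * b = b * a := by
    intro a b
    obtain ⟨m, hm, hs⟩ := IsCharacter.exists_eq_sum hχK
    have h1 : (fun y : K => χ y) (a * b * a⁻¹ * b⁻¹) = (fun y : K => χ y) 1 := by
      rw [hs]
      simp only [Finset.sum_apply, Pi.smul_apply]
      refine Finset.sum_congr rfl fun θ _ => ?_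
      by_cases h0 : m θ = 0
      · simp [h0]
      · have h2 : (θ : K → ℂ) 1 = 1 := hlin θ (by rw [hm]; exact_mod_cast h0)
        obtain ⟨lam, hlam⟩ := IsCharacter.exists_monoidHom (IsIrrCharacter.isCharacter θ.2) h2
        rw [hlam]
        congr 1
        simp only [map_mul, map_inv, map_one, Units.val_one]
        have : lam a * lam b * (lam a)⁻¹ * (lam b)⁻¹ = 1 := by
          rw [mul_comm (lam a) (lam b), mul_assoc, mul_assoc, mul_inv_cancel_left, mul_inv_cancel]
        rw [this]
        rfl
    have h3 := hfaith _ h1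
    have h4 : a * b * a⁻¹ * b⁻¹ = 1 := Subtype.ext h3
    have h5 : a * b * a⁻¹ * b⁻¹ * (b * a) = b * a := by rw [h4, one_mul]
    rw [← h5]
    group
  constructor
  intro z hz g
  have hw : g * z * g⁻¹ ∈ K := hKn.conj_mem z (hPK hz) g
  apply mem_of_pow_eq_one P
  · rw [Subgroup.mem_centralizer_iff]
    intro u hu
    exact congrArg Subtype.val (hab ⟨u, hPK hu⟩ ⟨_, hw⟩)
  · rw [conj_pow, pow_card_sub hz]
    group

end Cfsg.Agent.Lib.Char.Leo
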