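import Cfsg.Agent.Lib.Char.Leo

/-! # The families of irreducible characters. -/

set_option autoImplicit false

namespace Cfsg.Agent.Lib.Char.Leo

open Cfsg Module
open scoped ComplexConjugate

universe u

variable {G : Type u} [Group G]

namespace Data

variable {P Y N : Subgroup G} (D : Data P Y N)

section Lin

variable [Finite P]

include D in
theorem irrP_one (l : IrrCharacter P) : (l : P → ℂ) 1 = 1 :=
  (comm_iff_irr_degree_one (G := P)).mp D.P_comm l

include D in
theorem irrP_hom (l : IrrCharacter P) : ∃ lam : P →* ℂˣ, (l : P → ℂ) = fun g => (lam g : ℂ) :=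
  IsCharacter.exists_monoidHom (IsIrrCharacter.isCharacter l.2) (D.irrP_one l)

include D in
theorem irrP_mul (l : IrrCharacter P) (a b : P) : (l : P → ℂ) (a * b) = (l : P → ℂ) a * (l : P → ℂ) b := by
  obtain ⟨lam, h⟩ := D.irrP_hom l
  simp [h]

include D in
theorem irrP_inv_mul (l : IrrCharacter P) (a : P) : (l : P → ℂ) a⁻¹ * (l : P → ℂ) a = 1 := by
  rw [← D.irrP_mul, inv_mul_cancel, D.irrP_one]

include D in
theorem irrP_conj_mul (l : IrrCharacter P) (a : P) : conj ((l : P → ℂ) a) * (l : P → ℂ) a = 1 := by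
  rw [← IsCharacter.apply_inv (IsIrrCharacter.isCharacter l.2), D.irrP_inv_mul]

/-- A nontrivial linear character is not fixed by an element outside `Y`. -/
theorem free (d : N) (l : IrrCharacter P) (h : ∀ z, (l : P → ℂ) (D.cP d z) = (l : P → ℂ) z)
    (hd : (d : G) ∉ Y) : (l : P → ℂ) = fun _ => 1 := by
  funext w
  obtain ⟨z, hz, hw⟩ := D.hfree d d.2 hd w w.2
  have hw' : w = (⟨z, hz⟩ : P)⁻¹ * D.cP d ⟨z, hz⟩ := by
    ext
    simp [hw]
  rw [hw', D.irrP_mul, h, D.irrP_inv_mul]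

end Lin

/-- `λ ∘ r · μ`. -/
def nu (μ : Y → ℂ) (l : P → ℂ) : Y → ℂ := fun y => l (D.r y) * μ y

/-- `λ ∘ r`. -/
def lift (l : P → ℂ) : Y → ℂ := fun y => l (D.r y)

/-- `ν` lies over `λ`. -/
def Over (ν : Y → ℂ) (l : P → ℂ) : Prop := ∀ z : P, ν (D.incl z) = ν 1 * l z

/-- Conjugacy under `N`. -/
def Rel (ν ν' : Y → ℂ) : Prop := ∃ n : N, ν = ν' ∘ D.cY n

theorem rel_refl (ν : Y → ℂ) : D.Rel ν ν := ⟨1, by funext y; simp [D.cY_one]⟩

theorem rel_symm {ν ν' : Y → ℂ} (h : D.Rel ν ν') : D.Rel ν' ν := by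
  obtain ⟨n, rfl⟩ := h
  refine ⟨n⁻¹, ?_⟩
  funext y
  simp only [Function.comp_apply]
  rw [← D.cY_mul, inv_mul_cancel, D.cY_one]

theorem rel_trans {a b c : Y → ℂ} (h : D.Rel a b) (h' : D.Rel b c) : D.Rel a c := by
  obtain ⟨n, rfl⟩ := h
  obtain ⟨m, rfl⟩ := h'
  refine ⟨n * m, ?_⟩
  funext y
  simp only [Function.comp_apply]
  rw [D.cY_mul]

theorem ind_eq_of_rel [Fintype G] {ν ν' : Y → ℂ} (h : D.Rel ν ν') : indFun Y ν = indFun Y ν' := by
  obtain ⟨n, rfl⟩ := h
  exact D.indFun_comp_cY ν' n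

theorem over_nu [Finite P] {μ : Y → ℂ} (hμ : ∀ z : P, μ (D.incl z) = μ 1) (l : IrrCharacter P) :
    D.Over (D.nu μ l) l := by
  intro z
  simp only [nu, map_one, D.r_incl, D.irrP_one l, hμ z, one_mul]
  ring

theorem over_lift [Finite P] (l : IrrCharacter P) : D.Over (D.lift l) l := by
  intro z
  simp [lift, D.r_incl, D.irrP_one l]

theorem isIrr_lift [Finite P] (l : IrrCharacter P) : IsIrrCharacter Y (D.lift l) := by
  apply IsCharacter.isIrrCharacter_of_one
  · exact IsCharacter.comp (IsIrrCharacter.isCharacter l.2) D.r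
  · simp [lift, D.irrP_one l]

theorem isIrr_nu [Fintype Y] [Finite P] {μ : Y → ℂ} (hμ : IsIrrCharacter Y μ) (l : IrrCharacter P) :
    IsIrrCharacter Y (D.nu μ l) := by
  apply isIrrCharacter_of_classInner_self
  · exact IsCharacter.mul (IsIrrCharacter.isCharacter (D.isIrr_lift l)) (IsIrrCharacter.isCharacter hμ)
  · rw [← classInner_irr_self hμ]
    simp only [classInner, nu, map_mul]
    congr 1
    refine Finset.sum_congr rfl fun y _ => ?_
    have := D.irrP_conj_mul l (D.r y)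
    linear_combination (μ y * conj (μ y)) * this

/-- Twisted stabilizers. -/
theorem stab_of_over [Finite P] {ν : Y → ℂ} (hν : IsClassFunction Y ν) (h1 : ν 1 ≠ 0) {l : IrrCharacter P}
    (hl : (l : P → ℂ) ≠ fun _ => 1) (hover : D.Over ν l) (a b : N) :
    ν ∘ D.cY a = ν ∘ D.cY b ↔ (a : G)⁻¹ * b ∈ Y := by
  obtain ⟨d, rfl⟩ : ∃ d : N, b = a * d := ⟨a⁻¹ * b, by group⟩
  have hdc : ((a : G))⁻¹ * ((a * d : N) : G) = d := by simp
  rw [hdc]
  constructor
  · intro h
    by_contra hdY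
    apply hl
    refine D.free d l (fun z => ?_) hdY
    have h2 : ∀ y, ν (D.cY d y) = ν y := by
      intro y
      have := congrFun h ((D.cY a).symm y)
      simp only [Function.comp_apply, MulEquiv.apply_symm_apply, D.cY_mul] at this
      exact this.symm
    have h3 := h2 (D.incl z)
    rw [D.cY_incl, hover, hover z] at h3
    exact mul_left_cancel₀ h1 h3
  · intro hdY
    funext y
    simp only [Function.comp_apply, D.cY_mul]
    have := hν (D.cY a y) (⟨(d : G)⁻¹, Y.inv_mem hdY⟩ : Y)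
    rw [← this]
    congr 1
    ext
    simp

/-- The values of `λ` under a conjugation when `ν` and `ν'` are conjugate. -/
theorem over_of_rel [Finite P] {ν ν' : Y → ℂ} {l l' : P → ℂ} (hν : D.Over ν l) (hν' : D.Over ν' l')
    (h1 : ν 1 ≠ 0) {n : N} (h : ν = ν' ∘ D.cY n) (z : P) : l z = l' (D.cP n z) := by
  have h2 := hν z
  have h3 := hν' (D.cP n z)
  have h4 : ν (D.incl z) = ν' (D.incl (D.cP n z)) := by
    rw [h]
    rfl
  have h5 : ν 1 = ν' 1 := by
    rw [h]
    simp
  rw [h2, h3, ← h5] at h4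
  exact mul_left_cancel₀ h1 h4

section S

variable [Fintype Y] [Fintype N]

/-- The twisted sum. -/
noncomputable def Sf (f k : Y → ℂ) : ℂ := (Nat.card Y : ℂ)⁻¹ * ∑ n : N, classInner f (k ∘ D.cY n)

theorem Sf_sub_left (a b k : Y → ℂ) : D.Sf (a - b) k = D.Sf a k - D.Sf b k := by
  simp only [Sf, classInner_sub_left, Finset.sum_sub_distrib, mul_sub]

theorem Sf_sub_right (f a b : Y → ℂ) : D.Sf f (a - b) = D.Sf f a - D.Sf f b := by
  have h : ∀ n : N, (a - b) ∘ D.cY n = a ∘ D.cY n - b ∘ D.cY n := fun n => rfl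
  simp only [Sf, h, classInner_sub_right, Finset.sum_sub_distrib, mul_sub]

variable [Fintype G]

/-- Inner products of differences of induced functions. -/
theorem inner_four {a b c d : Y → ℂ} (hab : ∀ y, D.r y = 1 → a y = b y) :
    classInner (indFun Y a - indFun Y b) (indFun Y c - indFun Y d) =
      D.Sf a c - D.Sf a d - D.Sf b c + D.Sf b d := by
  rw [← indFun_sub, ← indFun_sub, D.classInner_ind _ _ (fun y hy => by simp [hab y hy])]
  change D.Sf (a - b) (c - d) = _
  rw [Sf_sub_left, Sf_sub_right, Sf_sub_right]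
  ring

theorem inner_two {a b : Y → ℂ} (c : Y → ℂ) (hab : ∀ y, D.r y = 1 → a y = b y) :
    classInner (indFun Y a - indFun Y b) (indFun Y c) = D.Sf a c - D.Sf b c := by
  rw [← indFun_sub, D.classInner_ind _ _ (fun y hy => by simp [hab y hy])]
  change D.Sf (a - b) c = _
  rw [Sf_sub_left]

end S

end Data

end Cfsg.Agent.Lib.Char.Leo
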