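import Cfsg.Agent.Lib.Char.Leo2

/-! # The families of irreducible characters: the isometry. -/

set_option autoImplicit false

namespace Cfsg.Agent.Lib.Char.Leo

open Cfsg Module
open scoped ComplexConjugate

universe u

variable {G : Type u} [Group G]

/-- The nontrivial irreducible characters of `P`. -/
abbrev L (P : Subgroup G) := {l : IrrCharacter P // (l : P → ℂ) ≠ fun _ => 1}

namespace Data

variable {P Y N : Subgroup G} (D : Data P Y N)

section Family

variable [Fintype Y] [Fintype N] [Finite P]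

theorem Sf_eq_one {ν ν' : Y → ℂ} (hν : IsIrrCharacter Y ν) (hν' : IsIrrCharacter Y ν') (l : L P)
    (hover : D.Over ν' l.1) (h : D.Rel ν ν') : D.Sf ν ν' = 1 := by
  obtain ⟨n₀, hn₀⟩ := h
  exact D.S_of_rel hν hν' (D.stab_of_over (IsCharacter.isClassFunction (IsIrrCharacter.isCharacter hν'))
    (IsIrrCharacter.apply_one_ne_zero hν') l.2 hover) n₀ hn₀

theorem Sf_eq_zero {ν ν' : Y → ℂ} (hν : IsIrrCharacter Y ν) (hν' : IsIrrCharacter Y ν')
    (h : ¬ D.Rel ν ν') : D.Sf ν ν' = 0 :=
  D.S_of_not_rel hν hν' (fun n hn => h ⟨n, hn⟩)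

theorem nu_one [Finite P] {μ : Y → ℂ} (l : IrrCharacter P) : D.nu μ l 1 = μ 1 := by
  simp [nu, D.irrP_one l]

theorem nu_of_r [Finite P] {μ : Y → ℂ} (l : IrrCharacter P) (y : Y) (hy : D.r y = 1) :
    D.nu μ l y = μ y := by
  simp [nu, hy, D.irrP_one l]

variable [Fintype G] {μ : Y → ℂ}

/-- The setoid of conjugacy. -/
def relSetoid (μ : Y → ℂ) : Setoid (L P) where
  r a b := D.Rel (D.nu μ a.1) (D.nu μ b.1)
  iseqv := ⟨fun _ => D.rel_refl _, D.rel_symm, D.rel_trans⟩

/-- The family attached to `μ`. -/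
theorem family (hμ : IsIrrCharacter Y μ) (hμP : ∀ z, μ (D.incl z) = μ 1) (hne : Nonempty (L P)) :
    ∃ ε : ℂ, (ε = 1 ∨ ε = -1) ∧ ∃ φ : L P → IrrCharacter G,
      (∀ a b, φ a = φ b ↔ D.Rel (D.nu μ a.1) (D.nu μ b.1)) ∧
      ∀ a b, indFun Y (D.nu μ a.1) - indFun Y (D.nu μ b.1) =
        ε • (((φ a : IrrCharacter G) : G → ℂ) - ((φ b : IrrCharacter G) : G → ℂ)) := by
  classical
  letI : Fintype P := Fintype.ofFinite P
  let s : Setoid (L P) := D.relSetoid μ
  let ι := Quotient s
  letI : Fintype ι := Fintype.ofFinite ι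
  let e := Fintype.equivFin ι
  let rep : ι → L P := Quotient.out
  have hrep : ∀ a : L P, D.Rel (D.nu μ (rep (Quotient.mk s a)).1) (D.nu μ a.1) :=
    fun a => Quotient.mk_out (s := s) a
  have hrep2 : ∀ u v : ι, D.Rel (D.nu μ (rep u).1) (D.nu μ (rep v).1) → u = v := by
    intro u v h
    have h2 : Quotient.mk s (rep u) = Quotient.mk s (rep v) := Quotient.sound h
    simpa [rep, Quotient.out_eq] using h2
  let A : ι → (G → ℂ) := fun i => indFun Y (D.nu μ (rep i).1)
  have hA : ∀ a : L P, A (Quotient.mk s a) = indFun Y (D.nu μ a.1) := fun a =>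
    D.ind_eq_of_rel (hrep a)
  have hirr : ∀ u : ι, IsIrrCharacter Y (D.nu μ (rep u).1) := fun u => D.isIrr_nu hμ _
  have htab : ∀ u v : ι, D.Sf (D.nu μ (rep u).1) (D.nu μ (rep v).1) = if u = v then 1 else 0 := by
    intro u v
    split_ifs with h
    · subst h
      exact D.Sf_eq_one (hirr u) (hirr u) (rep u) (D.over_nu hμP _) (D.rel_refl _)
    · exact D.Sf_eq_zero (hirr u) (hirr v) fun h2 => h (hrep2 u v h2)
  obtain ⟨a₀⟩ := hne
  let i₀ : ι := Quotient.mk s a₀
  let τ : Fin (Fintype.card ι) → (G → ℂ) := fun k => A (e.symm k) - A i₀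
  have hirrA : ∀ u, IsCharacter G (A u) := fun u =>
    isCharacter_indFun Y (IsIrrCharacter.isCharacter (hirr u))
  obtain ⟨ε, hε, ψ, hψ, hinj, hτ⟩ := exists_irr_of_gram (e i₀) τ (by simp [τ])
    (fun k => ⟨_, _, hirrA _, hirrA _, rfl⟩)
    (fun k => by
      simp only [τ, Pi.sub_apply, A]
      rw [indFun_one, indFun_one, D.nu_one, D.nu_one, sub_self])
    (fun i j hi hj => by
      simp only [τ]
      have hab : ∀ (u : ι) (y : Y), D.r y = 1 → D.nu μ (rep u).1 y = D.nu μ (rep i₀).1 y := by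
        intro u y hy
        rw [D.nu_of_r _ y hy, D.nu_of_r _ y hy]
      rw [D.inner_four (hab _), htab, htab, htab, htab]
      have hi' : e.symm i ≠ i₀ := fun h => hi (by rw [← h]; simp)
      have hj' : e.symm j ≠ i₀ := fun h => hj (by rw [← h]; simp)
      simp only [hi', hj'.symm, if_false, if_true, sub_zero, e.symm_apply_eq]
      by_cases hij : i = j
      · subst hij
        simp
        norm_num
      · have : ¬ e.symm i = e.symm j := fun h => hij (e.symm.injective h)
        simp [this, hij])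
  refine ⟨ε, hε, fun a => ⟨ψ (e (Quotient.mk s a)), hψ _⟩, ?_, ?_⟩
  · intro a b
    constructor
    · intro h
      have h2 : ψ (e (Quotient.mk s a)) = ψ (e (Quotient.mk s b)) := congrArg Subtype.val h
      have h3 := e.injective (hinj h2)
      exact Quotient.exact h3
    · intro h
      have h3 : Quotient.mk s a = Quotient.mk s b := Quotient.sound h
      apply Subtype.ext
      simp only [h3]
  · intro a b
    have h1 := hτ (e (Quotient.mk s a))
    have h2 := hτ (e (Quotient.mk s b))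
    simp only [τ, e.symm_apply_apply, hA] at h1 h2
    simp only
    rw [smul_sub]
    have h3 : indFun Y (D.nu μ a.1) - indFun Y (D.nu μ b.1) =
        (indFun Y (D.nu μ a.1) - A i₀) - (indFun Y (D.nu μ b.1) - A i₀) := by ring
    rw [h3, h1, h2, smul_sub, smul_sub]
    ring

end Family

end Data

end Cfsg.Agent.Lib.Char.Leo
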