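import Cfsg.Agent.Lib.Char.Leo3

/-! # Orbits, multiplicities on `P`, and the abstract analysis of a constituent. -/

set_option autoImplicit false

namespace Cfsg.Agent.Lib.Char.Leo

open Cfsg Module
open scoped ComplexConjugate

universe u

variable {G : Type u} [Group G]

/-- The analysis of the multiplicities in a family. -/
theorem core {L' : Type*} [Fintype L'] [DecidableEq L'] [Fintype G]
    (φ : L' → IrrCharacter G) (ε : ℂ) (hε : ε = 1 ∨ ε = -1) (M : L' → ℕ) (ψ : IrrCharacter G)
    (h : ∀ a b, (M a : ℂ) - M b = ε * (classInner ((φ a : IrrCharacter G) : G → ℂ) (ψ : G → ℂ) -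
      classInner ((φ b : IrrCharacter G) : G → ℂ) (ψ : G → ℂ)))
    (e : ℕ) (hfib : ∀ a, (Finset.univ.filter (fun b => φ b = φ a)).card ≤ e)
    (hD : ∀ S : Finset L', (∀ a ∈ S, M a ≠ 0) → S.card + e < Fintype.card L')
    (a₀ : L') (ha₀ : M a₀ ≠ 0) :
    ε = 1 ∧ ∃ k, ψ = φ k ∧ ∀ a, M a = if φ a = φ k then 1 else 0 := by
  classical
  have hin : ∀ a, classInner ((φ a : IrrCharacter G) : G → ℂ) (ψ : G → ℂ) = if φ a = ψ then 1 else 0 := by
    intro a
    split_ifs with hh
    · rw [hh]
      exact classInner_irr_self ψ.2
    · exact classInner_irr_of_ne (φ a).2 ψ.2 fun h2 => hh (Subtype.ext h2)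
  simp only [hin] at h
  have huniv : ¬ ∀ a, M a ≠ 0 := by
    intro hall
    have := hD Finset.univ (fun a _ => hall a)
    rw [Finset.card_univ] at this
    omega
  by_cases hψ : ∃ k, φ k = ψ
  · obtain ⟨k, rfl⟩ := hψ
    let T := Finset.univ.filter (fun b => ¬ φ b = φ k)
    have hTcard : T.card + e ≥ Fintype.card L' := by
      have h1 := Finset.card_filter_add_card_filter_not (s := (Finset.univ : Finset L')) (fun b => φ b = φ k)
      have h2 := hfib k
      rw [Finset.card_univ] at h1
      simp only [T]
      omega
    have hK : ∀ a, φ a = φ k → M a = M k := by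
      intro a ha
      have := h a k
      simp only [ha, if_true, sub_self, mul_zero] at this
      exact_mod_cast sub_eq_zero.mp this
    rcases hε with rfl | rfl
    · refine ⟨rfl, k, rfl, ?_⟩
      have hT' : ∀ a, ¬ φ a = φ k → M k = M a + 1 := by
        intro a ha
        have := h a k
        simp only [ha, if_false, if_true, one_mul] at this
        have h2 : (M k : ℂ) = ((M a + 1 : ℕ) : ℂ) := by
          push_cast
          linear_combination -this
        exact_mod_cast h2
      by_cases hb : ∃ b, ¬ φ b = φ k ∧ M b ≠ 0
      · exfalso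
        obtain ⟨b, hb1, hb2⟩ := hb
        apply huniv
        intro a
        by_cases ha : φ a = φ k
        · rw [hK a ha, hT' b hb1]
          omega
        · have h1 := hT' a ha
          have h2 := hT' b hb1
          omega
      · push Not at hb
        obtain ⟨c, hc⟩ : ∃ c, ¬ φ c = φ k := by
          by_contra hcon
          push Not at hcon
          have h1 : (Finset.univ.filter (fun b => φ b = φ k)).card = Fintype.card L' := by
            rw [Finset.filter_true_of_mem (fun b _ => hcon b), Finset.card_univ]
          have h2 := hfib k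
          have h3 := hD ∅ (by simp)
          simp only [Finset.card_empty] at h3
          omega
        have hMk : M k = 1 := by rw [hT' c hc, hb c hc]
        intro a
        split_ifs with ha
        · rw [hK a ha, hMk]
        · exact hb a ha
    · exfalso
      have h1 : ∀ a ∈ T, M a ≠ 0 := by
        intro a ha
        have ha' : ¬ φ a = φ k := (Finset.mem_filter.mp ha).2
        have := h a k
        simp only [ha', if_false, if_true] at this
        have h2 : (M a : ℂ) = ((M k + 1 : ℕ) : ℂ) := by
          push_cast
          linear_combination this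
        have h3 : M a = M k + 1 := by exact_mod_cast h2
        omega
      have := hD T h1
      omega
  · exfalso
    push Not at hψ
    apply huniv
    intro a
    have := h a a₀
    simp only [hψ, if_false, sub_self, mul_zero] at this
    have h2 : M a = M a₀ := by exact_mod_cast sub_eq_zero.mp this
    omega

namespace Data

variable {P Y N : Subgroup G} (D : Data P Y N)

section Orbit

variable [Fintype P] [Fintype Y] [Fintype N]

/-- `N` acts on the characters of `P`. -/
def act (n : N) (l : IrrCharacter P) : IrrCharacter P :=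
  ⟨(l : P → ℂ) ∘ D.cP n, isIrrCharacter_comp_mulEquiv (D.cP n) l.2⟩

theorem act_iff (l : L P) (a b : N) : D.act a l.1 = D.act b l.1 ↔ (a : G)⁻¹ * b ∈ Y := by
  obtain ⟨d, rfl⟩ : ∃ d : N, b = a * d := ⟨a⁻¹ * b, by group⟩
  have hdc : ((a : G))⁻¹ * ((a * d : N) : G) = d := by simp
  rw [hdc]
  constructor
  · intro h
    by_contra hdY
    apply l.2
    refine D.free d l.1 (fun z => ?_) hdY
    have h2 := congrArg Subtype.val h
    have := congrFun h2 ((D.cP a).symm z)
    simp only [act, Function.comp_apply, MulEquiv.apply_symm_apply, D.cP_mul] at this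
    exact this.symm
  · intro hdY
    apply Subtype.ext
    funext z
    simp only [act, Function.comp_apply, D.cP_mul]
    rw [D.cP_of_mem d hdY]

/-- The index of `Y` in `N`. -/
noncomputable def e (_ : Data P Y N) : ℕ := Nat.card N / Nat.card Y

theorem card_N : D.e * Nat.card Y = Nat.card N := Nat.div_mul_cancel (Subgroup.card_dvd_of_le D.hYN)

theorem e_pos : 0 < D.e := by
  have := D.card_N
  rcases Nat.eq_zero_or_pos D.e with h | h
  · rw [h, zero_mul] at this
    exact absurd this.symm Nat.card_pos.ne'
  · exact h

theorem card_orbit [DecidableEq (IrrCharacter P)] (l : L P) :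
    (Finset.univ.image (fun n : N => D.act n l.1)).card = D.e := by
  have h := D.card_image_mul (fun n : N => D.act n l.1) (D.act_iff l)
  have h2 := D.card_N
  have h3 : 0 < Nat.card Y := Nat.card_pos
  rw [← h2] at h
  exact Nat.eq_of_mul_eq_mul_right h3 h

end Orbit

section Mult

variable [Fintype P]

include D in
/-- Multiplicities on `P` and the degree. -/
theorem exists_mult {Φ : P → ℂ} (hΦ : IsCharacter P Φ) :
    ∃ m : IrrCharacter P → ℕ, (∀ l : IrrCharacter P, classInner Φ (l : P → ℂ) = m l) ∧
      Φ 1 = ∑ l : IrrCharacter P, (m l : ℂ) ∧ classInner Φ Φ = ∑ l : IrrCharacter P, ((m l * m l : ℕ) : ℂ) := by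
  classical
  obtain ⟨m, hm, hs⟩ := IsCharacter.exists_eq_sum hΦ
  refine ⟨m, hm, ?_, ?_⟩
  · conv_lhs => rw [hs]
    simp only [Finset.sum_apply]
    refine Finset.sum_congr rfl fun l _ => ?_
    simp only [Pi.smul_apply, nsmul_eq_mul]
    rw [D.irrP_one l, mul_one]
  · have h := classInner_eq_sum_coeffs Φ Φ (IsCharacter.isClassFunction hΦ) (IsCharacter.isClassFunction hΦ)
    rw [h]
    refine Finset.sum_congr rfl fun l _ => ?_
    rw [hm]
    simp

/-- Sums over `P`'s characters split off the trivial character. -/
theorem sum_split [DecidableEq (IrrCharacter P)] {A : Type*} [AddCommMonoid A] (f : IrrCharacter P → A) :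
    f ⟨fun _ => 1, isIrrCharacter_one⟩ + ∑ a : L P, f a.1 = ∑ l, f l := by
  classical
  rw [← Finset.add_sum_erase Finset.univ f (Finset.mem_univ _)]
  congr 1
  refine (Finset.sum_subtype _ ?_ f).symm
  intro x
  simp only [Finset.mem_erase, Finset.mem_univ, and_true, ne_eq]
  constructor
  · intro h h2
    exact h (Subtype.ext h2)
  · intro h h2
    exact h (congrArg Subtype.val h2)

include D in
theorem card_L : Fintype.card (L P) + 1 = Nat.card P := by
  classical
  have h := sum_split (P := P) (fun _ => (1 : ℕ))
  simp only [Finset.sum_const, Finset.card_univ, smul_eq_mul, mul_one] at h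
  have h2 := sum_irr_degree_sq (G := P)
  simp only [D.irrP_one, one_pow, Finset.sum_const, Finset.card_univ, nsmul_eq_mul, mul_one] at h2
  have h3 : Fintype.card (IrrCharacter P) = Nat.card P := by exact_mod_cast h2
  omega

end Mult

end Data

end Cfsg.Agent.Lib.Char.Leo
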