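import Cfsg.Agent.Lib.Char.Leo4

/-! # The analysis of a constituent. -/

set_option autoImplicit false

namespace Cfsg.Agent.Lib.Char.Leo

open Cfsg Module
open scoped ComplexConjugate

universe u

variable {G : Type u} [Group G]

section Squares

variable [Fintype G]

/-- The trivial irreducible character. -/
def oneIrr (G : Type u) [Group G] : IrrCharacter G := ⟨fun _ => 1, isIrrCharacter_one⟩

/-- The coefficients of a generalized character of degree zero. -/
theorem zeta_data {ζ : G → ℂ} (hζ : IsGeneralizedCharacter G ζ) (e : ℕ)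
    (hnorm : classInner ζ ζ = (e : ℂ) + 1) (hone : classInner ζ (fun _ => 1) = 1) (h1 : ζ 1 = 0) :
    ∃ c : IrrCharacter G → ℤ, (∀ ψ : IrrCharacter G, classInner ζ (ψ : G → ℂ) = c ψ) ∧
      ∑ ψ, c ψ ^ 2 = (e : ℤ) + 1 ∧ c (oneIrr G) = 1 ∧
      ∃ d : IrrCharacter G → ℤ, (∀ ψ, 0 < d ψ) ∧ ∑ ψ, c ψ * d ψ = 0 := by
  classical
  obtain ⟨c, hc, hs⟩ := IsGeneralizedCharacter.exists_int_coeffs hζ
  have hcl := IsGeneralizedCharacter.isClassFunction hζ
  refine ⟨c, hc, ?_, ?_, ?_⟩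
  · have h3 := classInner_eq_sum_coeffs ζ ζ hcl hcl
    rw [hnorm] at h3
    simp only [hc, map_intCast] at h3
    have h4 : ((∑ ψ : IrrCharacter G, c ψ ^ 2 : ℤ) : ℂ) = (((e : ℤ) + 1 : ℤ) : ℂ) := by
      push_cast
      rw [h3]
      refine Finset.sum_congr rfl fun ψ _ => ?_
      ring
    exact_mod_cast h4
  · have := hc (oneIrr G)
    simp only [oneIrr] at this
    rw [hone] at this
    exact_mod_cast this.symm
  · choose d hd0 hd using fun ψ : IrrCharacter G => IsIrrCharacter.apply_one ψ.2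
    refine ⟨fun ψ => d ψ, fun ψ => by simpa using hd0 ψ, ?_⟩
    have h2 := congrFun hs 1
    rw [h1] at h2
    simp only [Finset.sum_apply, Pi.smul_apply, hd, smul_eq_mul, Pi.zero_apply] at h2
    have h3 : ((∑ ψ : IrrCharacter G, c ψ * (d ψ : ℤ) : ℤ) : ℂ) = ((0 : ℤ) : ℂ) := by
      push_cast
      rw [h2]
    exact_mod_cast h3

variable {ι : Type*} [Fintype ι] [DecidableEq ι]

/-- A first count with squares. -/
theorem const_eq_zero (c : ι → ℤ) (e : ℕ) (hsum : ∑ ψ, c ψ ^ 2 = (e : ℤ) + 1) (o : ι) (ho : c o = 1)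
    (B : Finset ι) (hoB : o ∉ B) (γ : ℤ) (hγ : ∀ ψ ∈ B, c ψ = γ) (hB : e < B.card) : γ = 0 := by
  by_contra hne
  have h1 : ∑ ψ ∈ insert o B, c ψ ^ 2 ≤ ∑ ψ, c ψ ^ 2 :=
    Finset.sum_le_sum_of_subset_of_nonneg (Finset.subset_univ _) fun _ _ _ => sq_nonneg _
  rw [Finset.sum_insert hoB, ho, hsum, Finset.sum_congr rfl (fun ψ hψ => by rw [hγ ψ hψ]),
    Finset.sum_const, nsmul_eq_mul] at h1
  have h2 : 1 ≤ γ ^ 2 := by
    have := sq_pos_of_ne_zero hne
    omega
  have h3 : (e : ℤ) + 1 ≤ B.card := by exact_mod_cast hB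
  nlinarith

/-- The count with one exceptional member. -/
theorem const_minus_one (c : ι → ℤ) (e : ℕ) (he : 0 < e) (hsum : ∑ ψ, c ψ ^ 2 = (e : ℤ) + 1) (o : ι) (ho : c o = 1)
    (B : Finset ι) (hoB : o ∉ B) (b₀ : ι) (hb₀ : b₀ ∈ B) (α : ℤ) (hα : 1 ≤ α) (hγ : ∀ ψ ∈ B, ψ ≠ b₀ → c ψ = α)
    (hB : e < B.card) (d : ι → ℤ) (hd : ∀ ψ, 0 < d ψ) (hcd : ∑ ψ, c ψ * d ψ = 0) : False := by
  set B' := B.erase b₀ with hB'
  have hcard : B'.card + 1 = B.card := by
    rw [hB', Finset.card_erase_of_mem hb₀]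
    have : 0 < B.card := by omega
    omega
  have hoB' : o ∉ B' := fun h => hoB (Finset.mem_of_mem_erase h)
  have hc' : ∀ ψ ∈ B', c ψ = α := fun ψ hψ => hγ ψ (Finset.mem_of_mem_erase hψ) (Finset.ne_of_mem_erase hψ)
  have h1 : ∑ ψ ∈ insert o B', c ψ ^ 2 ≤ ∑ ψ, c ψ ^ 2 :=
    Finset.sum_le_sum_of_subset_of_nonneg (Finset.subset_univ _) fun _ _ _ => sq_nonneg _
  rw [Finset.sum_insert hoB', ho, hsum, Finset.sum_congr rfl (fun ψ hψ => by rw [hc' ψ hψ]),
    Finset.sum_const, nsmul_eq_mul] at h1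
  have hB2 : (e : ℤ) ≤ B'.card := by
    have : e ≤ B'.card := by omega
    exact_mod_cast this
  have he' : (1 : ℤ) ≤ e := by exact_mod_cast he
  have hα1 : α = 1 := by
    by_contra hne
    have h2 : 2 ≤ α := by omega
    have h4 : (4 : ℤ) ≤ α ^ 2 := by nlinarith
    have h5 : (e : ℤ) * 4 ≤ B'.card * α ^ 2 := mul_le_mul hB2 h4 (by norm_num) (by positivity)
    norm_num at h1
    linarith
  subst hα1
  have hnn : ∀ ψ, 0 ≤ c ψ := by
    intro ψ
    by_contra hneg
    push Not at hneg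
    have hψ : ψ ∉ insert o B' := by
      intro hmem
      rcases Finset.mem_insert.mp hmem with rfl | h
      · omega
      · have := hc' ψ h
        omega
    have h2 : ∑ x ∈ insert ψ (insert o B'), c x ^ 2 ≤ ∑ x, c x ^ 2 :=
      Finset.sum_le_sum_of_subset_of_nonneg (Finset.subset_univ _) fun _ _ _ => sq_nonneg _
    rw [Finset.sum_insert hψ, Finset.sum_insert hoB', ho, hsum,
      Finset.sum_congr rfl (fun x hx => by rw [hc' x hx]), Finset.sum_const, nsmul_eq_mul] at h2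
    have h3 : 1 ≤ c ψ ^ 2 := by
      have := sq_pos_of_ne_zero hneg.ne
      omega
    push_cast at h2
    norm_num at h2
    linarith
  have h4 : c o * d o ≤ ∑ x, c x * d x :=
    Finset.single_le_sum (f := fun x => c x * d x) (fun x _ => mul_nonneg (hnn x) (hd x).le) (Finset.mem_univ o)
  rw [hcd, ho] at h4
  have := hd o
  omega

end Squares

end Cfsg.Agent.Lib.Char.Leo
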