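import Cfsg.Agent.Lib.Char.Leo5

/-! # The analysis of a constituent: `⟨ψ_Y, 1⟩ = 0`. -/

set_option autoImplicit false

namespace Cfsg.Agent.Lib.Char.Leo

open Cfsg Module
open scoped ComplexConjugate

universe u

variable {G : Type u} [Group G]

namespace Data

variable {P Y N : Subgroup G} (D : Data P Y N)

section Main

variable [Fintype P]

theorem over_ne_one {ν : Y → ℂ} {l : L P} (hover : D.Over ν l.1) : ν ≠ fun _ => 1 := by
  intro h
  apply l.2
  funext z
  have := hover z
  rw [h] at this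
  simpa using this.symm

theorem not_rel_one {ν : Y → ℂ} {l : L P} (hover : D.Over ν l.1) : ¬ D.Rel (fun _ => 1) ν := by
  rintro ⟨n, hn⟩
  apply l.2
  funext z
  have hov : D.Over (fun _ => 1) (fun _ => (1 : ℂ)) := fun z => by simp
  have := D.over_of_rel hov hover (by simp) hn ((D.cP n).symm z)
  simpa using this.symm

variable [Fintype Y] [Fintype N]

theorem Sf_one_one : D.Sf (fun _ => 1) (fun _ => 1) = D.e := by
  have h : ∀ n : N, (fun _ : Y => (1 : ℂ)) ∘ D.cY n = fun _ => 1 := fun n => rfl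
  rw [Sf, D.S_of_invariant _ _ h, classInner_irr_self isIrrCharacter_one, mul_one]
  rfl

theorem Sf_over_one {ν : Y → ℂ} (hν : IsIrrCharacter Y ν) {l : L P} (hover : D.Over ν l.1) :
    D.Sf ν (fun _ => 1) = 0 := by
  have h : ∀ n : N, (fun _ : Y => (1 : ℂ)) ∘ D.cY n = fun _ => 1 := fun n => rfl
  rw [Sf, D.S_of_invariant _ _ h, classInner_irr_of_ne hν isIrrCharacter_one (D.over_ne_one hover), mul_zero]

theorem Sf_one_over {ν : Y → ℂ} (hν : IsIrrCharacter Y ν) {l : L P} (hover : D.Over ν l.1) :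
    D.Sf (fun _ => 1) ν = 0 :=
  D.Sf_eq_zero isIrrCharacter_one hν (D.not_rel_one hover)

variable [Fintype G]

/-- `Ind (1 - λ̃)`. -/
noncomputable def zeta (l : P → ℂ) : G → ℂ := indFun Y (fun _ => 1) - indFun Y (D.lift l)

theorem zeta_hab (l : IrrCharacter P) (y : Y) (hy : D.r y = 1) : (fun _ => (1 : ℂ)) y = D.lift l y := by
  simp [lift, hy, D.irrP_one l]

theorem zeta_norm (l : L P) : classInner (D.zeta l.1) (D.zeta l.1) = (D.e : ℂ) + 1 := by
  rw [zeta, D.inner_four (D.zeta_hab l.1), D.Sf_one_one,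
    D.Sf_one_over (D.isIrr_lift l.1) (D.over_lift l.1 : D.Over _ (l.1 : P → ℂ)),
    D.Sf_over_one (D.isIrr_lift l.1) (l := l) (D.over_lift l.1),
    D.Sf_eq_one (D.isIrr_lift l.1) (D.isIrr_lift l.1) l (D.over_lift l.1) (D.rel_refl _)]
  ring

theorem zeta_apply (l : P → ℂ) {ψ : G → ℂ} (hψ : IsClassFunction G ψ) :
    classInner (D.zeta l) ψ =
      classInner (fun _ => 1) (fun y : Y => ψ y) - classInner (D.lift l) (fun y : Y => ψ y) := by
  rw [zeta, classInner_sub_left, classInner_indFun_left Y _ _ hψ, classInner_indFun_left Y _ _ hψ]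

theorem zeta_one (l : L P) : classInner (D.zeta l.1) (fun _ => 1) = 1 := by
  rw [D.zeta_apply l.1 (fun _ _ => rfl)]
  have h1 : classInner (fun _ : Y => (1 : ℂ)) (fun _ : Y => (1 : ℂ)) = 1 :=
    classInner_irr_self isIrrCharacter_one
  have h2 : classInner (D.lift l.1) (fun _ : Y => (1 : ℂ)) = 0 :=
    classInner_irr_of_ne (D.isIrr_lift l.1) isIrrCharacter_one (D.over_ne_one (l := l) (D.over_lift l.1))
  rw [h1, h2, sub_zero]

theorem zeta_at_one (l : IrrCharacter P) : D.zeta l 1 = 0 := by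
  simp only [zeta, Pi.sub_apply]
  rw [indFun_one, indFun_one]
  simp [lift, D.irrP_one l]

theorem zeta_gen (l : IrrCharacter P) : IsGeneralizedCharacter G (D.zeta l) :=
  ⟨_, _, isCharacter_indFun Y (IsIrrCharacter.isCharacter isIrrCharacter_one),
    isCharacter_indFun Y (IsIrrCharacter.isCharacter (D.isIrr_lift l)), rfl⟩

theorem zeta_family (l : L P) {a b : Y → ℂ} {la lb : L P} (ha : IsIrrCharacter Y a) (hb : IsIrrCharacter Y b)
    (hoa : D.Over a la.1) (hob : D.Over b lb.1) :
    classInner (D.zeta l.1) (indFun Y a - indFun Y b) = - D.Sf (D.lift l.1) a + D.Sf (D.lift l.1) b := by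
  rw [zeta, D.inner_four (D.zeta_hab l.1), D.Sf_one_over ha hoa, D.Sf_one_over hb hob]
  ring

/-- A constituent of `ψ_Y` over `λ` gives a constituent `λ` of `ψ_P`. -/
theorem mult_ne_zero {Φ : Y → ℂ} (hΦ : IsCharacter Y Φ) {ν : Y → ℂ} (hν : IsIrrCharacter Y ν)
    {l : IrrCharacter P} (hover : D.Over ν l) (h : classInner Φ ν ≠ 0) :
    classInner (Φ ∘ D.incl) (l : P → ℂ) ≠ 0 := by
  classical
  obtain ⟨m, hm, hs⟩ := IsCharacter.exists_eq_sum hΦ
  have hn : ∀ ν' : IrrCharacter Y, ∃ n : ℕ, classInner ((ν' : Y → ℂ) ∘ D.incl) (l : P → ℂ) = n := by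
    intro ν'
    have hinclc : IsCharacter P ((ν' : Y → ℂ) ∘ D.incl) := by
      have := IsCharacter.comp (IsIrrCharacter.isCharacter ν'.2)
        (Subgroup.inclusion D.hPY : P →* Y)
      exact this
    exact IsCharacter.classInner_irr_eq_nat hinclc l.2
  choose n hn using hn
  have h1 : classInner (Φ ∘ D.incl) (l : P → ℂ) = ((∑ ν' : IrrCharacter Y, m ν' * n ν' : ℕ) : ℂ) := by
    have h2 : Φ ∘ D.incl = ∑ ν' : IrrCharacter Y, m ν' • ((ν' : Y → ℂ) ∘ D.incl) := by
      funext z
      simp only [Function.comp_apply, Finset.sum_apply, Pi.smul_apply]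
      conv_lhs => rw [hs]
      simp only [Finset.sum_apply, Pi.smul_apply]
    rw [h2, classInner_sum_left]
    push_cast
    refine Finset.sum_congr rfl fun ν' _ => ?_
    rw [← Nat.cast_smul_eq_nsmul ℂ, classInner_smul_left, hn]
  rw [h1]
  intro h0
  have h2 : ∑ ν' : IrrCharacter Y, m ν' * n ν' = 0 := by exact_mod_cast h0
  have h3 := (Finset.sum_eq_zero_iff.mp h2) ⟨ν, hν⟩ (Finset.mem_univ _)
  rcases Nat.mul_eq_zero.mp h3 with h4 | h4
  · apply h
    rw [show classInner Φ ν = _ from hm ⟨ν, hν⟩, h4]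
    simp
  · have h5 := hn ⟨ν, hν⟩
    rw [h4] at h5
    have h6 : ν ∘ D.incl = (ν 1) • (l : P → ℂ) := by
      funext z
      simp [hover z]
    simp only at h5
    rw [h6, classInner_smul_left, classInner_irr_self l.2] at h5
    simp only [mul_one, Nat.cast_zero] at h5
    exact IsIrrCharacter.apply_one_ne_zero hν h5

/-- If a linear character is conjugate to `λ̃ μ` then `μ = 1`. -/
theorem lift_rel_nu {μ : Y → ℂ} (hμP : ∀ z, μ (D.incl z) = μ 1) (l a : IrrCharacter P)
    (h : D.Rel (D.lift l) (D.nu μ a)) : μ = fun _ => 1 := by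
  obtain ⟨n, hn⟩ := h
  have h1 : ∀ y, (l : P → ℂ) (D.r y) = (a : P → ℂ) (D.r (D.cY n y)) * μ (D.cY n y) := fun y => congrFun hn y
  have hm1 : μ 1 = 1 := by
    have := h1 1
    simp only [map_one, D.irrP_one, one_mul] at this
    exact this.symm
  have hz : ∀ z, (l : P → ℂ) ((D.cP n).symm z) = (a : P → ℂ) z := by
    intro z
    have := h1 (D.incl ((D.cP n).symm z))
    rw [D.r_incl, D.cY_incl, MulEquiv.apply_symm_apply, D.r_incl, hμP, hm1, mul_one] at this
    exact this
  funext y'
  have h2 := h1 ((D.cY n).symm y')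
  rw [MulEquiv.apply_symm_apply] at h2
  have hr : D.r ((D.cY n).symm y') = (D.cP n).symm (D.r y') := by
    rw [MulEquiv.eq_symm_apply, ← D.r_cY, MulEquiv.apply_symm_apply]
  rw [hr, hz] at h2
  have h3 := D.irrP_conj_mul a (D.r y')
  have h4 : (a : P → ℂ) (D.r y') ≠ 0 := by
    intro h0
    rw [h0] at h3
    simp at h3
  exact (mul_left_cancel₀ h4 (by rw [mul_one]; exact h2)).symm

/-- The main computation. -/
theorem u_eq_zero (ψ : IrrCharacter G) (mψ : IrrCharacter P → ℕ)
    (hmψ : ∀ l : IrrCharacter P, classInner (fun z : P => (ψ : G → ℂ) z) (l : P → ℂ) = mψ l)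
    (hqe : D.e * D.e < Fintype.card (L P)) (hDψ : ∑ a : L P, mψ a.1 + D.e < Fintype.card (L P))
    {ν₀ : Y → ℂ} (hν₀ : IsIrrCharacter Y ν₀) (l₀ : L P) (hover : D.Over ν₀ l₀.1)
    (hc : classInner (fun y : Y => (ψ : G → ℂ) y) ν₀ ≠ 0) :
    classInner (fun _ : Y => (1 : ℂ)) (fun y : Y => (ψ : G → ℂ) y) = 0 := by
  classical
  have hψcl : IsClassFunction G (ψ : G → ℂ) := IsCharacter.isClassFunction (IsIrrCharacter.isCharacter ψ.2)
  have hψY : IsCharacter Y (fun y : Y => (ψ : G → ℂ) y) :=
    IsCharacter.comp (IsIrrCharacter.isCharacter ψ.2) Y.subtype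
  -- the character `μ`
  let l₀' : IrrCharacter P := ⟨fun z => conj ((l₀.1 : P → ℂ) z), IsIrrCharacter.conj l₀.1.2⟩
  let μ : Y → ℂ := D.nu ν₀ l₀'
  have hμ : IsIrrCharacter Y μ := D.isIrr_nu hν₀ l₀'
  have hμP : ∀ z, μ (D.incl z) = μ 1 := by
    intro z
    have h1 : μ 1 = ν₀ 1 := D.nu_one l₀'
    rw [h1]
    simp only [μ, nu, D.r_incl, hover z]
    have := D.irrP_conj_mul l₀.1 z
    simp only [l₀']
    linear_combination (ν₀ 1) * this
  have hnu0 : D.nu μ l₀.1 = ν₀ := by
    funext y
    simp only [μ, nu, l₀']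
    have := D.irrP_conj_mul l₀.1 (D.r y)
    linear_combination (ν₀ y) * this
  obtain ⟨ε, hε, φ, hφ, hfam⟩ := D.family hμ hμP ⟨l₀⟩
  have hirrnu : ∀ a : L P, IsIrrCharacter Y (D.nu μ a.1) := fun a => D.isIrr_nu hμ a.1
  have hover' : ∀ a : L P, D.Over (D.nu μ a.1) a.1 := fun a => D.over_nu hμP a.1
  have hM : ∀ a : L P, ∃ n : ℕ, classInner (indFun Y (D.nu μ a.1)) (ψ : G → ℂ) = n := fun a =>
    IsCharacter.classInner_irr_eq_nat (isCharacter_indFun Y (IsIrrCharacter.isCharacter (hirrnu a))) ψ.2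
  choose M hM using hM
  have hfamM : ∀ a b : L P, (M a : ℂ) - M b = ε * (classInner ((φ a : IrrCharacter G) : G → ℂ) (ψ : G → ℂ) -
      classInner ((φ b : IrrCharacter G) : G → ℂ) (ψ : G → ℂ)) := by
    intro a b
    rw [← hM, ← hM, ← classInner_sub_left, hfam, classInner_smul_left, classInner_sub_left]
  -- fibres
  have hfibsub : ∀ a : L P, ((Finset.univ.filter (fun b => φ b = φ a)).card ≤ D.e) := by
    intro a
    rw [← D.card_orbit a]
    have hinj : Function.Injective (fun b : L P => b.1) := Subtype.val_injective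
    rw [← Finset.card_image_of_injective _ hinj]
    apply Finset.card_le_card
    intro x hx
    obtain ⟨b, hb, rfl⟩ := Finset.mem_image.mp hx
    have hb' : φ b = φ a := (Finset.mem_filter.mp hb).2
    obtain ⟨n, hn⟩ := (hφ b a).mp hb'
    refine Finset.mem_image.mpr ⟨n, Finset.mem_univ _, ?_⟩
    apply Subtype.ext
    funext z
    have h1 : D.nu μ b.1 1 ≠ 0 := by
      rw [D.nu_one]
      exact IsIrrCharacter.apply_one_ne_zero hμ
    exact (D.over_of_rel (hover' b) (hover' a) h1 hn z).symm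
  -- the bound
  have hM_ne : ∀ a : L P, M a ≠ 0 → mψ a.1 ≠ 0 := by
    intro a ha h0
    have h1 : classInner (fun y : Y => (ψ : G → ℂ) y) (D.nu μ a.1) ≠ 0 := by
      rw [← classInner_indFun_right Y _ _ hψcl, classInner_conj_symm, hM]
      simpa using ha
    have h2 : classInner (fun z : P => (ψ : G → ℂ) z) (a.1 : P → ℂ) ≠ 0 :=
      D.mult_ne_zero hψY (hirrnu a) (hover' a) h1
    apply h2
    have h3 := hmψ a.1
    rw [h0] at h3
    simpa using h3
  have hD : ∀ S : Finset (L P), (∀ a ∈ S, mψ a.1 ≠ 0) → S.card + D.e < Fintype.card (L P) := by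
    intro S hS
    have h1 : S.card ≤ ∑ a ∈ S, mψ a.1 := by
      rw [Finset.card_eq_sum_ones]
      exact Finset.sum_le_sum fun a ha => Nat.one_le_iff_ne_zero.mpr (hS a ha)
    have h2 : ∑ a ∈ S, mψ a.1 ≤ ∑ a : L P, mψ a.1 :=
      Finset.sum_le_sum_of_subset (Finset.subset_univ _)
    omega
  have hM0 : M l₀ ≠ 0 := by
    intro h0
    apply hc
    rw [classInner_conj_symm, ← classInner_indFun_left Y _ _ hψcl, ← hnu0, hM, h0]
    simp
  obtain ⟨hε1, k, hk, hMk⟩ := core φ ε hε M ψ hfamM D.e hfibsub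
    (fun S hS => hD S fun a ha => hM_ne a (hS a ha)) l₀ hM0
  subst hε1
  -- the size of the family
  let B : Finset (IrrCharacter G) := Finset.univ.image φ
  have hB : D.e < B.card := by
    have h1 : Fintype.card (L P) ≤ D.e * B.card := by
      rw [← Finset.card_univ]
      apply Finset.card_le_mul_card_image
      intro x hx
      obtain ⟨a, -, rfl⟩ := Finset.mem_image.mp hx
      exact hfibsub a
    by_contra hcon
    push Not at hcon
    have h2 := Nat.mul_le_mul_left D.e hcon
    omega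
  have he := D.e_pos
  -- the principal character is not in the family
  have honeB : oneIrr G ∉ B := by
    intro hmem
    obtain ⟨a, -, ha⟩ := Finset.mem_image.mp hmem
    obtain ⟨b, hb⟩ : ∃ b, φ b ≠ φ a := by
      by_contra hcon
      push Not at hcon
      have h1 : B ⊆ {φ a} := by
        intro x hx
        obtain ⟨c, -, rfl⟩ := Finset.mem_image.mp hx
        simp [hcon c]
      have h2 := Finset.card_le_card h1
      simp only [Finset.card_singleton] at h2
      omega
    have h1 : ∀ c : L P, classInner (indFun Y (D.nu μ c.1)) (fun _ => 1) = 0 := by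
      intro c
      rw [classInner_indFun_left Y _ _ (fun _ _ => rfl)]
      exact classInner_irr_of_ne (hirrnu c) isIrrCharacter_one (D.over_ne_one (l := c) (hover' c))
    have h2 := hfam a b
    have h3 : classInner (indFun Y (D.nu μ a.1) - indFun Y (D.nu μ b.1)) (fun _ => 1) = 0 := by
      rw [classInner_sub_left, h1, h1, sub_zero]
    rw [h2, one_smul, classInner_sub_left, ha] at h3
    have h4 : classInner ((oneIrr G : IrrCharacter G) : G → ℂ) (fun _ => (1 : ℂ)) = 1 :=
      classInner_irr_self isIrrCharacter_one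
    have h5 : classInner ((φ b : IrrCharacter G) : G → ℂ) (fun _ => (1 : ℂ)) = 0 :=
      classInner_irr_of_ne (φ b).2 isIrrCharacter_one fun h6 => hb (by rw [ha]; exact Subtype.ext h6)
    rw [h4, h5] at h3
    norm_num at h3
  -- the two cases
  by_cases hμ1 : μ = fun _ => 1
  · -- `μ = 1`
    by_contra hαne
    have hnu1 : ∀ a : L P, D.nu μ a.1 = D.lift a.1 := by
      intro a
      funext y
      simp [nu, lift, hμ1]
    obtain ⟨c, hc1, hc2, hc3, d, hd, hcd⟩ := zeta_data (D.zeta_gen k.1) D.e (D.zeta_norm k)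
      (D.zeta_one k) (D.zeta_at_one k.1)
    obtain ⟨α, hα⟩ := IsCharacter.classInner_nat (IsIrrCharacter.isCharacter (isIrrCharacter_one (G := Y))) hψY
    have hα1 : 1 ≤ (α : ℤ) := by
      have : α ≠ 0 := by
        intro h0
        apply hαne
        rw [hα, h0]
        simp
      have : 1 ≤ α := Nat.one_le_iff_ne_zero.mpr this
      exact_mod_cast this
    -- the values of `c`
    have hcb : ∀ a : L P, φ a ≠ φ k → c (φ a) = α := by
      intro a ha
      -- at `ψ = φ k`
      have h1 : (c ψ : ℂ) = (α : ℂ) - 1 := by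
        rw [← hc1, D.zeta_apply k.1 hψcl, hα]
        congr 1
        have := hM k
        rw [classInner_indFun_left Y _ _ hψcl, hnu1, hMk k, if_pos rfl] at this
        simpa using this
      have h3 : D.Sf (D.lift k.1) (D.nu μ a.1) = 0 := by
        apply D.Sf_eq_zero (D.isIrr_lift k.1) (hirrnu a)
        intro hrel
        apply ha
        rw [← hnu1 k] at hrel
        exact ((hφ k a).mpr hrel).symm
      have h4 : D.Sf (D.lift k.1) (D.nu μ k.1) = 1 := by
        rw [hnu1 k]
        exact D.Sf_eq_one (D.isIrr_lift k.1) (D.isIrr_lift k.1) k (D.over_lift k.1) (D.rel_refl _)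
      have h2 := D.zeta_family k (hirrnu a) (hirrnu k) (hover' a) (hover' k)
      rw [hfam a k, one_smul, classInner_sub_right, hc1, hc1, ← hk, h1, h3, h4] at h2
      have h5 : (c (φ a) : ℂ) = (((α : ℕ) : ℤ) : ℂ) := by
        push_cast
        linear_combination h2
      exact_mod_cast h5
    exact const_minus_one c D.e he hc2 (oneIrr G) hc3 B honeB (φ k)
      (Finset.mem_image_of_mem _ (Finset.mem_univ _)) α hα1
      (fun x hx hxk => by
        obtain ⟨a, -, rfl⟩ := Finset.mem_image.mp hx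
        exact hcb a hxk) hB d hd hcd
  · -- `μ ≠ 1`
    have hζ0 : ∀ l : L P, classInner (D.zeta l.1) (ψ : G → ℂ) = 0 := by
      intro l
      obtain ⟨c, hc1, hc2, hc3, -⟩ := zeta_data (D.zeta_gen l.1) D.e (D.zeta_norm l)
        (D.zeta_one l) (D.zeta_at_one l.1)
      have h3 : ∀ b : L P, D.Sf (D.lift l.1) (D.nu μ b.1) = 0 := fun b =>
        D.Sf_eq_zero (D.isIrr_lift l.1) (hirrnu b) (fun hrel => hμ1 (D.lift_rel_nu hμP l.1 b.1 hrel))
      have hconst : ∀ a, c (φ a) = c (φ k) := by
        intro a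
        have h2 := D.zeta_family l (hirrnu a) (hirrnu k) (hover' a) (hover' k)
        rw [h3, h3, hfam a k, one_smul, classInner_sub_right, hc1, hc1] at h2
        have : (c (φ a) : ℂ) = c (φ k) := by linear_combination h2
        exact_mod_cast this
      have hγ := const_eq_zero c D.e hc2 (oneIrr G) hc3 B honeB (c (φ k))
        (fun x hx => by
          obtain ⟨a, -, rfl⟩ := Finset.mem_image.mp hx
          exact hconst a) hB
      rw [hk, hc1, hγ]
      simp
    by_contra hu
    have hall : ∀ a : L P, mψ a.1 ≠ 0 := by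
      intro a
      have h1 := hζ0 a
      rw [D.zeta_apply a.1 hψcl, sub_eq_zero] at h1
      have h2 : classInner (fun y : Y => (ψ : G → ℂ) y) (D.lift a.1) ≠ 0 := by
        rw [classInner_conj_symm, ← h1]
        simpa using hu
      have h3 : classInner (fun z : P => (ψ : G → ℂ) z) (a.1 : P → ℂ) ≠ 0 :=
        D.mult_ne_zero hψY (D.isIrr_lift a.1) (D.over_lift a.1) h2
      intro h0
      apply h3
      have := hmψ a.1
      rw [h0] at this
      simpa using this
    have := hD Finset.univ (fun a _ => hall a)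
    rw [Finset.card_univ] at this
    omega

end Main

end Data

end Cfsg.Agent.Lib.Char.Leo
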