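import Cfsg.Agent.Lib.Char.Leo6
import Cfsg.Agent.Lib.Char.Degree

/-! # `χ_Y` is irreducible. -/

set_option autoImplicit false

namespace Cfsg.Agent.Lib.Char.Leo

open Cfsg Module
open scoped ComplexConjugate

universe u

variable {G : Type u} [Group G]

namespace Data

variable {P Y N : Subgroup G} (D : Data P Y N)

section Main

variable [Fintype P]

/-- Every irreducible character of `Y` lies over a character of `P`. -/
theorem exists_over [Fintype Y] {ν : Y → ℂ} (hν : IsIrrCharacter Y ν) :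
    ∃ l : IrrCharacter P, D.Over ν l := by
  have h0 := IsIrrCharacter.apply_one_ne_zero hν
  have hc : ∀ z : P, D.incl z ∈ Subgroup.center Y := by
    intro z
    rw [Subgroup.mem_center_iff]
    intro g
    exact Subtype.ext (D.hcomm _ g.2 _ z.2)
  have hmul : ∀ a b : P, ν (D.incl (a * b)) / ν 1 = ν (D.incl a) / ν 1 * (ν (D.incl b) / ν 1) := by
    intro a b
    have h1 := apply_mul_of_mem_center hν (hc b) (D.incl a)
    have h2 : D.incl (a * b) = D.incl a * D.incl b := rfl
    rw [h2]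
    field_simp
    linear_combination h1
  let f : P →* ℂ :=
    { toFun := fun z => ν (D.incl z) / ν 1
      map_one' := by
        have : D.incl 1 = 1 := rfl
        simp only [this]
        field_simp
      map_mul' := hmul }
  have hl : IsIrrCharacter P (fun z => ν (D.incl z) / ν 1) := isIrrCharacter_of_monoidHom f.toHomUnits
  refine ⟨⟨_, hl⟩, fun z => ?_⟩
  simp only
  field_simp

/-- Constituents lying over a nontrivial character. -/
theorem exists_constituent [Fintype Y] {Φ : Y → ℂ} (hΦ : IsCharacter Y Φ) {z : P} (hz : Φ (D.incl z) ≠ Φ 1) :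
    ∃ (ν : Y → ℂ) (_ : IsIrrCharacter Y ν) (l : L P), D.Over ν l.1 ∧ classInner Φ ν ≠ 0 := by
  classical
  obtain ⟨m, hm, hs⟩ := IsCharacter.exists_eq_sum hΦ
  by_contra hcon
  push Not at hcon
  apply hz
  rw [hs]
  simp only [Finset.sum_apply, Pi.smul_apply]
  refine Finset.sum_congr rfl fun ν _ => ?_
  by_cases h0 : m ν = 0
  · simp [h0]
  · congr 1
    obtain ⟨l, hl⟩ := D.exists_over ν.2
    have hl1 : (l : P → ℂ) = fun _ => 1 := by
      by_contra hne
      have := hcon ν ν.2 ⟨l, hne⟩ hl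
      rw [hm] at this
      exact h0 (by exact_mod_cast this)
    rw [hl z, hl1, mul_one]

variable [Fintype Y] [Fintype N]

/-- The orbit bound: the multiplicities on `P` are invariant under `N`. -/
theorem orbit_bound {χ : G → ℂ} (hχ : IsClassFunction G χ) (m : IrrCharacter P → ℕ)
    (hm : ∀ l : IrrCharacter P, classInner (fun z : P => χ z) (l : P → ℂ) = m l) (l₀ : L P) (h0 : m l₀.1 ≠ 0) :
    D.e ≤ ∑ l, m l ∧ D.e ≤ ∑ l, m l * m l := by
  classical
  have hinv : ∀ n : N, m (D.act n l₀.1) = m l₀.1 := by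
    intro n
    have h1 : classInner (fun z : P => χ z) ((D.act n l₀.1 : IrrCharacter P) : P → ℂ) = m l₀.1 := by
      rw [← hm l₀.1, ← classInner_comp_mulEquiv (D.cP n) (fun z : P => χ z) (l₀.1 : P → ℂ)]
      congr 1
      funext z
      simp only [Function.comp_apply, cP_coe]
      have := hχ (z : G) ((n : G)⁻¹)
      simpa using this.symm
    rw [hm] at h1
    exact_mod_cast h1
  set O := Finset.univ.image (fun n : N => D.act n l₀.1) with hO
  have hcard : O.card = D.e := D.card_orbit l₀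
  have hO2 : ∀ l ∈ O, m l ≠ 0 := by
    intro l hl
    obtain ⟨n, -, rfl⟩ := Finset.mem_image.mp hl
    rw [hinv]
    exact h0
  constructor
  · rw [← hcard, Finset.card_eq_sum_ones]
    refine le_trans (Finset.sum_le_sum fun l hl => Nat.one_le_iff_ne_zero.mpr (hO2 l hl)) ?_
    exact Finset.sum_le_sum_of_subset (Finset.subset_univ _)
  · rw [← hcard, Finset.card_eq_sum_ones]
    refine le_trans (Finset.sum_le_sum fun l hl => ?_) (Finset.sum_le_sum_of_subset (Finset.subset_univ _))
    have := Nat.one_le_iff_ne_zero.mpr (hO2 l hl)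
    exact Nat.mul_pos this this

variable [Fintype G]

include D in
/-- The bound on the nontrivial part of a constituent of `χ χ̄`. -/
theorem D_bound {χ : G → ℂ} (hχ : IsCharacter G χ) (ψ : IrrCharacter G)
    (hψ : classInner (fun g => χ g * conj (χ g)) (ψ : G → ℂ) ≠ 0) (mψ : IrrCharacter P → ℕ)
    (hmψ : ∀ l : IrrCharacter P, classInner (fun z : P => (ψ : G → ℂ) z) (l : P → ℂ) = mψ l)
    (s x : ℕ) (hs : classInner (fun z : P => χ z) (fun z : P => χ z) = s) (hx : χ 1 = x) :
    ∑ a : L P, mψ a.1 + s ≤ x * x := by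
  classical
  let θ : G → ℂ := fun g => χ g * conj (χ g)
  have hθ : IsCharacter G θ := IsCharacter.mul hχ (IsCharacter.conj hχ)
  have hψc := IsIrrCharacter.isCharacter ψ.2
  have hρ : IsCharacter G (θ - (ψ : G → ℂ)) := by
    apply isCharacter_of_classInner_nat (IsClassFunction.sub (IsCharacter.isClassFunction hθ) (IsCharacter.isClassFunction hψc))
    intro ψ' hψ'
    obtain ⟨n, hn⟩ := IsCharacter.classInner_irr_eq_nat hθ hψ'
    by_cases h : (ψ : G → ℂ) = ψ'
    · rw [classInner_sub_left, hn, h, classInner_irr_self hψ']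
      have hn0 : n ≠ 0 := by
        intro h0
        apply hψ
        rw [h]
        change classInner θ ψ' = 0
        rw [hn, h0]
        simp
      refine ⟨n - 1, ?_⟩
      rw [Nat.cast_sub (Nat.one_le_iff_ne_zero.mpr hn0)]
      simp
    · rw [classInner_sub_left, hn, classInner_irr_of_ne ψ.2 hψ' h, sub_zero]
      exact ⟨n, rfl⟩
  have hresC : ∀ {Φ : G → ℂ}, IsCharacter G Φ → IsCharacter P (fun z : P => Φ z) := fun h =>
    IsCharacter.comp h P.subtype
  obtain ⟨mθ, hmθ, hθ1, -⟩ := D.exists_mult (hresC hθ)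
  obtain ⟨mρ, hmρ, -, -⟩ := D.exists_mult (hresC hρ)
  have hadd : ∀ l, mθ l = mψ l + mρ l := by
    intro l
    have h1 := hmθ l
    have h2 : (fun z : P => θ z) = (fun z : P => (ψ : G → ℂ) z) + (fun z : P => (θ - (ψ : G → ℂ)) z) := by
      funext z
      simp
    rw [h2, classInner_add_left, hmψ, hmρ] at h1
    exact_mod_cast h1.symm
  -- `mθ 1 = s`
  have hone : mθ ⟨fun _ => 1, isIrrCharacter_one⟩ = s := by
    have h1 := hmθ ⟨fun _ => 1, isIrrCharacter_one⟩
    have h2 : classInner (fun z : P => θ z) (fun _ => (1 : ℂ)) = classInner (fun z : P => χ z) (fun z : P => χ z) := by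
      simp [classInner, θ]
    rw [show classInner (fun z : P => θ z) (((⟨fun _ => 1, isIrrCharacter_one⟩ : IrrCharacter P)) : P → ℂ) = _ from h2, hs] at h1
    exact_mod_cast h1.symm
  have hθ1' : x * x = ∑ l, mθ l := by
    have h1 : θ 1 = ((x * x : ℕ) : ℂ) := by
      simp only [θ, hx]
      simp
    have hθ2 : θ 1 = ∑ l, (mθ l : ℂ) := hθ1
    rw [h1] at hθ2
    exact_mod_cast hθ2
  rw [hθ1', ← sum_split, hone, add_comm]
  refine Nat.add_le_add_left ?_ _
  refine Finset.sum_le_sum fun a _ => ?_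
  rw [hadd]
  omega

include D in
/-- `χ_Y` has norm one. -/
theorem norm_Y_eq_one {χ : G → ℂ} (hχ : IsIrrCharacter G χ) (x : ℕ) (hx : χ 1 = x)
    (hker : ∀ ψ : IrrCharacter G, (ψ : G → ℂ) ≠ (fun _ => 1) → ∃ z : P, (ψ : G → ℂ) z ≠ (ψ : G → ℂ) 1)
    (hχ1 : χ ≠ fun _ => 1) (hdeg : x * x + 1 < Nat.card P) :
    classInner (fun y : Y => χ y) (fun y : Y => χ y) = 1 := by
  classical
  have hχc := IsIrrCharacter.isCharacter hχ
  have hχcl := IsCharacter.isClassFunction hχc
  have hcard := D.card_L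
  have hresY : ∀ {Φ : G → ℂ}, IsCharacter G Φ → IsCharacter Y (fun z : Y => Φ z) := fun h =>
    IsCharacter.comp h Y.subtype
  have hresP : ∀ {Φ : G → ℂ}, IsCharacter G Φ → IsCharacter P (fun z : P => Φ z) := fun h =>
    IsCharacter.comp h P.subtype
  -- constituents over nontrivial characters
  have hcons : ∀ ψ : IrrCharacter G, (ψ : G → ℂ) ≠ (fun _ => 1) →
      ∃ (ν : Y → ℂ) (_ : IsIrrCharacter Y ν) (l : L P), D.Over ν l.1 ∧
        classInner (fun y : Y => (ψ : G → ℂ) y) ν ≠ 0 := by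
    intro ψ hψ
    obtain ⟨z, hz⟩ := hker ψ hψ
    exact D.exists_constituent (z := z) (hresY (IsIrrCharacter.isCharacter ψ.2)) hz
  -- the multiplicities of `χ`
  obtain ⟨mχ, hmχ, hχ1', hχ2⟩ := D.exists_mult (hresP hχc)
  obtain ⟨ν₁, hν₁, l₁, hov₁, hc₁⟩ := hcons ⟨χ, hχ⟩ hχ1
  have hm₁ : mχ l₁.1 ≠ 0 := by
    intro h0
    have h2 : classInner (fun z : P => χ z) (l₁.1 : P → ℂ) ≠ 0 :=
      D.mult_ne_zero (hresY hχc) hν₁ hov₁ hc₁
    apply h2
    rw [hmχ, h0]
    simp
  obtain ⟨hex, hes⟩ := D.orbit_bound hχcl mχ hmχ l₁ hm₁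
  have hxsum : x = ∑ l, mχ l := by
    have h1 : ((x : ℕ) : ℂ) = ((∑ l, mχ l : ℕ) : ℂ) := by
      push_cast
      rw [← hx]
      exact hχ1'
    exact_mod_cast h1
  set s := ∑ l, mχ l * mχ l with hs
  have hsC : classInner (fun z : P => χ z) (fun z : P => χ z) = (s : ℂ) := by
    rw [hχ2, hs]
    push_cast
    rfl
  have hex' : D.e ≤ x := by rw [hxsum]; exact hex
  have hee : D.e * D.e ≤ x * x := Nat.mul_le_mul hex' hex'
  have hqe : D.e * D.e < Fintype.card (L P) := by omega
  -- the vanishing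
  have hu : ∀ ψ : IrrCharacter G, (ψ : G → ℂ) ≠ (fun _ => 1) →
      classInner (fun g => χ g * conj (χ g)) (ψ : G → ℂ) ≠ 0 →
      classInner (fun _ : Y => (1 : ℂ)) (fun y : Y => (ψ : G → ℂ) y) = 0 := by
    intro ψ hψ hψc
    obtain ⟨mψ, hmψ, -, -⟩ := D.exists_mult (hresP (IsIrrCharacter.isCharacter ψ.2))
    have hb := D.D_bound hχc ψ hψc mψ hmψ s x hsC hx
    obtain ⟨ν₀, hν₀, l₀, hov, hc⟩ := hcons ψ hψ
    exact D.u_eq_zero ψ mψ hmψ hqe (by omega) hν₀ l₀ hov hc
  -- the conclusion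
  let θ : G → ℂ := fun g => χ g * conj (χ g)
  have hθ : IsCharacter G θ := IsCharacter.mul hχc (IsCharacter.conj hχc)
  obtain ⟨n, hn, hθs⟩ := IsCharacter.exists_eq_sum hθ
  have h1 : classInner (fun y : Y => χ y) (fun y : Y => χ y) =
      classInner (fun _ : Y => (1 : ℂ)) (fun y : Y => θ y) := by
    simp only [classInner, θ, map_mul, Complex.conj_conj, one_mul]
    congr 1
    exact Finset.sum_congr rfl fun y _ => mul_comm _ _
  rw [h1]
  have h2 : (fun y : Y => θ y) = ∑ ψ : IrrCharacter G, n ψ • (fun y : Y => (ψ : G → ℂ) y) := by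
    funext y
    conv_lhs => rw [hθs]
    simp only [Finset.sum_apply, Pi.smul_apply]
  rw [h2, classInner_sum_right, Finset.sum_eq_single (oneIrr G)]
  · rw [← Nat.cast_smul_eq_nsmul ℂ, classInner_smul_right]
    have h3 : classInner (fun _ : Y => (1 : ℂ)) (fun _ : Y => (1 : ℂ)) = 1 := classInner_irr_self isIrrCharacter_one
    simp only [oneIrr, map_natCast]
    have h4 : (n ⟨fun _ => 1, isIrrCharacter_one⟩ : ℂ) = 1 := by
      rw [← hn ⟨fun _ => 1, isIrrCharacter_one⟩]
      have h5 : classInner θ (fun _ => (1 : ℂ)) = classInner χ χ := by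
        simp [classInner, θ]
      exact h5.trans (classInner_irr_self hχ)
    rw [h4, one_mul]
    exact h3
  · intro ψ _ hψ
    rw [← Nat.cast_smul_eq_nsmul ℂ, classInner_smul_right]
    by_cases h5 : (n ψ : ℂ) = 0
    · simp [h5]
    · have h6 : (ψ : G → ℂ) ≠ fun _ => 1 := fun h7 => hψ (Subtype.ext h7)
      rw [hu ψ h6 (by rw [show classInner (fun g => χ g * conj (χ g)) (ψ : G → ℂ) = _ from hn ψ]; exact h5), mul_zero]
  · simp

end Main

end Data

end Cfsg.Agent.Lib.Char.Leo
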