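import Cfsg.Agent.Lib.Char.Leo7
import Cfsg.Agent.Lib.Char.Kernel
import Mathlib.GroupTheory.Transfer
import Mathlib.GroupTheory.Sylow

/-! # The group theory of Sylow subgroups with all non-identity centralizers equal. -/

set_option autoImplicit false

namespace Cfsg.Agent.Lib.Char.Leo

open Cfsg Module
open scoped ComplexConjugate

universe u

variable {G : Type u} [Group G]

section Build

theorem pow_card_sub {H : Subgroup G} [Finite H] {x : G} (hx : x ∈ H) : x ^ Nat.card H = 1 := by
  have h : (⟨x, hx⟩ : H) ^ Nat.card H = 1 := pow_card_eq_one'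
  exact congrArg Subtype.val h

variable [Finite G] {p : ℕ} [hp : Fact p.Prime] (P : Sylow p G)

include hp in
theorem P_le_centralizer
    (hstar : ∀ x ∈ (P : Subgroup G), x ≠ 1 → Subgroup.centralizer ({x} : Set G) =
      Subgroup.centralizer ((P : Subgroup G) : Set G)) (hne : (P : Subgroup G) ≠ ⊥) :
    (P : Subgroup G) ≤ Subgroup.centralizer ((P : Subgroup G) : Set G) := by
  haveI : Nontrivial (P : Subgroup G) := (Subgroup.nontrivial_iff_ne_bot _).mpr hne
  have hc := P.isPGroup'.center_nontrivial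
  obtain ⟨⟨z, hz⟩, hz1⟩ := exists_ne (1 : Subgroup.center (P : Subgroup G))
  have hz' : (z : G) ≠ 1 := by
    intro h
    apply hz1
    ext
    exact h
  rw [← hstar z z.2 hz']
  intro a ha
  rw [Subgroup.mem_centralizer_iff]
  intro b hb
  rw [Set.mem_singleton_iff] at hb
  subst hb
  have := Subgroup.mem_center_iff.mp hz ⟨a, ha⟩
  exact (congrArg Subtype.val this).symm

include hp in
/-- Elements of `p`-power order in the centralizer of `P` lie in `P`. -/
theorem mem_of_pow_eq_one {w : G} (hw : w ∈ Subgroup.centralizer ((P : Subgroup G) : Set G))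
    (hq : w ^ Nat.card (P : Subgroup G) = 1) : w ∈ (P : Subgroup G) := by
  obtain ⟨a, ha⟩ := IsPGroup.iff_card.mp P.isPGroup'
  have hQ : IsPGroup p (Subgroup.zpowers w) := by
    intro g
    obtain ⟨i, hi⟩ := Subgroup.mem_zpowers_iff.mp g.2
    refine ⟨a, ?_⟩
    ext
    simp only [Subgroup.coe_pow, ← hi, OneMemClass.coe_one]
    rw [← ha] at *
    rw [← zpow_natCast, zpow_comm, zpow_natCast, hq, one_zpow]
  have hN : Subgroup.zpowers w ≤ Subgroup.normalizer ((P : Subgroup G) : Set G) := by
    rw [Subgroup.zpowers_le]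
    rw [Subgroup.mem_normalizer_iff]
    intro z
    have h1 : ∀ z ∈ (P : Subgroup G), w * z * w⁻¹ = z := by
      intro z hz
      have := Subgroup.mem_centralizer_iff.mp hw z hz
      rw [← this]
      group
    constructor
    · intro hz
      rw [h1 z hz]
      exact hz
    · intro hz
      have h2 := h1 _ hz
      have h3 : z = w * z * w⁻¹ := by
        have : w * (w * z * w⁻¹) * w⁻¹ = w * z * w⁻¹ := h2
        have h4 : w * (w * z * w⁻¹) * w⁻¹ = w * (w * z * w⁻¹ ) * w⁻¹ := rfl
        apply mul_left_cancel (a := w)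
        apply mul_right_cancel (b := w⁻¹)
        simpa [mul_assoc] using this.symm
      rw [h3]
      exact hz
  have hsup := IsPGroup.to_sup_of_normal_right' hQ P.isPGroup' hN
  have := P.is_maximal' hsup le_sup_right
  have h5 : Subgroup.zpowers w ≤ (P : Subgroup G) := by
    rw [← this]
    exact le_sup_left
  exact h5 (Subgroup.mem_zpowers w)

include hp in
/-- The exponent of the retraction. -/
theorem exists_k (hle : (P : Subgroup G) ≤ Subgroup.centralizer ((P : Subgroup G) : Set G)) :
    ∃ k : ℕ, (∀ z ∈ (P : Subgroup G), z ^ k = z) ∧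
      (∀ y ∈ Subgroup.centralizer ((P : Subgroup G) : Set G), y ^ k ∈ (P : Subgroup G)) ∧
      (∀ y ∈ Subgroup.centralizer ((P : Subgroup G) : Set G),
        ∀ y' ∈ Subgroup.centralizer ((P : Subgroup G) : Set G), (y * y') ^ k = y ^ k * y' ^ k) := by
  classical
  set Y := Subgroup.centralizer ((P : Subgroup G) : Set G) with hY
  obtain ⟨a, ha⟩ := IsPGroup.iff_card.mp P.isPGroup'
  obtain ⟨M, hM⟩ : Nat.card (P : Subgroup G) ∣ Nat.card Y := Subgroup.card_dvd_of_le hle
  have hq0 : 0 < Nat.card (P : Subgroup G) := Nat.card_pos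
  have hi : P.1.index = M * Y.index := by
    have h1 := Subgroup.card_mul_index (P : Subgroup G)
    have h2 := Subgroup.card_mul_index Y
    rw [hM] at h2
    rw [← h1, mul_assoc] at h2
    exact (Nat.eq_of_mul_eq_mul_left hq0 h2).symm
  have hnd : ¬ p ∣ M := by
    intro h
    apply P.not_dvd_index
    change p ∣ P.1.index
    rw [hi]
    exact Dvd.dvd.mul_right h _
  have hco : Nat.Coprime (Nat.card (P : Subgroup G)) M := by
    rw [ha]
    exact Nat.Coprime.pow_left a ((Nat.Prime.coprime_iff_not_dvd hp.out).mpr hnd)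
  let k := Nat.chineseRemainder hco 1 0
  have hk1 : (k : ℕ) ≡ 1 [MOD Nat.card (P : Subgroup G)] := k.2.1
  have hk0 : (k : ℕ) ≡ 0 [MOD M] := k.2.2
  have hMk : M ∣ (k : ℕ) := (Nat.modEq_zero_iff_dvd).mp hk0
  -- the center of `Y`
  let P' : Subgroup Y := (P : Subgroup G).subgroupOf Y
  have hP'card : Nat.card P' = Nat.card (P : Subgroup G) := by
    exact Nat.card_congr (Subgroup.subgroupOfEquivOfLe hle).toEquiv
  have hP'le : P' ≤ Subgroup.center Y := by
    intro z hz
    rw [Subgroup.mem_center_iff]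
    intro g
    have h1 : (z : G) ∈ (P : Subgroup G) := hz
    apply Subtype.ext
    exact (Subgroup.mem_centralizer_iff.mp g.2 _ h1).symm
  have hmdvd : (Subgroup.center Y).index ∣ M := by
    have h1 := Subgroup.index_dvd_of_le hP'le
    have h2 : P'.index = M := by
      have h3 := Subgroup.card_mul_index P'
      rw [hP'card, hM] at h3
      exact Nat.eq_of_mul_eq_mul_left hq0 h3
    rwa [h2] at h1
  obtain ⟨j, hj⟩ := hmdvd.trans hMk
  refine ⟨k, ?_, ?_, ?_⟩
  · intro z hz
    have h1 : z ^ Nat.card (P : Subgroup G) = 1 := pow_card_sub hz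
    have h2 : (k : ℕ) ≡ 1 [MOD orderOf z] := hk1.of_dvd (orderOf_dvd_of_pow_eq_one h1)
    have h3 := (pow_eq_pow_iff_modEq (x := z)).mpr h2
    rwa [pow_one] at h3
  · intro y hy
    apply mem_of_pow_eq_one P (Y.pow_mem hy _)
    rw [← pow_mul]
    have h1 : y ^ Nat.card Y = 1 := pow_card_sub hy
    obtain ⟨t, ht⟩ := hMk
    rw [ht, show M * t * Nat.card (P : Subgroup G) = Nat.card Y * t by rw [hM]; ring, pow_mul, h1, one_pow]
  · intro y hy y' hy'
    have h1 := map_mul (MonoidHom.transferCenterPow Y) (⟨y, hy⟩ : Y) (⟨y', hy'⟩ : Y)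
    have h2 := congrArg (fun x : Subgroup.center Y => ((x : Y) : G)) h1
    simp only [MonoidHom.transferCenterPow_apply, Subgroup.coe_mul, Subgroup.coe_pow] at h2
    rw [hj, pow_mul, pow_mul, pow_mul, h2]
    have hcomm : Commute (y ^ (Subgroup.center Y).index) (y' ^ (Subgroup.center Y).index) := by
      have h3 := Subgroup.mem_center_iff.mp (MonoidHom.transferCenterPow Y (⟨y', hy'⟩ : Y)).2
        ((MonoidHom.transferCenterPow Y (⟨y, hy⟩ : Y) : Subgroup.center Y) : Y)
      exact congrArg Subtype.val h3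
    exact hcomm.mul_pow j

end Build

end Cfsg.Agent.Lib.Char.Leo
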