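import Cfsg.Agent.Lib.Char.Leo8

/-! # The theorem on small degrees: Sylow subgroups with all non-identity centralizers equal. -/

set_option autoImplicit false

namespace Cfsg.Agent.Lib.Char.Leo

open Cfsg Module
open scoped ComplexConjugate

universe u

variable {G : Type u} [Group G]

section Build

variable [Finite G] {p : ℕ} [hp : Fact p.Prime] (P : Sylow p G)

include hp in
/-- The data. -/
theorem exists_data
    (hstar : ∀ x ∈ (P : Subgroup G), x ≠ 1 → Subgroup.centralizer ({x} : Set G) =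
      Subgroup.centralizer ((P : Subgroup G) : Set G)) (hne : (P : Subgroup G) ≠ ⊥) :
    Nonempty (Data (P : Subgroup G) (Subgroup.centralizer ((P : Subgroup G) : Set G))
      (Subgroup.normalizer ((P : Subgroup G) : Set G))) := by
  classical
  have hle := P_le_centralizer P hstar hne
  obtain ⟨k, hk1, hk2, hk3⟩ := exists_k P hle
  have hcent : ∀ y ∈ Subgroup.centralizer ((P : Subgroup G) : Set G), ∀ z ∈ (P : Subgroup G), y * z = z * y :=
    fun y hy z hz => (Subgroup.mem_centralizer_iff.mp hy z hz).symm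
  have hNP : ∀ n ∈ Subgroup.normalizer ((P : Subgroup G) : Set G), ∀ z ∈ (P : Subgroup G), n * z * n⁻¹ ∈ (P : Subgroup G) :=
    fun n hn z hz => (Subgroup.mem_normalizer_iff.mp hn z).mp hz
  have hYN : Subgroup.centralizer ((P : Subgroup G) : Set G) ≤ Subgroup.normalizer ((P : Subgroup G) : Set G) := by
    intro y hy
    rw [Subgroup.mem_normalizer_iff]
    intro z
    constructor
    · intro hz
      have : y * z * y⁻¹ = z := by rw [hcent y hy z hz]; group
      rw [this]
      exact hz
    · intro hz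
      have h1 := hcent y hy _ hz
      have h3 : (y * z * y⁻¹) * y = y * z := by group
      rw [h3] at h1
      have h2 : y * z * y⁻¹ = z := mul_left_cancel h1
      rw [h2] at hz
      exact hz
  have hYnorm : ∀ n ∈ Subgroup.normalizer ((P : Subgroup G) : Set G),
      ∀ y ∈ Subgroup.centralizer ((P : Subgroup G) : Set G),
        n * y * n⁻¹ ∈ Subgroup.centralizer ((P : Subgroup G) : Set G) := by
    intro n hn y hy
    rw [Subgroup.mem_centralizer_iff]
    intro z hz
    have h1 : n⁻¹ * z * n ∈ (P : Subgroup G) := by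
      have := hNP n⁻¹ (Subgroup.inv_mem _ hn) z hz
      simpa using this
    have h2 := hcent y hy _ h1
    calc z * (n * y * n⁻¹) = n * ((n⁻¹ * z * n) * y) * n⁻¹ := by group
      _ = n * (y * (n⁻¹ * z * n)) * n⁻¹ := by rw [h2]
      _ = n * y * n⁻¹ * z := by group
  refine ⟨{
    hPY := hle
    hYN := hYN
    hcomm := hcent
    hYnorm := hYnorm
    hPnorm := hNP
    r := { toFun := fun y => ⟨(y : G) ^ k, hk2 y y.2⟩
           map_one' := by ext; simp
           map_mul' := fun a b => by ext; exact hk3 a a.2 b b.2 }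
    hr := fun z => by ext; exact hk1 z z.2
    hrN := fun n y => by
      change (n * (y : G) * (n : G)⁻¹) ^ k = n * (y : G) ^ k * (n : G)⁻¹
      exact conj_pow
    hTI := ?_
    hfree := ?_ }⟩
  · -- trivial intersection
    intro y g hy hg
    have hy' : (y : G) ^ k ≠ 1 := by
      intro h
      apply hy
      ext
      exact h
    set w := (y : G) ^ k with hw
    have hwP : w ∈ (P : Subgroup G) := hk2 y y.2
    have hw' : g * w * g⁻¹ ∈ (P : Subgroup G) := by
      have h1 := hk2 _ hg
      rwa [conj_pow] at h1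
    have hw'1 : g * w * g⁻¹ ≠ 1 := by
      intro h
      apply hy'
      have : w = g⁻¹ * (g * w * g⁻¹) * g := by group
      rw [this, h]
      group
    have hc1 := hstar w hwP hy'
    have hc2 := hstar _ hw' hw'1
    have hgY : ∀ x ∈ Subgroup.centralizer ((P : Subgroup G) : Set G),
        g * x * g⁻¹ ∈ Subgroup.centralizer ((P : Subgroup G) : Set G) := by
      intro x hx
      rw [← hc2, Subgroup.mem_centralizer_singleton_iff]
      rw [← hc1, Subgroup.mem_centralizer_singleton_iff] at hx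
      calc g * x * g⁻¹ * (g * w * g⁻¹) = g * (x * w) * g⁻¹ := by group
        _ = g * (w * x) * g⁻¹ := by rw [hx]
        _ = g * w * g⁻¹ * (g * x * g⁻¹) := by group
    have hgY' : ∀ x ∈ Subgroup.centralizer ((P : Subgroup G) : Set G),
        g⁻¹ * x * g ∈ Subgroup.centralizer ((P : Subgroup G) : Set G) := by
      intro x hx
      rw [← hc1, Subgroup.mem_centralizer_singleton_iff]
      rw [← hc2, Subgroup.mem_centralizer_singleton_iff] at hx
      calc g⁻¹ * x * g * w = g⁻¹ * (x * (g * w * g⁻¹)) * g := by group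
        _ = g⁻¹ * ((g * w * g⁻¹) * x) * g := by rw [hx]
        _ = w * (g⁻¹ * x * g) := by group
    rw [Subgroup.mem_normalizer_iff]
    intro z
    constructor
    · intro hz
      apply mem_of_pow_eq_one P (hgY z (hle hz))
      rw [conj_pow, pow_card_sub hz]
      group
    · intro hz
      have h3 : g⁻¹ * (g * z * g⁻¹) * g = z := by group
      have h4 := mem_of_pow_eq_one P (hgY' _ (hle hz)) (by
        rw [show g⁻¹ * (g * z * g⁻¹) * g = g⁻¹ * (g * z * g⁻¹) * (g⁻¹)⁻¹ by simp, conj_pow, pow_card_sub hz]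
        group)
      rwa [h3] at h4
  · -- fixed point freeness
    intro n hn hnY w hw
    have hmem : ∀ z : ↥(P : Subgroup G), (n⁻¹ * z * n) ∈ (P : Subgroup G) := by
      intro z
      have := hNP n⁻¹ (Subgroup.inv_mem _ hn) z z.2
      simpa using this
    let f : ↥(P : Subgroup G) → ↥(P : Subgroup G) := fun z => z⁻¹ * ⟨n⁻¹ * z * n, hmem z⟩
    have hfinj : Function.Injective f := by
      intro a b hab
      have h2 := congrArg Subtype.val hab
      simp only [f, Subgroup.coe_mul, InvMemClass.coe_inv] at h2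
      have ha : n⁻¹ * (a : G) * n = a * ((b : G)⁻¹ * (n⁻¹ * b * n)) := by
        rw [← h2]
        group
      set d : G := (a : G) * (b : G)⁻¹ with hd
      have hdP : d ∈ (P : Subgroup G) := Subgroup.mul_mem _ a.2 (Subgroup.inv_mem _ b.2)
      have hfix : n * d = d * n := by
        have h3 : n⁻¹ * d * n = d := by
          calc n⁻¹ * d * n = (n⁻¹ * (a : G) * n) * (n⁻¹ * (b : G)⁻¹ * n) := by rw [hd]; group
            _ = a * ((b : G)⁻¹ * (n⁻¹ * b * n)) * (n⁻¹ * (b : G)⁻¹ * n) := by rw [ha]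
            _ = d := by rw [hd]; group
        calc n * d = n * (n⁻¹ * d * n) := by rw [h3]
          _ = d * n := by group
      by_contra hne
      have hd1 : d ≠ 1 := by
        intro h
        apply hne
        apply Subtype.ext
        rw [hd, mul_inv_eq_one] at h
        exact h
      apply hnY
      rw [← hstar d hdP hd1, Subgroup.mem_centralizer_singleton_iff]
      exact hfix
    obtain ⟨z, hz⟩ := (Finite.injective_iff_surjective.mp hfinj) ⟨w, hw⟩
    refine ⟨z, z.2, ?_⟩
    have := congrArg Subtype.val hz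
    simp only [f, Subgroup.coe_mul, InvMemClass.coe_inv] at this
    exact this.symm

end Build

/-- The theorem on characters of small degree. -/
theorem small_degree {G : Type u} [Group G] [Finite G] (p : ℕ) (hp : p.Prime) (hpG : p ∣ Nat.card G)
    (P : Sylow p G)
    (hstar : ∀ x ∈ (P : Subgroup G), x ≠ 1 → Subgroup.centralizer ({x} : Set G) =
      Subgroup.centralizer ((P : Subgroup G) : Set G))
    (n : ℕ) (hn : Nat.card P = p ^ n) (χ : IrrCharacter G) (h1 : (χ : G → ℂ) ≠ fun _ => 1)
    (hdeg : charDegree (χ : G → ℂ) ^ 2 + 1 < p ^ n) :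
    (∃ K : Subgroup G, K.Normal ∧ K ≠ ⊤ ∧ (P : Subgroup G) ≤ K) ∨
      ((∃ N : Subgroup G, N.Normal ∧ N.index = p ^ n) ∧ charDegree (χ : G → ℂ) = 1) := by
  classical
  letI : Fintype G := Fintype.ofFinite G
  haveI : Fact p.Prime := ⟨hp⟩
  by_cases hK : ∃ K : Subgroup G, K.Normal ∧ K ≠ ⊤ ∧ (P : Subgroup G) ≤ K
  · exact Or.inl hK
  refine Or.inr ?_
  push Not at hK
  have htop : ∀ K : Subgroup G, K.Normal → (P : Subgroup G) ≤ K → K = ⊤ := fun K h2 h3 => by
    by_contra h4
    exact hK K h2 h4 h3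
  have hne : (P : Subgroup G) ≠ ⊥ := P.ne_bot_of_dvd_card hpG
  obtain ⟨D⟩ := exists_data P hstar hne
  letI : Fintype ↥(P : Subgroup G) := Fintype.ofFinite _
  letI : Fintype ↥(Subgroup.centralizer ((P : Subgroup G) : Set G)) := Fintype.ofFinite _
  letI : Fintype ↥(Subgroup.normalizer ((P : Subgroup G) : Set G)) := Fintype.ofFinite _
  obtain ⟨x, hx0, hx⟩ := IsIrrCharacter.apply_one χ.2
  have hdegx : charDegree (χ : G → ℂ) = x := by simp [charDegree, hx]
  have hker : ∀ ψ : IrrCharacter G, (ψ : G → ℂ) ≠ (fun _ => 1) →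
      ∃ z : ↥(P : Subgroup G), (ψ : G → ℂ) z ≠ (ψ : G → ℂ) 1 := by
    intro ψ hψ
    by_contra hcon
    push Not at hcon
    have hψc := IsIrrCharacter.isCharacter ψ.2
    have hle : (P : Subgroup G) ≤ charKer (ψ : G → ℂ) := fun z hz =>
      (mem_charKer hψc).mpr (hcon ⟨z, hz⟩)
    have htop' := htop _ (charKer_normal hψc) hle
    have hall : ∀ g, (ψ : G → ℂ) g = (ψ : G → ℂ) 1 := fun g =>
      (mem_charKer hψc).mp (htop' ▸ Subgroup.mem_top g)
    have h0 := classInner_irr_of_ne ψ.2 isIrrCharacter_one hψ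
    have h2 : classInner (ψ : G → ℂ) (fun _ => 1) = (ψ : G → ℂ) 1 := by
      simp only [classInner, map_one, mul_one, hall, Finset.sum_const, Finset.card_univ, nsmul_eq_mul]
      rw [← Nat.card_eq_fintype_card, ← mul_assoc, inv_mul_cancel₀ (by exact_mod_cast Nat.card_pos.ne'), one_mul]
    rw [h2] at h0
    exact IsIrrCharacter.apply_one_ne_zero ψ.2 h0
  have hdeg' : x * x + 1 < Nat.card ↥(P : Subgroup G) := by
    have h3 : Nat.card ↥(P : Subgroup G) = p ^ n := hn
    rw [h3, ← hdegx, ← sq]
    exact hdeg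
  have hnorm := D.norm_Y_eq_one χ.2 x hx hker h1 hdeg'
  have hχc := IsIrrCharacter.isCharacter χ.2
  have hirrY : IsIrrCharacter (Subgroup.centralizer ((P : Subgroup G) : Set G))
      (fun y => (χ : G → ℂ) y) :=
    isIrrCharacter_of_classInner_self (IsCharacter.comp hχc (Subgroup.subtype _)) hnorm
  obtain ⟨l, hl⟩ := D.exists_over hirrY
  have hnormz : ∀ z : ↥(P : Subgroup G), ‖(χ : G → ℂ) z‖ = x := by
    intro z
    have h2 : (χ : G → ℂ) z = (χ : G → ℂ) 1 * (l : _ → ℂ) z := hl z
    have h3 := D.irrP_conj_mul l z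
    have h4 : ‖(l : _ → ℂ) z‖ = 1 := by
      have h5 := congrArg norm h3
      rw [norm_mul, Complex.norm_conj, norm_one] at h5
      nlinarith [norm_nonneg ((l : _ → ℂ) z), sq_nonneg (‖(l : _ → ℂ) z‖ - 1), sq_nonneg (‖(l : _ → ℂ) z‖ + 1)]
    rw [h2, norm_mul, h4, mul_one, hx]
    simp
  -- the scalars
  obtain ⟨d, ρ, hirr, hρ⟩ := χ.2
  have hfr : finrank ℂ (Fin d → ℂ) = d := by simp
  have hxd : x = d := by
    have h2 := Representation.char_one ρ
    rw [hρ, hx, hfr] at h2
    exact_mod_cast h2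
  let K : Subgroup G :=
    { carrier := {g | ∃ ω : ℂ, ρ g = ω • (LinearMap.id : (Fin d → ℂ) →ₗ[ℂ] (Fin d → ℂ))}
      mul_mem' := by
        rintro a b ⟨u, hu⟩ ⟨v, hv⟩
        refine ⟨u * v, ?_⟩
        rw [map_mul, hu, hv]
        ext w i
        simp [mul_assoc]
        ring
      one_mem' := ⟨1, by simp; rfl⟩
      inv_mem' := by
        intro a ha
        rw [Set.mem_ofPred_eq] at ha ⊢
        rw [← norm_character_eq_finrank_iff] at ha ⊢
        rw [character_inv, Complex.norm_conj]
        exact ha }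
  have hKmem : ∀ g, g ∈ K ↔ ‖(χ : G → ℂ) g‖ = x := by
    intro g
    have h2 : g ∈ K ↔ ∃ ω : ℂ, ρ g = ω • (LinearMap.id : (Fin d → ℂ) →ₗ[ℂ] (Fin d → ℂ)) := Iff.rfl
    rw [h2, ← norm_character_eq_finrank_iff, hρ, hfr, hxd]
  have hKn : K.Normal := by
    constructor
    intro g hg h
    rw [hKmem] at hg ⊢
    rw [IsCharacter.isClassFunction hχc g h]
    exact hg
  have hKtop := htop K hKn (fun z hz => (hKmem z).mpr (hnormz ⟨z, hz⟩))
  have hall : ∀ g, ‖(χ : G → ℂ) g‖ = x := fun g => (hKmem g).mp (hKtop ▸ Subgroup.mem_top g)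
  have hx1 : x = 1 := by
    have h2 := classInner_irr_self χ.2
    have h3 : classInner (χ : G → ℂ) (χ : G → ℂ) = ((x * x : ℕ) : ℂ) := by
      simp only [classInner]
      have h4 : ∀ g, (χ : G → ℂ) g * conj ((χ : G → ℂ) g) = ((x * x : ℕ) : ℂ) := by
        intro g
        rw [Complex.mul_conj, Complex.normSq_eq_norm_sq, hall g]
        push_cast
        ring
      simp only [h4, Finset.sum_const, Finset.card_univ, nsmul_eq_mul]
      rw [← Nat.card_eq_fintype_card, ← mul_assoc, inv_mul_cancel₀ (by exact_mod_cast Nat.card_pos.ne'), one_mul]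
    rw [h3] at h2
    have h5 : x * x = 1 := by exact_mod_cast h2
    exact Nat.eq_one_of_mul_eq_one_right h5
  refine ⟨?_, hdegx.trans hx1⟩
  -- Burnside
  have hχ1 : (χ : G → ℂ) 1 = 1 := by rw [hx, hx1]; simp
  have hN : Subgroup.normalizer ((P : Subgroup G) : Set G) ≤ Subgroup.centralizer ((P : Subgroup G) : Set G) := by
    intro g hg
    by_contra hgY
    let l₁ : IrrCharacter ↥(P : Subgroup G) := ⟨fun z => (χ : G → ℂ) z,
      IsCharacter.isIrrCharacter_of_one (IsCharacter.comp hχc (Subgroup.subtype _)) hχ1⟩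
    have h2 := D.free ⟨g, hg⟩ l₁ (fun z => by
      have := IsCharacter.isClassFunction hχc (z : G) g⁻¹
      simpa [l₁] using this) hgY
    obtain ⟨z, hz⟩ := hker χ h1
    apply hz
    rw [hχ1]
    exact congrFun h2 z
  have hcompl := MonoidHom.ker_transferSylow_isComplement' P hN
  refine ⟨(MonoidHom.transferSylow P hN).ker, inferInstance, ?_⟩
  rw [hcompl.symm.index_eq_card]
  exact hn

end Cfsg.Agent.Lib.Char.Leo
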