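import Cfsg.Agent.Lib.Char.RelM
import Cfsg.Agent.Lib.Char.Triple
import Cfsg.Agent.Lib.Basic.MinNormal
import Cfsg.Agent.Lib.OddLocal.QuadPair
import Cfsg.Agent.Lib.Char.ZassSetup

/-!
# Induction from a maximal subgroup: restrictions to normal subgroups are not all homogeneous.
-/

set_option autoImplicit false
set_option linter.unusedSectionVars false

namespace Cfsg.Agent.Lib.Char.MaxInd

open Cfsg Cfsg.Agent.Lib.Char Cfsg.Agent.Lib.Char.Triple Module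
open scoped ComplexConjugate

universe u

section Sum

variable {G : Type u} [Group G] [Fintype G] (H M : Subgroup G) [hM : M.Normal] [Fintype H] [Fintype M]
  [Fintype ↥(H ⊓ M)]

/-- Double counting for a product of a subgroup with a normal subgroup. -/
theorem sum_mul_sup (hdec : ∀ g : G, ∃ y ∈ M, ∃ h ∈ H, g = y * h) (F : G → ℂ) :
    ∑ y : M, ∑ h : H, F (y * h) = (Nat.card ↥(H ⊓ M) : ℂ) * ∑ x : G, F x := by
  classical
  rw [Finset.sum_comm]
  have h1 : ∀ h : H, ∑ y : M, F (y * h) = ∑ x : G, if x * (h : G)⁻¹ ∈ M then F x else 0 := by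
    intro h
    have h2 : ∑ x : G, (if x * (h : G)⁻¹ ∈ M then F x else 0) =
        ∑ x : G, (if x ∈ M then F (x * h) else 0) := by
      refine Fintype.sum_equiv (Equiv.mulRight (h : G)⁻¹) _ _ fun x => ?_
      simp
    rw [h2, ← Finset.sum_filter, Finset.sum_subtype (Finset.univ.filter (· ∈ M)) (p := (· ∈ M)) (by simp)]
  simp only [h1]
  rw [Finset.sum_comm, Finset.mul_sum]
  refine Finset.sum_congr rfl fun x _ => ?_
  have hcount : (Finset.univ.filter fun h : H => x * (h : G)⁻¹ ∈ M).card = Nat.card ↥(H ⊓ M) := by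
    obtain ⟨y₀, hy₀, h₀, hh₀, rfl⟩ := hdec x
    rw [← Fintype.card_subtype, ← Nat.card_eq_fintype_card]
    apply Nat.card_congr
    refine Equiv.ofBijective (fun h => ⟨(h.1 : G) * h₀⁻¹, H.mul_mem h.1.2 (H.inv_mem hh₀), ?_⟩) ⟨?_, ?_⟩
    · have h2 : y₀ * h₀ * ((h.1 : H) : G)⁻¹ ∈ M := h.2
      have h3 : y₀⁻¹ * (y₀ * h₀ * ((h.1 : H) : G)⁻¹) ∈ M := M.mul_mem (M.inv_mem hy₀) h2
      have h4 : y₀⁻¹ * (y₀ * h₀ * ((h.1 : H) : G)⁻¹) = h₀ * ((h.1 : H) : G)⁻¹ := by group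
      rw [h4] at h3
      have h5 := M.inv_mem h3
      have h6 : (h₀ * ((h.1 : H) : G)⁻¹)⁻¹ = ((h.1 : H) : G) * h₀⁻¹ := by group
      rwa [h6] at h5
    · intro a b hab
      have h2 : ((a.1 : H) : G) * h₀⁻¹ = ((b.1 : H) : G) * h₀⁻¹ := congrArg Subtype.val hab
      have h3 := mul_right_cancel h2
      exact Subtype.ext (Subtype.ext h3)
    · rintro ⟨u, huH, huM⟩
      refine ⟨⟨⟨u * h₀, H.mul_mem huH hh₀⟩, ?_⟩, ?_⟩
      · show y₀ * h₀ * (u * h₀)⁻¹ ∈ M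
        have h4 : y₀ * h₀ * (u * h₀)⁻¹ = y₀ * u⁻¹ := by group
        rw [h4]
        exact M.mul_mem hy₀ (M.inv_mem huM)
      · apply Subtype.ext
        show u * h₀ * h₀⁻¹ = u
        group
  rw [Finset.sum_ite, Finset.sum_const_zero, add_zero, Finset.sum_const, hcount, nsmul_eq_mul]

variable {H M}

/-- A value of an induced character on a normal subgroup supplementing `H`. -/
theorem ind_apply_of_sup (hdec : ∀ g : G, ∃ y ∈ M, ∃ h ∈ H, g = y * h) {ϑ : H → ℂ}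
    (hϑ : IsClassFunction H ϑ) (m : G) :
    indFun H ϑ m = (Nat.card ↥(H ⊓ M) : ℂ)⁻¹ * ∑ y : M, extendByZero H ϑ ((y : G)⁻¹ * m * y) := by
  classical
  have hT : (Nat.card ↥(H ⊓ M) : ℂ) ≠ 0 := by exact_mod_cast Nat.card_pos.ne'
  have hHc : (Nat.card H : ℂ) ≠ 0 := by exact_mod_cast Nat.card_pos.ne'
  let F : G → ℂ := fun x => extendByZero H ϑ (x⁻¹ * m * x)
  have hinv : ∀ (x : G) (h : H), F (x * h) = F x := by
    intro x h
    simp only [F]
    by_cases hz : x⁻¹ * m * x ∈ H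
    · have h2 : (x * h)⁻¹ * m * (x * h) = (h : G)⁻¹ * (x⁻¹ * m * x) * h := by group
      have h3 : (h : G)⁻¹ * (x⁻¹ * m * x) * h ∈ H := H.mul_mem (H.mul_mem (H.inv_mem h.2) hz) h.2
      rw [h2, extendByZero_of_mem H ϑ h3, extendByZero_of_mem H ϑ hz]
      have := hϑ ⟨x⁻¹ * m * x, hz⟩ h⁻¹
      simp only [inv_inv] at this
      rw [← this]
      rfl
    · have h2 : (x * h)⁻¹ * m * (x * h) = (h : G)⁻¹ * (x⁻¹ * m * x) * h := by group
      have h3 : (h : G)⁻¹ * (x⁻¹ * m * x) * h ∉ H := by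
        intro h4
        apply hz
        have h5 := H.mul_mem (H.mul_mem h.2 h4) (H.inv_mem h.2)
        have h6 : (h : G) * ((h : G)⁻¹ * (x⁻¹ * m * x) * h) * (h : G)⁻¹ = x⁻¹ * m * x := by group
        rwa [h6] at h5
      rw [h2, extendByZero_of_notMem H ϑ h3, extendByZero_of_notMem H ϑ hz]
  have h1 := sum_mul_sup H M hdec F
  simp only [hinv] at h1
  simp only [Finset.sum_const, Finset.card_univ, ← Nat.card_eq_fintype_card, nsmul_eq_mul] at h1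
  rw [indFun_apply]
  have h2 : ∑ y : M, extendByZero H ϑ ((y : G)⁻¹ * m * y) = ∑ y : M, F y := rfl
  have h3 : ∑ x : G, extendByZero H ϑ (x⁻¹ * m * x) = ∑ x : G, F x := rfl
  rw [h2, h3]
  have h4 : ∑ x : G, F x = (Nat.card ↥(H ⊓ M) : ℂ)⁻¹ * ((Nat.card H : ℂ) * ∑ y : M, F y) := by
    have h5 : ∑ y : M, (Nat.card H : ℂ) * F y = (Nat.card H : ℂ) * ∑ y : M, F y := by
      rw [Finset.mul_sum]
    rw [← h5, h1]
    field_simp
  rw [h4]
  field_simp

variable (H M)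

/-- The norm of the restriction of an induced character. -/
theorem classInner_res_ind (hdec : ∀ g : G, ∃ y ∈ M, ∃ h ∈ H, g = y * h) {ϑ : H → ℂ}
    (hϑ : IsClassFunction H ϑ) :
    classInner (fun m : M => indFun H ϑ m) (fun m : M => indFun H ϑ m) =
      (Nat.card ↥(H ⊓ M) : ℂ)⁻¹ * ∑ t : ↥(H ⊓ M), ϑ ⟨t, t.2.1⟩ * conj (indFun H ϑ t) := by
  classical
  have hT : (Nat.card ↥(H ⊓ M) : ℂ) ≠ 0 := by exact_mod_cast Nat.card_pos.ne'
  have hMc : (Nat.card M : ℂ) ≠ 0 := by exact_mod_cast Nat.card_pos.ne'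
  set χ := indFun H ϑ with hχ
  have hχc : IsClassFunction G χ := isClassFunction_indFun H ϑ
  set S := ∑ t : ↥(H ⊓ M), ϑ ⟨t, t.2.1⟩ * conj (χ t) with hS
  have hconst : ∀ y : M, ∑ m : M, extendByZero H ϑ ((y : G)⁻¹ * m * y) * conj (χ m) = S := by
    intro y
    have h1 : ∑ m : M, extendByZero H ϑ ((y : G)⁻¹ * m * y) * conj (χ m) =
        ∑ m : M, extendByZero H ϑ m * conj (χ m) := by
      refine Fintype.sum_equiv (MulAut.conj y⁻¹).toEquiv _ _ fun m => ?_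
      have h2 : (((MulAut.conj y⁻¹).toEquiv m : M) : G) = (y : G)⁻¹ * m * y := by
        simp
      rw [h2]
      have h3 := hχc m (y : G)⁻¹
      rw [inv_inv] at h3
      rw [h3]
    rw [h1]
    have h2 := Cfsg.Agent.Lib.Char.Zass.sum_subgroup_of_support (K := H ⊓ M) (L := M) inf_le_right
      (fun g => extendByZero H ϑ g * conj (χ g)) (by
        intro g hg hgn
        have : g ∉ H := fun h => hgn ⟨h, hg⟩
        rw [extendByZero_of_notMem H ϑ this, zero_mul])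
    rw [h2, hS]
    refine Finset.sum_congr rfl fun t _ => ?_
    rw [extendByZero_of_mem H ϑ t.2.1]
  show (Nat.card M : ℂ)⁻¹ * ∑ m : M, χ m * conj (χ m) = _
  have h1 : ∑ m : M, χ m * conj (χ m) = (Nat.card ↥(H ⊓ M) : ℂ)⁻¹ * ((Nat.card M : ℂ) * S) := by
    have h2 : ∀ m : M, χ m = (Nat.card ↥(H ⊓ M) : ℂ)⁻¹ * ∑ y : M, extendByZero H ϑ ((y : G)⁻¹ * m * y) :=
      fun m => ind_apply_of_sup hdec hϑ m
    calc ∑ m : M, χ m * conj (χ m)
        = ∑ m : M, (Nat.card ↥(H ⊓ M) : ℂ)⁻¹ * ∑ y : M, extendByZero H ϑ ((y : G)⁻¹ * m * y) * conj (χ m) := by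
          refine Finset.sum_congr rfl fun m _ => ?_
          have h3 := h2 m
          calc χ m * conj (χ m)
              = ((Nat.card ↥(H ⊓ M) : ℂ)⁻¹ * ∑ y : M, extendByZero H ϑ ((y : G)⁻¹ * m * y)) * conj (χ m) := by
                rw [← h3]
            _ = _ := by rw [mul_assoc, Finset.sum_mul]
      _ = (Nat.card ↥(H ⊓ M) : ℂ)⁻¹ * ∑ y : M, ∑ m : M, extendByZero H ϑ ((y : G)⁻¹ * m * y) * conj (χ m) := by
          rw [← Finset.mul_sum, Finset.sum_comm]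
      _ = _ := by
          simp only [hconst, Finset.sum_const, Finset.card_univ, ← Nat.card_eq_fintype_card, nsmul_eq_mul]
  rw [h1]
  field_simp

end Sum

section Good

variable {G : Type u} [Group G] [Fintype G] (N : Subgroup G) [hN : N.Normal] [Fintype N] {d : ℕ}
  (ρ : Representation ℂ N (Fin d → ℂ)) [hirr : ρ.IsIrreducible]
  (hinv : ∀ (g : G) (n : N), ρ.character (cn N g n) = ρ.character n)

include hinv in
/-- Conjugation by an element of coprime order modulo `N` preserves the values of an extension. -/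
theorem trace_conj_eq {H : Subgroup G} (hNH : N ≤ H) (σ : H →* UEnd d)
    (hσ : ∀ n : N, σ ⟨n, hNH n.2⟩ = rhoU N ρ n) {t v : G} (ht : t ∈ H) (ha : v⁻¹ * t * v ∈ H)
    (hat : (v⁻¹ * t * v) * t⁻¹ ∈ N) {Q P : ℕ} (hQ : t ^ Q ∈ N) (hP : v ^ P ∈ N)
    (hcop : Nat.Coprime P Q) :
    LinearMap.trace ℂ _ ((σ ⟨v⁻¹ * t * v, ha⟩ : UEnd d) : Module.End ℂ (Fin d → ℂ)) =
      LinearMap.trace ℂ _ ((σ ⟨t, ht⟩ : UEnd d) : Module.End ℂ (Fin d → ℂ)) := by
  classical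
  have hd := d_pos N ρ
  set r := rhoU N ρ with hr
  obtain ⟨Yl, hYl⟩ := exists_lift N ρ hinv v⁻¹
  set Y : UEnd d := (Yl : G × UEnd d).2 with hYdef
  have hY : ∀ n : N, Y * r n = r (cn N v⁻¹ n) * Y := by
    intro n
    have h1 := Gam_intertwine N ρ Yl n
    have h2 : (Yl : G × UEnd d).1 = v⁻¹ := hYl
    rw [h2] at h1
    exact h1
  have hYi : ∀ n : N, Y⁻¹ * r n = r (cn N v n) * Y⁻¹ := by
    intro n
    have h1 := hY (cn N v n)
    have h2 : cn N v⁻¹ (cn N v n) = n := by rw [cn_inv_cn]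
    rw [h2] at h1
    rw [eq_mul_inv_iff_mul_eq, mul_assoc, ← h1, ← mul_assoc, inv_mul_cancel, one_mul]
  have hσint : ∀ (x : H) (n : N), σ x * r n = r (cn N x n) * σ x := by
    intro x n
    rw [hr, ← hσ n, ← hσ (cn N x n), ← map_mul, ← map_mul]
    congr 1
    apply Subtype.ext
    simp
  -- the scalar
  let a : H := ⟨v⁻¹ * t * v, ha⟩
  let tH : H := ⟨t, ht⟩
  set S : UEnd d := Y * σ tH * Y⁻¹ with hSdef
  have hS : ∀ n : N, S * r n = r (cn N (a : G) n) * S := by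
    intro n
    have h2 : cn N v⁻¹ (cn N t (cn N v n)) = cn N (a : G) n := by
      apply Subtype.ext
      simp [a, mul_assoc]
    have h3 := hσint tH (cn N v n)
    have h4 : cn N (tH : G) (cn N v n) = cn N t (cn N v n) := rfl
    rw [h4] at h3
    calc S * r n = Y * σ tH * (Y⁻¹ * r n) := by rw [hSdef]; group
      _ = Y * (σ tH * r (cn N v n)) * Y⁻¹ := by rw [hYi]; group
      _ = (Y * r (cn N t (cn N v n))) * σ tH * Y⁻¹ := by rw [h3]; group
      _ = r (cn N (a : G) n) * S := by rw [hY, h2, hSdef]; group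
  obtain ⟨c, hc⟩ := intertwine_scal N ρ S (σ a) (a : G) hS (fun n => hσint a n)
  have hcomm : ∀ (e : ℂˣ) (T : UEnd d), Commute (scalU d e) T := fun e T => scalU_commute d e T
  -- step 2 : `c ^ Q = 1`
  have hQ1 : c ^ Q = 1 := by
    have h1 : S ^ Q = Y * σ tH ^ Q * Y⁻¹ := by rw [hSdef, conj_pow]
    have h2 : σ tH ^ Q = r ⟨t ^ Q, hQ⟩ := by
      rw [← map_pow, hr, ← hσ]
      congr 1
    have h3 : Y * r ⟨t ^ Q, hQ⟩ * Y⁻¹ = r (cn N v⁻¹ ⟨t ^ Q, hQ⟩) := by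
      rw [hY, mul_inv_cancel_right]
    have h4 : S ^ Q = scalU d (c ^ Q) * σ a ^ Q := by
      rw [hc, (hcomm c (σ a)).mul_pow, map_pow]
    have h5 : σ a ^ Q = r (cn N v⁻¹ ⟨t ^ Q, hQ⟩) := by
      rw [← map_pow, hr, ← hσ]
      congr 1
      apply Subtype.ext
      have h7 : (v⁻¹ * t * v) ^ Q = v⁻¹ * t ^ Q * v := by
        have h8 := conj_pow (a := v⁻¹) (b := t) (i := Q)
        simpa using h8
      simp [a, h7]
    rw [h1, h2, h3, h5] at h4
    have h6 : scalU d (c ^ Q) = 1 := by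
      have h7 : (1 : UEnd d) * r (cn N v⁻¹ ⟨t ^ Q, hQ⟩) = scalU d (c ^ Q) * r (cn N v⁻¹ ⟨t ^ Q, hQ⟩) := by
        rw [one_mul]
        exact h4
      exact (mul_right_cancel h7).symm
    exact scalU_injective hd (by rw [h6, map_one])
  -- step 3 : iterates
  have hiter : ∀ k : ℕ, ((v ^ k)⁻¹ * t * v ^ k) * t⁻¹ ∈ N ∧ ∃ h : (v ^ k)⁻¹ * t * v ^ k ∈ H,
      Y ^ k * σ tH * (Y⁻¹) ^ k = scalU d (c ^ k) * σ ⟨_, h⟩ := by
    intro k
    induction k with
    | zero =>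
      refine ⟨by simp [N.one_mem], by simpa using ht, ?_⟩
      simp [tH]
    | succ k ih =>
      obtain ⟨hk, hkH, hkeq⟩ := ih
      have hform : (v ^ (k + 1))⁻¹ * t * v ^ (k + 1) = v⁻¹ * ((v ^ k)⁻¹ * t * v ^ k) * v := by
        rw [pow_succ]
        group
      let l : N := ⟨((v ^ k)⁻¹ * t * v ^ k) * t⁻¹, hk⟩
      have hform2 : (v ^ (k + 1))⁻¹ * t * v ^ (k + 1) = ((cn N v⁻¹ l : N) : G) * (v⁻¹ * t * v) := by
        rw [hform]
        simp [l]
        group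
      have hmem : (v ^ (k + 1))⁻¹ * t * v ^ (k + 1) ∈ H := by
        rw [hform2]
        exact H.mul_mem (hNH (cn N v⁻¹ l).2) ha
      refine ⟨?_, hmem, ?_⟩
      · rw [hform2, mul_assoc]
        exact N.mul_mem (cn N v⁻¹ l).2 hat
      · have h1 : Y ^ (k + 1) * σ tH * (Y⁻¹) ^ (k + 1) = Y * (Y ^ k * σ tH * (Y⁻¹) ^ k) * Y⁻¹ := by
          rw [pow_succ' Y, pow_succ (Y⁻¹)]
          group
        have h2 : σ ⟨_, hkH⟩ = r l * σ tH := by
          rw [hr, ← hσ l, ← map_mul]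
          congr 1
          apply Subtype.ext
          simp [l, tH]
        have h3 : (⟨_, hmem⟩ : H) = ⟨cn N v⁻¹ l, hNH (cn N v⁻¹ l).2⟩ * a := Subtype.ext hform2
        have h4 : σ ⟨_, hmem⟩ = r (cn N v⁻¹ l) * σ a := by
          rw [h3, map_mul, hσ]
        rw [h1, hkeq, h2, h4]
        have h5 : Y * (scalU d (c ^ k) * (r l * σ tH)) * Y⁻¹ =
            scalU d (c ^ k) * ((Y * r l) * σ tH * Y⁻¹) := by
          have := (hcomm (c ^ k) Y).eq
          rw [← mul_assoc Y, ← this]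
          group
        rw [h5, hY]
        have h6 : r (cn N v⁻¹ l) * Y * σ tH * Y⁻¹ = r (cn N v⁻¹ l) * S := by
          rw [hSdef]
          group
        rw [h6, hc, pow_succ, map_mul]
        have := (hcomm c (r (cn N v⁻¹ l))).eq
        rw [mul_assoc (scalU d (c ^ k)), ← mul_assoc (r _), ← this]
        group
  have hP1 : c ^ P = 1 := by
    obtain ⟨-, hkH, hkeq⟩ := hiter P
    let n₀ : N := ⟨v ^ P, hP⟩
    have hY2 : ∀ (k : ℕ) (n : N), Y ^ k * r n = r (cn N (v⁻¹ ^ k) n) * Y ^ k := by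
      intro k
      induction k with
      | zero =>
        intro n
        have : cn N (v⁻¹ ^ 0) n = n := by
          apply Subtype.ext
          simp
        rw [this]
        simp
      | succ k ih =>
        intro n
        rw [pow_succ, mul_assoc, hY, ← mul_assoc, ih, mul_assoc]
        congr 2
        apply Subtype.ext
        simp [pow_succ, mul_assoc]
    have h1 : ∀ n : N, Y ^ P * r n = r (cn N (n₀⁻¹ : N) n) * Y ^ P := by
      intro n
      rw [hY2]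
      congr 2
      apply Subtype.ext
      simp [n₀]
    have h2 : ∀ n : N, r n₀⁻¹ * r n = r (cn N (n₀⁻¹ : N) n) * r n₀⁻¹ := by
      intro n
      rw [← map_mul, ← map_mul]
      congr 1
      apply Subtype.ext
      simp
    obtain ⟨c', hc'⟩ := intertwine_scal N ρ (Y ^ P) (r n₀⁻¹) ((n₀⁻¹ : N) : G) h1 h2
    have h3 : Y ^ P * σ tH * (Y⁻¹) ^ P = r n₀⁻¹ * σ tH * (r n₀⁻¹)⁻¹ := by
      rw [inv_pow, hc', mul_inv_rev]
      have h4 := (hcomm c' (r n₀⁻¹ * σ tH * (r n₀⁻¹)⁻¹)).eq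
      calc scalU d c' * r n₀⁻¹ * σ tH * ((r n₀⁻¹)⁻¹ * (scalU d c')⁻¹)
          = scalU d c' * (r n₀⁻¹ * σ tH * (r n₀⁻¹)⁻¹) * (scalU d c')⁻¹ := by group
        _ = _ := by rw [h4, mul_inv_cancel_right]
    have h5 : r n₀⁻¹ * σ tH * (r n₀⁻¹)⁻¹ = σ ⟨_, hkH⟩ := by
      rw [← map_inv, inv_inv, hr, ← hσ, ← hσ, ← map_mul, ← map_mul]
      congr 1
    rw [h3, h5] at hkeq
    have h6 : (1 : UEnd d) * σ ⟨_, hkH⟩ = scalU d (c ^ P) * σ ⟨_, hkH⟩ := by
      rw [one_mul]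
      exact hkeq
    have h7 := (mul_right_cancel h6).symm
    exact scalU_injective hd (by rw [h7, map_one])
  have hc1 : c = 1 := by
    have h5 : orderOf c ∣ P := orderOf_dvd_of_pow_eq_one hP1
    have h6 : orderOf c ∣ Q := orderOf_dvd_of_pow_eq_one hQ1
    exact orderOf_eq_one_iff.mp (Nat.eq_one_of_dvd_coprimes hcop h5 h6)
  rw [hc1, map_one, one_mul] at hc
  have h7 : σ a = Y * σ tH * Y⁻¹ := hc.symm
  show LinearMap.trace ℂ _ ((σ a : UEnd d) : Module.End ℂ (Fin d → ℂ)) = LinearMap.trace ℂ _ ((σ tH : UEnd d) : Module.End ℂ (Fin d → ℂ))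
  rw [h7, Units.val_mul, Units.val_mul, LinearMap.trace_mul_comm, ← mul_assoc, Units.inv_mul, one_mul]

end Good

section Norm

variable {G : Type u} [Group G] [Fintype G] (H M : Subgroup G) [hM : M.Normal] [Fintype H] [Fintype M]
  [Fintype ↥(H ⊓ M)]

theorem card_mul_card_eq (hdec : ∀ g : G, ∃ y ∈ M, ∃ h ∈ H, g = y * h) :
    Nat.card M * Nat.card H = Nat.card ↥(H ⊓ M) * Nat.card G := by
  have h1 := sum_mul_sup H M hdec (fun _ => (1 : ℂ))
  simp only [Finset.sum_const, Finset.card_univ, ← Nat.card_eq_fintype_card, nsmul_eq_mul, mul_one] at h1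
  exact_mod_cast h1

variable {H M}

/-- Formula for the norm of the restriction under the goodness hypothesis. -/
theorem res_ind_formula (hdec : ∀ g : G, ∃ y ∈ M, ∃ h ∈ H, g = y * h) {ϑ : H → ℂ}
    (hϑ : IsClassFunction H ϑ)
    (hgood : ∀ (t : ↥(H ⊓ M)) (y : M) (h : (y : G)⁻¹ * t * y ∈ H), ϑ ⟨_, h⟩ = ϑ ⟨t, t.2.1⟩) :
    open scoped Classical in
    classInner (fun m : M => indFun H ϑ m) (fun m : M => indFun H ϑ m) =
      ((Nat.card ↥(H ⊓ M) : ℂ)⁻¹) ^ 2 * ∑ t : ↥(H ⊓ M),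
        ((Finset.univ.filter fun y : M => (y : G)⁻¹ * t * y ∈ H).card : ℂ) *
          (ϑ ⟨t, t.2.1⟩ * conj (ϑ ⟨t, t.2.1⟩)) := by
  classical
  rw [classInner_res_ind H M hdec hϑ]
  have h1 : ∀ t : ↥(H ⊓ M), indFun H ϑ t = (Nat.card ↥(H ⊓ M) : ℂ)⁻¹ *
      (((Finset.univ.filter fun y : M => (y : G)⁻¹ * t * y ∈ H).card : ℂ) * ϑ ⟨t, t.2.1⟩) := by
    intro t
    rw [ind_apply_of_sup (M := M) hdec hϑ]
    congr 1
    have h2 : ∀ y : M, extendByZero H ϑ ((y : G)⁻¹ * t * y) =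
        if (y : G)⁻¹ * t * y ∈ H then ϑ ⟨t, t.2.1⟩ else 0 := by
      intro y
      split_ifs with h
      · rw [extendByZero_of_mem H ϑ h, hgood t y h]
      · rw [extendByZero_of_notMem H ϑ h]
    simp only [h2]
    rw [Finset.sum_ite, Finset.sum_const_zero, add_zero, Finset.sum_const, nsmul_eq_mul]
  simp only [h1, map_mul, map_inv₀, Complex.conj_natCast]
  rw [sq, mul_assoc]
  congr 1
  rw [Finset.mul_sum]
  refine Finset.sum_congr rfl fun t _ => ?_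
  ring

theorem norm_eq_of_all_mem (hdec : ∀ g : G, ∃ y ∈ M, ∃ h ∈ H, g = y * h) {ϑ : H → ℂ}
    (hϑ : IsClassFunction H ϑ)
    (hgood : ∀ (t : ↥(H ⊓ M)) (y : M) (h : (y : G)⁻¹ * t * y ∈ H), ϑ ⟨_, h⟩ = ϑ ⟨t, t.2.1⟩)
    (hall : ∀ (t : ↥(H ⊓ M)) (y : M), (y : G)⁻¹ * t * y ∈ H)
    (hirr : ∑ t : ↥(H ⊓ M), ϑ ⟨t, t.2.1⟩ * conj (ϑ ⟨t, t.2.1⟩) = Nat.card ↥(H ⊓ M)) :
    classInner (fun m : M => indFun H ϑ m) (fun m : M => indFun H ϑ m) =
      (Nat.card M : ℂ) * (Nat.card ↥(H ⊓ M) : ℂ)⁻¹ := by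
  classical
  rw [res_ind_formula hdec hϑ hgood]
  have hT : (Nat.card ↥(H ⊓ M) : ℂ) ≠ 0 := by exact_mod_cast Nat.card_pos.ne'
  have h1 : ∀ t : ↥(H ⊓ M), (Finset.univ.filter fun y : M => (y : G)⁻¹ * t * y ∈ H).card = Nat.card M := by
    intro t
    rw [Finset.filter_true_of_mem (fun y _ => hall t y), Finset.card_univ, Nat.card_eq_fintype_card]
  simp only [h1]
  rw [← Finset.mul_sum, hirr]
  field_simp

theorem forall_mem_of_norm (hdec : ∀ g : G, ∃ y ∈ M, ∃ h ∈ H, g = y * h) {ϑ : H → ℂ}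
    (hϑ : IsClassFunction H ϑ)
    (hgood : ∀ (t : ↥(H ⊓ M)) (y : M) (h : (y : G)⁻¹ * t * y ∈ H), ϑ ⟨_, h⟩ = ϑ ⟨t, t.2.1⟩)
    (hirr : ∑ t : ↥(H ⊓ M), ϑ ⟨t, t.2.1⟩ * conj (ϑ ⟨t, t.2.1⟩) = Nat.card ↥(H ⊓ M))
    (hnorm : classInner (fun m : M => indFun H ϑ m) (fun m : M => indFun H ϑ m) =
      (Nat.card M : ℂ) * (Nat.card ↥(H ⊓ M) : ℂ)⁻¹)
    (t : ↥(H ⊓ M)) (ht : ϑ ⟨t, t.2.1⟩ ≠ 0) (y : M) : (y : G)⁻¹ * t * y ∈ H := by
  classical
  rw [res_ind_formula hdec hϑ hgood] at hnorm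
  have hT : (Nat.card ↥(H ⊓ M) : ℂ) ≠ 0 := by exact_mod_cast Nat.card_pos.ne'
  -- the real form
  let f : ↥(H ⊓ M) → ℝ := fun t => ‖ϑ ⟨t, t.2.1⟩‖ ^ 2
  have hf : ∀ t : ↥(H ⊓ M), ϑ ⟨t, t.2.1⟩ * conj (ϑ ⟨t, t.2.1⟩) = ((f t : ℝ) : ℂ) := by
    intro t
    rw [Complex.mul_conj, Complex.normSq_eq_norm_sq]
  let n : ↥(H ⊓ M) → ℕ := fun t => (Finset.univ.filter fun y : M => (y : G)⁻¹ * t * y ∈ H).card
  have h1 : ∑ t : ↥(H ⊓ M), ((n t : ℝ)) * f t = (Nat.card M : ℝ) * ∑ t : ↥(H ⊓ M), f t := by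
    have h2 : ((∑ t : ↥(H ⊓ M), ((n t : ℝ)) * f t : ℝ) : ℂ) =
        (((Nat.card M : ℝ) * ∑ t : ↥(H ⊓ M), f t : ℝ) : ℂ) := by
      push_cast
      simp only [hf, n] at hnorm hirr
      have h3 : ∀ t : ↥(H ⊓ M), ((‖ϑ ⟨t, t.2.1⟩‖ : ℂ)) ^ 2 = ((f t : ℝ) : ℂ) := by
        intro t
        simp [f]
      simp only [n, f] at hnorm hirr ⊢
      push_cast at hnorm hirr ⊢
      rw [hirr]
      field_simp at hnorm
      rw [hnorm, mul_comm]
    exact_mod_cast h2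
  have h2 : ∑ t : ↥(H ⊓ M), ((Nat.card M : ℝ) - n t) * f t = 0 := by
    simp only [sub_mul, Finset.sum_sub_distrib]
    rw [h1, Finset.mul_sum]
    ring
  have hnle : ∀ t, n t ≤ Nat.card M := by
    intro t
    rw [Nat.card_eq_fintype_card]
    exact Finset.card_le_univ _
  have h3 := (Finset.sum_eq_zero_iff_of_nonneg (fun t _ => mul_nonneg
    (sub_nonneg.mpr (by exact_mod_cast hnle t)) (sq_nonneg _))).mp h2 t (Finset.mem_univ t)
  have h4 : f t ≠ 0 := by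
    simp only [f]
    exact pow_ne_zero _ (norm_ne_zero_iff.mpr ht)
  have h5 : (Nat.card M : ℝ) - n t = 0 := (mul_eq_zero.mp h3).resolve_right h4
  have h6 : n t = Nat.card M := by
    have : (n t : ℝ) = Nat.card M := by linarith
    exact_mod_cast this
  have h7 : (Finset.univ.filter fun y : M => (y : G)⁻¹ * t * y ∈ H) = Finset.univ := by
    apply Finset.eq_univ_of_card
    rw [← Nat.card_eq_fintype_card]
    exact h6
  have h8 : y ∈ (Finset.univ.filter fun y : M => (y : G)⁻¹ * t * y ∈ H) := by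
    rw [h7]
    exact Finset.mem_univ y
  exact (Finset.mem_filter.mp h8).2

end Norm

end Cfsg.Agent.Lib.Char.MaxInd
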