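import Cfsg.Agent.Lib.Char.MaxInd

/-!
# Induction from a maximal subgroup, II
-/

set_option autoImplicit false
set_option linter.unusedSectionVars false

namespace Cfsg.Agent.Lib.Char.MaxInd

open Cfsg Cfsg.Agent.Lib.Char Cfsg.Agent.Lib.Char.Triple Module
open scoped ComplexConjugate

universe u

section Chief

variable {G : Type u} [Group G] [Finite G]

/-- A chief factor above `L`. -/
theorem exists_chief_pgroup (L : Subgroup G) [hL : L.Normal] (hsolv : Group.IsSolvable (G ⧸ L))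
    (hne : L ≠ ⊤) :
    ∃ (K : Subgroup G) (p : ℕ), K.Normal ∧ L < K ∧ p.Prime ∧
      Cfsg.Agent.Lib.Basic.IsMinNormal (K.map (QuotientGroup.mk' L)) ∧
      IsPGroup p ↥(K.map (QuotientGroup.mk' L)) ∧ ∀ a ∈ K, ∀ b ∈ K, a * b * a⁻¹ * b⁻¹ ∈ L := by
  haveI := hsolv
  haveI : Nontrivial (G ⧸ L) := by
    obtain ⟨x, hx⟩ : ∃ x, x ∉ L := by
      by_contra hcon
      push Not at hcon
      exact hne (eq_top_iff.mpr fun x _ => hcon x)
    refine ⟨⟨(x : G ⧸ L), 1, fun h => hx ?_⟩⟩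
    exact (QuotientGroup.eq_one_iff x).mp h
  obtain ⟨A, hA⟩ := Cfsg.Agent.Lib.Basic.exists_isMinNormal (G := G ⧸ L)
  obtain ⟨hcomm, p, hp, hpg⟩ := hA.isPGroup
  let K : Subgroup G := A.comap (QuotientGroup.mk' L)
  have hmap : K.map (QuotientGroup.mk' L) = A :=
    Subgroup.map_comap_eq_self_of_surjective (QuotientGroup.mk'_surjective L) A
  have hLK : L ≤ K := by
    intro x hx
    show (x : G ⧸ L) ∈ A
    rw [(QuotientGroup.eq_one_iff x).mpr hx]
    exact A.one_mem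
  refine ⟨K, p, hA.1.comap _, lt_of_le_of_ne hLK ?_, hp, by rw [hmap]; exact hA, by rw [hmap]; exact hpg, ?_⟩
  · intro h
    apply hA.2.1
    rw [← hmap, ← h, Subgroup.map_eq_bot_iff, QuotientGroup.ker_mk']
  · intro a ha b hb
    have h1 := mul_comm' (⟨(a : G ⧸ L), ha⟩ : A) ⟨(b : G ⧸ L), hb⟩
    have h2 : (a : G ⧸ L) * (b : G ⧸ L) = (b : G ⧸ L) * (a : G ⧸ L) := congrArg Subtype.val h1
    rw [← QuotientGroup.eq_one_iff]
    rw [QuotientGroup.mk_mul, QuotientGroup.mk_mul, QuotientGroup.mk_mul, QuotientGroup.mk_inv,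
      QuotientGroup.mk_inv, h2]
    group

theorem relIndex_pow_of_pgroup {p : ℕ} (L K : Subgroup G) [hL : L.Normal] (hLK : L ≤ K)
    [Fact p.Prime] (hp : IsPGroup p ↥(K.map (QuotientGroup.mk' L))) : ∃ a, L.relIndex K = p ^ a := by
  let f : K →* ↥(K.map (QuotientGroup.mk' L)) := (QuotientGroup.mk' L).subgroupMap K
  have hf : Function.Surjective f := (QuotientGroup.mk' L).subgroupMap_surjective K
  have hker : f.ker = L.subgroupOf K := by
    ext x
    rw [MonoidHom.mem_ker, Subgroup.mem_subgroupOf]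
    constructor
    · intro h
      have h2 := congrArg Subtype.val h
      exact (QuotientGroup.eq_one_iff _).mp h2
    · intro h
      apply Subtype.ext
      exact (QuotientGroup.eq_one_iff _).mpr h
  obtain ⟨a, ha⟩ := IsPGroup.iff_card.mp hp
  refine ⟨a, ?_⟩
  rw [Subgroup.relIndex, ← hker, Subgroup.index_ker, MonoidHom.range_eq_top.mpr hf, Subgroup.card_top, ha]

theorem pow_mem_of_pgroup {p : ℕ} (L K : Subgroup G) [hL : L.Normal]
    (hp : IsPGroup p ↥(K.map (QuotientGroup.mk' L))) {x : G} (hx : x ∈ K) : ∃ n, x ^ p ^ n ∈ L := by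
  obtain ⟨n, hn⟩ := hp ⟨(x : G ⧸ L), x, hx, rfl⟩
  refine ⟨n, ?_⟩
  rw [← QuotientGroup.eq_one_iff, QuotientGroup.mk_pow]
  exact congrArg Subtype.val hn

/-- Properties of the chief factor when `L` is the core of `H`. -/
theorem core_facts (H L K : Subgroup G) [hL : L.Normal] [hK : K.Normal] (hcoat : IsCoatom H)
    (hLH : L ≤ H) (hcore : ∀ K' : Subgroup G, K'.Normal → L ≤ K' → K' ≤ H → K' = L)
    (hLK : L < K) (hab : ∀ a ∈ K, ∀ b ∈ K, a * b * a⁻¹ * b⁻¹ ∈ L) :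
    (∀ g : G, ∃ y ∈ K, ∃ h ∈ H, g = y * h) ∧ (∀ x ∈ H, (∀ v ∈ K, v * x * v⁻¹ * x⁻¹ ∈ L) → x ∈ L) ∧
      (∀ x ∈ H, x ∈ K → x ∈ L) := by
  have hKH : ¬ K ≤ H := fun h => hLK.ne (hcore K hK hLK.le h).symm
  have hsup : K ⊔ H = ⊤ := by
    rw [sup_comm]
    exact hcoat.2 _ (lt_of_le_of_ne le_sup_left (fun h => hKH (by rw [h]; exact le_sup_right)))
  have hdec : ∀ g : G, ∃ y ∈ K, ∃ h ∈ H, g = y * h := by
    intro g
    have h1 : g ∈ ((K ⊔ H : Subgroup G) : Set G) := by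
      rw [hsup]
      trivial
    rw [Subgroup.normal_mul] at h1
    obtain ⟨y, hy, h, hh, e⟩ := Set.mem_mul.mp h1
    exact ⟨y, hy, h, hh, e.symm⟩
  -- the subgroup `D`
  let D : Subgroup G :=
    { carrier := {x | x ∈ H ∧ ∀ v ∈ K, v * x * v⁻¹ * x⁻¹ ∈ L}
      one_mem' := ⟨H.one_mem, fun v _ => by simp [L.one_mem]⟩
      mul_mem' := by
        rintro a b ⟨ha, ha'⟩ ⟨hb, hb'⟩
        refine ⟨H.mul_mem ha hb, fun v hv => ?_⟩
        have h1 := L.mul_mem (ha' v hv) (hL.conj_mem _ (hb' v hv) a)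
        have h2 : v * a * v⁻¹ * a⁻¹ * (a * (v * b * v⁻¹ * b⁻¹) * a⁻¹) = v * (a * b) * v⁻¹ * (a * b)⁻¹ := by
          group
        rwa [h2] at h1
      inv_mem' := by
        rintro a ⟨ha, ha'⟩
        refine ⟨H.inv_mem ha, fun v hv => ?_⟩
        have h1 := hL.conj_mem _ (L.inv_mem (ha' v hv)) a⁻¹
        have h2 : a⁻¹ * (v * a * v⁻¹ * a⁻¹)⁻¹ * a⁻¹⁻¹ = v * a⁻¹ * v⁻¹ * a⁻¹⁻¹ := by
          group
        rwa [h2] at h1 }
  have hLD : L ≤ D := by
    intro l hl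
    refine ⟨hLH hl, fun v _ => ?_⟩
    exact L.mul_mem (hL.conj_mem l hl v) (L.inv_mem hl)
  have hDn : D.Normal := by
    constructor
    rintro x ⟨hxH, hx⟩ g
    obtain ⟨y, hy, h, hh, rfl⟩ := hdec g
    have hx'H : h * x * h⁻¹ ∈ H := H.mul_mem (H.mul_mem hh hxH) (H.inv_mem hh)
    have hx' : ∀ v ∈ K, v * (h * x * h⁻¹) * v⁻¹ * (h * x * h⁻¹)⁻¹ ∈ L := by
      intro v hv
      have hv' : h⁻¹ * v * h⁻¹⁻¹ ∈ K := hK.conj_mem v hv h⁻¹
      have h1 := hL.conj_mem _ (hx _ hv') h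
      have h2 : h * (h⁻¹ * v * h⁻¹⁻¹ * x * (h⁻¹ * v * h⁻¹⁻¹)⁻¹ * x⁻¹) * h⁻¹ =
          v * (h * x * h⁻¹) * v⁻¹ * (h * x * h⁻¹)⁻¹ := by group
      rwa [h2] at h1
    have h3 := hx' y hy
    have h4 : (y * h) * x * (y * h)⁻¹ = (y * (h * x * h⁻¹) * y⁻¹ * (h * x * h⁻¹)⁻¹) * (h * x * h⁻¹) := by group
    rw [h4]
    exact D.mul_mem (hLD h3) ⟨hx'H, hx'⟩
  have hDL : D = L := hcore D hDn hLD (fun x hx => hx.1)
  have hcen : ∀ x ∈ H, (∀ v ∈ K, v * x * v⁻¹ * x⁻¹ ∈ L) → x ∈ L := by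
    intro x hx hv
    rw [← hDL]
    exact ⟨hx, hv⟩
  refine ⟨hdec, hcen, fun x hx hxK => hcen x hx fun v hv => hab v hv x hxK⟩

/-- If `q = p`, then `K₁` centralizes `K` modulo `L`. -/
theorem comm_of_same_prime {p : ℕ} [Fact p.Prime] (L K K₁ : Subgroup G) [hL : L.Normal] [hK : K.Normal]
    [hK₁ : K₁.Normal] (hKK₁ : K ≤ K₁)
    (hmin : Cfsg.Agent.Lib.Basic.IsMinNormal (K.map (QuotientGroup.mk' L)))
    (hp : IsPGroup p ↥(K.map (QuotientGroup.mk' L))) (hp₁ : IsPGroup p ↥(K₁.map (QuotientGroup.mk' K))) :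
    ∀ t ∈ K₁, ∀ v ∈ K, v * t * v⁻¹ * t⁻¹ ∈ L := by
  have hP : IsPGroup p ↥(K₁.map (QuotientGroup.mk' L)) := by
    rintro ⟨_, x, hx, rfl⟩
    obtain ⟨n, hn⟩ := pow_mem_of_pgroup K K₁ hp₁ hx
    obtain ⟨m, hm⟩ := pow_mem_of_pgroup L K hp hn
    refine ⟨n + m, ?_⟩
    apply Subtype.ext
    show ((x : G ⧸ L)) ^ p ^ (n + m) = 1
    rw [← QuotientGroup.mk_pow, QuotientGroup.eq_one_iff, pow_add, pow_mul]
    exact hm
  haveI : (K₁.map (QuotientGroup.mk' L)).Normal := Subgroup.Normal.map hK₁ _ (QuotientGroup.mk'_surjective L)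
  obtain ⟨h1, -⟩ := Cfsg.Agent.Lib.OddLocal.minNormal_in_pGroup _ hP _ hmin (Subgroup.map_mono hKK₁)
  intro t ht v hv
  have h2 := h1 (v : G ⧸ L) ⟨v, hv, rfl⟩ (t : G ⧸ L) ⟨t, ht, rfl⟩
  rw [← QuotientGroup.eq_one_iff, QuotientGroup.mk_mul, QuotientGroup.mk_mul, QuotientGroup.mk_mul,
    QuotientGroup.mk_inv, QuotientGroup.mk_inv, h2]
  group

/-- Upward irreducibility. -/
theorem isIrr_res_of_le [Fintype G] {H A B : Subgroup G} (hAB : A ≤ B) (hBH : B ≤ H)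
    (hnorm : ∀ b ∈ B, ∀ a ∈ A, b * a * b⁻¹ ∈ A) {ϑ : H → ℂ} (hch : IsCharacter H ϑ)
    (hA : IsIrrCharacter A (fun x : A => ϑ ⟨x, hBH (hAB x.2)⟩)) :
    IsIrrCharacter B (fun x : B => ϑ ⟨x, hBH x.2⟩) := by
  classical
  letI : Fintype B := Fintype.ofFinite _
  letI : Fintype A := Fintype.ofFinite _
  let A' : Subgroup B := A.subgroupOf B
  haveI : A'.Normal := by
    constructor
    intro n hn g
    exact hnorm g g.2 n hn
  letI : Fintype A' := Fintype.ofFinite _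
  let e : A' ≃* A := Subgroup.subgroupOfEquivOfLe hAB
  have h1 : resFun A' (fun x : B => ϑ ⟨x, hBH x.2⟩) = (fun x : A => ϑ ⟨x, hBH (hAB x.2)⟩) ∘ e := rfl
  apply isIrr_of_irr_res A' (IsCharacter.comp hch (Subgroup.inclusion hBH))
  have h2 := isIrrCharacter_comp_mulEquiv e hA
  rw [← h1] at h2
  exact h2

end Chief

section Main

variable {G : Type u} [Group G] [Fintype G]

/-- The core case. -/
theorem core_case (H L : Subgroup G) [hL : L.Normal] (hcoat : IsCoatom H) (hLH : L ≤ H)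
    (ϑ : H → ℂ) (hϑ : IsIrrCharacter H ϑ)
    (hϑL : IsIrrCharacter L (fun x : L => ϑ ⟨(x : G), hLH x.2⟩))
    (hind : IsIrrCharacter G (indFun H ϑ)) (hsolv : Group.IsSolvable (G ⧸ L))
    (hcore : ∀ K' : Subgroup G, K'.Normal → L ≤ K' → K' ≤ H → K' = L)
    (hhom : ∀ M : Subgroup G, M.Normal → L ≤ M → ∃ (φ : M → ℂ) (e : ℕ), IsIrrCharacter M φ ∧
      (fun m : M => indFun H ϑ m) = (e : ℂ) • φ) : False := by
  classical
  letI hfin : ∀ K : Subgroup G, Fintype K := fun K => Fintype.ofFinite K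
  have hχc := IsIrrCharacter.isCharacter hind
  have hϑc := IsIrrCharacter.isCharacter hϑ
  have hϑcl := IsCharacter.isClassFunction hϑc
  have hLtop : L ≠ ⊤ := fun h => hcoat.1 (top_le_iff.mp (h ▸ hLH))
  obtain ⟨K, p, hKn, hLK, hp, hmin, hpg, hab⟩ := exists_chief_pgroup L hsolv hLtop
  haveI := hKn
  haveI : Fact p.Prime := ⟨hp⟩
  obtain ⟨hdec, hcen, hHK⟩ := core_facts H L K hcoat hLH hcore hLK hab
  -- invariance of `φ`
  obtain ⟨φ₀, e₀, hφ₀, he₀⟩ := hhom L inferInstance le_rfl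
  have hχ0 : indFun H ϑ 1 ≠ 0 := IsIrrCharacter.apply_one_ne_zero hind
  have hconst1 : classInner (resFun L (indFun H ϑ)) (fun x : L => ϑ ⟨(x : G), hLH x.2⟩) ≠ 0 := by
    have h1 : classInner (indFun H ϑ) (indFun H ϑ) = 1 := classInner_irr_self hind
    rw [classInner_indFun_left H ϑ _ (IsCharacter.isClassFunction hχc)] at h1
    have h2 : classInner (resFun H (indFun H ϑ)) ϑ ≠ 0 := by
      rw [classInner_conj_symm]
      have h3 : classInner ϑ (resFun H (indFun H ϑ)) = 1 := h1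
      rw [h3]
      simp
    exact classInner_res_ne_zero_trans hLH hχc hϑ h2 hϑL (by
      rw [classInner_irr_self hϑL]
      exact one_ne_zero)
  have hφeq : φ₀ = fun x : L => ϑ ⟨(x : G), hLH x.2⟩ := by
    by_contra hne
    apply hconst1
    have h1 : resFun L (indFun H ϑ) = (e₀ : ℂ) • φ₀ := he₀
    rw [h1, classInner_smul_left, classInner_irr_of_ne hφ₀ hϑL hne, mul_zero]
  subst hφeq
  have hφinv : ∀ (g : G) (l : G) (hl : l ∈ L) (h' : g * l * g⁻¹ ∈ H), ϑ ⟨g * l * g⁻¹, h'⟩ = ϑ ⟨l, hLH hl⟩ := by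
    intro g l hl h'
    have hgl : g * l * g⁻¹ ∈ L := hL.conj_mem l hl g
    have h1 := congrFun he₀ ⟨g * l * g⁻¹, hgl⟩
    have h2 := congrFun he₀ ⟨l, hl⟩
    simp only [Pi.smul_apply, smul_eq_mul] at h1 h2
    have h3 := IsCharacter.isClassFunction hχc l g
    rw [h3, h2] at h1
    have he0 : (e₀ : ℂ) ≠ 0 := by
      intro h0
      have h4 := congrFun he₀ (1 : L)
      simp only [Pi.smul_apply, smul_eq_mul, h0, zero_mul] at h4
      exact hχ0 h4
    exact (mul_left_cancel₀ he0 h1).symm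
  -- irreducibility of the restrictions to `H ⊓ M`
  have hirrT : ∀ M : Subgroup G, M.Normal → L ≤ M →
      ∑ t : ↥(H ⊓ M), ϑ ⟨t, t.2.1⟩ * conj (ϑ ⟨t, t.2.1⟩) = Nat.card ↥(H ⊓ M) := by
    intro M _ hLM
    have h1 : IsIrrCharacter ↥(H ⊓ M) (fun x : ↥(H ⊓ M) => ϑ ⟨x, x.2.1⟩) :=
      isIrr_res_of_le (A := L) (B := H ⊓ M) (le_inf hLH hLM) inf_le_left
        (fun b _ a ha => hL.conj_mem a ha b) hϑc hϑL
    have h2 := classInner_irr_self h1
    simp only [classInner] at h2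
    have hcard : (Nat.card ↥(H ⊓ M) : ℂ) ≠ 0 := by exact_mod_cast Nat.card_pos.ne'
    field_simp at h2
    exact h2
  -- the subgroup `K`
  have hTKL : H ⊓ K = L := le_antisymm (fun x hx => hHK x hx.1 hx.2) (le_inf hLH hLK.le)
  have hallK : ∀ (t : ↥(H ⊓ K)) (y : K), (y : G)⁻¹ * t * y ∈ H := by
    intro t y
    have ht : (t : G) ∈ L := hTKL ▸ t.2
    have h1 := hL.conj_mem _ ht (y : G)⁻¹
    rw [inv_inv] at h1
    exact hLH h1
  have hgoodK : ∀ (t : ↥(H ⊓ K)) (y : K) (h : (y : G)⁻¹ * t * y ∈ H), ϑ ⟨_, h⟩ = ϑ ⟨t, t.2.1⟩ := by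
    intro t y h
    have ht : (t : G) ∈ L := hTKL ▸ t.2
    have h1 := hφinv (y : G)⁻¹ t ht (by rw [inv_inv]; exact h)
    simp only [inv_inv] at h1
    exact h1
  obtain ⟨η, e, hη, he⟩ := hhom K hKn hLK.le
  have hnormK := norm_eq_of_all_mem hdec hϑcl hgoodK hallK (hirrT K hKn hLK.le)
  have hnormK2 : classInner (fun m : K => indFun H ϑ m) (fun m : K => indFun H ϑ m) = (e : ℂ) ^ 2 := by
    rw [he, classInner_smul_left, classInner_smul_right, classInner_irr_self hη]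
    simp [sq]
  have hTKc : Nat.card ↥(H ⊓ K) = Nat.card L := by rw [hTKL]
  have hcardK : Nat.card K = L.relIndex K * Nat.card L := by
    have h1 : Nat.card (L.subgroupOf K) = Nat.card L := by
      have h2 : Nat.card ((L.subgroupOf K).map K.subtype) = Nat.card (L.subgroupOf K) :=
        Subgroup.card_map_of_injective K.subtype_injective
      rw [Subgroup.subgroupOf_map_subtype, inf_eq_left.mpr hLK.le] at h2
      exact h2.symm
    rw [← h1, mul_comm]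
    exact (Subgroup.card_mul_index (L.subgroupOf K)).symm
  have he2 : e ^ 2 = L.relIndex K := by
    have h1 : (e : ℂ) ^ 2 = (Nat.card K : ℂ) * (Nat.card ↥(H ⊓ K) : ℂ)⁻¹ := by
      rw [← hnormK2, hnormK]
    rw [hTKc, hcardK] at h1
    have hLc : (Nat.card L : ℂ) ≠ 0 := by exact_mod_cast Nat.card_pos.ne'
    push_cast at h1
    field_simp at h1
    exact_mod_cast h1
  obtain ⟨a, ha⟩ := relIndex_pow_of_pgroup L K hLK.le hpg
  have hrel1 : L.relIndex K ≠ 1 := by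
    intro h
    exact hLK.not_ge (Subgroup.relIndex_eq_one.mp h)
  -- `K` is proper
  have hKtop : K ≠ ⊤ := by
    intro htop
    subst htop
    have h1 : classInner (fun m : (⊤ : Subgroup G) => indFun H ϑ m) (fun m : (⊤ : Subgroup G) => indFun H ϑ m) = 1 := by
      have h2 := classInner_irr_self hind
      simp only [classInner] at h2 ⊢
      rw [Subgroup.card_top]
      rw [← h2]
      congr 1
      exact Fintype.sum_equiv Subgroup.topEquiv.toEquiv _ _ fun _ => rfl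
    rw [hnormK2] at h1
    have h3 : e ^ 2 = 1 := by exact_mod_cast h1
    exact hrel1 (by rw [← he2, h3])
  -- the next chief factor
  have hsolvK : Group.IsSolvable (G ⧸ K) := by
    haveI := hsolv
    refine Group.isSolvable_of_surjective (f := QuotientGroup.map L K (MonoidHom.id G) (fun x hx => hLK.le hx)) ?_
    intro q
    induction q using QuotientGroup.induction_on with
    | H x => exact ⟨(x : G ⧸ L), rfl⟩
  obtain ⟨K₁, q, hK₁n, hKK₁, hq, hmin₁, hpg₁, hab₁⟩ := exists_chief_pgroup K hsolvK hKtop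
  haveI := hK₁n
  haveI : Fact q.Prime := ⟨hq⟩
  have hT_false : (∀ t ∈ H, t ∈ K₁ → t ∈ L) → False := by
    intro hT
    obtain ⟨x, hx, hxK⟩ := SetLike.exists_of_lt hKK₁
    obtain ⟨y, hy, h, hh, rfl⟩ := hdec x
    apply hxK
    have h1 : h ∈ K₁ := by
      have h2 := K₁.mul_mem (K₁.inv_mem (hKK₁.le hy)) hx
      rwa [inv_mul_cancel_left] at h2
    exact K.mul_mem hy (hLK.le (hT h hh h1))
  have hpq : p ≠ q := by
    intro hpq
    subst hpq
    have h1 := comm_of_same_prime L K K₁ hKK₁.le hmin hpg hpg₁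
    exact hT_false fun t ht ht₁ => hcen t ht fun v hv => h1 t ht₁ v hv
  -- degrees
  obtain ⟨ζ, e₁, hζ, he₁⟩ := hhom K₁ hK₁n (hLK.le.trans hKK₁.le)
  have he1ne : (e₁ : ℂ) ≠ 0 := by
    intro h0
    have h4 := congrFun he₁ (1 : K₁)
    simp only [Pi.smul_apply, smul_eq_mul, h0, zero_mul] at h4
    exact hχ0 h4
  have hene : (e : ℂ) ≠ 0 := by
    intro h0
    have h4 := congrFun he (1 : K)
    simp only [Pi.smul_apply, smul_eq_mul, h0, zero_mul] at h4
    exact hχ0 h4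
  let K' : Subgroup K₁ := K.subgroupOf K₁
  haveI : K'.Normal := Subgroup.normal_subgroupOf
  let eK : K' ≃* K := Subgroup.subgroupOfEquivOfLe hKK₁.le
  let η' : K' → ℂ := η ∘ eK
  have hη' : IsIrrCharacter K' η' := isIrrCharacter_comp_mulEquiv eK hη
  have hrel : ∀ x : K', (e₁ : ℂ) * ζ x = (e : ℂ) * η' x := by
    intro x
    have h1 := congrFun he₁ (x : K₁)
    have h2 := congrFun he (eK x)
    simp only [Pi.smul_apply, smul_eq_mul] at h1 h2
    rw [← h1]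
    exact h2
  have hres : resFun K' ζ = ((e : ℂ) / (e₁ : ℂ)) • η' := by
    funext x
    show ζ x = ((e : ℂ) / (e₁ : ℂ)) * η' x
    have h1 := hrel x
    field_simp
    rw [mul_comm, h1]
  have hcon : classInner (resFun K' ζ) η' ≠ 0 := by
    rw [hres, classInner_smul_left, classInner_irr_self hη', mul_one]
    exact div_ne_zero hene he1ne
  obtain ⟨c₀, hc₀⟩ := IsCharacter.apply_one (IsIrrCharacter.isCharacter hζ)
  obtain ⟨d₀, hd₀⟩ := IsCharacter.apply_one (IsIrrCharacter.isCharacter hη')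
  obtain ⟨hdvd, hidx⟩ := degree_ratio K' hζ hη' hcon hc₀ hd₀
  obtain ⟨b, hb⟩ := relIndex_pow_of_pgroup K K₁ hKK₁.le hpg₁
  have hidx' : c₀ / d₀ ∣ q ^ b := by
    rw [← hb]
    exact hidx
  have hd0 : d₀ ≠ 0 := by
    rintro rfl
    exact IsIrrCharacter.apply_one_ne_zero hη' (by rw [hd₀]; simp)
  have h1nat : e₁ * c₀ = e * d₀ := by
    have h1 := hrel 1
    have h9 : (((1 : K') : K₁)) = 1 := rfl
    rw [h9, hc₀, hd₀] at h1
    exact_mod_cast h1
  obtain ⟨c, rfl⟩ := hdvd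
  rw [Nat.mul_div_cancel_left _ (Nat.pos_of_ne_zero hd0)] at hidx'
  have hec : e₁ * c = e := by
    apply Nat.eq_of_mul_eq_mul_left (Nat.pos_of_ne_zero hd0)
    rw [← mul_comm e, ← h1nat]
    ring
  have hcdiv : c ∣ p ^ a := by
    rw [← ha, ← he2]
    exact (Dvd.intro_left _ hec).trans (dvd_pow_self e two_ne_zero)
  have hc1 : c = 1 :=
    Nat.eq_one_of_dvd_coprimes (Nat.coprime_pow_primes a b hp hq hpq) hcdiv hidx'
  have he₁e : e₁ = e := by
    rw [← hec, hc1, mul_one]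
  -- the representation of `H`
  have hdec₁ : ∀ g : G, ∃ y ∈ K₁, ∃ h ∈ H, g = y * h := by
    intro g
    obtain ⟨y, hy, h, hh, rfl⟩ := hdec g
    exact ⟨y, hKK₁.le hy, h, hh, rfl⟩
  have hgood₁ : ∀ (t : ↥(H ⊓ K₁)) (y : K₁) (h : (y : G)⁻¹ * t * y ∈ H), ϑ ⟨_, h⟩ = ϑ ⟨t, t.2.1⟩ := by
    intro t y h
    obtain ⟨v, hv, s, hs, hys⟩ := hdec (y : G)
    have ha' : v⁻¹ * t * v = s * ((y : G)⁻¹ * t * y) * s⁻¹ := by
      rw [hys]
      group
    have haH : v⁻¹ * t * v ∈ H := by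
      rw [ha']
      exact H.mul_mem (H.mul_mem hs h) (H.inv_mem hs)
    have h1 : ϑ ⟨_, h⟩ = ϑ ⟨v⁻¹ * t * v, haH⟩ := by
      have h2 := hϑcl ⟨_, h⟩ ⟨s, hs⟩
      rw [← h2]
      congr 1
      apply Subtype.ext
      exact ha'.symm
    rw [h1]
    -- now use the representation
    obtain ⟨d, σ₀, hσirr, hσ₀⟩ := id hϑ
    subst hσ₀
    obtain ⟨d', ρ', hρ', hchar⟩ := id hϑL
    let ρ₀ : Representation ℂ L (Fin d → ℂ) := σ₀.comp (Subgroup.inclusion hLH)
    obtain ⟨eρ⟩ := equiv_of_character_eq ρ' ρ₀ (by rw [hchar]; rfl)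
    haveI : ρ₀.IsIrreducible := isIrreducible_of_equiv eρ
    have hinv₀ : ∀ (g : G) (n : L), ρ₀.character (cn L g n) = ρ₀.character n := by
      intro g n
      have h2 := hφinv g n n.2 (hLH (hL.conj_mem n n.2 g))
      show σ₀.character ⟨((cn L g n : L) : G), _⟩ = σ₀.character ⟨(n : G), _⟩
      rw [← h2]
      congr 1
    let σ : H →* UEnd d := MonoidHom.toHomUnits σ₀
    obtain ⟨n₁, hn₁⟩ := pow_mem_of_pgroup K K₁ hpg₁ t.2.2
    have hQ : (t : G) ^ q ^ n₁ ∈ L := hHK _ (H.pow_mem t.2.1 _) hn₁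
    obtain ⟨n₂, hn₂⟩ := pow_mem_of_pgroup L K hpg hv
    have hat : (v⁻¹ * t * v) * (t : G)⁻¹ ∈ L := by
      apply hHK _ (H.mul_mem haH (H.inv_mem t.2.1))
      have h2 : (v⁻¹ * t * v) * (t : G)⁻¹ = v⁻¹ * ((t : G) * v * (t : G)⁻¹) := by group
      rw [h2]
      exact K.mul_mem (K.inv_mem hv) (hKn.conj_mem v hv t)
    exact trace_conj_eq L ρ₀ hinv₀ hLH σ (fun n => rfl) t.2.1 haH hat hQ hn₂
      (Nat.coprime_pow_primes _ _ hp hq hpq)
  -- the norm
  have hnorm₁ : classInner (fun m : K₁ => indFun H ϑ m) (fun m : K₁ => indFun H ϑ m) =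
      (Nat.card K₁ : ℂ) * (Nat.card ↥(H ⊓ K₁) : ℂ)⁻¹ := by
    have h1 : classInner (fun m : K₁ => indFun H ϑ m) (fun m : K₁ => indFun H ϑ m) = (e₁ : ℂ) ^ 2 := by
      rw [he₁, classInner_smul_left, classInner_smul_right, classInner_irr_self hζ]
      simp [sq]
    rw [h1, he₁e, ← hnormK2, hnormK]
    have h2 := card_mul_card_eq H K hdec
    have h3 := card_mul_card_eq H K₁ hdec₁
    have hHc : (Nat.card H : ℂ) ≠ 0 := by exact_mod_cast Nat.card_pos.ne'
    have hGc : (Nat.card G : ℂ) ≠ 0 := by exact_mod_cast Nat.card_pos.ne'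
    have hTc : (Nat.card ↥(H ⊓ K) : ℂ) ≠ 0 := by exact_mod_cast Nat.card_pos.ne'
    have hT₁c : (Nat.card ↥(H ⊓ K₁) : ℂ) ≠ 0 := by exact_mod_cast Nat.card_pos.ne'
    have h2' : (Nat.card K : ℂ) * Nat.card H = Nat.card ↥(H ⊓ K) * Nat.card G := by exact_mod_cast h2
    have h3' : (Nat.card K₁ : ℂ) * Nat.card H = Nat.card ↥(H ⊓ K₁) * Nat.card G := by exact_mod_cast h3
    field_simp
    have h4 : (Nat.card K : ℂ) * (Nat.card ↥(H ⊓ K₁) : ℂ) * Nat.card H =
        (Nat.card ↥(H ⊓ K) : ℂ) * (Nat.card K₁ : ℂ) * Nat.card H := by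
      calc (Nat.card K : ℂ) * (Nat.card ↥(H ⊓ K₁) : ℂ) * Nat.card H
          = ((Nat.card K : ℂ) * Nat.card H) * Nat.card ↥(H ⊓ K₁) := by ring
        _ = (Nat.card ↥(H ⊓ K) * Nat.card G) * Nat.card ↥(H ⊓ K₁) := by rw [h2']
        _ = (Nat.card ↥(H ⊓ K₁) * Nat.card G) * Nat.card ↥(H ⊓ K) := by ring
        _ = ((Nat.card K₁ : ℂ) * Nat.card H) * Nat.card ↥(H ⊓ K) := by rw [h3']
        _ = _ := by ring
    exact mul_right_cancel₀ hHc h4
  have hall₁ := forall_mem_of_norm hdec₁ hϑcl hgood₁ (hirrT K₁ hK₁n (hLK.le.trans hKK₁.le)) hnorm₁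
  -- the conclusion
  apply hT_false
  intro x hxH hxK₁
  let T := H ⊓ K₁
  have hLT : L ≤ T := le_inf hLH (hLK.le.trans hKK₁.le)
  let τ : T → ℂ := fun t => ϑ ⟨t, t.2.1⟩
  have hτ : IsCharacter T τ := IsCharacter.comp hϑc (Subgroup.inclusion (inf_le_left : T ≤ H))
  let L' : Subgroup T := L.subgroupOf T
  haveI : L'.Normal := Subgroup.normal_subgroupOf
  let eL : L' ≃* L := Subgroup.subgroupOfEquivOfLe hLT
  have hθ : IsIrrCharacter L' (resFun L' τ) := isIrrCharacter_comp_mulEquiv eL hϑL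
  have hsum := gallagher_norm L' hτ hθ ⟨x, hxH, hxK₁⟩
  have hne : ∃ n : L', τ ((n : T) * ⟨x, hxH, hxK₁⟩) ≠ 0 := by
    by_contra hcon
    push Not at hcon
    simp only [hcon, zero_mul, Finset.sum_const_zero] at hsum
    have hL'c : (Nat.card L' : ℂ) ≠ 0 := by exact_mod_cast Nat.card_pos.ne'
    exact hL'c hsum.symm
  obtain ⟨n, hn⟩ := hne
  set t' : T := (n : T) * ⟨x, hxH, hxK₁⟩ with ht'
  have hn' : ((n : T) : G) ∈ L := n.2
  have ht'val : (t' : G) = ((n : T) : G) * x := rfl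
  have hmem := hall₁ t' hn
  have ht'L : (t' : G) ∈ L := by
    apply hcen _ t'.2.1
    intro v hv
    have h1 := hmem ⟨v⁻¹, K₁.inv_mem (hKK₁.le hv)⟩
    simp only [inv_inv] at h1
    apply hHK _ (H.mul_mem h1 (H.inv_mem t'.2.1))
    have h2 : v * (t' : G) * v⁻¹ * (t' : G)⁻¹ = v * ((t' : G) * v⁻¹ * (t' : G)⁻¹) := by group
    rw [h2]
    exact K.mul_mem hv (hKn.conj_mem _ (K.inv_mem hv) _)
  have hxval : x = ((n : T) : G)⁻¹ * t' := by
    rw [ht'val]
    group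
  rw [hxval]
  exact L.mul_mem (L.inv_mem hn') ht'L

/-- The main theorem: strong induction on the index of `L`. -/
theorem exists_non_homogeneous_aux (H : Subgroup G) (hcoat : IsCoatom H) (ϑ : H → ℂ)
    (hϑ : IsIrrCharacter H ϑ) (hind : IsIrrCharacter G (indFun H ϑ)) :
    ∀ (n : ℕ) (L : Subgroup G), L.index = n → ∀ [L.Normal], ∀ hLH : L ≤ H,
      Group.IsSolvable (G ⧸ L) → IsIrrCharacter L (fun x : L => ϑ ⟨(x : G), hLH x.2⟩) →
      ∃ M : Subgroup G, M.Normal ∧ L ≤ M ∧ ¬ ∃ (φ : M → ℂ) (e : ℕ), IsIrrCharacter M φ ∧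
        (fun m : M => indFun H ϑ m) = (e : ℂ) • φ := by
  intro n
  induction n using Nat.strong_induction_on with
  | _ n ih =>
    intro L hn hL hLH hsolv hϑL
    by_contra hcon
    push Not at hcon
    by_cases hex : ∃ K' : Subgroup G, K'.Normal ∧ L ≤ K' ∧ K' ≤ H ∧ K' ≠ L
    · obtain ⟨K', hK'n, hLK', hK'H, hne⟩ := hex
      haveI := hK'n
      have hlt : K'.index < L.index := by
        have hidx0 : L.index ≠ 0 := Subgroup.index_ne_zero_of_finite
        have hmul := Subgroup.relIndex_mul_index hLK'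
        have hK'0 : K'.index ≠ 0 := Subgroup.index_ne_zero_of_finite
        have hrel0 : L.relIndex K' ≠ 0 := by
          intro h
          rw [h, zero_mul] at hmul
          exact hidx0 hmul.symm
        have hrel1 : L.relIndex K' ≠ 1 := by
          intro h
          exact hne (le_antisymm (Subgroup.relIndex_eq_one.mp h) hLK')
        rw [← hmul]
        have h2 : 2 ≤ L.relIndex K' := by omega
        nlinarith [Nat.pos_of_ne_zero hK'0]
      have hsolvK : Group.IsSolvable (G ⧸ K') := by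
        haveI := hsolv
        refine Group.isSolvable_of_surjective (f := QuotientGroup.map L K' (MonoidHom.id G) (fun x hx => hLK' hx)) ?_
        intro q
        induction q using QuotientGroup.induction_on with
        | H x => exact ⟨(x : G ⧸ L), rfl⟩
      have hirr : IsIrrCharacter K' (fun x : K' => ϑ ⟨(x : G), hK'H x.2⟩) :=
        isIrr_res_of_le (A := L) (B := K') hLK' hK'H
          (fun b _ a ha => hL.conj_mem a ha b) (IsIrrCharacter.isCharacter hϑ) hϑL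
      obtain ⟨M, hMn, hK'M, hM⟩ := ih K'.index (hn ▸ hlt) K' rfl hK'H hsolvK hirr
      exact hM (by
        obtain ⟨φ, e, h1, h2⟩ := hcon M hMn (hLK'.trans hK'M)
        exact ⟨φ, e, h1, h2⟩)
    · push Not at hex
      refine core_case H L hcoat hLH ϑ hϑ hϑL hind hsolv ?_ hcon
      intro K' hK'n hLK' hK'H
      exact hex K' hK'n hLK' hK'H

/-- **S0890.** -/
theorem exists_non_homogeneous (L H : Subgroup G) [hL : L.Normal] (hLH : L ≤ H)
    (hmax : IsCoatom H) (hsolv : Group.IsSolvable (G ⧸ L)) (ϑ : H → ℂ)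
    (hϑ : IsIrrCharacter H ϑ)
    (hϑL : IsIrrCharacter L (fun x : L => ϑ ⟨(x : G), hLH x.2⟩))
    (hind : IsIrrCharacter G (indFun H ϑ)) :
    ∃ M : Subgroup G, M.Normal ∧ L ≤ M ∧ ¬ ∃ (φ : M → ℂ) (e : ℕ), IsIrrCharacter M φ ∧
      (fun m : M => indFun H ϑ m) = (e : ℂ) • φ :=
  exists_non_homogeneous_aux H hmax ϑ hϑ hind _ L rfl hLH hsolv hϑL

end Main

end Cfsg.Agent.Lib.Char.MaxInd
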