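import Cfsg.Agent.Lib.Char.BrauerCong
import Cfsg.Agent.Lib.Char.Coherent
import Cfsg.Agent.Lib.Char.Kernel
import Cfsg.Agent.Lib.Blocks.Words

/-!
# The Brauer–Suzuki normal complement theorem.
-/

set_option autoImplicit false

namespace Cfsg.Agent.Lib.Char.BS

open Cfsg Module Cfsg.Agent.Lib.Char
open scoped ComplexConjugate

universe u

section General

variable {G : Type u} [Group G] [Finite G]

/-- Cyclic groups are elementary. -/
theorem isElementary_zpowers {p : ℕ} (u : G) (hp : Nat.Coprime (orderOf u) p) :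
    IsElementary p (Subgroup.zpowers u) := by
  refine ⟨⟨u, Subgroup.mem_zpowers u⟩, ?_, ?_, 0, ?_⟩
  · rw [Subgroup.mem_center_iff]
    rintro ⟨g, i, rfl⟩
    apply Subtype.ext
    exact ((Commute.refl u).zpow_left i).eq
  · rw [Subgroup.orderOf_mk]
    exact hp
  · have : Subgroup.zpowers (⟨u, Subgroup.mem_zpowers u⟩ : Subgroup.zpowers u) = ⊤ := by
      rw [eq_top_iff]
      rintro ⟨g, i, rfl⟩ -
      refine ⟨i, ?_⟩
      apply Subtype.ext
      rfl
    rw [this, Subgroup.index_top, pow_zero]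

/-- A central element times a `p`-group. -/
theorem isElementary_zpowers_sup {p : ℕ} (hp : p.Prime) (z : G) (Q : Subgroup G)
    (hc : Nat.Coprime (orderOf z) p) (hQ : IsPGroup p Q) (hcomm : ∀ y ∈ Q, Commute z y) :
    IsElementary p ↥(Subgroup.zpowers z ⊔ Q) ∧
      Nat.card ↥(Subgroup.zpowers z ⊔ Q) ∣ orderOf z * Nat.card Q := by
  set E := Subgroup.zpowers z ⊔ Q with hE
  have hzE : z ∈ E := Subgroup.mem_sup_left (Subgroup.mem_zpowers z)
  have hQE : Q ≤ E := le_sup_right
  let z' : E := ⟨z, hzE⟩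
  have hEcent : E ≤ Subgroup.centralizer ({z} : Set G) := by
    apply sup_le
    · rw [Subgroup.zpowers_le, Subgroup.mem_centralizer_iff]
      intro w hw
      have hw' : w = z := by simpa using hw
      rw [hw']
    · intro y hy
      rw [Subgroup.mem_centralizer_iff]
      intro w hw
      have hw' : w = z := by simpa using hw
      rw [hw']
      exact hcomm y hy
  have hzc : z' ∈ Subgroup.center E := by
    rw [Subgroup.mem_center_iff]
    intro g
    apply Subtype.ext
    have := Subgroup.mem_centralizer_iff.mp (hEcent g.2) z (by simp)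
    exact this.symm
  have hz'o : orderOf z' = orderOf z := Subgroup.orderOf_mk z _
  have hsup : Subgroup.zpowers z' ⊔ Q.subgroupOf E = ⊤ := by
    apply Subgroup.map_injective E.subtype_injective
    rw [Subgroup.map_sup, MonoidHom.map_zpowers, Subgroup.map_subgroupOf_eq_of_le hQE,
      ← MonoidHom.range_eq_map, Subgroup.range_subtype]
    rfl
  have hPg : IsPGroup p (Q.subgroupOf E) := by
    intro g
    obtain ⟨j, hj⟩ := hQ ⟨g, Subgroup.mem_subgroupOf.mp g.2⟩
    refine ⟨j, ?_⟩
    apply Subtype.ext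
    apply Subtype.ext
    have := congrArg Subtype.val hj
    simpa using this
  refine ⟨isElementary_of_sup hp z' hzc (by rw [hz'o]; exact hc) _ hPg hsup, ?_⟩
  haveI : (Subgroup.zpowers z').Normal := by
    constructor
    intro n hn g
    obtain ⟨i, rfl⟩ := hn
    have : g * z' ^ i * g⁻¹ = z' ^ i := by
      have h1 : z' ^ i ∈ Subgroup.center E := Subgroup.zpow_mem _ hzc i
      rw [Subgroup.mem_center_iff.mp h1 g]
      group
    simp only at this ⊢
    rw [this]
    exact ⟨i, rfl⟩
  have h1 : (Subgroup.zpowers z').index = (Subgroup.zpowers z').relIndex (Q.subgroupOf E) := by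
    rw [← Subgroup.relIndex_sup_right (Q.subgroupOf E) (Subgroup.zpowers z'), sup_comm, hsup,
      Subgroup.relIndex_top_right]
  have h2 : (Subgroup.zpowers z').index ∣ Nat.card Q := by
    rw [h1]
    have h3 := Subgroup.relIndex_dvd_card (Subgroup.zpowers z') (Q.subgroupOf E)
    have h4 : Nat.card (Q.subgroupOf E) = Nat.card Q := by
      exact Nat.card_congr (Subgroup.subgroupOfEquivOfLe hQE).toEquiv
    rwa [h4] at h3
  rw [← Subgroup.card_mul_index (Subgroup.zpowers z'), Nat.card_zpowers, hz'o]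
  exact Nat.mul_dvd_mul_left _ h2

/-- Class sizes: the centralizer of a conjugate has the same order. -/
theorem card_centralizer_eq_of_isConj {h h' : G} (hc : IsConj h h') :
    Nat.card (Subgroup.centralizer ({h} : Set G)) = Nat.card (Subgroup.centralizer ({h'} : Set G)) := by
  letI : Fintype G := Fintype.ofFinite G
  have h1 := card_conj_mul_card_centralizer h
  have h2 := card_conj_mul_card_centralizer h'
  have h3 : Nat.card {x : G // IsConj h x} = Nat.card {x : G // IsConj h' x} := by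
    apply Nat.card_congr
    refine Equiv.subtypeEquivRight fun x => ?_
    exact ⟨fun h4 => hc.symm.trans h4, fun h4 => hc.trans h4⟩
  have h4 : 0 < Nat.card {x : G // IsConj h' x} := by
    haveI : Nonempty {x : G // IsConj h' x} := ⟨⟨h', IsConj.refl _⟩⟩
    exact Nat.card_pos
  rw [h3] at h1
  exact Nat.eq_of_mul_eq_mul_left h4 (h1.trans h2.symm)

/-- The number of conjugators. -/
theorem card_conjugators {h u : G} (g₀ : G) (h₀ : g₀ * h * g₀⁻¹ = u) :
    Nat.card {g : G // g * h * g⁻¹ = u} = Nat.card (Subgroup.centralizer ({h} : Set G)) := by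
  apply Nat.card_congr
  refine ⟨fun g => ⟨g₀⁻¹ * g.1, ?_⟩, fun c => ⟨g₀ * c.1, ?_⟩, ?_, ?_⟩
  · rw [Subgroup.mem_centralizer_iff]
    intro w hw
    have hw' : w = h := by simpa using hw
    rw [hw']
    have h1 : g.1 * h * g.1⁻¹ = g₀ * h * g₀⁻¹ := g.2.trans h₀.symm
    have h2 : g₀⁻¹ * g.1 * h * (g₀⁻¹ * g.1)⁻¹ = h := by
      have : g₀⁻¹ * g.1 * h * (g₀⁻¹ * g.1)⁻¹ = g₀⁻¹ * (g.1 * h * g.1⁻¹) * g₀ := by group
      rw [this, h1]
      group
    rw [mul_inv_eq_iff_eq_mul] at h2
    exact h2.symm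
  · have h1 := Subgroup.mem_centralizer_iff.mp c.2 h (by simp)
    rw [← h₀]
    have : g₀ * c.1 * h * (g₀ * c.1)⁻¹ = g₀ * (c.1 * h) * c.1⁻¹ * g₀⁻¹ := by group
    rw [this, ← h1]
    group
  · rintro ⟨g, hg⟩
    simp
  · rintro ⟨c, hc⟩
    simp

end General

section Data

theorem isConj_iff_eq_one_of_right {X : Type*} [Group X] {a : X} : IsConj a 1 ↔ a = 1 := by
  rw [isConj_comm, isConj_one_right]

variable {G : Type u} [Group G] [Fintype G]

/-- The hypotheses of the theorem, with the exponent cutting out the `π`-part. -/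
structure Data (H : Subgroup G) (k w : ℕ) : Prop where
  cop : Nat.Coprime H.index (Nat.card H)
  fus : ∀ x ∈ H, ∀ y ∈ H, IsConj x y → ∃ h ∈ H, h * x * h⁻¹ = y
  elem : ∀ (E : Subgroup G) (p : ℕ), p.Prime → IsElementary p E → Nat.card E ∣ Nat.card H →
    ∃ g : G, E.map (MulAut.conj g).toMonoidHom ≤ H
  k0 : H.index ∣ k
  k1 : k = Nat.card H * w + 1

variable {H : Subgroup G} [Fintype H] {k w : ℕ}

theorem Data.card_eq (_D : Data H k w) : Nat.card G = H.index * Nat.card H :=
  (Subgroup.index_mul_card H).symm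

theorem Data.pow_k_pow (D : Data H k w) (x : G) : (x ^ k) ^ Nat.card H = 1 := by
  obtain ⟨t, ht⟩ := D.k0
  rw [← pow_mul, ht]
  have : H.index * t * Nat.card H = Nat.card G * t := by
    rw [D.card_eq]; ring
  rw [this, pow_mul, pow_card_eq_one', one_pow]

theorem Data.pow_k_of (D : Data H k w) {u : G} (hu : u ^ Nat.card H = 1) : u ^ k = u := by
  rw [D.k1, pow_succ, pow_mul, hu, one_pow, one_mul]

theorem Data.pow_k_pow_k (D : Data H k w) (x : G) : (x ^ k) ^ k = x ^ k :=
  D.pow_k_of (D.pow_k_pow x)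

theorem Data.mem_pow (_D : Data H k w) {h : G} (hh : h ∈ H) : h ^ Nat.card H = 1 := by
  have := pow_card_eq_one' (x := (⟨h, hh⟩ : H))
  exact congrArg Subtype.val this

theorem Data.exists_conj (D : Data H k w) {u : G} (hu : u ^ Nat.card H = 1) :
    ∃ h : H, IsConj (h : G) u := by
  obtain ⟨p, hp1, hp⟩ := Nat.exists_infinite_primes (orderOf u + 1)
  have hc : Nat.Coprime (orderOf u) p := by
    apply Nat.Coprime.symm
    rw [Nat.Prime.coprime_iff_not_dvd hp]
    intro hd
    have := Nat.le_of_dvd (orderOf_pos u) hd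
    omega
  obtain ⟨g, hg⟩ := D.elem (Subgroup.zpowers u) p hp (isElementary_zpowers u hc) (by
    rw [Nat.card_zpowers]
    exact orderOf_dvd_of_pow_eq_one hu)
  have hm : g * u * g⁻¹ ∈ H := hg ⟨u, Subgroup.mem_zpowers u, rfl⟩
  refine ⟨⟨_, hm⟩, ?_⟩
  exact isConj_iff.mpr ⟨g⁻¹, by group⟩

theorem Data.exists_sel (D : Data H k w) : ∃ s : G → H, ∀ x, IsConj (s x : G) (x ^ k) := by
  have := fun x => D.exists_conj (D.pow_k_pow x)
  choose s hs using this
  exact ⟨s, hs⟩

theorem Data.apply_sel (D : Data H k w) {θ : H → ℂ} (hθ : IsClassFunction H θ) {s : G → H}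
    (hs : ∀ x, IsConj (s x : G) (x ^ k)) (x : G) (h : H) (hh : IsConj (h : G) (x ^ k)) :
    θ (s x) = θ h := by
  obtain ⟨c, hc, hce⟩ := D.fus (s x) (s x).2 h h.2 ((hs x).trans hh.symm)
  have h1 : h = (⟨c, hc⟩ : H) * s x * (⟨c, hc⟩ : H)⁻¹ := by
    apply Subtype.ext
    exact hce.symm
  rw [h1]
  exact (hθ _ _).symm

theorem Data.sel_class (D : Data H k w) {θ : H → ℂ} (hθ : IsClassFunction H θ) {s : G → H}
    (hs : ∀ x, IsConj (s x : G) (x ^ k)) : IsClassFunction G (fun x => θ (s x)) := by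
  intro x y
  apply D.apply_sel hθ hs
  refine (hs x).trans ?_
  rw [conj_pow]
  exact isConj_iff.mpr ⟨y, rfl⟩

theorem Data.isCharacter_res (D : Data H k w) {θ : H → ℂ} (hθ : IsCharacter H θ) {s : G → H}
    (hs : ∀ x, IsConj (s x : G) (x ^ k)) (E : Subgroup G) {p : ℕ} (hp : p.Prime)
    (hE : IsElementary p E) : IsCharacter E (fun e : E => θ (s (e : G))) := by
  classical
  have hEcard : Nat.card E ∣ H.index * Nat.card H := by
    rw [← D.card_eq]
    exact Subgroup.card_subgroup_dvd_card E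
  let τ : E →* E := elemPowHom hp hE D.cop hEcard D.k0 D.k1
  have hτ : ∀ e, τ e = e ^ k := fun _ => rfl
  let A : Subgroup G := τ.range.map E.subtype
  have hAcard : Nat.card A = τ.ker.index := by
    rw [Subgroup.index_ker]
    exact Nat.card_congr (Subgroup.equivMapOfInjective _ _ E.subtype_injective).toEquiv.symm
  have hAdvd : Nat.card A ∣ Nat.card H := by
    rw [hAcard]
    exact index_ker_elemPowHom_dvd hp hE D.cop hEcard D.k0 D.k1
  have hAel : IsElementary p A :=
    isElementary_of_mulEquiv (Subgroup.equivMapOfInjective τ.range E.subtype E.subtype_injective)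
      (isElementary_subgroup hp hE τ.range)
  obtain ⟨g, hg⟩ := D.elem A p hp hAel hAdvd
  have hmem : ∀ e : E, g * (e : G) ^ k * g⁻¹ ∈ H := by
    intro e
    apply hg
    refine ⟨(e : G) ^ k, ⟨e ^ k, ⟨e, hτ e⟩, rfl⟩, rfl⟩
  let φ : E →* H :=
    { toFun := fun e => ⟨g * (e : G) ^ k * g⁻¹, hmem e⟩
      map_one' := by
        apply Subtype.ext
        simp
      map_mul' := by
        intro a b
        apply Subtype.ext
        have h1 := congrArg Subtype.val (map_mul τ a b)
        have h2 : ((a * b : E) : G) ^ k = (a : G) ^ k * (b : G) ^ k := h1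
        simp only [Subgroup.coe_mul]
        rw [Subgroup.coe_mul] at h2
        rw [h2]
        group }
  have := IsCharacter.comp hθ φ
  convert this using 1
  funext e
  apply D.apply_sel (IsCharacter.isClassFunction hθ) hs e (φ e)
  exact isConj_iff.mpr ⟨g⁻¹, by
    show g⁻¹ * (g * (e : G) ^ k * g⁻¹) * g⁻¹⁻¹ = (e : G) ^ k
    group⟩

theorem Data.isGeneralized (D : Data H k w) {θ : H → ℂ} (hθ : IsCharacter H θ) {s : G → H}
    (hs : ∀ x, IsConj (s x : G) (x ^ k)) : IsGeneralizedCharacter G (fun x => θ (s x)) := by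
  apply isGeneralizedCharacter_of_elementary
  · exact D.sel_class (IsCharacter.isClassFunction hθ) hs
  · intro E p hp hE
    exact ⟨_, 0, D.isCharacter_res hθ hs E hp hE, isCharacter_zero, by simp⟩

/-- The number of `k`-th roots. -/
noncomputable def W (G : Type u) [Group G] [Fintype G] (k : ℕ) (u : G) : ℕ := Nat.card {x : G // x ^ k = u}

theorem sum_pow_eq (k : ℕ) (F : G → ℂ) : ∑ x : G, F (x ^ k) = ∑ u : G, (W G k u : ℂ) * F u := by
  classical
  rw [← Finset.sum_fiberwise Finset.univ (fun x : G => x ^ k)]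
  refine Finset.sum_congr rfl fun u _ => ?_
  rw [Finset.sum_congr rfl (g := fun _ => F u)]
  · rw [Finset.sum_const, nsmul_eq_mul]
    congr 2
    rw [W, Nat.card_eq_fintype_card, Fintype.card_subtype]
  · intro x hx
    rw [(Finset.mem_filter.mp hx).2]

theorem W_conj (k : ℕ) (g u : G) : W G k (g * u * g⁻¹) = W G k u := by
  apply Nat.card_congr
  refine ⟨fun x => ⟨g⁻¹ * x.1 * g, ?_⟩, fun x => ⟨g * x.1 * g⁻¹, ?_⟩, ?_, ?_⟩
  · have e : g⁻¹ * x.1 * g = g⁻¹ * x.1 * g⁻¹⁻¹ := by simp
    rw [e, conj_pow, x.2]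
    group
  · rw [conj_pow, x.2]
  · rintro ⟨x, hx⟩
    simp [mul_assoc]
  · rintro ⟨x, hx⟩
    simp [mul_assoc]

theorem W_pos (D : Data H k w) {u : G} (hu : u ^ Nat.card H = 1) : 0 < W G k u := by
  haveI : Nonempty {x : G // x ^ k = u} := ⟨⟨u, D.pow_k_of hu⟩⟩
  exact Nat.card_pos

theorem W_eq_zero (D : Data H k w) {u : G} (hu : u ^ Nat.card H ≠ 1) : W G k u = 0 := by
  rw [W]
  haveI : IsEmpty {x : G // x ^ k = u} := by
    constructor
    rintro ⟨x, rfl⟩
    exact hu (D.pow_k_pow x)
  exact Nat.card_of_isEmpty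

/-- The order of the centralizer in `H`. -/
noncomputable def cH (H : Subgroup G) (h : H) : ℕ := Nat.card (Subgroup.centralizer ({h} : Set H))

/-- The order of the centralizer in `G`. -/
noncomputable def cG (H : Subgroup G) (h : H) : ℕ := Nat.card (Subgroup.centralizer ({(h : G)} : Set G))

theorem cG_pos (h : H) : 0 < cG H h := Nat.card_pos

theorem cH_pos (h : H) : 0 < cH H h := Nat.card_pos

/-- The fiber sums. -/
theorem Data.fiber_sum (D : Data H k w) {u : G} (hu : u ^ Nat.card H = 1) :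
    open scoped Classical in
    ∑ g : G, ∑ h : H, (if g * (h : G) * g⁻¹ = u then ((cH H h : ℂ) / (cG H h : ℂ)) else 0) =
      (Nat.card H : ℂ) := by
  classical
  obtain ⟨h₀, hh₀⟩ := D.exists_conj hu
  rw [Finset.sum_comm]
  have hterm : ∀ h : H, ∑ g : G, (if g * (h : G) * g⁻¹ = u then ((cH H h : ℂ) / (cG H h : ℂ)) else 0) =
      if IsConj (h : G) u then (cH H h₀ : ℂ) else 0 := by
    intro h
    by_cases hc : IsConj (h : G) u
    · rw [if_pos hc]
      obtain ⟨g₀, hg₀⟩ := isConj_iff.mp hc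
      have hcard := card_conjugators g₀ hg₀
      rw [← Finset.sum_filter, Finset.sum_const, nsmul_eq_mul]
      have h1 : (Finset.univ.filter fun g : G => g * (h : G) * g⁻¹ = u).card = cG H h := by
        rw [cG, ← hcard, Nat.card_eq_fintype_card, Fintype.card_subtype]
      rw [h1]
      have h2 : (cG H h : ℂ) ≠ 0 := by exact_mod_cast (cG_pos h).ne'
      have h3 : cH H h = cH H h₀ := by
        obtain ⟨c, hc1, hc2⟩ := D.fus h h.2 h₀ h₀.2 (hc.trans hh₀.symm)
        apply card_centralizer_eq_of_isConj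
        refine isConj_iff.mpr ⟨⟨c, hc1⟩, ?_⟩
        apply Subtype.ext
        exact hc2
      rw [h3]
      field_simp
    · rw [if_neg hc]
      apply Finset.sum_eq_zero
      intro g _
      rw [if_neg]
      intro h1
      exact hc (isConj_iff.mpr ⟨g, h1⟩)
  rw [Finset.sum_congr rfl fun h _ => hterm h, ← Finset.sum_filter, Finset.sum_const, nsmul_eq_mul]
  have h4 := card_conj_mul_card_centralizer (G := H) h₀
  have h5 : (Finset.univ.filter fun h : H => IsConj (h : G) u).card = Nat.card {x : H // IsConj h₀ x} := by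
    rw [Nat.card_eq_fintype_card, Fintype.card_subtype]
    congr 1
    ext x
    simp only [Finset.mem_filter, Finset.mem_univ, true_and]
    constructor
    · intro h6
      obtain ⟨c, hc1, hc2⟩ := D.fus h₀ h₀.2 x x.2 (hh₀.trans h6.symm)
      refine isConj_iff.mpr ⟨⟨c, hc1⟩, ?_⟩
      apply Subtype.ext
      exact hc2
    · intro h6
      have h7 : IsConj ((h₀ : H) : G) (x : G) := by
        obtain ⟨c, hc⟩ := isConj_iff.mp h6
        refine isConj_iff.mpr ⟨c, ?_⟩
        rw [← hc]
        simp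
      exact h7.symm.trans hh₀
  rw [h5, ← Nat.cast_mul]
  congr 1

/-- The class sum formula. -/
theorem Data.sum_class (D : Data H k w) (Φ : G → ℂ) (hΦ : IsClassFunction G Φ)
    (hsup : ∀ u, u ^ Nat.card H ≠ 1 → Φ u = 0) :
    (Nat.card H : ℂ) * ∑ u : G, Φ u =
      (Nat.card G : ℂ) * ∑ h : H, Φ h * ((cH H h : ℂ) / (cG H h : ℂ)) := by
  classical
  have h1 : (Nat.card G : ℂ) * ∑ h : H, Φ h * ((cH H h : ℂ) / (cG H h : ℂ)) =
      ∑ g : G, ∑ h : H, Φ (g * (h : G) * g⁻¹) * ((cH H h : ℂ) / (cG H h : ℂ)) := by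
    rw [Nat.card_eq_fintype_card, ← nsmul_eq_mul, ← Finset.card_univ, ← Finset.sum_const]
    refine Finset.sum_congr rfl fun g _ => Finset.sum_congr rfl fun h _ => ?_
    rw [hΦ]
  have h2 : ∀ (g : G) (h : H), Φ (g * (h : G) * g⁻¹) * ((cH H h : ℂ) / (cG H h : ℂ)) =
      ∑ u : G, Φ u * (if g * (h : G) * g⁻¹ = u then ((cH H h : ℂ) / (cG H h : ℂ)) else 0) := by
    intro g h
    rw [Finset.sum_eq_single (g * (h : G) * g⁻¹)]
    · rw [if_pos rfl]
    · intro u _ hu
      rw [if_neg (fun h3 => hu h3.symm), mul_zero]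
    · intro h3
      exact absurd (Finset.mem_univ _) h3
  rw [h1, Finset.sum_congr rfl fun g _ => Finset.sum_congr rfl fun h _ => h2 g h]
  have h3 : ∑ g : G, ∑ h : H, ∑ u : G, Φ u * (if g * (h : G) * g⁻¹ = u then ((cH H h : ℂ) / (cG H h : ℂ)) else 0) =
      ∑ u : G, Φ u * ∑ g : G, ∑ h : H, (if g * (h : G) * g⁻¹ = u then ((cH H h : ℂ) / (cG H h : ℂ)) else 0) := by
    simp only [Finset.mul_sum]
    refine Eq.trans (Finset.sum_congr rfl fun g _ => Finset.sum_comm) ?_
    exact Finset.sum_comm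
  rw [h3, Finset.mul_sum]
  refine Finset.sum_congr rfl fun u _ => ?_
  by_cases hu : u ^ Nat.card H = 1
  · rw [D.fiber_sum hu]
    ring
  · rw [hsup u hu]
    ring

theorem cH_dvd_cG (h : H) : ∃ t, cG H h = cH H h * t := by
  let C := Subgroup.centralizer ({(h : G)} : Set G)
  let R : Subgroup G := (Subgroup.centralizer ({h} : Set H)).map H.subtype
  have hle : R ≤ C := by
    rintro _ ⟨c, hc, rfl⟩
    rw [Subgroup.mem_centralizer_iff]
    intro w hw
    have hw' : w = h := by simpa using hw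
    rw [hw']
    have := Subgroup.mem_centralizer_iff.mp hc h (by simp)
    exact congrArg Subtype.val this
  have hcard : Nat.card R = cH H h :=
    Nat.card_congr (Subgroup.equivMapOfInjective _ _ H.subtype_injective).toEquiv.symm
  obtain ⟨t, ht⟩ := Subgroup.card_dvd_of_le hle
  exact ⟨t, by rw [cG, ← hcard]; exact ht⟩

theorem Data.coprime_t (D : Data H k w) (h : H) {t : ℕ} (ht : cG H h = cH H h * t) :
    Nat.Coprime t (Nat.card H) := by
  classical
  by_contra hnc
  obtain ⟨q, hq, hqt, hqn⟩ := Nat.Prime.not_coprime_iff_dvd.mp hnc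
  haveI : Fact q.Prime := ⟨hq⟩
  set C := Subgroup.centralizer ({(h : G)} : Set G) with hC
  have hhC' : (h : G) ∈ C := by
    rw [Subgroup.mem_centralizer_iff]
    intro w hw
    have hw' : w = h := by simpa using hw
    rw [hw']
  obtain ⟨α, hα⟩ := Cfsg.Agent.Lib.Blocks.exists_isPExp G q
  obtain ⟨y, hy1, hy2, ⟨a, ha⟩, hy3⟩ := hα.isPPart (h : G)
  have hhC : ∀ z ∈ C, Commute (h : G) z := fun z hz =>
    (Subgroup.mem_centralizer_iff.mp hz h (by simp))
  have hyeq : y = ((h : G) ^ α)⁻¹ * h := by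
    rw [eq_inv_mul_iff_mul_eq]
    exact hy1
  have hycomm : ∀ z ∈ C, Commute y z := by
    intro z hz
    rw [hyeq]
    exact Commute.mul_left ((hhC z hz).pow_left α).inv_left (hhC z hz)
  have hqC : (h : G) ^ α ∈ C := C.pow_mem hhC' α
  let hqC' : C := ⟨(h : G) ^ α, hqC⟩
  have hP0 : IsPGroup q (Subgroup.zpowers hqC') := by
    rw [IsPGroup.iff_card]
    refine ⟨a, ?_⟩
    rw [Nat.card_zpowers]
    rw [← ha]
    exact Subgroup.orderOf_mk _ _
  obtain ⟨Q, hQ⟩ := hP0.exists_le_sylow
  let Q' : Subgroup G := (Q : Subgroup C).map C.subtype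
  have hQ'pg : IsPGroup q Q' := IsPGroup.map Q.isPGroup' C.subtype
  have hQ'card : Nat.card Q' = q ^ (cG H h).factorization q := by
    have h1 : Nat.card Q' = Nat.card (Q : Subgroup C) :=
      Nat.card_congr (Subgroup.equivMapOfInjective _ _ C.subtype_injective).toEquiv.symm
    rw [h1, Q.card_eq_multiplicity]
    rfl
  have hQ'C : Q' ≤ C := by
    rintro _ ⟨c, _, rfl⟩
    exact c.2
  have hqQ' : (h : G) ^ α ∈ Q' := ⟨hqC', hQ (Subgroup.mem_zpowers _), rfl⟩
  have hyc : Nat.Coprime (orderOf y) q := ((Nat.Prime.coprime_iff_not_dvd hq).mpr hy3).symm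
  obtain ⟨hEl, hEcard⟩ := isElementary_zpowers_sup hq y Q' hyc hQ'pg (fun z hz => hycomm z (hQ'C hz))
  set E := Subgroup.zpowers y ⊔ Q' with hE
  have hyn : orderOf y ∣ Nat.card H := by
    have h1 : y ∈ Subgroup.zpowers (h : G) := by
      rw [hyeq]
      exact Subgroup.mul_mem _ (Subgroup.inv_mem _ (Subgroup.pow_mem _ (Subgroup.mem_zpowers _) _))
        (Subgroup.mem_zpowers _)
    exact (orderOf_dvd_of_mem_zpowers h1).trans (orderOf_dvd_of_pow_eq_one (D.mem_pow h.2))
  have hqm : Nat.Coprime q H.index := by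
    have := Nat.Coprime.coprime_dvd_left hqn D.cop.symm
    exact this
  have hQ'n : Nat.card Q' ∣ Nat.card H := by
    have h1 : Nat.card Q' ∣ H.index * Nat.card H := by
      rw [← D.card_eq]
      exact Subgroup.card_subgroup_dvd_card Q'
    refine Nat.Coprime.dvd_of_dvd_mul_left ?_ h1
    rw [hQ'card]
    exact Nat.Coprime.pow_left _ hqm
  have hcopyQ : Nat.Coprime (orderOf y) (Nat.card Q') := by
    rw [hQ'card]
    exact Nat.Coprime.pow_right _ hyc
  have hEn : Nat.card E ∣ Nat.card H :=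
    hEcard.trans (Nat.Coprime.mul_dvd_of_dvd_of_dvd hcopyQ hyn hQ'n)
  obtain ⟨g, hg⟩ := D.elem E q hq hEl hEn
  have hhE : (h : G) ∈ E := by
    rw [← hy1]
    exact E.mul_mem (Subgroup.mem_sup_right hqQ') (Subgroup.mem_sup_left (Subgroup.mem_zpowers y))
  have hgh : g * (h : G) * g⁻¹ ∈ H := hg ⟨h, hhE, rfl⟩
  obtain ⟨c, hc, hce⟩ := D.fus _ hgh h h.2 (isConj_iff.mpr ⟨g⁻¹, by group⟩)
  have hy'h : (c * g) * (h : G) * (c * g)⁻¹ = h := by
    rw [mul_inv_rev]
    have e : c * g * (h : G) * (g⁻¹ * c⁻¹) = c * (g * (h : G) * g⁻¹) * c⁻¹ := by group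
    rw [e, hce]
  set y' := c * g with hy'
  have hy'C : y' ∈ C := by
    rw [Subgroup.mem_centralizer_iff]
    intro w hw
    have hw' : w = h := by simpa using hw
    rw [hw']
    rw [mul_inv_eq_iff_eq_mul] at hy'h
    exact hy'h.symm
  let R : Subgroup G := Q'.map (MulAut.conj y').toMonoidHom
  have hRcard : Nat.card R = Nat.card Q' :=
    Nat.card_congr (Subgroup.equivMapOfInjective _ _ (MulAut.conj y').injective).toEquiv.symm
  have hRH : R ≤ H := by
    rintro _ ⟨z, hz, rfl⟩
    have h1 : g * z * g⁻¹ ∈ H := hg ⟨z, Subgroup.mem_sup_right hz, rfl⟩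
    have h2 := H.mul_mem (H.mul_mem hc h1) (H.inv_mem hc)
    have e : (MulAut.conj y').toMonoidHom z = c * (g * z * g⁻¹) * c⁻¹ := by
      simp only [MulEquiv.toMonoidHom_eq_coe, MonoidHom.coe_coe, MulAut.conj_apply, hy', mul_inv_rev]
      group
    rw [e]
    exact h2
  have hRC : R ≤ C := by
    rintro _ ⟨z, hz, rfl⟩
    have e : (MulAut.conj y').toMonoidHom z = y' * z * y'⁻¹ := by
      simp only [MulEquiv.toMonoidHom_eq_coe, MonoidHom.coe_coe, MulAut.conj_apply]
    rw [e]
    exact C.mul_mem (C.mul_mem hy'C (hQ'C hz)) (C.inv_mem hy'C)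
  have hR0le : R.subgroupOf H ≤ Subgroup.centralizer ({h} : Set H) := by
    rintro ⟨r, hr⟩ hrR
    rw [Subgroup.mem_centralizer_iff]
    intro w hw
    have hw' : w = h := by simpa using hw
    rw [hw']
    apply Subtype.ext
    exact (hhC r (hRC (Subgroup.mem_subgroupOf.mp hrR))).eq
  have hR0card : Nat.card (R.subgroupOf H) = Nat.card R :=
    Nat.card_congr (Subgroup.subgroupOfEquivOfLe hRH).toEquiv
  have hdvd : q ^ (cG H h).factorization q ∣ cH H h := by
    rw [← hQ'card, ← hRcard, ← hR0card]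
    exact Subgroup.card_dvd_of_le hR0le
  have hcontra : q ^ ((cG H h).factorization q + 1) ∣ cG H h := by
    rw [pow_succ, ht]
    exact Nat.mul_dvd_mul (ht ▸ hdvd) hqt
  exact Nat.pow_succ_factorization_not_dvd (cG_pos h).ne' hq hcontra

/-- The Frobenius-type divisibility through integrality. -/
theorem Data.cG_dvd (D : Data H k w) (h : H) : cG H h ∣ Nat.card H * W G k h := by
  classical
  set n := Nat.card H with hn
  let ε : G → ℂ := fun x => if IsConj (x ^ k) (h : G) then 1 else 0
  let ϑ : G → ℂ := fun x => (n : ℂ) * ε x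
  have hcl : IsClassFunction G ϑ := by
    intro x y
    have e : IsConj ((y * x * y⁻¹) ^ k) (h : G) ↔ IsConj (x ^ k) (h : G) := by
      rw [conj_pow]
      constructor
      · intro h1
        exact IsConj.trans (isConj_iff.mpr ⟨y, rfl⟩) h1
      · intro h1
        exact IsConj.trans (isConj_iff.mpr ⟨y, rfl⟩).symm h1
    simp only [ϑ, ε, e]
  have hint : IsIntegral ℤ (classInner ϑ (fun _ : G => (1 : ℂ))) := by
    apply isIntegral_classInner_of_elementary ϑ hcl _
      (IsIrrCharacter.isCharacter isIrrCharacter_one)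
    intro E _ p hp hEl ψ hψ
    refine isIntegral_classInner_section D.card_eq D.cop D.k0 D.k1 ϑ ε ?_ (fun _ => rfl) ?_ E hp hEl hψ
    · intro x
      simp only [ε]
      split_ifs
      · exact isIntegral_one
      · exact isIntegral_zero
    · intro x y hxy
      simp only [ϑ, ε, hxy]
  have hsum : ∑ x : G, ε x = ((Nat.card {x : G // IsConj (h : G) x} * W G k h : ℕ) : ℂ) := by
    have h1 := sum_pow_eq k (fun u : G => if IsConj u (h : G) then (1 : ℂ) else 0)
    have h2 : ∑ x : G, ε x = ∑ u : G, (W G k u : ℂ) * (if IsConj u (h : G) then (1 : ℂ) else 0) := h1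
    rw [h2]
    have h3 : ∀ u : G, (W G k u : ℂ) * (if IsConj u (h : G) then (1 : ℂ) else 0) =
        if IsConj (h : G) u then (W G k h : ℂ) else 0 := by
      intro u
      by_cases hc : IsConj (h : G) u
      · rw [if_pos hc, if_pos hc.symm, mul_one]
        obtain ⟨c, hc⟩ := isConj_iff.mp hc
        rw [← hc, W_conj]
      · rw [if_neg hc, if_neg (fun h4 => hc h4.symm), mul_zero]
    rw [Finset.sum_congr rfl fun u _ => h3 u, ← Finset.sum_filter, Finset.sum_const, nsmul_eq_mul,
      Nat.cast_mul, Nat.card_eq_fintype_card, Fintype.card_subtype]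
  have hcl1 := card_conj_mul_card_centralizer (h : G)
  have hval : classInner ϑ (fun _ : G => (1 : ℂ)) * (cG H h : ℂ) = ((n * W G k h : ℕ) : ℂ) := by
    have hG : (Nat.card G : ℂ) ≠ 0 := by exact_mod_cast Nat.card_pos.ne'
    have hGe : (Nat.card G : ℂ) = (Nat.card {x : G // IsConj (h : G) x} : ℂ) * (cG H h : ℂ) := by
      rw [← Nat.cast_mul, cG, hcl1]
    simp only [classInner, map_one, mul_one]
    simp only [ϑ]
    rw [← Finset.mul_sum, hsum]
    push_cast
    rw [hGe] at hG ⊢
    have h5 : (cG H h : ℂ) ≠ 0 := right_ne_zero_of_mul hG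
    have h6 := left_ne_zero_of_mul hG
    field_simp
  obtain ⟨z, hz⟩ := int_of_isIntegral_of_rat hint ⟨(n * W G k h : ℕ) / (cG H h : ℚ), by
    have h2 : (cG H h : ℂ) ≠ 0 := by exact_mod_cast (cG_pos h).ne'
    push_cast
    rw [eq_div_iff h2]
    exact_mod_cast hval⟩
  rw [hz] at hval
  have h3 : z * (cG H h : ℤ) = ((n * W G k h : ℕ) : ℤ) := by exact_mod_cast hval
  have h4 : ((cG H h : ℕ) : ℤ) ∣ ((n * W G k h : ℕ) : ℤ) := ⟨z, by rw [← h3]; ring⟩
  exact Int.natCast_dvd_natCast.mp h4

/-- `r ≥ 1`. -/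
theorem Data.cG_le (D : Data H k w) (h : H) : cG H h ≤ W G k h * cH H h := by
  obtain ⟨t, ht⟩ := cH_dvd_cG h
  have hc := D.coprime_t h ht
  have h1 : t ∣ Nat.card H * W G k h := by
    refine Dvd.dvd.trans ?_ (D.cG_dvd h)
    rw [ht]
    exact Dvd.intro_left _ rfl
  have h2 : t ∣ W G k h := hc.dvd_of_dvd_mul_left h1
  have h3 : t ≤ W G k h := Nat.le_of_dvd (W_pos D (D.mem_pow h.2)) h2
  rw [ht, mul_comm]
  exact Nat.mul_le_mul_right _ h3

/-- `r = 1`. -/
theorem Data.W_mul (D : Data H k w) (h : H) : W G k h * cH H h = cG H h := by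
  classical
  have hclassW : IsClassFunction G (fun u => (W G k u : ℂ) * 1) := by
    intro x y
    simp only [W_conj]
  have h1 := D.sum_class (fun u => (W G k u : ℂ) * 1) hclassW (by
    intro u hu
    simp only [W_eq_zero D hu]
    simp)
  have h2 := sum_pow_eq k (fun _ : G => (1 : ℂ))
  simp only [Finset.sum_const, Finset.card_univ, nsmul_eq_mul, mul_one] at h2 h1
  rw [← h2, ← Nat.card_eq_fintype_card] at h1
  have hG : (Nat.card G : ℂ) ≠ 0 := by exact_mod_cast Nat.card_pos.ne'
  have h3 : (Nat.card H : ℂ) = ∑ h : H, (W G k h : ℂ) * ((cH H h : ℂ) / (cG H h : ℂ)) := by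
    apply mul_left_cancel₀ hG
    rw [← h1]
    ring
  have h4 : ∑ h : H, (1 : ℝ) = ∑ h : H, ((W G k h : ℝ) * (cH H h : ℝ) / (cG H h : ℝ)) := by
    have : ((∑ h : H, (1 : ℝ) : ℝ) : ℂ) = ((∑ h : H, ((W G k h : ℝ) * (cH H h : ℝ) / (cG H h : ℝ)) : ℝ) : ℂ) := by
      push_cast
      simp only [Finset.sum_const, Finset.card_univ, nsmul_eq_mul, mul_one]
      rw [← Nat.card_eq_fintype_card, h3]
      refine Finset.sum_congr rfl fun x _ => ?_
      ring
    exact_mod_cast this
  have h5 : ∀ x ∈ (Finset.univ : Finset H), (1 : ℝ) ≤ (W G k x : ℝ) * (cH H x : ℝ) / (cG H x : ℝ) := by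
    intro x _
    have hpos : (0 : ℝ) < (cG H x : ℝ) := by exact_mod_cast cG_pos x
    rw [le_div_iff₀ hpos, one_mul]
    exact_mod_cast D.cG_le x
  have h6 := (Finset.sum_eq_sum_iff_of_le h5).mp h4 h (Finset.mem_univ _)
  have hpos : (0 : ℝ) < (cG H h : ℝ) := by exact_mod_cast cG_pos h
  rw [eq_div_iff hpos.ne', one_mul] at h6
  exact_mod_cast h6.symm

/-- The norm of `θ ∘ s`. -/
theorem Data.norm_sel (D : Data H k w) {θ : H → ℂ} (hθ : IsIrrCharacter H θ) {s : G → H}
    (hs : ∀ x, IsConj (s x : G) (x ^ k)) :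
    classInner (fun x => θ (s x)) (fun x => θ (s x)) = 1 := by
  classical
  have hθcl := IsCharacter.isClassFunction (IsIrrCharacter.isCharacter hθ)
  let F : G → ℂ := fun x => θ (s x) * conj (θ (s x))
  have hF : ∀ x, F (x ^ k) = F x := by
    intro x
    have h1 : θ (s x) = θ (s (x ^ k)) := by
      apply D.apply_sel hθcl hs
      have := hs (x ^ k)
      rwa [D.pow_k_pow_k] at this
    simp only [F]
    rw [h1]
  have hFcl : IsClassFunction G F := by
    intro x y
    have this : θ (s (y * x * y⁻¹)) = θ (s x) := D.sel_class hθcl hs x y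
    simp only [F]
    rw [this]
  have h1 : ∑ x : G, F x = ∑ u : G, (W G k u : ℂ) * F u := by
    rw [← sum_pow_eq]
    exact Finset.sum_congr rfl fun x _ => (hF x).symm
  have h2 := D.sum_class (fun u => (W G k u : ℂ) * F u) (by
    intro x y
    simp only [W_conj]
    rw [hFcl]) (by
    intro u hu
    simp only [W_eq_zero D hu]
    simp)
  have hFH : ∀ h : H, F h = θ h * conj (θ h) := by
    intro h
    have h3 : θ (s h) = θ h := by
      apply D.apply_sel hθcl hs
      rw [D.pow_k_of (D.mem_pow h.2)]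
    simp only [F, h3]
  have h3 : ∀ h : H, (W G k h : ℂ) * F h * ((cH H h : ℂ) / (cG H h : ℂ)) = θ h * conj (θ h) := by
    intro h
    have h4 : (cG H h : ℂ) ≠ 0 := by exact_mod_cast (cG_pos h).ne'
    have h5 : (W G k h : ℂ) * (cH H h : ℂ) = (cG H h : ℂ) := by exact_mod_cast D.W_mul h
    rw [hFH]
    field_simp
    linear_combination (θ h * conj (θ h)) * h5
  rw [Finset.sum_congr rfl fun h _ => h3 h] at h2
  have h4 : classInner θ θ = 1 := classInner_irr_self hθ
  simp only [classInner] at h4 ⊢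
  have hG : (Nat.card G : ℂ) ≠ 0 := by exact_mod_cast Nat.card_pos.ne'
  have hH : (Nat.card H : ℂ) ≠ 0 := by exact_mod_cast Nat.card_pos.ne'
  have h5 : ∑ x : G, θ (s x) * conj (θ (s x)) = ∑ x : G, F x := rfl
  rw [h5, h1]
  rw [inv_mul_eq_iff_eq_mul₀ hG, mul_one]
  rw [inv_mul_eq_iff_eq_mul₀ hH, mul_one] at h4
  apply mul_left_cancel₀ hH
  rw [h2, ← h4]
  ring

/-- **Brauer–Suzuki**: the normal complement. -/
theorem normal_complement (H : Subgroup G)
    (hHall : Nat.Coprime (Nat.card H) H.index)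
    (hfus : ∀ x ∈ H, ∀ y ∈ H, IsConj x y → ∃ h ∈ H, h * x * h⁻¹ = y)
    (helem : ∀ (E : Subgroup G) (p : ℕ), p.Prime → IsElementary p E → Nat.card E ∣ Nat.card H →
      ∃ g : G, E.map (MulAut.conj g).toMonoidHom ≤ H) :
    ∃ K : Subgroup G, K.Normal ∧ K ⊔ H = ⊤ ∧ K ⊓ H = ⊥ := by
  classical
  letI : Fintype H := Fintype.ofFinite H
  have hmpos : 0 < H.index := Nat.pos_of_ne_zero Subgroup.index_ne_zero_of_finite
  have hnpos : 0 < Nat.card H := Nat.card_pos
  obtain ⟨k, w, hk0, hk1⟩ := exists_exponent_of_coprime hmpos hnpos hHall.symm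
  have D : Data H k w := ⟨hHall.symm, hfus, helem, hk0, hk1⟩
  obtain ⟨s, hs⟩ := D.exists_sel
  have hs1 : s 1 = 1 := by
    have := hs 1
    rw [one_pow, isConj_iff_eq_one_of_right] at this
    exact Subtype.ext this
  let f : IrrCharacter H → G → ℂ := fun θ x => (θ : H → ℂ) (s x)
  have hchar : ∀ θ : IrrCharacter H, IsCharacter G (f θ) := by
    intro θ
    obtain ⟨a, ha⟩ := eq_irr_of_norm_one (D.isGeneralized (IsIrrCharacter.isCharacter θ.2) hs)
      (D.norm_sel θ.2 hs)
    rcases ha with ha | ha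
    · have : f θ = (a : G → ℂ) := ha
      rw [this]
      exact IsIrrCharacter.isCharacter a.2
    · exfalso
      have h1 := congrFun ha 1
      simp only [Pi.neg_apply, hs1] at h1
      obtain ⟨m1, hm1, hm1e⟩ := IsIrrCharacter.apply_one θ.2
      obtain ⟨m2, hm2, hm2e⟩ := IsIrrCharacter.apply_one a.2
      rw [hm1e, hm2e] at h1
      have h2 : ((m1 + m2 : ℕ) : ℂ) = 0 := by
        push_cast
        rw [h1]
        ring
      have h3 : m1 + m2 = 0 := by exact_mod_cast h2
      omega
  haveI : ∀ θ : IrrCharacter H, (charKer (f θ)).Normal := fun θ => charKer_normal (hchar θ)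
  let K : Subgroup G := ⨅ θ : IrrCharacter H, charKer (f θ)
  have hKmem : ∀ x, x ∈ K ↔ x ^ k = 1 := by
    intro x
    rw [Subgroup.mem_iInf]
    constructor
    · intro h
      have h1 : ∀ θ : IrrCharacter H, (θ : H → ℂ) (s x) = (θ : H → ℂ) 1 := by
        intro θ
        have h2 := (mem_charKer (hchar θ)).mp (h θ)
        simp only [f, hs1] at h2
        exact h2
      have h2 : s x = 1 := by
        by_contra hne
        have h3 : ¬ IsConj (s x) (1 : H) := by
          rw [isConj_iff_eq_one_of_right]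
          exact hne
        have h4 := sum_irr_mul_conj_of_not_isConj h3
        have h5 := sum_irr_mul_conj_of_isConj (IsConj.refl (1 : H))
        simp only [h1] at h4
        rw [h4] at h5
        have h6 : (Nat.card (Subgroup.centralizer ({1} : Set H)) : ℂ) ≠ 0 := by
          exact_mod_cast Nat.card_pos.ne'
        exact h6 h5.symm
      have h3 := hs x
      rw [h2] at h3
      have h4 : IsConj (x ^ k) 1 := h3.symm
      rw [isConj_iff_eq_one_of_right] at h4
      exact h4
    · intro h θ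
      rw [mem_charKer (hchar θ)]
      have h1 := hs x
      rw [h, isConj_iff_eq_one_of_right] at h1
      have h2 : s x = 1 := Subtype.ext h1
      simp only [f, h2, hs1]
  refine ⟨K, Subgroup.normal_iInf_normal fun θ => inferInstance, ?_, ?_⟩
  · have hdisj : Disjoint K H := by
      rw [Subgroup.disjoint_def]
      intro x hxK hxH
      have h1 := (hKmem x).mp hxK
      rw [D.pow_k_of (D.mem_pow hxH)] at h1
      exact h1
    have hcard : Nat.card K * Nat.card H = Nat.card G := by
      have h1 := D.W_mul 1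
      have h2 : Nat.card K = W G k ((1 : H) : G) := by
        apply Nat.card_congr
        exact Equiv.subtypeEquivRight fun x => by
          simpa using hKmem x
      have h3 : cH H 1 = Nat.card H := by
        rw [cH]
        have : Subgroup.centralizer ({1} : Set H) = ⊤ := by
          rw [eq_top_iff]
          intro y _
          rw [Subgroup.mem_centralizer_iff]
          intro w hw
          have : w = 1 := by simpa using hw
          rw [this]
          simp
        rw [this]
        exact Nat.card_congr Subgroup.topEquiv.toEquiv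
      have h4 : cG H 1 = Nat.card G := by
        rw [cG]
        have : Subgroup.centralizer ({((1 : H) : G)} : Set G) = ⊤ := by
          rw [eq_top_iff]
          intro y _
          rw [Subgroup.mem_centralizer_iff]
          intro w hw
          have : w = 1 := by simpa using hw
          rw [this]
          simp
        rw [this]
        exact Nat.card_congr Subgroup.topEquiv.toEquiv
      rw [h2, ← h3, h1, h4]
    exact (Subgroup.isComplement'_of_card_mul_and_disjoint hcard hdisj).sup_eq_top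
  · rw [eq_bot_iff]
    intro x hx
    have h1 := (hKmem x).mp hx.1
    rw [D.pow_k_of (D.mem_pow hx.2)] at h1
    exact h1

end Data

end Cfsg.Agent.Lib.Char.BS
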