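import Cfsg.Agent.Lib.Char.CliffordBij
import Cfsg.Agent.Lib.Char.Degree
import Cfsg.Agent.Lib.Char.Linear
import Cfsg.Agent.Lib.OddLocal.PGroup

/-! # Groups all of whose character degrees are powers of a prime. -/

set_option autoImplicit false

namespace Cfsg.Agent.Lib.Char

open Cfsg
open scoped commutatorElement

universe u

/-- An abelian finite group of order divisible by `p` has a subgroup of index `p`. -/
theorem exists_index_prime_of_comm {A : Type u} [Group A] [Finite A]
    (hA : ∀ a b : A, a * b = b * a) (p : ℕ) [hp : Fact p.Prime] (hdvd : p ∣ Nat.card A) :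
    ∃ M : Subgroup A, M.Normal ∧ M.index = p := by
  classical
  let _ : CommGroup A := { (inferInstance : Group A) with mul_comm := hA }
  -- power map
  let f : A →* A := powMonoidHom p
  obtain ⟨x, hx⟩ := exists_prime_orderOf_dvd_card' (G := A) p hdvd
  have hfnot : ¬ Function.Surjective f := by
    intro hs
    have hi : Function.Injective f := Finite.injective_iff_surjective.mpr hs
    have h1 : f x = f 1 := by
      show x ^ p = 1 ^ p
      rw [one_pow, ← hx, pow_orderOf_eq_one]
    have h2 := hi h1
    have h3 := orderOf_eq_prime_iff.mp hx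
    exact h3.2 h2
  let R : Subgroup A := f.range
  haveI : R.Normal := by infer_instance
  have hne : Nontrivial (A ⧸ R) := by
    rw [QuotientGroup.nontrivial_iff]
    intro h
    apply hfnot
    intro y
    have : y ∈ R := by rw [h]; trivial
    exact this
  have hpg : IsPGroup p (A ⧸ R) := by
    intro q
    induction q using QuotientGroup.induction_on with
    | H y =>
      refine ⟨1, ?_⟩
      rw [pow_one, ← QuotientGroup.mk_pow, QuotientGroup.eq_one_iff]
      exact ⟨y, rfl⟩
  obtain ⟨M, hMn, hMi⟩ := Cfsg.Agent.Lib.OddLocal.exists_normal_index_prime p hpg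
  refine ⟨M.comap (QuotientGroup.mk' R), inferInstance, ?_⟩
  rw [Subgroup.index_comap_of_surjective _ (QuotientGroup.mk'_surjective R), hMi]

/-- If `p` divides the order of the abelianization, there is a normal subgroup of index `p`. -/
theorem exists_normal_index_prime_of_dvd {G : Type u} [Group G] [Finite G]
    (p : ℕ) [hp : Fact p.Prime] (hdvd : p ∣ (commutator G).index) :
    ∃ N : Subgroup G, N.Normal ∧ N.index = p := by
  classical
  have hcomm : ∀ a b : G ⧸ commutator G, a * b = b * a := by
    intro a b
    induction a using QuotientGroup.induction_on with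
    | H a =>
    induction b using QuotientGroup.induction_on with
    | H b =>
      rw [← QuotientGroup.mk_mul, ← QuotientGroup.mk_mul, QuotientGroup.eq]
      have : (a * b)⁻¹ * (b * a) = ⁅b⁻¹, a⁻¹⁆ := by
        simp [commutatorElement_def, mul_assoc]
      rw [this]
      exact Subgroup.commutator_mem_commutator (Subgroup.mem_top _) (Subgroup.mem_top _)
  have hcard : Nat.card (G ⧸ commutator G) = (commutator G).index := rfl
  obtain ⟨M, hMn, hMi⟩ := exists_index_prime_of_comm hcomm p (by rwa [hcard])
  refine ⟨M.comap (QuotientGroup.mk' (commutator G)), inferInstance, ?_⟩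
  rw [Subgroup.index_comap_of_surjective _ (QuotientGroup.mk'_surjective _), hMi]

/-- Main theorem: all irreducible degrees powers of `p` gives a normal abelian `p`-complement. -/
theorem exists_abelian_complement_of_degree_pow (p : ℕ) [hp : Fact p.Prime] :
    ∀ (n : ℕ) (G : Type u) [Group G] [Finite G], Nat.card G = n →
    (∀ χ : IrrCharacter G, ∃ k : ℕ, (χ : G → ℂ) 1 = (p : ℂ) ^ k) →
    ∃ A : Subgroup G, A.Normal ∧ (∀ a ∈ A, ∀ b ∈ A, a * b = b * a) ∧ Nat.Coprime (Nat.card A) p ∧
      ∃ k : ℕ, A.index = p ^ k := by
  intro n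
  induction n using Nat.strong_induction_on with
  | _ n ih =>
  intro G _ _ hcard hdeg
  classical
  let _ : Fintype G := Fintype.ofFinite G
  have hp' : p.Prime := hp.out
  by_cases hdvd : p ∣ Nat.card G
  · -- there is a normal subgroup of index p
    choose k hk using hdeg
    have hsum : ∑ χ : IrrCharacter G, (p ^ k χ) ^ 2 = Nat.card G := by
      have h := sum_irr_degree_sq (G := G)
      have h2 : ((∑ χ : IrrCharacter G, (p ^ k χ) ^ 2 : ℕ) : ℂ) = (Nat.card G : ℂ) := by
        rw [← h]
        push_cast
        apply Finset.sum_congr rfl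
        intro χ _
        rw [hk χ]
      exact_mod_cast h2
    have hsplit := Finset.sum_filter_add_sum_filter_not (Finset.univ : Finset (IrrCharacter G))
      (fun χ => k χ = 0) (fun χ => (p ^ k χ) ^ 2)
    have h0 : ∑ χ ∈ Finset.univ.filter (fun χ : IrrCharacter G => k χ = 0), (p ^ k χ) ^ 2
        = (Finset.univ.filter (fun χ : IrrCharacter G => k χ = 0)).card := by
      rw [Finset.card_eq_sum_ones]
      apply Finset.sum_congr rfl
      intro χ hχ
      rw [(Finset.mem_filter.mp hχ).2]
      simp
    have h1 : p ∣ ∑ χ ∈ Finset.univ.filter (fun χ : IrrCharacter G => ¬ k χ = 0), (p ^ k χ) ^ 2 := by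
      apply Finset.dvd_sum
      intro χ hχ
      have := (Finset.mem_filter.mp hχ).2
      exact dvd_pow (dvd_pow_self p this) two_ne_zero
    have hcardlin : (Finset.univ.filter (fun χ : IrrCharacter G => k χ = 0)).card
        = (commutator G).index := by
      rw [← card_linear_eq_index_commutator, Nat.card_eq_fintype_card, Fintype.card_subtype]
      congr 1
      ext χ
      simp only [Finset.mem_filter, Finset.mem_univ, true_and]
      rw [hk χ]
      constructor
      · intro h; rw [h]; simp
      · intro h
        have h3 : (p ^ k χ : ℕ) = 1 := by exact_mod_cast h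
        by_contra hne
        exact hp'.one_lt.ne' (Nat.eq_one_of_dvd_one (h3 ▸ dvd_pow_self p hne))
    have hdvdidx : p ∣ (commutator G).index := by
      rw [← hcardlin, ← h0]
      rw [hsum] at hsplit
      have := (Nat.dvd_add_left h1).mp (hsplit ▸ hdvd)
      exact this
    obtain ⟨N, hNn, hNi⟩ := exists_normal_index_prime_of_dvd p hdvdidx
    haveI := hNn
    let _ : Fintype N := Fintype.ofFinite N
    have hcardN : Nat.card N * p = Nat.card G := by
      rw [← hNi, Subgroup.card_mul_index]
    have hlt : Nat.card N < n := by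
      rw [← hcard, ← hcardN]
      have : 0 < Nat.card N := Nat.card_pos
      nlinarith [hp'.two_le]
    have hdegN : ∀ θ : IrrCharacter N, ∃ j : ℕ, (θ : N → ℂ) 1 = (p : ℂ) ^ j := by
      intro θ
      obtain ⟨χ, hχ, hov⟩ := exists_over N θ.2
      have hχc := IsIrrCharacter.isCharacter hχ
      have hθc := IsIrrCharacter.isCharacter θ.2
      have hd : χ 1 = ((p ^ k ⟨χ, hχ⟩ : ℕ) : ℂ) := by
        push_cast
        exact hk ⟨χ, hχ⟩
      have ht := apply_one_eq_charDegree hθc
      obtain ⟨e, he⟩ := exists_multiplicity N (θ := (θ : N → ℂ)) hχc θ.2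
      have h4 := clifford_degree_nat N hχ θ.2 hov hd ht he
      have h5 : charDegree (θ : N → ℂ) ∣ p ^ k ⟨χ, hχ⟩ := by
        rw [h4]
        exact dvd_mul_left _ _
      obtain ⟨j, -, hj⟩ := (Nat.dvd_prime_pow hp').mp h5
      refine ⟨j, ?_⟩
      rw [ht, hj]
      push_cast
      rfl
    obtain ⟨A, hAn, hAab, hAcop, j, hAi⟩ := ih (Nat.card N) hlt N rfl hdegN
    -- the image in G
    let B : Subgroup G := A.map N.subtype
    have hBcard : Nat.card B = Nat.card A := Nat.card_congr (Subgroup.equivMapOfInjective A N.subtype N.subtype_injective).symm.toEquiv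
    have hmem : ∀ x : G, x ∈ B ↔ x ∈ N ∧ Nat.Coprime (orderOf x) p := by
      intro x
      constructor
      · rintro ⟨a, ha, rfl⟩
        refine ⟨a.2, ?_⟩
        have h6 : orderOf ((N.subtype) a) = orderOf (⟨a, ha⟩ : A) := by
          show orderOf (((⟨a, ha⟩ : A) : N) : G) = _
          rw [Subgroup.orderOf_coe, Subgroup.orderOf_coe]
        rw [h6]
        exact Nat.Coprime.coprime_dvd_left (orderOf_dvd_natCard _) hAcop
      · rintro ⟨hxN, hx⟩
        let y : N := ⟨x, hxN⟩
        have hy : orderOf y = orderOf x := Subgroup.orderOf_mk x hxN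
        have h7 : y ^ (p ^ j) ∈ A := by
          rw [← hAi]
          exact Subgroup.pow_index_mem A y
        have hc : Nat.Coprime (p ^ j) (orderOf y) := by
          rw [hy]
          exact (Nat.Coprime.pow_right j hx).symm
        have h8 : y ∈ A := by
          have hb := Nat.gcd_eq_gcd_ab (p ^ j) (orderOf y)
          rw [hc.gcd_eq_one] at hb
          have h9 : y = (y ^ (p ^ j)) ^ (Nat.gcdA (p ^ j) (orderOf y)) := by
            have : y ^ ((1 : ℕ) : ℤ) = y ^ (((p ^ j : ℕ) : ℤ) * Nat.gcdA (p ^ j) (orderOf y) +
                ((orderOf y : ℕ) : ℤ) * Nat.gcdB (p ^ j) (orderOf y)) := by rw [hb]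
            rw [zpow_add, zpow_mul, zpow_mul, zpow_natCast, zpow_natCast y (orderOf y), zpow_natCast y (p ^ j),
              pow_orderOf_eq_one, one_zpow, mul_one, pow_one] at this
            exact this
          rw [h9]
          exact A.zpow_mem h7 _
        exact ⟨y, h8, rfl⟩
    have hBn : B.Normal := by
      constructor
      intro x hx g
      rw [hmem] at hx ⊢
      refine ⟨hNn.conj_mem x hx.1 g, ?_⟩
      have : orderOf (g * x * g⁻¹) = orderOf x := by
        have h := MulEquiv.orderOf_eq (MulAut.conj g) x
        simpa [MulAut.conj_apply] using h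
      rw [this]
      exact hx.2
    refine ⟨B, hBn, ?_, by rw [hBcard]; exact hAcop, j + 1, ?_⟩
    · rintro _ ⟨a, ha, rfl⟩ _ ⟨b, hb, rfl⟩
      exact congrArg Subtype.val (hAab a ha b hb)
    · have hBi := Subgroup.card_mul_index B
      have hAi' := Subgroup.card_mul_index A
      rw [hAi] at hAi'
      have : Nat.card B * B.index = Nat.card B * p ^ (j + 1) := by
        rw [hBi, ← hcardN, ← hAi', hBcard]
        ring
      exact Nat.eq_of_mul_eq_mul_left Nat.card_pos this
  · -- p does not divide |G|: G abelian
    have hone : ∀ χ : IrrCharacter G, (χ : G → ℂ) 1 = 1 := by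
      intro χ
      obtain ⟨k, hk⟩ := hdeg χ
      have h1 : charDegree (χ : G → ℂ) = p ^ k := charDegree_eq (by rw [hk]; push_cast; rfl)
      have h2 := charDegree_dvd_card χ.2
      rw [h1] at h2
      have hk0 : k = 0 := by
        by_contra hne
        exact hdvd ((dvd_pow_self p hne).trans h2)
      rw [hk, hk0, pow_zero]
    have hcomm := (comm_iff_irr_degree_one (G := G)).mpr hone
    refine ⟨⊤, inferInstance, fun a _ b _ => hcomm a b, ?_, 0, by simp⟩
    rw [Nat.card_congr Subgroup.topEquiv.toEquiv]
    exact ((Nat.Prime.coprime_iff_not_dvd hp').mpr hdvd).symm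

end Cfsg.Agent.Lib.Char
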