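import Mathlib
import Cfsg.Agent.Lib.Char.FRamB

set_option autoImplicit false

/-!
Counting lemmas for characters fully ramified in a section with a Frobenius action on top:
the arithmetic of multiplicities, the Frobenius sum and the coset norm.
-/

namespace Cfsg.Agent.Lib.Char.RamIdx

open Cfsg Cfsg.Agent.Lib.Char ComplexConjugate

universe u

theorem arith {I : Type*} [Fintype I] (m : I → ℕ) (n e : ℕ) (hcard : Fintype.card I = n)
    (hn : 2 ≤ n) (hsum : ∑ i, m i = e)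
    (hsq : (n : ℤ) * ∑ i, (m i : ℤ) ^ 2 = (e : ℤ) ^ 2 + n - 1) :
    (n : ℤ) ∣ (e : ℤ) - 1 ∨ (n : ℤ) ∣ (e : ℤ) + 1 := by
  have hn0 : (0 : ℤ) < n := by
    have : 0 < n := by omega
    exact_mod_cast this
  have hn2 : (2 : ℤ) ≤ n := by exact_mod_cast hn
  obtain ⟨a, r, hr, h2r⟩ : ∃ a r : ℤ, (e : ℤ) = a * n + r ∧ 2 * |r| ≤ n := by
    have h0 := Int.mul_ediv_add_emod (e : ℤ) n
    have h1 := Int.emod_nonneg (e : ℤ) hn0.ne'
    have h2 := Int.emod_lt_of_pos (e : ℤ) hn0
    by_cases h : 2 * ((e : ℤ) % n) ≤ n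
    · refine ⟨(e : ℤ) / n, (e : ℤ) % n, ?_, ?_⟩
      · linarith
      · rw [abs_of_nonneg h1]
        exact h
    · refine ⟨(e : ℤ) / n + 1, (e : ℤ) % n - n, ?_, ?_⟩
      · linarith
      · rw [abs_of_nonpos (by linarith)]
        push Not at h
        linarith
  have hsum' : ∑ i, (m i : ℤ) = e := by exact_mod_cast hsum
  have hsub : ∑ i, ((m i : ℤ) - a) = r := by
    rw [Finset.sum_sub_distrib, Finset.sum_const, Finset.card_univ, hcard, hsum', hr]
    simp
    ring
  have hexp : ∑ i, ((m i : ℤ) - a) ^ 2 = ∑ i, (m i : ℤ) ^ 2 - 2 * a * e + n * a ^ 2 := by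
    have h1 : ∀ i, ((m i : ℤ) - a) ^ 2 = (m i : ℤ) ^ 2 - 2 * a * (m i : ℤ) + a ^ 2 := by
      intro i
      ring
    simp only [h1]
    rw [Finset.sum_add_distrib, Finset.sum_sub_distrib, ← Finset.mul_sum, hsum', Finset.sum_const,
      Finset.card_univ, hcard]
    simp
  have hsq2 : (n : ℤ) * ∑ i, ((m i : ℤ) - a) ^ 2 = r ^ 2 + n - 1 := by
    rw [hexp, mul_add, mul_sub, hsq, hr]
    ring
  have hk : ∀ k : ℤ, |k| ≤ k ^ 2 := by
    intro k
    rcases eq_or_ne k 0 with rfl | h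
    · simp
    · have h1 := Int.one_le_abs h
      have h2 := sq_abs k
      nlinarith [abs_nonneg k]
  have habs : |r| ≤ ∑ i, ((m i : ℤ) - a) ^ 2 := by
    rw [← hsub]
    calc |∑ i, ((m i : ℤ) - a)| ≤ ∑ i, |(m i : ℤ) - a| := Finset.abs_sum_le_sum_abs _ _
      _ ≤ _ := Finset.sum_le_sum fun i _ => hk _
  set X := ∑ i, ((m i : ℤ) - a) ^ 2 with hX
  have hs2 := sq_abs r
  have hs0 := abs_nonneg r
  have hmain : (n : ℤ) * |r| ≤ r ^ 2 + n - 1 := by
    rw [← hsq2]
    exact mul_le_mul_of_nonneg_left habs hn0.le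
  rw [← hs2] at hmain
  set s := |r| with hs
  have hs012 : s = 0 ∨ s = 1 ∨ 2 ≤ s := by omega
  rcases hs012 with h0 | h1 | h2
  · exfalso
    have hr0 : r = 0 := abs_eq_zero.mp h0
    rw [hr0] at hsq2
    have hX0 : 0 ≤ X := le_trans hs0 habs
    have : X = 0 ∨ 1 ≤ X := by omega
    rcases this with h | h
    · rw [h] at hsq2
      linarith
    · nlinarith
  · have : r = 1 ∨ r = -1 := by
      rcases abs_choice r with h | h
      · left; rw [← h]; exact h1
      · right; have : -r = 1 := by rw [← h]; exact h1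
        linarith
    rcases this with h | h
    · left
      exact ⟨a, by rw [hr, h]; ring⟩
    · right
      exact ⟨a, by rw [hr, h]; ring⟩
  · exfalso
    nlinarith [mul_pos (show (0 : ℤ) < s - 1 by linarith) (show (0 : ℤ) < n - s - 1 by linarith)]

theorem frob_sum {G : Type u} [Group G] [Fintype G] (N : Subgroup G) [hN : N.Normal] [Fintype N]
    (α : G →* G) (hαN : ∀ n ∈ N, α n ∈ N) (hfp : ∀ g, α g * g⁻¹ ∈ N → g ∈ N)
    (F : G → ℂ) (hF : ∀ g h, F (g * h * (α g)⁻¹) = F h) :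
    (Nat.card G : ℂ) * ∑ n : N, F n = (Nat.card N : ℂ) * ∑ u, F u := by
  classical
  letI : Fintype (G ⧸ N) := Fintype.ofFinite _
  set S : G → ℂ := fun u => ∑ n : N, F (n * u) with hS
  have h1 : ∀ g, S (g * (α g)⁻¹) = ∑ n : N, F n := by
    intro g
    let c : N ≃ N := (MulAut.conjNormal g : MulAut N).toEquiv
    simp only [hS]
    rw [← Equiv.sum_comp c]
    refine Finset.sum_congr rfl fun n _ => ?_
    have h2 : ((c n : N) : G) * (g * (α g)⁻¹) = g * n * (α g)⁻¹ := by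
      simp only [c, MulEquiv.toEquiv_eq_coe, EquivLike.coe_coe, MulAut.conjNormal_apply]
      group
    rw [h2, hF]
  have h2 : ∑ g : G, S (g * (α g)⁻¹) = (Nat.card G : ℂ) * ∑ n : N, F n := by
    simp only [h1]
    rw [Finset.sum_const, Finset.card_univ, nsmul_eq_mul, Nat.card_eq_fintype_card]
  have hSr : ∀ u : G, ∀ m ∈ N, S (u * m) = S u := by
    intro u m hm
    simp only [hS]
    let m' : N := ⟨u * m * u⁻¹, hN.conj_mem m hm u⟩
    rw [← Equiv.sum_comp (Equiv.mulRight m')⁻¹]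
    refine Finset.sum_congr rfl fun n _ => ?_
    congr 1
    simp [m', Equiv.Perm.inv_def]
    group
  let Sb : G ⧸ N → ℂ := fun c => S (Quotient.out c)
  have hSb : ∀ g : G, Sb (g : G ⧸ N) = S g := by
    intro g
    obtain ⟨h, hh⟩ := QuotientGroup.mk_out_eq_mul N g
    simp only [Sb]
    have : Quotient.out (g : G ⧸ N) = g * h := hh
    rw [this, hSr g h h.2]
  let αb : G ⧸ N →* G ⧸ N := QuotientGroup.map N N α (fun n hn => hαN n hn)
  let L : G ⧸ N → G ⧸ N := fun c => c * (αb c)⁻¹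
  have hL : ∀ g : G, L (g : G ⧸ N) = ((g * (α g)⁻¹ : G) : G ⧸ N) := by
    intro g
    rfl
  have hLinj : Function.Injective L := by
    intro c d hcd
    have h3 : αb (d⁻¹ * c) = d⁻¹ * c := by
      simp only [L] at hcd
      rw [map_mul, map_inv]
      have : c = d * (αb d)⁻¹ * αb c := by
        rw [← hcd]
        group
      nth_rewrite 2 [this]
      group
    have h4 : ∀ w : G ⧸ N, αb w = w → w = 1 := by
      intro w
      induction w using QuotientGroup.induction_on with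
      | H x =>
      intro hx
      have h5 : ((α x : G) : G ⧸ N) = (x : G ⧸ N) := hx
      rw [QuotientGroup.eq_iff_div_mem] at h5
      rw [QuotientGroup.eq_one_iff]
      apply hfp x
      simpa [div_eq_mul_inv] using h5
    have h5 := h4 _ h3
    have h6 : c = d := by
      have := congrArg (fun w => d * w) h5
      simpa using this
    exact h6
  have hLbij : Function.Bijective L := Finite.injective_iff_bijective.mp hLinj
  have h3 : ∑ g : G, S (g * (α g)⁻¹) = (Nat.card N : ℂ) * ∑ c, Sb c := by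
    have h4 : ∀ g : G, S (g * (α g)⁻¹) = (fun c => Sb (L c)) (g : G ⧸ N) := by
      intro g
      simp only [hL, hSb]
    simp only [h4]
    rw [sum_comp_mk N (fun c => Sb (L c))]
    rw [hLbij.sum_comp Sb]
  have h5 : (Nat.card N : ℂ) * ∑ c, Sb c = ∑ u : G, S u := by
    rw [← sum_comp_mk N Sb]
    simp only [hSb]
  have h6 : ∑ u : G, S u = (Nat.card N : ℂ) * ∑ u, F u := by
    simp only [hS]
    rw [Finset.sum_comm]
    have h7 : ∀ n : N, ∑ u : G, F (n * u) = ∑ u, F u := fun n =>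
      Equiv.sum_comp (Equiv.mulLeft (n : G)) F
    simp only [h7]
    rw [Finset.sum_const, Finset.card_univ, nsmul_eq_mul, Nat.card_eq_fintype_card]
  rw [← h2, h3, h5, h6]

theorem norm_coset {Γ : Type u} [Group Γ] [Fintype Γ] (G N : Subgroup Γ) [hG : G.Normal] [hN : N.Normal]
    [Fintype G] [Fintype N] (hNG : N ≤ G) {χ : Γ → ℂ} (hχ : IsCharacter Γ χ)
    (hirr : IsIrrCharacter G (resFun G χ)) {x : Γ} (hx : x ∉ G)
    (hfrob : ∀ g ∈ G, x * g * x⁻¹ * g⁻¹ ∈ N → g ∈ N) :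
    ∑ n : N, χ (n * x) * conj (χ (n * x)) = (Nat.card N : ℂ) := by
  classical
  letI : Fintype (N.subgroupOf G) := Fintype.ofFinite _
  let α : G →* G := (MulAut.conjNormal x : MulAut G).toMonoidHom
  have hα : ∀ g : G, ((α g : G) : Γ) = x * g * x⁻¹ := by
    intro g
    exact MulAut.conjNormal_apply x g
  let F : G → ℂ := fun u => χ (u * x) * conj (χ (u * x))
  have hF : ∀ g h : G, F (g * h * (α g)⁻¹) = F h := by
    intro g h
    have h1 : (((g * h * (α g)⁻¹ : G) : Γ)) * x = g * (h * x) * (g : Γ)⁻¹ := by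
      simp only [Subgroup.coe_mul, Subgroup.coe_inv, hα]
      group
    simp only [F]
    rw [h1]
    have h2 := IsCharacter.isClassFunction hχ (h * x) g
    rw [h2]
  have h1 := frob_sum (N.subgroupOf G) α (fun n hn => by
      rw [Subgroup.mem_subgroupOf] at hn ⊢
      rw [hα]
      exact hN.conj_mem _ hn x)
    (fun g hg => by
      rw [Subgroup.mem_subgroupOf] at hg ⊢
      apply hfrob g g.2
      simpa [hα] using hg) F hF
  have h2 := gallagher_norm G hχ hirr x
  have h3 : ∑ u : G, F u = (Nat.card G : ℂ) := h2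
  rw [h3] at h1
  have hGc : (Nat.card G : ℂ) ≠ 0 := by exact_mod_cast Nat.card_pos.ne'
  have h4 : ∑ n : N.subgroupOf G, F n = (Nat.card (N.subgroupOf G) : ℂ) := by
    apply mul_left_cancel₀ hGc
    rw [h1]
    ring
  have h5 : Nat.card (N.subgroupOf G) = Nat.card N :=
    Nat.card_congr (Subgroup.subgroupOfEquivOfLe hNG).toEquiv
  rw [h5] at h4
  rw [← h4]
  rw [← Equiv.sum_comp (Subgroup.subgroupOfEquivOfLe hNG).toEquiv]
  rfl

theorem over_of_constituent {H : Type u} [Group H] [Fintype H] {M : Subgroup H} [Fintype M]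
    {Ψ : H → ℂ} (hΨ : IsCharacter H Ψ) {θ : M → ℂ} (hθ : IsIrrCharacter M θ) {e : ℕ}
    (hres : ∀ z : M, Ψ z = (e : ℂ) * θ z) {ψ : H → ℂ} (hψ : IsIrrCharacter H ψ)
    (h : classInner Ψ ψ ≠ 0) : classInner (resFun M ψ) θ ≠ 0 := by
  classical
  obtain ⟨a, ha⟩ := IsCharacter.classInner_irr_eq_nat hΨ hψ
  obtain ⟨Δ, hΔ, hΦ⟩ := exists_complement hΨ hψ ha
  have ha0 : a ≠ 0 := by
    intro h0
    apply h
    rw [ha, h0]
    simp
  have hρ : IsCharacter M (resFun M ψ) := isCharacter_resFun M (IsIrrCharacter.isCharacter hψ)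
  have h1 : (resFun M ψ) 1 ≠ 0 := by
    have := IsIrrCharacter.apply_one_ne_zero hψ
    exact this
  obtain ⟨μ, hμ, hμ0⟩ := exists_constituent hρ h1
  by_cases hμθ : μ = θ
  · rwa [hμθ] at hμ0
  exfalso
  have hres2 : resFun M Ψ = a • resFun M ψ + resFun M Δ := by
    funext z
    have := congrFun hΦ z
    simpa [resFun] using this
  have h2 : classInner (resFun M Ψ) μ = 0 := by
    have : resFun M Ψ = (e : ℂ) • θ := by
      funext z
      simp [resFun, hres z]
    rw [this, classInner_smul_left, classInner_irr_of_ne hθ hμ (fun h => hμθ h.symm), mul_zero]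
  rw [hres2, classInner_add_left, ← Nat.cast_smul_eq_nsmul ℂ, classInner_smul_left] at h2
  obtain ⟨c, hc⟩ := IsCharacter.classInner_irr_eq_nat hρ hμ
  obtain ⟨c', hc'⟩ := IsCharacter.classInner_irr_eq_nat (isCharacter_resFun M hΔ) hμ
  rw [hc, hc'] at h2
  have hc0 : c ≠ 0 := by
    intro h0
    apply hμ0
    rw [hc, h0]
    simp
  have h3 : a * c + c' = 0 := by exact_mod_cast h2
  have : 0 < a * c := Nat.mul_pos (Nat.pos_of_ne_zero ha0) (Nat.pos_of_ne_zero hc0)
  omega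

theorem dvd_of_decomp {H : Type u} [Group H] [Fintype H] (M : Subgroup H) [M.Normal] [Fintype M]
    (hcomm : ∀ a b : H ⧸ M, a * b = b * a) (hn : 2 ≤ M.index)
    {θ₀ : H → ℂ} (hθ₀ : IsCharacter H θ₀) (hθ : IsIrrCharacter M (resFun M θ₀))
    {Ψ : H → ℂ} (hΨ : IsCharacter H Ψ) (e : ℕ) (hres : ∀ m : M, Ψ m = (e : ℂ) * θ₀ m)
    (hnorm : (M.index : ℂ) * classInner Ψ Ψ = (e : ℂ) ^ 2 + M.index - 1) :
    (M.index : ℤ) ∣ (e : ℤ) - 1 ∨ (M.index : ℤ) ∣ (e : ℤ) + 1 := by
  classical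
  letI : Fintype (H ⧸ M) := Fintype.ofFinite _
  have hdeg : ∀ β : IrrCharacter (H ⧸ M), (β : H ⧸ M → ℂ) 1 = 1 := comm_iff_irr_degree_one.mp hcomm
  have hcard : Fintype.card (IrrCharacter (H ⧸ M)) = M.index := by
    have h1 := sum_irr_degree_sq (G := H ⧸ M)
    simp only [hdeg] at h1
    simp only [one_pow, Finset.sum_const, Finset.card_univ, nsmul_eq_mul, mul_one] at h1
    have h2 : Fintype.card (IrrCharacter (H ⧸ M)) = Nat.card (H ⧸ M) := by exact_mod_cast h1
    rw [h2]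
    rfl
  obtain ⟨N₀, hN₀, hsum⟩ := IsCharacter.exists_eq_sum hΨ
  let ψ : IrrCharacter (H ⧸ M) → IrrCharacter H := fun β =>
    ⟨fun g => inflate M (β : H ⧸ M → ℂ) g * θ₀ g, isIrrCharacter_gallagher M hθ₀ hθ β.2⟩
  have hψinj : Function.Injective ψ := by
    intro β β' h
    by_contra hne
    have h1 := classInner_gallagher M hθ₀ hθ (β : H ⧸ M → ℂ) (β' : H ⧸ M → ℂ)
    have h2 : (ψ β : H → ℂ) = (ψ β' : H → ℂ) := by rw [h]
    change classInner (ψ β : H → ℂ) (ψ β' : H → ℂ) = _ at h1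
    rw [← h2, classInner_irr_self (ψ β).2, classInner_irr_of_ne β.2 β'.2
      (fun h3 => hne (Subtype.ext h3))] at h1
    exact one_ne_zero h1
  have hθres : IsIrrCharacter M (fun z : M => θ₀ z) := hθ
  have hrange : ∀ ξ : IrrCharacter H, ξ ∉ Set.range ψ → N₀ ξ = 0 := by
    intro ξ hξ
    by_contra h0
    have h1 : classInner Ψ (ξ : H → ℂ) ≠ 0 := by
      rw [hN₀ ξ]
      exact_mod_cast h0
    have h2 := over_of_constituent hΨ hθres hres ξ.2 h1
    obtain ⟨β, hβ, hξ'⟩ := exists_gallagher M hθ₀ hθ ξ.2 h2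
    exact hξ ⟨⟨β, hβ⟩, Subtype.ext hξ'.symm⟩
  let m : IrrCharacter (H ⧸ M) → ℕ := fun β => N₀ (ψ β)
  have ht : θ₀ 1 ≠ 0 := by
    have := IsIrrCharacter.apply_one_ne_zero hθ
    exact this
  have hψ1 : ∀ β, (ψ β : H → ℂ) 1 = θ₀ 1 := by
    intro β
    change inflate M (β : H ⧸ M → ℂ) 1 * θ₀ 1 = θ₀ 1
    simp only [inflate, QuotientGroup.mk_one, hdeg, one_mul]
  have hS1 : ∑ β, m β = e := by
    have h1 := congrFun hsum 1
    rw [Finset.sum_apply] at h1
    have h2 : ∑ ξ : IrrCharacter H, (N₀ ξ • (ξ : H → ℂ)) 1 = ∑ β, (m β : ℂ) * θ₀ 1 := by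
      symm
      apply Fintype.sum_of_injective ψ hψinj
      · intro ξ hξ
        simp [hrange ξ hξ]
      · intro β
        simp [hψ1, m]
    rw [h2, ← Finset.sum_mul] at h1
    have h3 := hres 1
    have h4 : Ψ 1 = (e : ℂ) * θ₀ 1 := h3
    rw [h4] at h1
    have h5 := mul_right_cancel₀ ht h1
    have h6 : ((∑ β, m β : ℕ) : ℂ) = (e : ℂ) := by
      push_cast
      exact h5.symm
    exact_mod_cast h6
  have hS2 : (M.index : ℤ) * ∑ β, (m β : ℤ) ^ 2 = (e : ℤ) ^ 2 + M.index - 1 := by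
    have h1 : classInner Ψ Ψ = ∑ β, (m β : ℂ) ^ 2 := by
      have h2 : classInner Ψ Ψ = ∑ ξ : IrrCharacter H, (N₀ ξ : ℂ) ^ 2 := by
        nth_rewrite 1 [hsum]
        rw [classInner_sum_left]
        refine Finset.sum_congr rfl fun ξ _ => ?_
        rw [← Nat.cast_smul_eq_nsmul ℂ, classInner_smul_left, classInner_conj_symm, hN₀ ξ]
        simp
        ring
      rw [h2]
      symm
      apply Fintype.sum_of_injective ψ hψinj
      · intro ξ hξ
        simp [hrange ξ hξ]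
      · intro β
        rfl
    rw [h1] at hnorm
    have h3 : (((M.index : ℤ) * ∑ β, (m β : ℤ) ^ 2 : ℤ) : ℂ) = (((e : ℤ) ^ 2 + M.index - 1 : ℤ) : ℂ) := by
      push_cast
      exact hnorm
    exact_mod_cast h3
  exact arith m M.index e hcard hn hS1 hS2

end Cfsg.Agent.Lib.Char.RamIdx
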