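import Mathlib
import Cfsg.Agent.Lib.Char.RamIdxA
import Cfsg.Agent.Lib.Char.FRamA

set_option autoImplicit false

/-!
The index of the group in a Frobenius section divides `e ± 1`, for a fully ramified section.
-/

namespace Cfsg.Agent.Lib.Char.RamIdx

open Cfsg Cfsg.Agent.Lib.Char ComplexConjugate

universe u

theorem step_one {G : Type u} [Group G] [Fintype G] (M : Subgroup G) [hM : M.Normal] [Fintype M]
    {θ : M → ℂ} (hθ : IsIrrCharacter M θ)
    (hinv : ∀ (x : G) (m : M), θ ⟨x * m * x⁻¹, hM.conj_mem m m.2 x⟩ = θ m)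
    {χ : G → ℂ} (hχ : IsIrrCharacter G χ) (e : ℕ) (hram : indFun M θ = fun g => (e : ℂ) * χ g) :
    e ^ 2 = M.index ∧ (∀ m : M, χ m = (e : ℂ) * θ m) ∧ ∀ g, g ∉ M → χ g = 0 := by
  classical
  have hMc : (Nat.card M : ℂ) ≠ 0 := by exact_mod_cast Nat.card_pos.ne'
  have hcard : (Nat.card G : ℂ) = (Nat.card M : ℂ) * M.index := by
    exact_mod_cast (Subgroup.card_mul_index M).symm
  have hon : ∀ m : M, (e : ℂ) * χ m = M.index * θ m := by
    intro m
    have h1 := congrFun hram (m : G)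
    rw [indFun_apply] at h1
    have h2 : ∀ x : G, extendByZero M θ (x⁻¹ * m * x) = θ m := by
      intro x
      have h3 : x⁻¹ * m * x ∈ M := by
        have := hM.conj_mem m m.2 x⁻¹
        simpa using this
      rw [extendByZero_of_mem M θ h3]
      have := hinv x⁻¹ m
      simp only [inv_inv] at this
      exact this
    simp only [h2] at h1
    rw [Finset.sum_const, Finset.card_univ, nsmul_eq_mul, ← Nat.card_eq_fintype_card, hcard] at h1
    rw [← h1]
    field_simp
  have hoff0 : ∀ g, g ∉ M → (e : ℂ) * χ g = 0 := by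
    intro g hg
    have h1 := congrFun hram g
    rw [indFun_apply] at h1
    have h2 : ∀ x : G, extendByZero M θ (x⁻¹ * g * x) = 0 := by
      intro x
      apply extendByZero_of_notMem
      intro h3
      apply hg
      have := hM.conj_mem _ h3 x
      simpa [mul_assoc] using this
    simp only [h2, Finset.sum_const_zero, mul_zero] at h1
    exact h1.symm
  have hidx : (M.index : ℂ) ≠ 0 := by
    exact_mod_cast (Subgroup.index_ne_zero_of_finite (H := M))
  have he0 : (e : ℂ) ≠ 0 := by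
    intro h0
    have h1 := hon 1
    rw [h0, zero_mul] at h1
    have h2 : θ 1 ≠ 0 := IsIrrCharacter.apply_one_ne_zero hθ
    exact mul_ne_zero hidx h2 h1.symm
  have hoff : ∀ g, g ∉ M → χ g = 0 := by
    intro g hg
    have := hoff0 g hg
    exact (mul_eq_zero.mp this).resolve_left he0
  -- the norm
  have hn1 := FRam.norm_sum_eq hχ
  have hn2 := FRam.norm_sum_eq hθ
  have hn3 : ∑ g : G, Complex.normSq (χ g) = ∑ m : M, Complex.normSq (χ m) := by
    symm
    apply Fintype.sum_of_injective (fun m : M => (m : G)) Subtype.val_injective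
    · intro g hg
      have : g ∉ M := fun h => hg ⟨⟨g, h⟩, rfl⟩
      rw [hoff g this, map_zero]
    · intro m
      rfl
  have hn4 : ∀ m : M, (e : ℝ) ^ 2 * Complex.normSq (χ m) = (M.index : ℝ) ^ 2 * Complex.normSq (θ m) := by
    intro m
    have h1 := congrArg Complex.normSq (hon m)
    simp only [map_mul, Complex.normSq_natCast] at h1
    nlinarith
  have hn5 : (e : ℝ) ^ 2 * Nat.card G = (M.index : ℝ) ^ 2 * Nat.card M := by
    rw [← hn1, ← hn2, hn3, Finset.mul_sum, Finset.mul_sum]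
    exact Finset.sum_congr rfl fun m _ => hn4 m
  have hcardr : (Nat.card G : ℝ) = (Nat.card M : ℝ) * M.index := by
    exact_mod_cast (Subgroup.card_mul_index M).symm
  have hMr : (Nat.card M : ℝ) ≠ 0 := by exact_mod_cast Nat.card_pos.ne'
  have hidxr : (M.index : ℝ) ≠ 0 := by
    exact_mod_cast (Subgroup.index_ne_zero_of_finite (H := M))
  have hn6 : (e : ℝ) ^ 2 = M.index := by
    rw [hcardr] at hn5
    field_simp at hn5
    linarith
  have hn7 : e ^ 2 = M.index := by exact_mod_cast hn6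
  refine ⟨hn7, ?_, hoff⟩
  intro m
  have h1 := hon m
  rw [← hn7] at h1
  push_cast at h1
  apply mul_left_cancel₀ he0
  rw [h1]
  ring

/-- The sum of the norm over a supplement. -/
theorem norm_on_H {Γ : Type u} [Group Γ] [Fintype Γ] (G N H : Subgroup Γ) [hG : G.Normal] [hN : N.Normal]
    [Fintype G] [Fintype N] [Fintype H] (hNG : N ≤ G) (hNH : N ≤ H)
    (hHG : ∀ h ∈ H, h ∈ G → h ∈ N) {χ : Γ → ℂ} (hχ : IsCharacter Γ χ)
    (hirr : IsIrrCharacter G (resFun G χ))
    (hfrob : ∀ x : Γ, x ∉ G → ∀ g : Γ, g ∈ G → x * g * x⁻¹ * g⁻¹ ∈ N → g ∈ N)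
    {θ : N → ℂ} (hθ : IsIrrCharacter N θ) (e : ℕ) (hres : ∀ n : N, χ n = (e : ℂ) * θ n) :
    ∑ h : H, χ h * conj (χ h) = (Nat.card N : ℂ) * (e : ℂ) ^ 2 + ((Nat.card H : ℂ) - Nat.card N) := by
  classical
  set A : Γ → ℂ := fun h => χ h * conj (χ h) with hA
  have hN0 : (Nat.card N : ℂ) ≠ 0 := by exact_mod_cast Nat.card_pos.ne'
  have h1 : ∑ h : H, ∑ n : N, A (n * h) = (Nat.card N : ℂ) * ∑ h : H, A h := by
    rw [Finset.sum_comm]
    have h2 : ∀ n : N, ∑ h : H, A (n * h) = ∑ h : H, A h := by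
      intro n
      exact Equiv.sum_comp (Equiv.mulLeft (⟨n, hNH n.2⟩ : H)) (fun h : H => A h)
    simp only [h2]
    rw [Finset.sum_const, Finset.card_univ, nsmul_eq_mul, Nat.card_eq_fintype_card]
  have hθnorm : ∑ n : N, θ n * conj (θ n) = (Nat.card N : ℂ) := by
    have h2 := classInner_irr_self hθ
    simp only [classInner] at h2
    field_simp at h2
    exact h2
  have h2 : ∀ h : H, ∑ n : N, A (n * h) =
      (Nat.card N : ℂ) + (if (h : Γ) ∈ N then (Nat.card N : ℂ) * ((e : ℂ) ^ 2 - 1) else 0) := by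
    intro h
    by_cases hh : (h : Γ) ∈ N
    · rw [if_pos hh]
      have h3 : ∀ n : N, A (n * h) = (e : ℂ) ^ 2 * (θ (n * ⟨h, hh⟩) * conj (θ (n * ⟨h, hh⟩))) := by
        intro n
        simp only [hA]
        have h4 := hres (n * ⟨h, hh⟩)
        have h5 : ((n * ⟨(h : Γ), hh⟩ : N) : Γ) = n * h := rfl
        rw [h5] at h4
        rw [h4, map_mul, map_natCast]
        ring
      simp only [h3]
      rw [← Finset.mul_sum]
      have h6 := Equiv.sum_comp (Equiv.mulRight (⟨h, hh⟩ : N)) (fun n : N => θ n * conj (θ n))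
      simp only [Equiv.coe_mulRight] at h6
      rw [h6, hθnorm]
      ring
    · rw [if_neg hh, add_zero]
      have hhG : (h : Γ) ∉ G := fun h3 => hh (hHG _ h.2 h3)
      exact norm_coset G N hNG hχ hirr hhG (hfrob _ hhG)
  simp only [h2] at h1
  rw [Finset.sum_add_distrib, Finset.sum_const, Finset.card_univ, nsmul_eq_mul,
    ← Nat.card_eq_fintype_card] at h1
  have h3 : ∑ h : H, (if (h : Γ) ∈ N then (Nat.card N : ℂ) * ((e : ℂ) ^ 2 - 1) else 0) =
      (Nat.card N : ℂ) * ((Nat.card N : ℂ) * ((e : ℂ) ^ 2 - 1)) := by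
    rw [← Finset.sum_filter, Finset.sum_const, nsmul_eq_mul]
    congr 2
    have h4 : Nat.card {h : H // (h : Γ) ∈ N} = Nat.card N :=
      Nat.card_congr (Subgroup.subgroupOfEquivOfLe hNH).toEquiv
    rw [← h4, Nat.card_eq_fintype_card, Fintype.card_subtype]
  rw [h3] at h1
  apply mul_left_cancel₀ hN0
  rw [← h1]
  ring

theorem main {Γ : Type u} [Group Γ] [Fintype Γ] (G N : Subgroup Γ) [hG : G.Normal] [hN : N.Normal]
    [Fintype G] [Fintype N] (hNG : N ≤ G) (hGlt : G ≠ ⊤) (hcyc : IsCyclic (Γ ⧸ G))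
    (hfrob : ∀ x : Γ, x ∉ G → ∀ g : Γ, g ∈ G → x * g * x⁻¹ * g⁻¹ ∈ N → g ∈ N)
    (θ : IrrCharacter N)
    (hinv : ∀ (x : Γ) (n : N), (θ : N → ℂ) ⟨x * n * x⁻¹, hN.conj_mem n n.2 x⟩ = (θ : N → ℂ) n)
    (χ : IrrCharacter G) (e : ℕ)
    (hram : indFun (N.subgroupOf G) (fun n : N.subgroupOf G => (θ : N → ℂ) ⟨(n : G), n.2⟩) =
      fun g => (e : ℂ) * (χ : G → ℂ) g) :
    (G.index : ℤ) ∣ (e : ℤ) - 1 ∨ (G.index : ℤ) ∣ (e : ℤ) + 1 := by
  classical
  letI : Fintype (N.subgroupOf G) := Fintype.ofFinite _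
  letI : Fintype (Γ ⧸ G) := Fintype.ofFinite _
  -- Step 1
  let θ' : N.subgroupOf G → ℂ := fun n => (θ : N → ℂ) ⟨(n : G), n.2⟩
  have hθ' : IsIrrCharacter (N.subgroupOf G) θ' :=
    isIrrCharacter_comp_mulEquiv (Subgroup.subgroupOfEquivOfLe hNG) θ.2
  have hinv' : ∀ (x : G) (m : N.subgroupOf G), θ' ⟨x * m * x⁻¹,
      (inferInstance : (N.subgroupOf G).Normal).conj_mem m m.2 x⟩ = θ' m := by
    intro x m
    exact hinv x ⟨m, m.2⟩
  obtain ⟨hek, hχN, hχoff⟩ := step_one (N.subgroupOf G) hθ' hinv' χ.2 e hram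
  have hχN' : ∀ (g : G) (hg : (g : Γ) ∈ N), (χ : G → ℂ) g = (e : ℂ) * (θ : N → ℂ) ⟨g, hg⟩ := by
    intro g hg
    exact hχN ⟨g, hg⟩
  -- Step 2
  have hχinv : ∀ (x : Γ) (g : G), (χ : G → ℂ) ⟨x * g * x⁻¹, hG.conj_mem g g.2 x⟩ = (χ : G → ℂ) g := by
    intro x g
    by_cases hg : (g : Γ) ∈ N
    · rw [hχN' g hg, hχN' ⟨x * g * x⁻¹, hG.conj_mem g g.2 x⟩ (hN.conj_mem g hg x)]
      rw [← hinv x ⟨g, hg⟩]
    · have h1 : g ∉ N.subgroupOf G := hg
      rw [hχoff g h1, hχoff]
      intro h2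
      apply hg
      have h3 : x * g * x⁻¹ ∈ N := h2
      have := hN.conj_mem _ h3 x⁻¹
      simpa [mul_assoc] using this
  obtain ⟨χh, hχh, hχhres⟩ := FRam.exists_ext_of_cyclic G χ.2 hχinv hcyc
  have hχhc := IsIrrCharacter.isCharacter hχh
  have hresG : resFun G χh = (χ : G → ℂ) := by
    funext g
    exact hχhres g
  have hirrG : IsIrrCharacter G (resFun G χh) := by
    rw [hresG]
    exact χ.2
  -- Step 3
  obtain ⟨c, hc⟩ := hcyc.exists_generator
  obtain ⟨y, rfl⟩ := QuotientGroup.mk_surjective c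
  have hyG : y ∉ G := by
    intro hy
    apply hGlt
    have h1 : ((y : Γ) : Γ ⧸ G) = 1 := (QuotientGroup.eq_one_iff y).mpr hy
    rw [eq_top_iff]
    intro x _
    have h2 := hc (x : Γ ⧸ G)
    rw [h1] at h2
    simp only [Subgroup.zpowers_one_eq_bot, Subgroup.mem_bot] at h2
    exact (QuotientGroup.eq_one_iff x).mp h2
  let H : Subgroup Γ := Subgroup.zpowers y ⊔ N
  letI : Fintype H := Fintype.ofFinite _
  have hNH : N ≤ H := le_sup_right
  have hyH : y ∈ H := (le_sup_left : Subgroup.zpowers y ≤ H) (Subgroup.mem_zpowers y)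
  have hHG : ∀ h ∈ H, h ∈ G → h ∈ N := by
    intro h hh hhG
    obtain ⟨a, ha, b, hb, rfl⟩ := Subgroup.mem_sup_of_normal_right.mp hh
    have ha' : a ∈ G := by
      have h1 : a = (a * b) * b⁻¹ := by group
      rw [h1]
      exact G.mul_mem hhG (G.inv_mem (hNG hb))
    have h1 : a ∈ N := by
      apply hfrob y hyG a ha'
      obtain ⟨k, rfl⟩ := Subgroup.mem_zpowers_iff.mp ha
      have h2 : y * y ^ k * y⁻¹ * (y ^ k)⁻¹ = 1 := by
        have : y * y ^ k = y ^ k * y := (Commute.zpow_right (Commute.refl y) k).eq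
        rw [this]
        group
      rw [h2]
      exact N.one_mem
    exact N.mul_mem h1 hb
  let f : H →* Γ ⧸ G := (QuotientGroup.mk' G).comp H.subtype
  have hfsurj : Function.Surjective f := by
    intro z
    obtain ⟨k, hk⟩ := Subgroup.mem_zpowers_iff.mp (hc z)
    refine ⟨⟨y ^ k, H.zpow_mem hyH k⟩, ?_⟩
    rw [← hk]
    rfl
  have hker : f.ker = N.subgroupOf H := by
    ext h
    rw [MonoidHom.mem_ker, Subgroup.mem_subgroupOf]
    constructor
    · intro h1
      have h2 : (h : Γ) ∈ G := (QuotientGroup.eq_one_iff _).mp h1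
      exact hHG _ h.2 h2
    · intro h1
      exact (QuotientGroup.eq_one_iff _).mpr (hNG h1)
  let e₂ : H ⧸ N.subgroupOf H ≃* Γ ⧸ G :=
    (QuotientGroup.quotientMulEquivOfEq hker.symm).trans
      (QuotientGroup.quotientKerEquivOfSurjective f hfsurj)
  have hcycH : IsCyclic (H ⧸ N.subgroupOf H) := isCyclic_of_surjective e₂.symm e₂.symm.surjective
  have hidxH : (N.subgroupOf H).index = G.index := Nat.card_congr e₂.toEquiv
  have hcommH : ∀ a b : H ⧸ N.subgroupOf H, a * b = b * a := by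
    letI := hcycH.commGroup
    exact fun a b => mul_comm a b
  have hn : 2 ≤ G.index := by
    have h1 : G.index ≠ 0 := Subgroup.index_ne_zero_of_finite
    have h2 : G.index ≠ 1 := fun h => hGlt (Subgroup.index_eq_one.mp h)
    omega
  letI : Fintype (N.subgroupOf H) := Fintype.ofFinite _
  -- Step 4
  let θ₂ : N.subgroupOf H → ℂ := fun n => (θ : N → ℂ) ⟨(n : H), n.2⟩
  have hθ₂ : IsIrrCharacter (N.subgroupOf H) θ₂ :=
    isIrrCharacter_comp_mulEquiv (Subgroup.subgroupOfEquivOfLe hNH) θ.2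
  have hinv₂ : ∀ (t : H) (m : N.subgroupOf H), θ₂ ⟨t * m * t⁻¹,
      (inferInstance : (N.subgroupOf H).Normal).conj_mem m m.2 t⟩ = θ₂ m := by
    intro x m
    exact hinv x ⟨m, m.2⟩
  obtain ⟨θh, hθh, hθhres⟩ := FRam.exists_ext_of_cyclic (N.subgroupOf H) hθ₂ hinv₂ hcycH
  have hresH : resFun (N.subgroupOf H) θh = θ₂ := by
    funext m
    exact hθhres m
  have hirrH : IsIrrCharacter (N.subgroupOf H) (resFun (N.subgroupOf H) θh) := by
    rw [hresH]
    exact hθ₂
  -- Step 6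
  have hΨ : IsCharacter H (resFun H χh) := isCharacter_resFun H hχhc
  have hres : ∀ m : N.subgroupOf H, resFun H χh (m : H) = (e : ℂ) * θh m := by
    intro m
    have h1 : θh m = θ₂ m := hθhres m
    rw [h1]
    have h2 := hχN' ⟨(m : H), hNG m.2⟩ m.2
    have h3 := hχhres ⟨(m : H), hNG m.2⟩
    exact h3.trans h2
  have hresN : ∀ n : N, χh n = (e : ℂ) * (θ : N → ℂ) n := by
    intro n
    have h2 := hχN' ⟨(n : Γ), hNG n.2⟩ n.2
    have h3 := hχhres ⟨(n : Γ), hNG n.2⟩
    exact h3.trans h2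
  have hsum := norm_on_H G N H hNG hNH hHG hχhc hirrG hfrob θ.2 e hresN
  have hnorm : ((N.subgroupOf H).index : ℂ) * classInner (resFun H χh) (resFun H χh) =
      (e : ℂ) ^ 2 + (N.subgroupOf H).index - 1 := by
    have hcardH : (Nat.card H : ℂ) = Nat.card N * (N.subgroupOf H).index := by
      have h1 := Subgroup.card_mul_index (N.subgroupOf H)
      rw [Nat.card_congr (Subgroup.subgroupOfEquivOfLe hNH).toEquiv] at h1
      exact_mod_cast h1.symm
    simp only [classInner, resFun]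
    rw [hsum, hcardH]
    have h1 : (Nat.card N : ℂ) ≠ 0 := by exact_mod_cast Nat.card_pos.ne'
    have h2 : ((N.subgroupOf H).index : ℂ) ≠ 0 := by
      exact_mod_cast (Subgroup.index_ne_zero_of_finite (H := N.subgroupOf H))
    field_simp
    ring
  have := dvd_of_decomp (N.subgroupOf H) hcommH (by rw [hidxH]; exact hn)
    (IsIrrCharacter.isCharacter hθh) hirrH hΨ e hres hnorm
  rwa [hidxH] at this

end Cfsg.Agent.Lib.Char.RamIdx
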