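import Cfsg.Agent.Lib.Char.RealSchur
import Cfsg.Agent.Lib.Char.Equiv

/-! # Indicator `1` means: afforded by a real representation.

The classical argument: a symmetric invariant form and a Hermitian invariant form give a matrix
`B` with `cj B * B = 1`, intertwining `X` and its conjugate; then a Cayley-type formula gives an
invertible `P` with `cj P = B * P`, and `P⁻¹ X P` is real. -/

set_option autoImplicit false

namespace Cfsg.Agent.Lib.Char.RealForm

open Cfsg Module Matrix
open scoped ComplexConjugate ComplexOrder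

universe u

variable {n : ℕ}

/-- Entrywise conjugate. -/
noncomputable abbrev cj : Matrix (Fin n) (Fin n) ℂ →+* Matrix (Fin n) (Fin n) ℂ :=
  (starRingEnd ℂ).mapMatrix

theorem cj_apply (M : Matrix (Fin n) (Fin n) ℂ) (i j : Fin n) : cj M i j = conj (M i j) := rfl

@[simp] theorem cj_cj (M : Matrix (Fin n) (Fin n) ℂ) : cj (cj M) = M := by
  ext i j; simp [cj_apply]

theorem cj_smul (c : ℂ) (M : Matrix (Fin n) (Fin n) ℂ) : cj (c • M) = conj c • cj M := by
  ext i j; simp [cj_apply]

theorem cj_conjTranspose (M : Matrix (Fin n) (Fin n) ℂ) : cj Mᴴ = Mᵀ := by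
  ext i j; simp [cj_apply, Matrix.conjTranspose_apply]

theorem conjTranspose_eq_cj_of_symm {M : Matrix (Fin n) (Fin n) ℂ} (h : Mᵀ = M) : Mᴴ = cj M := by
  conv_lhs => rw [← h]
  ext i j
  simp [cj_apply, Matrix.conjTranspose_apply]

theorem cj_transpose_conj (M : Matrix (Fin n) (Fin n) ℂ) : (Mᵀ)ᴴ = cj M := by
  ext i j; simp [cj_apply, Matrix.conjTranspose_apply]

/-- Cayley-type formula: Hilbert 90 for `GL_n`. -/
theorem exists_P (B : Matrix (Fin n) (Fin n) ℂ) (hB : cj B * B = 1) :
    ∃ P Q : Matrix (Fin n) (Fin n) ℂ, P * Q = 1 ∧ Q * P = 1 ∧ cj P = B * P := by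
  have hB' : B * cj B = 1 := by
    have := congrArg cj hB
    rwa [map_mul, cj_cj, map_one] at this
  have hne : ∀ k : ℕ, ((k : ℂ) - Complex.I) ≠ 0 := by
    intro k h
    have := congrArg Complex.im h
    simp at this
  let t : ℕ → ℂ := fun k => -(((k : ℂ) + Complex.I) / ((k : ℂ) - Complex.I))
  have ht : Function.Injective t := by
    intro k l h
    have h1 : ((k : ℂ) + Complex.I) / ((k : ℂ) - Complex.I) =
        ((l : ℂ) + Complex.I) / ((l : ℂ) - Complex.I) := neg_injective h
    rw [div_eq_div_iff (hne k) (hne l)] at h1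
    have h2 : (2 : ℂ) * Complex.I * ((l : ℂ) - k) = 0 := by
      linear_combination h1
    have h3 : ((l : ℂ) - k) = 0 := by
      rcases mul_eq_zero.mp h2 with h | h
      · exfalso
        simp at h
      · exact h
    have h4 : (l : ℂ) = k := sub_eq_zero.mp h3
    exact (Nat.cast_injective h4).symm
  have hmonic := Matrix.charpoly_monic (cj B)
  have hfin : Set.Finite {k : ℕ | (cj B).charpoly.IsRoot (t k)} := by
    have h1 : ({x : ℂ | (cj B).charpoly.IsRoot x}).Finite := by
      have := ((cj B).charpoly.roots.toFinset).finite_toSet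
      refine this.subset fun x hx => ?_
      simp only [Finset.mem_coe, Multiset.mem_toFinset]
      exact (Polynomial.mem_roots hmonic.ne_zero).mpr hx
    exact h1.preimage ht.injOn
  obtain ⟨k, hk⟩ := hfin.exists_notMem
  have hdet : (t k • (1 : Matrix (Fin n) (Fin n) ℂ) - cj B).det ≠ 0 := by
    intro h0
    apply hk
    show Polynomial.eval (t k) (cj B).charpoly = 0
    rw [Matrix.eval_charpoly]
    rw [← h0]
    congr 1
    ext i j
    simp [Matrix.scalar_apply, Matrix.diagonal_apply, Matrix.one_apply]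
  let P : Matrix (Fin n) (Fin n) ℂ := ((k : ℂ) + Complex.I) • 1 + ((k : ℂ) - Complex.I) • cj B
  have hP : P = (-((k : ℂ) - Complex.I)) • (t k • (1 : Matrix (Fin n) (Fin n) ℂ) - cj B) := by
    have h1 : -((k : ℂ) - Complex.I) * t k = (k : ℂ) + Complex.I := by
      simp only [t]
      field_simp [hne k]
    rw [smul_sub, smul_smul, h1]
    simp only [P, neg_smul, sub_neg_eq_add]
  have hdetP : P.det ≠ 0 := by
    rw [hP, Matrix.det_smul]
    exact mul_ne_zero (pow_ne_zero _ (neg_ne_zero.mpr (hne k))) hdet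
  have hU : IsUnit P.det := isUnit_iff_ne_zero.mpr hdetP
  refine ⟨P, P⁻¹, Matrix.mul_nonsing_inv _ hU, Matrix.nonsing_inv_mul _ hU, ?_⟩
  simp only [P, map_add, cj_smul, map_one, cj_cj, mul_add, Matrix.mul_smul, mul_one, hB']
  simp only [map_add, map_sub, Complex.conj_I, map_natCast]
  rw [sub_neg_eq_add, add_comm]
  simp only [sub_eq_add_neg]

/-- From `P` to a real representation. -/
theorem exists_real_rep {G : Type u} [Group G] (X : G → Matrix (Fin n) (Fin n) ℂ) (hX1 : X 1 = 1)
    (hXm : ∀ g h, X (g * h) = X g * X h) (B P Q : Matrix (Fin n) (Fin n) ℂ)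
    (hPQ : P * Q = 1) (hQP : Q * P = 1) (hcP : cj P = B * P)
    (hB : ∀ g, B * X g = cj (X g) * B) :
    ∃ ρ : Representation ℝ G (Fin n → ℝ),
      ∀ g, ((LinearMap.trace ℝ (Fin n → ℝ) (ρ g) : ℝ) : ℂ) = (X g).trace := by
  have hcQ : cj Q * B = Q := by
    calc cj Q * B = cj Q * B * (P * Q) := by rw [hPQ, mul_one]
      _ = cj Q * (B * P) * Q := by simp only [mul_assoc]
      _ = cj (Q * P) * Q := by rw [← hcP, map_mul]
      _ = Q := by rw [hQP, map_one, one_mul]
  have hR : ∀ g, cj (Q * X g * P) = Q * X g * P := by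
    intro g
    calc cj (Q * X g * P) = cj Q * cj (X g) * (B * P) := by rw [map_mul, map_mul, hcP]
      _ = cj Q * (cj (X g) * B) * P := by simp only [mul_assoc]
      _ = (cj Q * B) * X g * P := by rw [← hB]; simp only [mul_assoc]
      _ = Q * X g * P := by rw [hcQ]
  let r : G → Matrix (Fin n) (Fin n) ℝ := fun g => (Q * X g * P).map Complex.re
  have hr : ∀ g, Complex.ofRealHom.mapMatrix (r g) = Q * X g * P := by
    intro g
    ext i j
    have h1 := congrFun (congrFun (hR g) i) j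
    rw [cj_apply] at h1
    have h2 := Complex.conj_eq_iff_im.mp h1
    apply Complex.ext
    · simp [r]
    · simp [r, h2]
  have hinj : Function.Injective
      (Complex.ofRealHom.mapMatrix : Matrix (Fin n) (Fin n) ℝ →+* Matrix (Fin n) (Fin n) ℂ) :=
    Matrix.map_injective Complex.ofReal_injective
  have r1 : r 1 = 1 := by
    apply hinj
    rw [hr, hX1, map_one, mul_one, hQP]
  have rm : ∀ g h, r (g * h) = r g * r h := by
    intro g h
    apply hinj
    rw [map_mul, hr, hr, hr, hXm]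
    calc Q * (X g * X h) * P = Q * X g * 1 * X h * P := by simp only [mul_assoc, mul_one]
      _ = Q * X g * (P * Q) * X h * P := by rw [hPQ]
      _ = Q * X g * P * (Q * X h * P) := by simp only [mul_assoc]
  let ρ : Representation ℝ G (Fin n → ℝ) :=
    { toFun := fun g => Matrix.toLin' (r g)
      map_one' := by rw [r1, Matrix.toLin'_one]; rfl
      map_mul' := fun g h => by rw [rm, Matrix.toLin'_mul]; rfl }
  refine ⟨ρ, fun g => ?_⟩
  show ((LinearMap.trace ℝ (Fin n → ℝ) (Matrix.toLin' (r g)) : ℝ) : ℂ) = _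
  rw [Matrix.trace_toLin'_eq]
  have h1 : ((r g).trace : ℂ) = (Complex.ofRealHom.mapMatrix (r g)).trace := by
    simp [Matrix.trace, Complex.ofRealHom]
  rw [h1, hr, Matrix.trace_mul_comm, ← mul_assoc, hPQ, one_mul]

/-- Positivity of the Frobenius norm. -/
theorem trace_conjTranspose_mul_self_pos {W : Matrix (Fin n) (Fin n) ℂ} (hW : W ≠ 0) :
    0 < (Wᴴ * W).trace := by
  have h1 : 0 ≤ (Wᴴ * W).trace := (Matrix.posSemidef_conjTranspose_mul_self W).trace_nonneg
  refine lt_of_le_of_ne h1 ?_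
  intro h0
  exact hW (Matrix.trace_conjTranspose_mul_self_eq_zero_iff.mp h0.symm)

/-- From the forms to `B`. -/
theorem exists_B {G : Type u} [Group G] [Fintype G] (X : G → Matrix (Fin n) (Fin n) ℂ)
    (hX1 : X 1 = 1) (hXm : ∀ g h, X (g * h) = X g * X h)
    (hschur : ∀ T : Matrix (Fin n) (Fin n) ℂ, (∀ g, T * X g = X g * T) → ∃ c : ℂ, T = c • 1)
    (hn : 0 < n)
    (S : Matrix (Fin n) (Fin n) ℂ) (hS : S ≠ 0) (hST : Sᵀ = S) (hinv : ∀ g, (X g)ᵀ * S * X g = S) :
    ∃ B : Matrix (Fin n) (Fin n) ℂ, cj B * B = 1 ∧ ∀ g, B * X g = cj (X g) * B := by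
  classical
  let H : Matrix (Fin n) (Fin n) ℂ := ∑ g, X g * (X g)ᴴ
  have hHinv : ∀ g, X g * H * (X g)ᴴ = H := by
    intro g
    simp only [H, Finset.mul_sum, Finset.sum_mul]
    refine Fintype.sum_equiv (Equiv.mulLeft g) _ _ fun h => ?_
    simp only [Equiv.coe_mulLeft, hXm, Matrix.conjTranspose_mul, mul_assoc]
  have hHc : ∀ g, cj (X g) * cj H * (X g)ᵀ = cj H := by
    intro g
    have := congrArg cj (hHinv g)
    rwa [map_mul, map_mul, cj_conjTranspose] at this
  let B₀ : Matrix (Fin n) (Fin n) ℂ := cj H * S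
  have hB₀ : ∀ g, B₀ * X g = cj (X g) * B₀ := by
    intro g
    calc B₀ * X g = (cj (X g) * cj H * (X g)ᵀ) * S * X g := by rw [hHc]
      _ = cj (X g) * cj H * ((X g)ᵀ * S * X g) := by simp only [mul_assoc]
      _ = cj (X g) * B₀ := by rw [hinv]; simp only [B₀, mul_assoc]
  obtain ⟨c, hc⟩ := hschur (cj B₀ * B₀) (fun g => by
    calc cj B₀ * B₀ * X g = cj B₀ * (cj (X g) * B₀) := by rw [mul_assoc, hB₀]
      _ = cj (B₀ * X g) * B₀ := by rw [map_mul cj B₀ (X g), mul_assoc]
      _ = cj (cj (X g) * B₀) * B₀ := by rw [hB₀]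
      _ = X g * (cj B₀ * B₀) := by rw [map_mul cj (cj (X g)) B₀, cj_cj, mul_assoc])
  -- positivity of `c`
  have htr : (cj B₀ * B₀).trace = ∑ h, ∑ g, (((X h)ᵀ * S * X g)ᴴ * ((X h)ᵀ * S * X g)).trace := by
    have h1 : cj B₀ * B₀ = H * cj S * cj H * S := by
      simp only [B₀, map_mul, cj_cj, mul_assoc]
    rw [h1]
    have h2 : cj H = ∑ h, cj (X h) * (X h)ᵀ := by
      simp only [H, map_sum, map_mul, cj_conjTranspose]
    rw [h2]
    simp only [H, Finset.sum_mul, Finset.mul_sum, Matrix.trace_sum]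
    refine Finset.sum_congr rfl fun h _ => Finset.sum_congr rfl fun g _ => ?_
    have h3 : ((X h)ᵀ * S * X g)ᴴ = (X g)ᴴ * cj S * cj (X h) := by
      rw [Matrix.conjTranspose_mul, Matrix.conjTranspose_mul, cj_transpose_conj,
        conjTranspose_eq_cj_of_symm hST, mul_assoc]
    rw [h3]
    rw [show X g * (X g)ᴴ * cj S * (cj (X h) * (X h)ᵀ) * S =
        X g * ((X g)ᴴ * cj S * cj (X h) * ((X h)ᵀ * S)) by simp only [mul_assoc],
      Matrix.trace_mul_comm]
    simp only [mul_assoc]
  have hpos : 0 < (cj B₀ * B₀).trace := by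
    rw [htr]
    have hnn : ∀ g h, 0 ≤ (((X h)ᵀ * S * X g)ᴴ * ((X h)ᵀ * S * X g)).trace := fun g h =>
      (Matrix.posSemidef_conjTranspose_mul_self _).trace_nonneg
    refine Finset.sum_pos' (fun h _ => Finset.sum_nonneg fun g _ => hnn g h) ⟨1, Finset.mem_univ _, ?_⟩
    refine Finset.sum_pos' (fun g _ => hnn g 1) ⟨1, Finset.mem_univ _, ?_⟩
    apply trace_conjTranspose_mul_self_pos
    rw [hX1]
    simpa using hS
  rw [hc, Matrix.trace_smul, Matrix.trace_one, Fintype.card_fin, smul_eq_mul] at hpos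
  have hcre : 0 < c.re ∧ c.im = 0 := by
    have h1 := Complex.pos_iff.mp hpos
    have h2 : (n : ℂ) = ((n : ℝ) : ℂ) := by simp
    rw [h2, Complex.mul_re, Complex.mul_im] at h1
    simp only [Complex.ofReal_re, Complex.ofReal_im, mul_zero, sub_zero, add_zero] at h1
    have hn' : (0 : ℝ) < n := by exact_mod_cast hn
    constructor
    · by_contra hle
      have : c.re * n ≤ 0 := mul_nonpos_of_nonpos_of_nonneg (not_lt.mp hle) hn'.le
      linarith [h1.1]
    · have h3 := h1.2
      have : c.im * n = 0 := by linarith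
      exact (mul_eq_zero.mp this).resolve_right hn'.ne'
  have hcc : c = (c.re : ℂ) := by
    apply Complex.ext <;> simp [hcre.2]
  set μ : ℝ := (Real.sqrt c.re)⁻¹ with hμ
  have hμ2 : μ * μ * c.re = 1 := by
    have h1 : Real.sqrt c.re * Real.sqrt c.re = c.re := Real.mul_self_sqrt hcre.1.le
    have h2 : Real.sqrt c.re ≠ 0 := (Real.sqrt_pos.mpr hcre.1).ne'
    rw [hμ]
    field_simp
    nlinarith
  refine ⟨(μ : ℂ) • B₀, ?_, fun g => ?_⟩
  · rw [cj_smul, Complex.conj_ofReal, Matrix.smul_mul, Matrix.mul_smul, smul_smul, hc, smul_smul]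
    have h2 : (μ : ℂ) * μ * c = 1 := by
      rw [hcc]
      exact_mod_cast hμ2
    rw [h2, one_smul]
  · rw [Matrix.smul_mul, Matrix.mul_smul, hB₀]

section Main

variable {G : Type u} [Group G] [Fintype G]

/-- Indicator `1` implies a real form. -/
theorem real_of_indicator (χ : IrrCharacter G)
    (hν : (Nat.card G : ℂ)⁻¹ * ∑ s : G, (χ : G → ℂ) (s * s) = 1) :
    ∃ (m : ℕ) (ρ : Representation ℝ G (Fin m → ℝ)), ∀ g : G,
      ((LinearMap.trace ℝ (Fin m → ℝ) (ρ g) : ℝ) : ℂ) = (χ : G → ℂ) g := by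
  obtain ⟨χ, m, ρ, hirr, hch⟩ := χ
  subst hch
  haveI := hirr
  simp only at hν ⊢
  have hreal : ∀ s, (ρ.character s).im = 0 := by
    by_contra h
    push Not at h
    have := (fs_main ρ).1 h
    rw [this] at hν
    exact zero_ne_one hν
  obtain ⟨⟨S, hS, hSinv⟩, h2⟩ := RealSchur.main ρ hreal
  have hST := h2 S hSinv
  rw [hν, one_smul] at hST
  obtain ⟨B, hB, hBX⟩ := exists_B (repMat ρ) (repMat_one ρ) (repMat_mul ρ)
    (RealSchur.matrix_schur ρ) (finrank_pos_of_irr ρ |>.trans_eq (by simp)) S hS hST hSinv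
  obtain ⟨P, Q, hPQ, hQP, hcP⟩ := exists_P B hB
  obtain ⟨σ, hσ⟩ := exists_real_rep (repMat ρ) (repMat_one ρ) (repMat_mul ρ) B P Q hPQ hQP hcP hBX
  refine ⟨m, σ, fun g => ?_⟩
  rw [hσ, trace_repMat]

/-- A real form implies indicator `1`. -/
theorem indicator_of_real (χ : IrrCharacter G) (m : ℕ) (σ : Representation ℝ G (Fin m → ℝ))
    (hσ : ∀ g : G, ((LinearMap.trace ℝ (Fin m → ℝ) (σ g) : ℝ) : ℂ) = (χ : G → ℂ) g) :
    (Nat.card G : ℂ)⁻¹ * ∑ s : G, (χ : G → ℂ) (s * s) = 1 := by
  classical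
  obtain ⟨χ, n, ρ, hirr, hch⟩ := χ
  subst hch
  haveI := hirr
  simp only at hσ ⊢
  let r : G → Matrix (Fin m) (Fin m) ℝ := fun g => LinearMap.toMatrix' (σ g)
  have r1 : r 1 = 1 := by simp [r]
  have rm : ∀ g h, r (g * h) = r g * r h := fun g h => by
    simp only [r, map_mul]
    exact LinearMap.toMatrix'_mul _ _
  let X : G → Matrix (Fin m) (Fin m) ℂ := fun g => Complex.ofRealHom.mapMatrix (r g)
  have X1 : X 1 = 1 := by simp [X, r1]
  have Xm : ∀ g h, X (g * h) = X g * X h := fun g h => by simp [X, rm]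
  let τ : Representation ℂ G (Fin m → ℂ) :=
    { toFun := fun g => Matrix.toLin' (X g)
      map_one' := by rw [X1, Matrix.toLin'_one]; rfl
      map_mul' := fun g h => by rw [Xm, Matrix.toLin'_mul]; rfl }
  have hτX : ∀ g, repMat τ g = X g := fun g => by
    show LinearMap.toMatrix' (Matrix.toLin' (X g)) = X g
    simp
  have htrX : ∀ g, (X g).trace = ρ.character g := by
    intro g
    rw [← hσ g]
    have h1 : LinearMap.trace ℝ (Fin m → ℝ) (σ g) = (r g).trace := by
      rw [← Matrix.trace_toLin'_eq]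
      simp [r]
    rw [h1]
    simp [X, Matrix.trace, Complex.ofRealHom]
  have hτch : τ.character = ρ.character := by
    funext g
    rw [← trace_repMat, hτX, htrX]
  haveI hτirr : τ.IsIrreducible := by
    obtain ⟨φ⟩ := equiv_of_character_eq ρ τ hτch.symm
    exact isIrreducible_of_equiv φ
  have hreal : ∀ g, (τ.character g).im = 0 := by
    intro g
    rw [← trace_repMat, hτX, htrX, ← hσ g]
    simp
  have hm : 0 < m := by
    have := finrank_pos_of_irr τ
    simpa using this
  have hXT : ∀ g, (X g)ᵀ = (X g)ᴴ := by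
    intro g
    ext i j
    simp [X, Matrix.conjTranspose_apply]
  let S : Matrix (Fin m) (Fin m) ℂ := ∑ g, (X g)ᵀ * X g
  have hSinv : ∀ g, (repMat τ g)ᵀ * S * repMat τ g = S := by
    intro g
    rw [hτX]
    simp only [S, Finset.mul_sum, Finset.sum_mul]
    refine Fintype.sum_equiv (Equiv.mulRight g) _ _ fun h => ?_
    simp only [Equiv.coe_mulRight, Xm, Matrix.transpose_mul, mul_assoc]
  have hST : Sᵀ = S := by
    simp only [S, Matrix.transpose_sum, Matrix.transpose_mul, Matrix.transpose_transpose]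
  have hS : S ≠ 0 := by
    intro h0
    have h1 : S.trace = 0 := by rw [h0]; simp
    have h2 : 0 < S.trace := by
      simp only [S, Matrix.trace_sum, hXT]
      refine Finset.sum_pos' (fun g _ => (Matrix.posSemidef_conjTranspose_mul_self _).trace_nonneg)
        ⟨1, Finset.mem_univ _, ?_⟩
      apply trace_conjTranspose_mul_self_pos
      rw [X1]
      haveI : Nonempty (Fin m) := ⟨⟨0, hm⟩⟩
      exact one_ne_zero
    rw [h1] at h2
    exact lt_irrefl _ h2
  have h3 := (RealSchur.main τ hreal).2 S hSinv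
  rw [hST] at h3
  simp only [hτch] at h3
  set ν : ℂ := (Nat.card G : ℂ)⁻¹ * ∑ s : G, ρ.character (s * s) with hν
  have h4 : (1 - ν) • S = 0 := by
    rw [sub_smul, one_smul, ← h3, sub_self]
  rcases smul_eq_zero.mp h4 with h5 | h5
  · exact (sub_eq_zero.mp h5).symm
  · exact absurd h5 hS

end Main

end Cfsg.Agent.Lib.Char.RealForm
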