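import Cfsg.Agent.Lib.Char.FrobeniusSchur

/-! # The invariant bilinear form of a real irreducible representation. -/

set_option autoImplicit false

namespace Cfsg.Agent.Lib.Char.RealSchur

open Cfsg Module Matrix
open scoped ComplexConjugate

universe u

variable {G : Type u} [Group G] [Fintype G] {n : ℕ} (ρ : Representation ℂ G (Fin n → ℂ))

theorem repMat_inv_mul (g : G) : repMat ρ g⁻¹ * repMat ρ g = 1 := by
  rw [← repMat_mul]; simp

theorem repMat_mul_inv (g : G) : repMat ρ g * repMat ρ g⁻¹ = 1 := by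
  rw [← repMat_mul]; simp

/-- A matrix intertwining all `X(g)` is scalar. -/
theorem matrix_schur [ρ.IsIrreducible] (T : Matrix (Fin n) (Fin n) ℂ)
    (hT : ∀ g, T * repMat ρ g = repMat ρ g * T) : ∃ c : ℂ, T = c • 1 := by
  obtain ⟨c, hc⟩ := schur_scalar ρ (Matrix.toLin' T) (fun g => by
    have h2 : ρ g = Matrix.toLin' (repMat ρ g) := by
      rw [repMat, Matrix.toLin'_toMatrix']
    rw [h2, ← Matrix.toLin'_mul, ← Matrix.toLin'_mul, hT g])
  refine ⟨c, ?_⟩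
  have := congrArg LinearMap.toMatrix' hc
  simpa using this

/-- Main statement. -/
theorem main [ρ.IsIrreducible] (hreal : ∀ g : G, (ρ.character g).im = 0) :
    (∃ M : Matrix (Fin n) (Fin n) ℂ, M ≠ 0 ∧ ∀ g : G, (repMat ρ g)ᵀ * M * repMat ρ g = M) ∧
    ∀ M : Matrix (Fin n) (Fin n) ℂ, (∀ g : G, (repMat ρ g)ᵀ * M * repMat ρ g = M) →
      Mᵀ = ((Nat.card G : ℂ)⁻¹ * ∑ s : G, ρ.character (s * s)) • M := by
  obtain ⟨X, ε, hX, hε, hinv, hT, hν⟩ := (fs_main ρ).2 hreal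
  have hdet := det_ne_zero_of_invariant ρ hX hinv
  have hdetU : IsUnit X.det := isUnit_iff_ne_zero.mpr hdet
  have hX1 : X * X⁻¹ = 1 := Matrix.mul_nonsing_inv _ hdetU
  have hX2 : X⁻¹ * X = 1 := Matrix.nonsing_inv_mul _ hdetU
  have hεε : ε * ε = 1 := by rcases hε with rfl | rfl <;> norm_num
  have hTinv : ∀ g, (repMat ρ g)ᵀ * (repMat ρ g⁻¹)ᵀ = 1 := fun g => by
    rw [← Matrix.transpose_mul, repMat_inv_mul]; simp
  have hTinv' : ∀ g, (repMat ρ g⁻¹)ᵀ * (repMat ρ g)ᵀ = 1 := fun g => by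
    rw [← Matrix.transpose_mul, repMat_mul_inv]; simp
  constructor
  · refine ⟨X⁻¹, ?_, fun g => ?_⟩
    · intro h0
      apply hX
      calc X = X * (X⁻¹ * X) := by rw [hX2, mul_one]
        _ = 0 := by rw [h0]; simp
    · -- `Aᵀ X⁻¹ A = X⁻¹` from `A X Aᵀ = X`
      have h1 : X * ((repMat ρ g)ᵀ * X⁻¹ * repMat ρ g) = 1 := by
        have h2 : X = repMat ρ g⁻¹ * X * (repMat ρ g⁻¹)ᵀ := (hinv g⁻¹).symm
        calc X * ((repMat ρ g)ᵀ * X⁻¹ * repMat ρ g)
            = (repMat ρ g⁻¹ * X * (repMat ρ g⁻¹)ᵀ) * ((repMat ρ g)ᵀ * X⁻¹ * repMat ρ g) := by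
              rw [← h2]
          _ = repMat ρ g⁻¹ * X * ((repMat ρ g⁻¹)ᵀ * (repMat ρ g)ᵀ) * X⁻¹ * repMat ρ g := by
              simp only [mul_assoc]
          _ = 1 := by
              rw [hTinv', mul_one, mul_assoc (repMat ρ g⁻¹), hX1, mul_one, repMat_inv_mul]
      calc (repMat ρ g)ᵀ * X⁻¹ * repMat ρ g
          = (X⁻¹ * X) * ((repMat ρ g)ᵀ * X⁻¹ * repMat ρ g) := by rw [hX2, one_mul]
        _ = X⁻¹ * (X * ((repMat ρ g)ᵀ * X⁻¹ * repMat ρ g)) := by simp only [mul_assoc]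
        _ = X⁻¹ := by rw [h1, mul_one]
  · intro M hM
    -- `X M` commutes with all `X(g)`
    have hcomm : ∀ g, (X * M) * repMat ρ g = repMat ρ g * (X * M) := by
      intro g
      have h1 : M * repMat ρ g = (repMat ρ g⁻¹)ᵀ * M := by
        calc M * repMat ρ g = ((repMat ρ g⁻¹)ᵀ * (repMat ρ g)ᵀ) * M * repMat ρ g := by
              rw [hTinv', one_mul]
          _ = (repMat ρ g⁻¹)ᵀ * ((repMat ρ g)ᵀ * M * repMat ρ g) := by simp only [mul_assoc]
          _ = (repMat ρ g⁻¹)ᵀ * M := by rw [hM]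
      have h2 : X * (repMat ρ g⁻¹)ᵀ = repMat ρ g * X := by
        calc X * (repMat ρ g⁻¹)ᵀ = repMat ρ g * X * (repMat ρ g)ᵀ * (repMat ρ g⁻¹)ᵀ := by
              rw [hinv]
          _ = repMat ρ g * X * ((repMat ρ g)ᵀ * (repMat ρ g⁻¹)ᵀ) := by simp only [mul_assoc]
          _ = repMat ρ g * X := by rw [hTinv, mul_one]
      calc (X * M) * repMat ρ g = X * (M * repMat ρ g) := by rw [mul_assoc]
        _ = (X * (repMat ρ g⁻¹)ᵀ) * M := by rw [h1, mul_assoc]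
        _ = repMat ρ g * (X * M) := by rw [h2, mul_assoc]
    obtain ⟨c, hc⟩ := matrix_schur ρ (X * M) hcomm
    have hM' : M = c • X⁻¹ := by
      calc M = X⁻¹ * (X * M) := by rw [← mul_assoc, hX2, one_mul]
        _ = c • X⁻¹ := by rw [hc]; simp
    have hXinvT : (X⁻¹)ᵀ = ε • X⁻¹ := by
      rw [Matrix.transpose_nonsing_inv, hT]
      -- `(ε • X)⁻¹ = ε • X⁻¹`
      refine Matrix.inv_eq_left_inv ?_
      rw [Matrix.smul_mul, Matrix.mul_smul, hX2, smul_smul, hεε, one_smul]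
    rw [hν, hM', Matrix.transpose_smul, hXinvT, smul_comm]

end Cfsg.Agent.Lib.Char.RealSchur
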