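import Mathlib
import Cfsg.Prelude.Def_CharExt
import Cfsg.Agent.Lib.Char.Clifford
import Cfsg.Agent.Lib.Char.Linear

set_option autoImplicit false

/-!
A character of degree `p - 1` of a group of prime order `p`, invariant under at least two
automorphisms, with small norm, does not contain the trivial character.
-/

namespace Cfsg.Agent.Lib.Char.SelfCent

open Cfsg Module Cfsg.Agent.Lib.Char ComplexConjugate

section A

universe u

variable {P : Type u} [Group P] [Fintype P]

theorem comm_of_prime_card {p : ℕ} (hp : p.Prime) (hcard : Nat.card P = p) (a b : P) :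
    a * b = b * a := by
  haveI : Fact p.Prime := ⟨hp⟩
  haveI : IsCyclic P := isCyclic_of_prime_card hcard
  exact (IsCyclic.commGroup : CommGroup P).mul_comm a b

/-- A nontrivial linear character of a group of prime order is injective. -/
theorem irr_injective {p : ℕ} (hp : p.Prime) (hcard : Nat.card P = p) (lam : IrrCharacter P)
    (hne : (lam : P → ℂ) ≠ fun _ => 1) {a b : P} (hab : (lam : P → ℂ) a = (lam : P → ℂ) b) : a = b := by
  haveI : Fact (Nat.card P).Prime := ⟨hcard ▸ hp⟩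
  have h1 : (lam : P → ℂ) 1 = 1 := (comm_iff_irr_degree_one (G := P)).mp (comm_of_prime_card hp hcard) lam
  obtain ⟨f, hf⟩ := IsCharacter.exists_monoidHom (IsIrrCharacter.isCharacter lam.2) h1
  have hker : f.ker = ⊥ ∨ f.ker = ⊤ := Subgroup.eq_bot_or_eq_top_of_prime_card f.ker |>.imp id id
  have hinj : Function.Injective f := by
    rcases hker with h | h
    · exact (MonoidHom.ker_eq_bot_iff f).mp h
    · exfalso
      apply hne
      rw [hf]
      funext g
      have : g ∈ f.ker := by rw [h]; trivial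
      rw [MonoidHom.mem_ker.mp this]
      rfl
  rw [hf] at hab
  exact hinj (Units.ext hab)

theorem sum_apply_eq_zero {p : ℕ} (hp : p.Prime) (hcard : Nat.card P = p) {φ : P → ℂ}
    (hφ : IsCharacter P φ) (hφ1 : φ 1 + 1 = (p : ℂ)) (Λ : Finset (MulAut P))
    (hΛ : ∀ α ∈ Λ, ∀ u, φ (α u) = φ u) (hΛ2 : 2 ≤ Λ.card)
    (hS : (∑ u : P, Complex.normSq (φ u)) ≤ ((p : ℝ) - 1) ^ 2 + Λ.card * ((p : ℝ) - 1)) :
    ∑ u : P, φ u = 0 := by
  classical
  have hcomm := comm_of_prime_card (P := P) hp hcard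
  have hdeg : ∀ lam : IrrCharacter P, (lam : P → ℂ) 1 = 1 := (comm_iff_irr_degree_one (G := P)).mp hcomm
  have hcardI : (Fintype.card (IrrCharacter P) : ℂ) = p := by
    have h := sum_irr_degree_sq (G := P)
    simp only [hdeg, one_pow, Finset.sum_const, Finset.card_univ, nsmul_eq_mul, mul_one] at h
    rw [h, hcard]
  have hcardI' : Fintype.card (IrrCharacter P) = p := by exact_mod_cast hcardI
  obtain ⟨m, hm, hφm⟩ := IsCharacter.exists_eq_sum hφ
  have hsum : ∑ lam, (m lam : ℂ) + 1 = p := by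
    rw [← hφ1]
    congr 1
    rw [hφm, Finset.sum_apply]
    refine Finset.sum_congr rfl fun c _ => ?_
    rw [Pi.smul_apply, hdeg, nsmul_eq_mul, mul_one]
  have hsum' : ∑ lam, m lam + 1 = p := by exact_mod_cast hsum
  have hself : classInner φ φ = ((∑ lam, m lam ^ 2 : ℕ) : ℂ) := by
    conv_lhs => rw [hφm]
    rw [classInner_sum_left]
    push_cast
    refine Finset.sum_congr rfl fun lam _ => ?_
    rw [← Nat.cast_smul_eq_nsmul ℂ, classInner_smul_left, ← hφm, classInner_conj_symm, hm, sq]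
    simp
  have hself2 : (∑ u : P, Complex.normSq (φ u)) = (p : ℝ) * (∑ lam, m lam ^ 2 : ℕ) := by
    have h1 : ((∑ u : P, Complex.normSq (φ u) : ℝ) : ℂ) = (p : ℂ) * ((∑ lam, m lam ^ 2 : ℕ) : ℂ) := by
      rw [← hself, classInner, hcard, ← mul_assoc]
      have hp0 : (p : ℂ) ≠ 0 := by exact_mod_cast hp.ne_zero
      rw [mul_inv_cancel₀ hp0, one_mul]
      push_cast
      refine Finset.sum_congr rfl fun u _ => ?_
      rw [Complex.mul_conj]
    exact_mod_cast h1
  let one : IrrCharacter P := ⟨fun _ => 1, isIrrCharacter_one⟩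
  have hone : ∑ u : P, φ u = ((Nat.card P : ℂ)) * (m one : ℂ) := by
    rw [← hm one, classInner, ← mul_assoc]
    have hp0 : (Nat.card P : ℂ) ≠ 0 := by rw [hcard]; exact_mod_cast hp.ne_zero
    rw [mul_inv_cancel₀ hp0, one_mul]
    refine Finset.sum_congr rfl fun u _ => ?_
    simp [one]
  rw [hone]
  by_contra hne
  have hm1 : 1 ≤ m one := by
    rcases Nat.eq_zero_or_pos (m one) with h | h
    · exact absurd (by rw [h]; simp) hne
    · exact h
  -- some nontrivial character does not occur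
  have hex : ∃ lam₀ : IrrCharacter P, lam₀ ≠ one ∧ m lam₀ = 0 := by
    by_contra hno
    push Not at hno
    have h2 : m one + (Finset.univ.erase one).card ≤ ∑ lam, m lam := by
      rw [← Finset.add_sum_erase Finset.univ m (Finset.mem_univ one)]
      refine Nat.add_le_add_left ?_ _
      rw [Finset.card_eq_sum_ones]
      refine Finset.sum_le_sum fun lam hlam => ?_
      exact Nat.one_le_iff_ne_zero.mpr (hno lam (Finset.ne_of_mem_erase hlam))
    rw [Finset.card_erase_of_mem (Finset.mem_univ one), Finset.card_univ, hcardI'] at h2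
    have hp2 := hp.two_le
    omega
  obtain ⟨lam₀, hlam₀, hm₀⟩ := hex
  have hne₀ : (lam₀ : P → ℂ) ≠ fun _ => 1 := fun h => hlam₀ (Subtype.ext h)
  let comp : MulAut P → IrrCharacter P := fun α => ⟨(lam₀ : P → ℂ) ∘ α, isIrrCharacter_comp_mulEquiv α lam₀.2⟩
  have hcompinj : Function.Injective comp := by
    intro α β hαβ
    ext u
    have h1 : (comp α : P → ℂ) u = (comp β : P → ℂ) u := by rw [hαβ]
    exact irr_injective hp hcard lam₀ hne₀ h1
  have hmcomp : ∀ α ∈ Λ, m (comp α) = 0 := by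
    intro α hα
    have h1 : classInner φ ((lam₀ : P → ℂ) ∘ α) = classInner φ (lam₀ : P → ℂ) := by
      rw [← classInner_comp_mulEquiv α φ (lam₀ : P → ℂ)]
      congr 1
      funext u
      exact (hΛ α hα u).symm
    rw [hm lam₀, hm₀] at h1
    have h2 := hm (comp α)
    have h3 : classInner φ ((comp α : IrrCharacter P) : P → ℂ) = classInner φ ((lam₀ : P → ℂ) ∘ α) := rfl
    rw [h3, h1] at h2
    exact_mod_cast h2.symm
  have hf : ∀ n : ℕ, (0 : ℤ) ≤ (n : ℤ) ^ 2 + 2 - 3 * n := by
    intro n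
    rcases n with _ | _ | n
    · norm_num
    · norm_num
    · push_cast; nlinarith [Int.natCast_nonneg n]
  have hZ : 2 * (Λ.card : ℤ) ≤ ∑ lam, ((m lam : ℤ) ^ 2 + 2 - 3 * m lam) := by
    have h1 : ∑ lam ∈ Λ.image comp, ((m lam : ℤ) ^ 2 + 2 - 3 * m lam) = 2 * (Λ.card : ℤ) := by
      rw [Finset.sum_image (fun a _ b _ h => hcompinj h)]
      rw [Finset.sum_congr rfl (fun α hα => by rw [hmcomp α hα])]
      simp [mul_comm]
    rw [← h1]
    exact Finset.sum_le_sum_of_subset_of_nonneg (Finset.subset_univ _) (fun lam _ _ => hf _)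
  have hZ2 : ∑ lam, ((m lam : ℤ) ^ 2 + 2 - 3 * m lam) =
      ((∑ lam, m lam ^ 2 : ℕ) : ℤ) + 2 * p - 3 * ((p : ℤ) - 1) := by
    rw [Finset.sum_sub_distrib, Finset.sum_add_distrib, ← Finset.mul_sum]
    simp only [Finset.sum_const, Finset.card_univ, hcardI']
    have h3 : ((∑ lam, m lam : ℕ) : ℤ) = (p : ℤ) - 1 := by
      rw [← hsum']; push_cast; ring
    push_cast at h3 ⊢
    rw [h3]
    simp [mul_comm]
  rw [hZ2] at hZ
  set M : ℕ := ∑ lam, m lam ^ 2 with hM
  set h : ℕ := Λ.card with hh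
  have hM2 : (2 : ℝ) * h + p - 3 ≤ M := by
    have : (2 : ℤ) * h + p - 3 ≤ M := by linarith
    exact_mod_cast this
  rw [hself2] at hS
  have hp2 : (2 : ℝ) ≤ p := by exact_mod_cast hp.two_le
  have hh2 : (2 : ℝ) ≤ h := by exact_mod_cast hΛ2
  have h5 : (p : ℝ) * (2 * h + p - 3) ≤ p * M := mul_le_mul_of_nonneg_left hM2 (by linarith)
  nlinarith [mul_pos (show (0 : ℝ) < (h : ℝ) - 1 by linarith) (show (0 : ℝ) < (p : ℝ) + 1 by linarith)]

end A

end Cfsg.Agent.Lib.Char.SelfCent
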