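import Mathlib
import Cfsg.Prelude.Def_CharExt
import Cfsg.Agent.Lib.Char.Galois
import Cfsg.Agent.Lib.Char.SelfCentA

set_option autoImplicit false

/-!
Self-centralizing subgroups of prime order: the Galois bound.
-/

namespace Cfsg.Agent.Lib.Char.SelfCent

open Cfsg Module Cfsg.Agent.Lib.Char ComplexConjugate

universe u

variable {G : Type u} [Group G] [Fintype G]

/-- Every automorphism of a cyclic subgroup of prime order is given by a power map
with exponent coprime to the group order. -/
theorem exists_pow_of_aut {p : ℕ} (hp : p.Prime) (x : G) (hx : orderOf x = p)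
    (α : MulAut (Subgroup.zpowers x)) :
    ∃ k : ℕ, k.Coprime (Nat.card G) ∧ ∀ u : Subgroup.zpowers x, (u : G) ^ k = (α u : G) := by
  classical
  haveI : Fact p.Prime := ⟨hp⟩
  let x' : Subgroup.zpowers x := ⟨x, Subgroup.mem_zpowers x⟩
  have hx1 : x ≠ 1 := by
    rintro rfl
    rw [orderOf_one] at hx
    exact hp.one_lt.ne hx
  have hmem : (α x' : G) ∈ Subgroup.zpowers x := (α x').2
  have hfin : IsOfFinOrder x := isOfFinOrder_of_finite x
  obtain ⟨i, hi⟩ : ∃ i : ℕ, x ^ i = (α x' : G) := by
    rw [← hfin.mem_powers_iff_mem_zpowers] at hmem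
    exact hmem
  have hcop : i.Coprime p := by
    rw [Nat.coprime_comm, hp.coprime_iff_not_dvd]
    intro hd
    have h1 : x ^ i = 1 := orderOf_dvd_iff_pow_eq_one.mp (hx ▸ hd)
    rw [h1] at hi
    have h2 : α x' = 1 := Subtype.ext hi.symm
    have h3 : x' = 1 := by
      have := (map_eq_one_iff α α.injective).mp h2
      exact this
    exact hx1 (congrArg Subtype.val h3)
  have hdvd : p ∣ Nat.card G := by
    rw [← hx]
    exact orderOf_dvd_natCard x
  haveI : NeZero (Nat.card G) := ⟨Nat.card_pos.ne'⟩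
  obtain ⟨b, hb⟩ := ZMod.unitsMap_surjective hdvd (ZMod.unitOfCoprime i hcop)
  refine ⟨(b : ZMod (Nat.card G)).val, ZMod.val_coe_unit_coprime b, ?_⟩
  have hk : ((b : ZMod (Nat.card G)).val : ZMod p) = (i : ZMod p) := by
    have h1 := congrArg (fun a : (ZMod p)ˣ => (a : ZMod p)) hb
    simp only [ZMod.coe_unitOfCoprime, ZMod.unitsMap_def, Units.coe_map] at h1
    rw [← h1]
    simp
  have hk' : x ^ (b : ZMod (Nat.card G)).val = x ^ i := by
    rw [pow_eq_pow_iff_modEq, hx]
    exact (ZMod.natCast_eq_natCast_iff _ _ _).mp hk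
  rintro ⟨u, hu⟩
  obtain ⟨j, rfl⟩ := Subgroup.mem_zpowers_iff.mp hu
  have h2 : (⟨x ^ j, hu⟩ : Subgroup.zpowers x) = x' ^ j := rfl
  rw [h2, map_zpow]
  push_cast
  rw [← hi, ← hk']
  show (x ^ j) ^ _ = _
  rw [← zpow_natCast, ← zpow_mul, ← zpow_natCast x, ← zpow_mul, mul_comm]

/-- Generators of a subgroup of prime order. -/
theorem mem_zpowers_of_ne_one {p : ℕ} (hp : p.Prime) (x : G) (hx : orderOf x = p)
    (u v : Subgroup.zpowers x) (hu : u ≠ 1) : v ∈ Subgroup.zpowers u := by
  haveI : Fact (Nat.card (Subgroup.zpowers x)).Prime := ⟨by rw [Nat.card_zpowers, hx]; exact hp⟩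
  have h := Subgroup.eq_bot_or_eq_top_of_prime_card (Subgroup.zpowers u)
  rcases h with h | h
  · rw [Subgroup.zpowers_eq_bot] at h
    exact absurd h hu
  · rw [h]; trivial

/-- Automorphisms fixing a non-identity element are trivial. -/
theorem aut_eq_one_of_fix {p : ℕ} (hp : p.Prime) (x : G) (hx : orderOf x = p)
    (α : MulAut (Subgroup.zpowers x)) (u : Subgroup.zpowers x) (hu : u ≠ 1) (hα : α u = u) :
    α = 1 := by
  ext v
  obtain ⟨j, rfl⟩ := Subgroup.mem_zpowers_iff.mp (mem_zpowers_of_ne_one hp x hx u v hu)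
  rw [map_zpow, hα]
  rfl

/-- Every non-identity element of a subgroup of prime order is the image of the generator
under an automorphism. -/
theorem exists_aut {p : ℕ} (hp : p.Prime) (x : G) (hx : orderOf x = p)
    (u : Subgroup.zpowers x) (hu : u ≠ 1) :
    ∃ α : MulAut (Subgroup.zpowers x), α ⟨x, Subgroup.mem_zpowers x⟩ = u := by
  classical
  haveI : Fact p.Prime := ⟨hp⟩
  have hcomm : ∀ a b : Subgroup.zpowers x, a * b = b * a :=
    comm_of_prime_card hp (by rw [Nat.card_zpowers, hx])
  let x' : Subgroup.zpowers x := ⟨x, Subgroup.mem_zpowers x⟩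
  have hfin : IsOfFinOrder x := isOfFinOrder_of_finite x
  obtain ⟨i, hi⟩ : ∃ i : ℕ, x ^ i = (u : G) := by
    have hmem := u.2
    rw [← hfin.mem_powers_iff_mem_zpowers] at hmem
    exact hmem
  have hi' : x' ^ i = u := Subtype.ext hi
  have hcop : (Nat.card (Subgroup.zpowers x)).Coprime i := by
    rw [Nat.card_zpowers, hx, hp.coprime_iff_not_dvd]
    intro hd
    have h1 : x ^ i = 1 := orderOf_dvd_iff_pow_eq_one.mp (hx ▸ hd)
    rw [h1] at hi
    exact hu (Subtype.ext hi.symm)
  refine ⟨{ powCoprime hcop with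
    map_mul' := fun a b => (Commute.mul_pow (hcomm a b) i) }, ?_⟩
  exact hi'

/-- The Galois bound for a self-centralizing subgroup of prime order. -/
theorem norm_bound {p : ℕ} (hp : p.Prime) (hp2 : p ≠ 2) (x : G) (hx : orderOf x = p)
    (hC : Subgroup.centralizer ({x} : Set G) = Subgroup.zpowers x) {χ : G → ℂ}
    (hχ : IsIrrCharacter G χ) (hd : χ 1 + 1 = (p : ℂ)) [Fintype (Subgroup.zpowers x)] :
    ∃ Λ : Finset (MulAut (Subgroup.zpowers x)),
      (∀ α, α ∈ Λ ↔ ∀ u : Subgroup.zpowers x, χ (α u : G) = χ (u : G)) ∧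
      (∑ u : Subgroup.zpowers x, Complex.normSq (χ (u : G))) ≤
        ((p : ℝ) - 1) ^ 2 + Λ.card * ((p : ℝ) - 1) := by
  classical
  letI : Fintype (MulAut (Subgroup.zpowers x)) := Fintype.ofFinite _
  let Λ : Finset (MulAut (Subgroup.zpowers x)) :=
    Finset.univ.filter fun α => ∀ u : Subgroup.zpowers x, χ (α u : G) = χ (u : G)
  refine ⟨Λ, fun α => by simp [Λ], ?_⟩
  choose k hk1 hk2 using exists_pow_of_aut (G := G) hp x hx
  let ψ : MulAut (Subgroup.zpowers x) → IrrCharacter G :=
    fun α => ⟨fun g => χ (g ^ k α), isIrrCharacter_pow hχ (hk1 α)⟩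
  have hψ : ∀ α (u : Subgroup.zpowers x), (ψ α : G → ℂ) u = χ (α u : G) := by
    intro α u
    show χ ((u : G) ^ k α) = _
    rw [hk2]
  let x' : Subgroup.zpowers x := ⟨x, Subgroup.mem_zpowers x⟩
  let one : IrrCharacter G := ⟨fun _ => 1, isIrrCharacter_one⟩
  have hone : ∀ α, ψ α ≠ one := by
    intro α h
    have h1 : (ψ α : G → ℂ) 1 = 1 := by rw [h]
    have h2 : (ψ α : G → ℂ) 1 = χ 1 := by
      show χ (1 ^ k α) = _
      rw [one_pow]
    rw [h2] at h1
    rw [h1] at hd
    have : (2 : ℂ) = p := by rw [← hd]; norm_num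
    have h3 : p = 2 := by exact_mod_cast this.symm
    exact hp2 h3
  have hfiber : ∀ ϑ : IrrCharacter G, (Finset.univ.filter fun α => ψ α = ϑ).card ≤ Λ.card := by
    intro ϑ
    by_cases hne : ∃ β, ψ β = ϑ
    · obtain ⟨β, rfl⟩ := hne
      refine Finset.card_le_card_of_injOn (fun α => α * β⁻¹) ?_ ?_
      · intro α hα
        have hα' : ψ α = ψ β := by simpa using hα
        simp only [Finset.coe_filter, Finset.mem_univ, true_and, Λ]
        intro u
        show χ (α (β⁻¹ u) : G) = _
        rw [← hψ, hα', hψ]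
        have : β (β⁻¹ u) = u := by
          show (β * β⁻¹) u = u
          simp
        rw [this]
      · intro a _ b _ h
        exact mul_right_cancel h
    · have : (Finset.univ.filter fun α => ψ α = ϑ) = ∅ := by
        ext α
        simp only [Finset.mem_filter, Finset.mem_univ, true_and, Finset.notMem_empty, iff_false]
        exact fun h => hne ⟨α, h⟩
      rw [this]
      simp
  let F : IrrCharacter G → ℝ := fun ϑ => Complex.normSq ((ϑ : G → ℂ) x)
  have hF0 : ∀ ϑ, 0 ≤ F ϑ := fun ϑ => Complex.normSq_nonneg _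
  have hFsum : ∑ ϑ, F ϑ = p := by
    have h1 := sum_irr_mul_conj_of_isConj (IsConj.refl x)
    have h2 : Nat.card (Subgroup.centralizer ({x} : Set G)) = p := by
      rw [hC, Nat.card_zpowers, hx]
    rw [h2] at h1
    have h3 : ((∑ ϑ, F ϑ : ℝ) : ℂ) = (p : ℂ) := by
      rw [← h1]
      push_cast
      refine Finset.sum_congr rfl fun ϑ _ => ?_
      rw [Complex.mul_conj]
    exact_mod_cast h3
  have hFone : F one = 1 := by simp [F, one]
  have hkey : ∑ α, F (ψ α) ≤ Λ.card * ((p : ℝ) - 1) := by
    rw [← Finset.sum_fiberwise Finset.univ ψ]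
    calc ∑ ϑ, ∑ α ∈ Finset.univ.filter (fun α => ψ α = ϑ), F (ψ α)
        ≤ ∑ ϑ, (Λ.card : ℝ) * (F ϑ - if ϑ = one then 1 else 0) := by
          refine Finset.sum_le_sum fun ϑ _ => ?_
          have h1 : ∑ α ∈ Finset.univ.filter (fun α => ψ α = ϑ), F (ψ α) =
              (Finset.univ.filter (fun α => ψ α = ϑ)).card * F ϑ := by
            rw [Finset.sum_congr rfl (fun α hα => by rw [(Finset.mem_filter.mp hα).2])]
            simp
          rw [h1]
          by_cases hϑ : ϑ = one
          · subst hϑ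
            have : (Finset.univ.filter fun α => ψ α = one) = ∅ := by
              ext α
              simp only [Finset.mem_filter, Finset.mem_univ, true_and, Finset.notMem_empty, iff_false]
              exact hone α
            rw [this, if_pos rfl, hFone]
            simp
          · rw [if_neg hϑ, sub_zero]
            exact mul_le_mul_of_nonneg_right (by exact_mod_cast hfiber ϑ) (hF0 ϑ)
      _ = Λ.card * ((p : ℝ) - 1) := by
          rw [← Finset.mul_sum, Finset.sum_sub_distrib, hFsum]
          simp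
  have hsplit : ∑ u : Subgroup.zpowers x, Complex.normSq (χ (u : G)) =
      Complex.normSq (χ 1) + ∑ α, F (ψ α) := by
    rw [← Finset.add_sum_erase Finset.univ _ (Finset.mem_univ (1 : Subgroup.zpowers x))]
    congr 1
    symm
    refine Finset.sum_nbij (fun α => α x') ?_ ?_ ?_ ?_
    · intro α _
      refine Finset.mem_erase.mpr ⟨?_, Finset.mem_univ _⟩
      intro h
      have h3 : x' = 1 := (map_eq_one_iff α α.injective).mp h
      have hx1 : x = 1 := congrArg Subtype.val h3
      rw [hx1, orderOf_one] at hx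
      exact hp.one_lt.ne hx
    · intro α _ β _ h
      have hx1 : x' ≠ 1 := by
        intro h3
        have hx1 : x = 1 := congrArg Subtype.val h3
        rw [hx1, orderOf_one] at hx
        exact hp.one_lt.ne hx
      have h2 : β⁻¹ * α = 1 := by
        apply aut_eq_one_of_fix hp x hx _ x' hx1
        show β⁻¹ (α x') = x'
        have h3 : α x' = β x' := h
        rw [h3]
        show (β⁻¹ * β) x' = x'
        simp
      exact (inv_mul_eq_one.mp h2).symm
    · intro u hu
      obtain ⟨α, hα⟩ := exists_aut hp x hx u (Finset.ne_of_mem_erase hu)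
      exact ⟨α, Finset.mem_coe.mpr (Finset.mem_univ _), hα⟩
    · intro α _
      show Complex.normSq ((ψ α : G → ℂ) (x' : G)) = _
      rw [hψ]
  rw [hsplit]
  have h1 : χ 1 = (((p : ℝ) - 1 : ℝ) : ℂ) := by
    push_cast
    rw [← hd]
    ring
  rw [h1, Complex.normSq_ofReal]
  nlinarith [hkey]

end Cfsg.Agent.Lib.Char.SelfCent
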