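import Mathlib
import Cfsg.Prelude.Def_CharExt
import Cfsg.Agent.Lib.H8Group.Det

set_option autoImplicit false

/-!
A character which, on a cyclic subgroup of even order, is an odd multiple of the regular
character has determinant `-1` at a generator.  Also the vanishing of a character on elements
acting fixed point freely on a subgroup having no fixed vectors.
-/

namespace Cfsg.Agent.Lib.Char.SelfCent

open Cfsg Module Cfsg.Agent.Lib.Char

section Perm

variable {H : Type*} [Group H] [Fintype H] [DecidableEq H] {k : ℕ}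

/-- The permutation action of `H` on `H × Fin k`. -/
def permOf (k : ℕ) (H : Type*) [Group H] : H →* Equiv.Perm (H × Fin k) where
  toFun h := Equiv.prodCongrLeft fun _ => Equiv.mulLeft h
  map_one' := by ext ⟨a, b⟩ <;> simp
  map_mul' a b := by ext ⟨c, d⟩ <;> simp

/-- The corresponding linear representation. -/
noncomputable def repOf (k : ℕ) (H : Type*) [Group H] [Fintype H] [DecidableEq H] :
    Representation ℂ H (H × Fin k → ℂ) where
  toFun h := Matrix.toLin' (((permOf k H h)⁻¹ : Equiv.Perm (H × Fin k)).permMatrix ℂ)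
  map_one' := by simp; rfl
  map_mul' a b := by
    rw [map_mul, _root_.mul_inv_rev, Matrix.permMatrix_mul, Matrix.toLin'_mul]
    rfl

theorem repOf_character (h : H) : (repOf k H).character h =
    if h = 1 then (Nat.card H * k : ℕ) else 0 := by
  classical
  show LinearMap.trace ℂ _ (Matrix.toLin' (((permOf k H h)⁻¹ : Equiv.Perm (H × Fin k)).permMatrix ℂ)) = _
  rw [Matrix.trace_toLin'_eq, Matrix.trace_permutation]
  by_cases hh : h = 1
  · subst hh
    simp only [map_one, inv_one, if_true]
    have h1 : Function.fixedPoints ((1 : Equiv.Perm (H × Fin k)) : (H × Fin k) → (H × Fin k)) = Set.univ := by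
      ext a; simp [Function.fixedPoints, Function.IsFixedPt]
    rw [h1, Set.ncard_univ, Nat.card_prod, Nat.card_fin]
  · rw [if_neg hh]
    have h1 : Function.fixedPoints (((permOf k H h)⁻¹ : Equiv.Perm (H × Fin k)) : (H × Fin k) → (H × Fin k)) = ∅ := by
      ext ⟨a, b⟩
      simp only [Function.mem_fixedPoints, Function.IsFixedPt, Set.mem_empty_iff_false, iff_false]
      intro h2
      apply hh
      have h3 : (permOf k H h) (a, b) = (a, b) := by
        rw [Equiv.Perm.inv_eq_iff_eq] at h2
        exact h2.symm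
      have h4 : h * a = a := congrArg Prod.fst h3
      simpa using h4
    rw [h1]
    simp

theorem repOf_det (h : H) : LinearMap.det (repOf k H h) =
    ((Equiv.Perm.sign (Equiv.mulLeft h) : ℤˣ) : ℤ) ^ k := by
  show LinearMap.det (Matrix.toLin' (((permOf k H h)⁻¹ : Equiv.Perm (H × Fin k)).permMatrix ℂ)) = _
  rw [LinearMap.det_toLin', Matrix.det_permutation, map_inv]
  have h1 : Equiv.Perm.sign (permOf k H h) = Equiv.Perm.sign (Equiv.mulLeft h) ^ k := by
    show Equiv.Perm.sign (Equiv.prodCongrLeft fun _ => Equiv.mulLeft h) = _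
    rw [Equiv.Perm.sign_prodCongrLeft]
    simp
  rw [h1]
  rw [Int.units_inv_eq_self]
  simp

/-- Left multiplication by a generator of a cyclic group of even order is an odd permutation. -/
theorem sign_mulLeft_generator {c : H} (hc : ∀ y : H, y ∈ Subgroup.zpowers c)
    (heven : Even (Nat.card H)) : Equiv.Perm.sign (Equiv.mulLeft c) = -1 := by
  classical
  have hc1 : c ≠ 1 := by
    rintro rfl
    have h1 : ∀ y : H, y = 1 := fun y => by simpa using hc y
    have h2 : Nat.card H = 1 := by
      rw [Nat.card_eq_one_iff_unique]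
      exact ⟨⟨fun a b => by rw [h1 a, h1 b]⟩, ⟨1⟩⟩
    rw [h2] at heven
    exact absurd heven (by decide)
  have hcyc : Equiv.Perm.IsCycle (Equiv.mulLeft c) := by
    refine ⟨1, by simpa using hc1, fun y _ => ?_⟩
    obtain ⟨i, rfl⟩ := Subgroup.mem_zpowers_iff.mp (hc y)
    refine ⟨i, ?_⟩
    rw [Equiv.zpow_mulLeft]
    simp
  rw [hcyc.sign]
  have hsupp : (Equiv.mulLeft c).support = Finset.univ := by
    ext y
    simp [Equiv.Perm.mem_support, hc1]
  rw [hsupp, Finset.card_univ, ← Nat.card_eq_fintype_card, heven.neg_one_pow]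

end Perm

section Det

variable {G : Type*} [Group G] [Finite G]

/-- If `χ` vanishes on the nonidentity powers of `c` and `χ(1) = |c| t`, with `|c|` even and
`t` odd, then the determinant of `χ` at `c` is `-1`. -/
theorem detChar_eq_neg_one {χ : G → ℂ} (hχ : IsCharacter G χ) (c : G) (t : ℕ)
    (h1 : χ 1 = ((orderOf c * t : ℕ) : ℂ))
    (h0 : ∀ g ∈ Subgroup.zpowers c, g ≠ 1 → χ g = 0)
    (he : Even (orderOf c)) (ht : Odd t) : detChar χ c = -1 := by
  classical
  letI : Fintype (Subgroup.zpowers c) := Fintype.ofFinite _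
  have hcard : Nat.card (Subgroup.zpowers c) = orderOf c := Nat.card_zpowers c
  let c' : Subgroup.zpowers c := ⟨c, Subgroup.mem_zpowers c⟩
  have hξ : (fun h : Subgroup.zpowers c => χ ((Subgroup.zpowers c).subtype h)) =
      (repOf t (Subgroup.zpowers c)).character := by
    funext h
    rw [repOf_character]
    by_cases hh : h = 1
    · subst hh
      rw [if_pos rfl, hcard]
      simpa using h1
    · rw [if_neg hh]
      have h5 : χ ((Subgroup.zpowers c).subtype h) = 0 := by
        refine h0 _ h.2 ?_
        intro h2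
        exact hh (Subtype.ext h2)
      rw [h5]
      simp
  have h2 := congrFun (Cfsg.Agent.Lib.H8Group.detChar_comp (Subgroup.zpowers c).subtype hχ) c'
  rw [hξ, Cfsg.Agent.Lib.H8Group.detChar_of_rep, repOf_det] at h2
  have h3 : Equiv.Perm.sign (Equiv.mulLeft c') = -1 := by
    apply sign_mulLeft_generator
    · rintro ⟨y, hy⟩
      obtain ⟨i, rfl⟩ := Subgroup.mem_zpowers_iff.mp hy
      refine Subgroup.mem_zpowers_iff.mpr ⟨i, ?_⟩
      apply Subtype.ext
      simp [c']
    · rw [hcard]; exact he
  rw [h3] at h2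
  have h4 : detChar χ ((Subgroup.zpowers c).subtype c') = detChar χ c := rfl
  rw [← h4, ← h2]
  simp [ht.neg_one_pow]

end Det

section Vanish

variable {G : Type*} [Group G] [Finite G]

/-- If the sum of a character over a subgroup vanishes, then so does the sum of the
representation operators. -/
theorem sum_rep_eq_zero {n : ℕ} (ρ : Representation ℂ G (Fin n → ℂ)) (P : Subgroup G)
    [Fintype P] (h0 : ∑ w : P, ρ.character (w : G) = 0) :
    ∑ w : P, ρ (w : G) = 0 := by
  classical
  set T : (Fin n → ℂ) →ₗ[ℂ] (Fin n → ℂ) := ∑ w : P, ρ (w : G) with hT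
  have hcard : ((Fintype.card P : ℕ) : ℂ) ≠ 0 := by
    exact_mod_cast Fintype.card_ne_zero
  have hTT : T * T = (Fintype.card P : ℂ) • T := by
    rw [hT, Finset.sum_mul]
    have h1 : ∀ w : P, ρ (w : G) * ∑ v : P, ρ (v : G) = ∑ v : P, ρ (v : G) := by
      intro w
      rw [Finset.mul_sum]
      refine Fintype.sum_equiv (Equiv.mulLeft w) _ _ fun v => ?_
      simp [map_mul]
    simp only [h1, Finset.sum_const, Finset.card_univ]
    rw [Nat.cast_smul_eq_nsmul]
  let e : (Fin n → ℂ) →ₗ[ℂ] (Fin n → ℂ) := (Fintype.card P : ℂ)⁻¹ • T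
  have he : IsIdempotentElem e := by
    unfold IsIdempotentElem
    simp only [e]
    rw [smul_mul_smul_comm, hTT, smul_smul, mul_assoc, inv_mul_cancel₀ hcard, mul_one]
  have htr : LinearMap.trace ℂ _ e = 0 := by
    simp only [e]
    rw [map_smul, hT, map_sum]
    have : ∑ w : P, LinearMap.trace ℂ _ (ρ (w : G)) = 0 := h0
    rw [this, smul_zero]
  have he0 : e = 0 := LinearMap.IsIdempotentElem.eq_zero_of_trace_eq_zero he htr
  have : T = (Fintype.card P : ℂ) • e := by
    simp only [e]
    rw [smul_smul, mul_inv_cancel₀ hcard, one_smul]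
  rw [this, he0, smul_zero]

/-- A character vanishes at `g` if every `w g`, `w ∈ P`, is conjugate to `g`, and the
sum of the character over `P` vanishes. -/
theorem apply_eq_zero_of_sum {χ : G → ℂ} (hχ : IsCharacter G χ) (P : Subgroup G) [Fintype P]
    (h0 : ∑ w : P, χ (w : G) = 0) (g : G) (hg : ∀ w : P, IsConj g ((w : G) * g)) : χ g = 0 := by
  classical
  obtain ⟨n, ρ, rfl⟩ := hχ
  have hT := sum_rep_eq_zero ρ P h0
  have h1 : ∑ w : P, ρ.character ((w : G) * g) = 0 := by
    have h2 : (∑ w : P, ρ (w : G)) * ρ g = 0 := by rw [hT, zero_mul]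
    have h3 := congrArg (LinearMap.trace ℂ _) h2
    rw [Finset.sum_mul, map_sum, map_zero] at h3
    rw [← h3]
    refine Finset.sum_congr rfl fun w _ => ?_
    show LinearMap.trace ℂ _ (ρ ((w : G) * g)) = _
    rw [map_mul]
  have h4 : ∀ w : P, ρ.character ((w : G) * g) = ρ.character g := by
    intro w
    obtain ⟨a, ha⟩ := isConj_iff.mp (hg w)
    rw [← ha]
    exact IsCharacter.isClassFunction (isCharacter_character ρ) g a
  simp only [h4, Finset.sum_const, Finset.card_univ, nsmul_eq_mul] at h1
  have hcard : ((Fintype.card P : ℕ) : ℂ) ≠ 0 := by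
    exact_mod_cast Fintype.card_ne_zero
  exact (mul_eq_zero.mp h1).resolve_left hcard

end Vanish

end Cfsg.Agent.Lib.Char.SelfCent
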