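import Mathlib
import Cfsg.Prelude.Def_CharExt
import Cfsg.Agent.Lib.Char.SelfCentB
import Cfsg.Agent.Lib.Char.SelfCentDet

set_option autoImplicit false

/-!
Self-centralizing subgroups of prime order: automorphisms induced by conjugation, counting classes.
-/

namespace Cfsg.Agent.Lib.Char.SelfCent

open Cfsg Module Cfsg.Agent.Lib.Char ComplexConjugate

universe u

variable {G : Type u} [Group G]

/-- The automorphisms of a subgroup induced by conjugation in the group. -/
def conjAut (P : Subgroup G) : Subgroup (MulAut P) where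
  carrier := {α | ∃ g : G, ∀ u : P, g * (u : G) * g⁻¹ = (α u : G)}
  mul_mem' := by
    rintro α β ⟨g, hg⟩ ⟨h, hh⟩
    refine ⟨g * h, fun u => ?_⟩
    have h1 := hg (β u)
    have h2 := hh u
    show _ = (α (β u) : G)
    rw [← h1, ← h2]
    group
  one_mem' := ⟨1, fun u => by simp⟩
  inv_mem' := by
    rintro α ⟨g, hg⟩
    refine ⟨g⁻¹, fun u => ?_⟩
    have h1 := hg (α⁻¹ u)
    have h2 : α (α⁻¹ u) = u := by
      show (α * α⁻¹) u = u
      simp
    rw [h2] at h1
    rw [← h1]
    group

theorem mem_conjAut {P : Subgroup G} {α : MulAut P} :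
    α ∈ conjAut P ↔ ∃ g : G, ∀ u : P, g * (u : G) * g⁻¹ = (α u : G) := Iff.rfl

/-- Powers of an element act as powers of the automorphism. -/
theorem acts_pow {P : Subgroup G} {α : MulAut P} {g : G}
    (hg : ∀ u : P, g * (u : G) * g⁻¹ = (α u : G)) (k : ℕ) :
    ∀ u : P, g ^ k * (u : G) * (g ^ k)⁻¹ = ((α ^ k) u : G) := by
  induction k with
  | zero => intro u; simp
  | succ k ih =>
    intro u
    rw [pow_succ', pow_succ']
    have h1 := ih u
    have h2 := hg ((α ^ k) u)
    show _ = (α ((α ^ k) u) : G)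
    rw [← h2, ← h1]
    group

variable [Finite G]

/-- A self-centralizing subgroup of prime order is a Sylow subgroup (in this form). -/
theorem le_of_sylow {p : ℕ} [Fact p.Prime] (x : G)
    (hC : Subgroup.centralizer ({x} : Set G) = Subgroup.zpowers x) (hx : orderOf x = p)
    (S : Sylow p G) (hS : Subgroup.zpowers x ≤ S) : (S : Subgroup G) ≤ Subgroup.zpowers x := by
  haveI : Nontrivial (S : Subgroup G) := by
    refine ⟨⟨⟨x, hS (Subgroup.mem_zpowers x)⟩, 1, ?_⟩⟩
    intro h
    have : x = 1 := congrArg Subtype.val h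
    rw [this, orderOf_one] at hx
    exact (Fact.out : p.Prime).one_lt.ne hx
  letI : Fintype G := Fintype.ofFinite G
  have hZ := (S.2 : IsPGroup p (S : Subgroup G)).center_nontrivial
  obtain ⟨z, hz⟩ := exists_ne (1 : Subgroup.center (S : Subgroup G))
  let z₀ : G := z.1.1
  have hz₀ : z₀ ≠ 1 := by
    intro h
    apply hz
    apply Subtype.ext
    apply Subtype.ext
    exact h
  let x₁ : (S : Subgroup G) := ⟨x, hS (Subgroup.mem_zpowers x)⟩
  have hcomm : ∀ s : (S : Subgroup G), s * z.1 = z.1 * s := fun s => by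
    have := Subgroup.mem_center_iff.mp z.2 s
    exact this
  have hzx : z₀ ∈ Subgroup.zpowers x := by
    rw [← hC, Subgroup.mem_centralizer_iff]
    intro y hy
    rw [Set.mem_singleton_iff] at hy
    subst hy
    exact congrArg Subtype.val (hcomm x₁)
  have hxz : x ∈ Subgroup.zpowers z₀ := by
    have h1 := mem_zpowers_of_ne_one (Fact.out : p.Prime) x hx ⟨z₀, hzx⟩ ⟨x, Subgroup.mem_zpowers x⟩
      (fun h => hz₀ (congrArg Subtype.val h))
    obtain ⟨j, hj⟩ := Subgroup.mem_zpowers_iff.mp h1
    refine Subgroup.mem_zpowers_iff.mpr ⟨j, ?_⟩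
    exact congrArg Subtype.val hj
  intro s hs
  rw [← hC, Subgroup.mem_centralizer_iff]
  intro y hy
  rw [Set.mem_singleton_iff] at hy
  subst hy
  have h2 : Commute s z₀ := congrArg Subtype.val (hcomm ⟨s, hs⟩)
  obtain ⟨j, hj⟩ := Subgroup.mem_zpowers_iff.mp hxz
  rw [← hj]
  exact (h2.zpow_right j).symm

/-- Each element of order `p` is conjugate into a subgroup of order `p` that is Sylow. -/
theorem exists_conj_mem {p : ℕ} [Fact p.Prime] (x : G)
    (hC : Subgroup.centralizer ({x} : Set G) = Subgroup.zpowers x) (hx : orderOf x = p)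
    (g : G) (hg : orderOf g = p) : ∃ y ∈ Subgroup.zpowers x, IsConj y g := by
  have hxp : IsPGroup p (Subgroup.zpowers x) :=
    IsPGroup.of_card (n := 1) (by rw [Nat.card_zpowers, hx, pow_one])
  have hgp : IsPGroup p (Subgroup.zpowers g) :=
    IsPGroup.of_card (n := 1) (by rw [Nat.card_zpowers, hg, pow_one])
  obtain ⟨S, hS⟩ := hxp.exists_le_sylow
  obtain ⟨T, hT⟩ := hgp.exists_le_sylow
  have hle := le_of_sylow x hC hx S hS
  obtain ⟨h, hh⟩ := MulAction.exists_smul_eq G S T
  have hgT : g ∈ (T : Subgroup G) := hT (Subgroup.mem_zpowers g)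
  rw [← hh, Sylow.coe_subgroup_smul, Subgroup.mem_smul_pointwise_iff_exists] at hgT
  obtain ⟨s, hs, hsg⟩ := hgT
  refine ⟨s, hle hs, ?_⟩
  rw [isConj_iff]
  refine ⟨h, ?_⟩
  rw [← hsg]
  rfl

/-- The automorphism group of a subgroup of prime order is commutative. -/
theorem isCyclic_mulAut {p : ℕ} (hp : p.Prime) (P : Subgroup G) (hcard : Nat.card P = p) :
    IsCyclic (MulAut P) := by
  haveI : Fact (Nat.card P).Prime := ⟨hcard ▸ hp⟩
  haveI : IsCyclic P := isCyclic_of_prime_card rfl
  exact isCyclic_of_surjective _ (IsCyclic.mulAutMulEquiv P).symm.surjective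

/-- Counting classes of elements of order `p`. -/
theorem card_classes {p : ℕ} (hp : p.Prime) (x : G)
    (hC : Subgroup.centralizer ({x} : Set G) = Subgroup.zpowers x) (hx : orderOf x = p) :
    Nat.card (MulAut (Subgroup.zpowers x)) =
      Nat.card {C : ConjClasses G // ∃ g ∈ C.carrier, orderOf g = p} *
        Nat.card (conjAut (Subgroup.zpowers x)) := by
  classical
  letI : Fintype G := Fintype.ofFinite G
  haveI : Fact p.Prime := ⟨hp⟩
  have hcardP : Nat.card (Subgroup.zpowers x) = p := by rw [Nat.card_zpowers, hx]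
  haveI := isCyclic_mulAut hp (Subgroup.zpowers x) hcardP
  have hcommA : ∀ a b : MulAut (Subgroup.zpowers x), a * b = b * a :=
    (IsCyclic.commGroup : CommGroup (MulAut (Subgroup.zpowers x))).mul_comm
  let x' : Subgroup.zpowers x := ⟨x, Subgroup.mem_zpowers x⟩
  have hx1 : x' ≠ 1 := by
    intro h3
    have hx1 : x = 1 := congrArg Subtype.val h3
    rw [hx1, orderOf_one] at hx
    exact hp.one_lt.ne hx
  have hord : ∀ α : MulAut (Subgroup.zpowers x), orderOf (α x' : G) = p := by
    intro α
    rw [Subgroup.orderOf_coe, MulEquiv.orderOf_eq, ← hx, ← Subgroup.orderOf_coe]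
  let F : MulAut (Subgroup.zpowers x) → {C : ConjClasses G // ∃ g ∈ C.carrier, orderOf g = p} :=
    fun α => ⟨ConjClasses.mk (α x' : G), (α x' : G),
      ConjClasses.mem_carrier_iff_mk_eq.mpr rfl, hord α⟩
  have hF : ∀ a b, F a = F b ↔ a⁻¹ * b ∈ conjAut (Subgroup.zpowers x) := by
    intro a b
    rw [Subtype.mk.injEq, ConjClasses.mk_eq_mk_iff_isConj, isConj_iff]
    constructor
    · rintro ⟨g, hg⟩
      refine ⟨g, fun u => ?_⟩
      have h1 : a⁻¹ * b = b * a⁻¹ := hcommA _ _
      rw [h1]
      obtain ⟨j, hj⟩ := Subgroup.mem_zpowers_iff.mp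
        (mem_zpowers_of_ne_one hp x hx (a x') (a⁻¹ u |> a)
          (fun h => hx1 ((map_eq_one_iff a a.injective).mp h)))
      have h2 : a⁻¹ u = x' ^ j := by
        apply a.injective
        rw [← hj, map_zpow]
      show _ = (b (a⁻¹ u) : G)
      have h3 : u = a x' ^ j := by
        rw [hj]
        show u = (a * a⁻¹) u
        simp
      rw [h2, map_zpow]
      conv_lhs => rw [h3]
      push_cast
      rw [← hg, conj_zpow]
    · rintro ⟨g, hg⟩
      refine ⟨g, ?_⟩
      have h1 := hg (a x')
      have h2 : (a⁻¹ * b) (a x') = b x' := by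
        rw [hcommA]
        show b (a⁻¹ (a x')) = b x'
        have h3 : a⁻¹ (a x') = x' := by
          show (a⁻¹ * a) x' = x'
          simp
        rw [h3]
      rw [h1, h2]
  have hsurj : Function.Surjective F := by
    rintro ⟨C, g, hg, hog⟩
    obtain ⟨y, hy, hyg⟩ := exists_conj_mem x hC hx g hog
    have hy1 : (⟨y, hy⟩ : Subgroup.zpowers x) ≠ 1 := by
      intro h
      have hy0 : y = 1 := congrArg Subtype.val h
      subst hy0
      rw [isConj_one_right] at hyg
      subst hyg
      rw [orderOf_one] at hog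
      exact hp.one_lt.ne hog
    obtain ⟨α, hα⟩ := exists_aut hp x hx _ hy1
    refine ⟨α, Subtype.ext ?_⟩
    show ConjClasses.mk (α x' : G) = C
    have h2 : α x' = ⟨y, hy⟩ := hα
    rw [h2, ← ConjClasses.mem_carrier_iff_mk_eq.mp hg, ConjClasses.mk_eq_mk_iff_isConj]
    exact hyg
  let g : MulAut (Subgroup.zpowers x) ⧸ conjAut (Subgroup.zpowers x) →
      {C : ConjClasses G // ∃ g ∈ C.carrier, orderOf g = p} :=
    Quotient.lift F (fun a b hab => (hF a b).mpr (QuotientGroup.leftRel_apply.mp hab))
  have hg : Function.Bijective g := by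
    constructor
    · rintro ⟨a⟩ ⟨b⟩ hab
      exact QuotientGroup.eq.mpr ((hF a b).mp hab)
    · intro C
      obtain ⟨a, ha⟩ := hsurj C
      exact ⟨QuotientGroup.mk a, ha⟩
  rw [Subgroup.card_eq_card_quotient_mul_card_subgroup (conjAut (Subgroup.zpowers x)),
    Nat.card_eq_of_bijective g hg]

/-- Elements acting nontrivially are conjugate to all of their translates. -/
theorem isConj_mul_of_acts {p : ℕ} (hp : p.Prime) (x : G) (hx : orderOf x = p)
    {α : MulAut (Subgroup.zpowers x)} (hα : α ≠ 1) {g : G}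
    (hg : ∀ u : Subgroup.zpowers x, g * (u : G) * g⁻¹ = (α u : G)) (w : Subgroup.zpowers x) :
    IsConj g ((w : G) * g) := by
  classical
  letI : Fintype G := Fintype.ofFinite G
  have hcomm : ∀ a b : Subgroup.zpowers x, a * b = b * a :=
    comm_of_prime_card hp (by rw [Nat.card_zpowers, hx])
  let f : Subgroup.zpowers x → Subgroup.zpowers x := fun v => v * (α v)⁻¹
  have hinj : Function.Injective f := by
    intro a b hab
    have h1 : a * (α a)⁻¹ = b * (α b)⁻¹ := hab
    have h2 : α (b⁻¹ * a) = b⁻¹ * a := by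
      rw [map_mul, map_inv]
      have h3 : a = b * (α b)⁻¹ * α a := by rw [← h1]; group
      have h4 : (α b)⁻¹ * α a = b⁻¹ * a := by
        conv_rhs => rw [h3]
        group
      exact h4
    by_contra hne
    apply hα
    refine aut_eq_one_of_fix hp x hx α (b⁻¹ * a) ?_ h2
    intro h
    exact hne (inv_mul_eq_one.mp h).symm
  obtain ⟨v, hv⟩ := (Finite.injective_iff_surjective.mp hinj) w
  rw [isConj_iff]
  refine ⟨v, ?_⟩
  rw [← hv]
  have h1 : (((v * (α v)⁻¹ : Subgroup.zpowers x)) : G) = (v : G) * (α v : G)⁻¹ := rfl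
  show _ = (((v * (α v)⁻¹ : Subgroup.zpowers x)) : G) * g
  rw [h1, ← hg v]
  group

/-- The main construction, for odd primes. -/
theorem main_odd {p : ℕ} (hp : p.Prime) (hp2 : p ≠ 2) (x : G) (hx : orderOf x = p)
    (hC : Subgroup.centralizer ({x} : Set G) = Subgroup.zpowers x)
    (ht : Odd (Nat.card {C : ConjClasses G // ∃ g ∈ C.carrier, orderOf g = p}))
    {χ : G → ℂ} (hχ : IsIrrCharacter G χ) (hd : χ 1 + 1 = (p : ℂ)) :
    ∃ c : G, detChar χ c = -1 := by
  classical
  letI : Fintype G := Fintype.ofFinite G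
  letI : Fintype (Subgroup.zpowers x) := Fintype.ofFinite _
  haveI : Fact p.Prime := ⟨hp⟩
  have hcardP : Nat.card (Subgroup.zpowers x) = p := by rw [Nat.card_zpowers, hx]
  haveI hcycP : IsCyclic (Subgroup.zpowers x) := isCyclic_of_prime_card hcardP
  have hcardAut : Nat.card (MulAut (Subgroup.zpowers x)) = p - 1 := by
    rw [IsCyclic.card_mulAut, hcardP, Nat.totient_prime hp]
  have hcount := card_classes hp x hC hx
  rw [hcardAut] at hcount
  set t := Nat.card {C : ConjClasses G // ∃ g ∈ C.carrier, orderOf g = p} with ht'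
  set R := conjAut (Subgroup.zpowers x) with hR
  have hpodd : Odd p := hp.odd_of_ne_two hp2
  have heven : Even (Nat.card R) := by
    have h1 : Even (p - 1) := hpodd.tsub_odd odd_one
    rw [hcount] at h1
    rcases Nat.even_mul.mp h1 with h | h
    · exact absurd h (Nat.not_even_iff_odd.mpr ht)
    · exact h
  have he2 : 2 ≤ Nat.card R := by
    have hpos : 0 < Nat.card R := Nat.card_pos
    obtain ⟨k, hk⟩ := heven
    omega
  obtain ⟨Λ, hΛ, hS⟩ := norm_bound hp hp2 x hx hC hχ hd
  have hRΛ : ∀ α ∈ R, α ∈ Λ := by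
    rintro α ⟨g, hg⟩
    rw [hΛ]
    intro u
    rw [← hg u]
    exact IsCharacter.isClassFunction (IsIrrCharacter.isCharacter hχ) _ _
  have hΛ2 : 2 ≤ Λ.card := by
    refine he2.trans ?_
    have hf : Function.Injective (fun α : R => (⟨α.1, hRΛ α.1 α.2⟩ : Λ)) := by
      intro a b hab
      exact Subtype.ext (congrArg (fun z : Λ => (z : MulAut (Subgroup.zpowers x))) hab)
    have := Nat.card_le_card_of_injective _ hf
    rwa [Nat.card_eq_fintype_card (α := Λ), Fintype.card_coe] at this
  have hsum0 : ∑ u : Subgroup.zpowers x, χ (u : G) = 0 :=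
    sum_apply_eq_zero hp hcardP
      (IsCharacter.comp (IsIrrCharacter.isCharacter hχ) (Subgroup.zpowers x).subtype)
      hd Λ (fun α hα u => (hΛ α).mp hα u) hΛ2 hS
  haveI hcycA : IsCyclic (MulAut (Subgroup.zpowers x)) := isCyclic_mulAut hp _ hcardP
  obtain ⟨r, hr⟩ := IsCyclic.exists_generator (α := R)
  have hor : orderOf (r : MulAut (Subgroup.zpowers x)) = Nat.card R := by
    rw [Subgroup.orderOf_coe]
    exact orderOf_eq_card_of_forall_mem_zpowers hr
  obtain ⟨n, hn⟩ := r.2
  set r₀ : MulAut (Subgroup.zpowers x) := r.1 with hr₀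
  have hr₀p : r₀ ^ p = r₀ := by
    have h1 : r₀ ^ (p - 1) = 1 := by
      rw [← hcardAut]
      exact pow_card_eq_one'
    have h2 : p = p - 1 + 1 := by have := hp.one_lt; omega
    rw [h2, pow_succ, h1, one_mul]
  let c : G := n ^ p
  have hc : ∀ u : Subgroup.zpowers x, c * (u : G) * c⁻¹ = (r₀ u : G) := by
    intro u
    have := acts_pow hn p u
    rw [hr₀p] at this
    exact this
  have hce : c ^ Nat.card R = 1 := by
    have h1 := acts_pow hn (Nat.card R)
    rw [← hor, pow_orderOf_eq_one] at h1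
    have h2 : n ^ orderOf r₀ ∈ Subgroup.zpowers x := by
      have h2' : n ^ orderOf r₀ ∈ Subgroup.centralizer ({x} : Set G) := by
        rw [Subgroup.mem_centralizer_iff]
        intro y hy
        rw [Set.mem_singleton_iff] at hy
        subst hy
        have h3 := h1 ⟨y, Subgroup.mem_zpowers y⟩
        have h4 : n ^ orderOf r₀ * y * (n ^ orderOf r₀)⁻¹ = y := h3
        rw [mul_inv_eq_iff_eq_mul] at h4
        exact h4.symm
      rwa [hC] at h2'
    have h5 : (⟨_, h2⟩ : Subgroup.zpowers x) ^ p = 1 := by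
      rw [← hcardP]
      exact pow_card_eq_one'
    have h6 : (n ^ orderOf r₀) ^ p = 1 := congrArg Subtype.val h5
    show (n ^ p) ^ Nat.card R = 1
    rw [← pow_mul, mul_comm, pow_mul, ← hor]
    exact h6
  have hoc : orderOf c = Nat.card R := by
    apply Nat.dvd_antisymm (orderOf_dvd_of_pow_eq_one hce)
    rw [← hor]
    apply orderOf_dvd_of_pow_eq_one
    ext u
    have h1 := acts_pow hc (orderOf c) u
    rw [pow_orderOf_eq_one] at h1
    simpa using h1.symm
  have h0 : ∀ g ∈ Subgroup.zpowers c, g ≠ 1 → χ g = 0 := by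
    intro g hg hg1
    have hfin : IsOfFinOrder c := isOfFinOrder_of_finite c
    rw [← hfin.mem_powers_iff_mem_zpowers] at hg
    obtain ⟨i, rfl⟩ := hg
    have hα : r₀ ^ i ≠ 1 := by
      intro h
      have h1 : orderOf r₀ ∣ i := orderOf_dvd_of_pow_eq_one h
      rw [hor, ← hoc] at h1
      exact hg1 (orderOf_dvd_iff_pow_eq_one.mp h1)
    exact apply_eq_zero_of_sum (IsIrrCharacter.isCharacter hχ) (Subgroup.zpowers x) hsum0 _
      (isConj_mul_of_acts hp x hx hα (acts_pow hc i))
  refine ⟨c, detChar_eq_neg_one (IsIrrCharacter.isCharacter hχ) c t ?_ h0 (hoc ▸ heven) ht⟩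
  rw [hoc, mul_comm, ← hcount]
  have h1 : 1 ≤ p := hp.one_lt.le
  push_cast [Nat.cast_sub h1]
  rw [← hd]
  ring

/-- The prime two: Burnside's transfer theorem. -/
theorem even_index_of_two (x : G) (hx : orderOf x = 2)
    (hC : Subgroup.centralizer ({x} : Set G) = Subgroup.zpowers x) :
    Even (commutator G).index := by
  classical
  haveI : Fact (Nat.Prime 2) := ⟨Nat.prime_two⟩
  have hxp : IsPGroup 2 (Subgroup.zpowers x) :=
    IsPGroup.of_card (n := 1) (by rw [Nat.card_zpowers, hx, pow_one])
  obtain ⟨S, hS⟩ := hxp.exists_le_sylow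
  have hle := le_of_sylow x hC hx S hS
  have hSP : (S : Subgroup G) = Subgroup.zpowers x := le_antisymm hle hS
  have hmem : ∀ u ∈ Subgroup.zpowers x, u = 1 ∨ u = x := by
    intro u hu
    obtain ⟨j, rfl⟩ := Subgroup.mem_zpowers_iff.mp hu
    rcases Int.emod_two_eq_zero_or_one j with h | h
    · left
      have h1 : (orderOf x : ℤ) ∣ j := by
        rw [hx]
        exact Int.dvd_of_emod_eq_zero h
      exact orderOf_dvd_iff_zpow_eq_one.mp h1
    · right
      have h1 : j = 2 * (j / 2) + 1 := by omega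
      have h2 : x ^ (2 : ℤ) = 1 := by
        have := pow_orderOf_eq_one x
        rw [hx] at this
        exact_mod_cast this
      rw [h1, zpow_add, zpow_mul, h2, one_zpow, one_mul, zpow_one]
  have hP : Subgroup.normalizer (S : Set G) ≤ Subgroup.centralizer (S : Set G) := by
    intro g hg
    rw [Subgroup.mem_centralizer_iff]
    intro s hs
    have hs' : s ∈ Subgroup.zpowers x := hle hs
    rcases hmem s hs' with rfl | rfl
    · simp
    · have hg1 : g * s * g⁻¹ ∈ (S : Subgroup G) := (Subgroup.mem_normalizer_iff.mp hg s).mp hs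
      rcases hmem _ (hle hg1) with h | h
      · exfalso
        have h2 : s = 1 := by
          have h3 : g * s * g⁻¹ * g = 1 * g := by rw [h]
          simpa using h3
        rw [h2, orderOf_one] at hx
        omega
      · have h3 : g * s * g⁻¹ * g = s * g := by rw [h]
        simpa using h3.symm
  have hc := MonoidHom.ker_transferSylow_isComplement' S hP
  have hindex := hc.symm.index_eq_card
  have hcardS : Nat.card (S : Subgroup G) = 2 := by rw [hSP, Nat.card_zpowers, hx]
  rw [hcardS] at hindex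
  have hcomm : ∀ a b : (S : Subgroup G), a * b = b * a := by
    letI : Fintype (S : Subgroup G) := Fintype.ofFinite _
    exact comm_of_prime_card Nat.prime_two hcardS
  letI : CommGroup (S : Subgroup G) := { (inferInstance : Group (S : Subgroup G)) with mul_comm := hcomm }
  have hle2 : commutator G ≤ (MonoidHom.transferSylow S hP).ker :=
    Abelianization.commutator_subset_ker (MonoidHom.transferSylow S hP)
  have hd := Subgroup.index_dvd_of_le hle2
  rw [hindex] at hd
  exact even_iff_two_dvd.mpr hd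

end Cfsg.Agent.Lib.Char.SelfCent
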