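import Cfsg.Agent.Lib.Char.PermChar
import Cfsg.Agent.Lib.Char.Clifford
import Cfsg.Agent.Lib.Char.Linear
import Cfsg.Agent.Lib.Char.Degree

set_option autoImplicit false
set_option linter.unusedSectionVars false

namespace Cfsg.Agent.Lib.Char

open Cfsg MulAction
open scoped ComplexConjugate

/-- **All degrees less than `p`**: a normal abelian Sylow `p`-subgroup. The rank of the action on the Sylow subgroups
is too small for a permutation character of small constituents. -/
theorem normal_abelian_sylow_of_degree_lt {G : Type*} [Group G] [Finite G] (p : ℕ) (hp : p.Prime) (hb : ∀ χ : Cfsg.IrrCharacter G, Cfsg.charDegree (χ : G → ℂ) < p) : ∃ P : Subgroup G, P.Normal ∧ (∀ x ∈ P, ∀ y ∈ P, x * y = y * x) ∧ IsPGroup p P ∧ ¬ p ∣ P.index := by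
  classical
  letI := Fintype.ofFinite G
  haveI hfp : Fact p.Prime := ⟨hp⟩
  set X := Sylow p G with hX
  set π : G → ℂ := fun g : G => (Nat.card (fixedBy X g) : ℂ) with hπ
  have hchar : IsCharacter G π := isCharacter_permChar
  have hcf : IsClassFunction G π := IsCharacter.isClassFunction hchar
  have hm : ∀ χ : IrrCharacter G, ∃ n : ℕ, classInner π (χ : G → ℂ) = n := fun χ =>
    IsCharacter.classInner_irr_eq_nat hchar χ.2
  choose m hm using hm
  letI : Fintype (IrrCharacter G) := Fintype.ofFinite _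
  -- the rank
  set r := Nat.card (orbitRel.Quotient G (X × X)) with hr
  have hrsum : r = ∑ χ : IrrCharacter G, m χ * m χ := by
    have h1 : classInner π π = (r : ℂ) := classInner_permChar_self
    rw [classInner_eq_sum_coeffs π π hcf hcf] at h1
    have h2 : ∑ χ : IrrCharacter G, classInner π (χ : G → ℂ) * conj (classInner π (χ : G → ℂ)) =
        ((∑ χ : IrrCharacter G, m χ * m χ : ℕ) : ℂ) := by
      push_cast
      refine Finset.sum_congr rfl fun χ _ => ?_
      rw [hm, map_natCast]
    rw [h2] at h1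
    exact_mod_cast h1.symm
  set n := Nat.card X with hn
  have hdeg : ∀ χ : IrrCharacter G, (χ : G → ℂ) 1 = charDegree (χ : G → ℂ) := fun χ =>
    apply_one_eq_charDegree (IsIrrCharacter.isCharacter χ.2)
  have hnsum : n = ∑ χ : IrrCharacter G, m χ * charDegree (χ : G → ℂ) := by
    have h1 := congrFun (classFunction_eq_sum π hcf) 1
    rw [Finset.sum_apply] at h1
    have h2 : π 1 = (n : ℂ) := by
      have h3 : fixedBy X (1 : G) = Set.univ := by
        ext a
        simp
      simp only [hπ]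
      rw [h3, Nat.card_congr (Equiv.Set.univ X)]
    rw [h2] at h1
    have h3 : ∑ χ : IrrCharacter G, (classInner π (χ : G → ℂ) • (χ : G → ℂ)) 1 =
        ((∑ χ : IrrCharacter G, m χ * charDegree (χ : G → ℂ) : ℕ) : ℂ) := by
      push_cast
      refine Finset.sum_congr rfl fun χ _ => ?_
      rw [Pi.smul_apply, smul_eq_mul, hm, hdeg]
    rw [h3] at h1
    exact_mod_cast h1
  -- the principal character
  set χ₀ : IrrCharacter G := ⟨fun _ => 1, isIrrCharacter_one⟩ with hχ₀
  have hm0 : m χ₀ = 1 := by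
    have h1 : classInner π (χ₀ : G → ℂ) = (Nat.card (orbitRel.Quotient G X) : ℂ) := classInner_permChar_one
    have h2 : Nat.card (orbitRel.Quotient G X) = 1 := by
      haveI : Subsingleton (orbitRel.Quotient G X) := by
        refine ⟨fun a b => ?_⟩
        induction a using Quotient.inductionOn' with | _ a => ?_
        induction b using Quotient.inductionOn' with | _ b => ?_
        apply Quotient.sound'
        exact MulAction.exists_smul_eq G b a
      haveI : Nonempty (orbitRel.Quotient G X) := ⟨Quotient.mk'' default⟩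
      exact Nat.card_unique
    rw [h2, hm] at h1
    exact_mod_cast h1
  have hdeg0 : charDegree (χ₀ : G → ℂ) = 1 := by
    have h := hdeg χ₀
    have h2 : (χ₀ : G → ℂ) 1 = 1 := rfl
    rw [h2] at h
    exact_mod_cast h.symm
  -- the orbits of a Sylow subgroup
  obtain ⟨P₀⟩ : Nonempty (Sylow p G) := inferInstance
  set s := Nat.card (orbitRel.Quotient (P₀ : Subgroup G) X) with hs
  have hrs : r ≤ s := by
    let f : orbitRel.Quotient (P₀ : Subgroup G) X → orbitRel.Quotient G (X × X) :=
      Quotient.map' (fun Q => (P₀, Q)) (by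
        intro a b h
        obtain ⟨g, rfl⟩ := h
        refine ⟨(g : G), ?_⟩
        have h1 : (g : G) • P₀ = P₀ := Sylow.smul_eq_iff_mem_normalizer.mpr (Subgroup.le_normalizer g.2)
        exact Prod.ext h1 rfl)
    have hf : Function.Surjective f := by
      intro x
      induction x using Quotient.inductionOn' with | _ x => ?_
      obtain ⟨A, B⟩ := x
      obtain ⟨g, hg⟩ := MulAction.exists_smul_eq G A P₀
      refine ⟨Quotient.mk'' (g • B), ?_⟩
      apply Quotient.sound'
      exact ⟨g, Prod.ext hg rfl⟩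
    exact Nat.card_le_card_of_surjective f hf
  have hns : 1 + p * (s - 1) ≤ n := by
    letI : Fintype (orbitRel.Quotient (P₀ : Subgroup G) X) := Fintype.ofFinite _
    have h1 : n = ∑ ω : orbitRel.Quotient (P₀ : Subgroup G) X, Nat.card (orbit (P₀ : Subgroup G) ω.out) := by
      have h2 := Nat.card_congr (MulAction.selfEquivSigmaOrbits (P₀ : Subgroup G) X)
      rw [hn, h2, Nat.card_sigma]
    have hP0p : IsPGroup p (P₀ : Subgroup G) := P₀.isPGroup'
    set ω₀ : orbitRel.Quotient (P₀ : Subgroup G) X := Quotient.mk'' P₀ with hω₀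
    have h3 : ∀ ω ∈ Finset.univ.erase ω₀, p ≤ Nat.card (orbit (P₀ : Subgroup G) ω.out) := by
      intro ω hω
      obtain ⟨k, hk⟩ := hP0p.card_orbit (ω.out)
      rcases Nat.eq_zero_or_pos k with h0 | h0
      · exfalso
        rw [h0, pow_zero] at hk
        have h5 : ω.out ∈ fixedPoints (P₀ : Subgroup G) X := by
          intro g
          have h6 : g • ω.out ∈ orbit (P₀ : Subgroup G) ω.out := mem_orbit _ g
          have h7 : ω.out ∈ orbit (P₀ : Subgroup G) ω.out := mem_orbit_self _
          haveI : Subsingleton (orbit (P₀ : Subgroup G) ω.out) := (Nat.card_eq_one_iff_unique.mp hk).1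
          have h8 := Subsingleton.elim (⟨_, h6⟩ : orbit (P₀ : Subgroup G) ω.out) ⟨_, h7⟩
          exact congrArg Subtype.val h8
        have h6 : (P₀ : Subgroup G) ≤ ω.out := hP0p.sylow_mem_fixedPoints_iff.mp h5
        have h7 : ω.out = P₀ := Sylow.ext ((P₀.is_maximal' (ω.out).isPGroup' h6))
        apply (Finset.mem_erase.mp hω).1
        have h9 : (Quotient.mk'' ω.out : orbitRel.Quotient (P₀ : Subgroup G) X) = ω := Quotient.out_eq' ω
        have h10 : (Quotient.mk'' ω.out : orbitRel.Quotient (P₀ : Subgroup G) X) = Quotient.mk'' P₀ :=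
          congrArg _ h7
        exact h9.symm.trans h10
      · rw [hk]
        calc p = p ^ 1 := (pow_one p).symm
          _ ≤ p ^ k := Nat.pow_le_pow_right hp.pos h0
    have hcardE : (Finset.univ.erase ω₀).card = s - 1 := by
      rw [Finset.card_erase_of_mem (Finset.mem_univ _), Finset.card_univ, hs, Nat.card_eq_fintype_card]
    have h4 : 1 ≤ Nat.card (orbit (P₀ : Subgroup G) ω₀.out) := by
      haveI : Nonempty (orbit (P₀ : Subgroup G) ω₀.out) := ⟨⟨_, mem_orbit_self _⟩⟩
      exact Nat.card_pos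
    have h5 := Finset.card_nsmul_le_sum _ _ p h3
    rw [hcardE, smul_eq_mul] at h5
    rw [h1, ← Finset.add_sum_erase _ _ (Finset.mem_univ ω₀)]
    nlinarith
  -- the arithmetic
  have hT1 : n = 1 + ∑ χ ∈ Finset.univ.erase χ₀, m χ * charDegree (χ : G → ℂ) := by
    rw [hnsum, ← Finset.add_sum_erase _ _ (Finset.mem_univ χ₀), hm0, hdeg0]
  have hT2 : r = 1 + ∑ χ ∈ Finset.univ.erase χ₀, m χ * m χ := by
    rw [hrsum, ← Finset.add_sum_erase _ _ (Finset.mem_univ χ₀), hm0]
  have hT3 : ∑ χ ∈ Finset.univ.erase χ₀, m χ * charDegree (χ : G → ℂ) ≤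
      (p - 1) * ∑ χ ∈ Finset.univ.erase χ₀, m χ * m χ := by
    rw [Finset.mul_sum]
    refine Finset.sum_le_sum fun χ _ => ?_
    have h1 : charDegree (χ : G → ℂ) ≤ p - 1 := by
      have := hb χ
      omega
    rcases Nat.eq_zero_or_pos (m χ) with h0 | h0
    · simp [h0]
    · calc m χ * charDegree (χ : G → ℂ) ≤ m χ * (p - 1) := Nat.mul_le_mul_left _ h1
        _ ≤ (m χ * m χ) * (p - 1) := Nat.mul_le_mul_right _ (Nat.le_mul_self _)
        _ = (p - 1) * (m χ * m χ) := Nat.mul_comm _ _
  have hp1 := hp.one_lt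
  have hs1 : s = 1 := by
    have hs0 : 1 ≤ s := by
      haveI : Nonempty (orbitRel.Quotient (P₀ : Subgroup G) X) := ⟨Quotient.mk'' P₀⟩
      exact Nat.card_pos
    by_contra hne
    obtain ⟨t, ht⟩ : ∃ t, s = t + 2 := ⟨s - 2, by omega⟩
    set q := ∑ χ ∈ Finset.univ.erase χ₀, m χ * m χ
    have h1 : q ≤ s - 1 := by omega
    have h2 : (p - 1) * q ≤ (p - 1) * (s - 1) := Nat.mul_le_mul_left _ h1
    obtain ⟨c, hc⟩ : ∃ c, p = c + 1 := ⟨p - 1, by omega⟩
    subst hc
    simp only [Nat.add_sub_cancel] at hT3 h2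
    have h3 : s - 1 = t + 1 := by omega
    rw [h3] at h2 hns
    nlinarith
  have hn1 : n = 1 := by
    have h1 : n ≤ 1 := by
      rw [hs1] at hns hrs
      have h2 : Nat.card (orbitRel.Quotient (P₀ : Subgroup G) X) = 1 := hs1
      have h3 : ∑ χ ∈ Finset.univ.erase χ₀, m χ * m χ = 0 := by omega
      rw [h3] at hT3
      omega
    have h2 : 0 < n := Nat.card_pos
    omega
  haveI hsub : Subsingleton X := (Nat.card_eq_one_iff_unique.mp hn1).1
  haveI hnorm : (P₀ : Subgroup G).Normal := Sylow.normal_of_subsingleton P₀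
  refine ⟨P₀, hnorm, ?_, P₀.isPGroup', P₀.not_dvd_index⟩
  -- abelian
  letI : Fintype (P₀ : Subgroup G) := Fintype.ofFinite _
  have hcomm : ∀ x y : (P₀ : Subgroup G), x * y = y * x := by
    rw [comm_iff_irr_degree_one]
    intro ψ
    obtain ⟨χ, hχ, hne⟩ := exists_over (P₀ : Subgroup G) ψ.2
    obtain ⟨e, he⟩ := IsCharacter.classInner_irr_eq_nat (isCharacter_resFun (P₀ : Subgroup G) (IsIrrCharacter.isCharacter hχ)) ψ.2
    have hdχ := apply_one_eq_charDegree (IsIrrCharacter.isCharacter hχ)
    have hdψ := apply_one_eq_charDegree (IsIrrCharacter.isCharacter ψ.2)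
    have h1 := clifford_degree_nat (P₀ : Subgroup G) hχ ψ.2 hne hdχ hdψ he
    have hdvd : charDegree (ψ : ↥(P₀ : Subgroup G) → ℂ) ∣ charDegree χ := ⟨e * (inertia (P₀ : Subgroup G) (ψ : ↥(P₀ : Subgroup G) → ℂ)).index, by rw [h1]; ring⟩
    have hle := Nat.le_of_dvd (charDegree_pos hχ) hdvd
    have hlt := hb ⟨χ, hχ⟩
    have hcard := charDegree_dvd_card ψ.2
    obtain ⟨a, ha⟩ := IsPGroup.iff_card.mp (P₀.isPGroup' : IsPGroup p (P₀ : Subgroup G))
    rw [ha] at hcard
    obtain ⟨j, -, hj⟩ := (Nat.dvd_prime_pow hp).mp hcard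
    rcases Nat.eq_zero_or_pos j with h0 | h0
    · rw [hdψ, hj, h0]
      simp
    · exfalso
      have h2 : p ≤ charDegree (ψ : ↥(P₀ : Subgroup G) → ℂ) := by
        rw [hj]
        calc p = p ^ 1 := (pow_one p).symm
          _ ≤ p ^ j := Nat.pow_le_pow_right hp.pos h0
      have hlt' : charDegree χ < p := hlt
      omega
  intro x hx y hy
  have := hcomm ⟨x, hx⟩ ⟨y, hy⟩
  exact congrArg Subtype.val this

end Cfsg.Agent.Lib.Char
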