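import Cfsg.Agent.Lib.Char.BrauerInd3
import Cfsg.Agent.Lib.Char.Clifford
import Cfsg.Agent.Lib.Char.Equiv
import Cfsg.Agent.Lib.Char.Degree

/-!
# Brauer's splitting field theorem
-/

set_option autoImplicit false
set_option linter.unusedSectionVars false

namespace Cfsg.Agent.Lib.Char.Splitting

open Cfsg Cfsg.Agent.Lib.Char Module
open scoped ComplexConjugate

universe u v

section Generic

/-- A subspace stable under a "division subalgebra" of endomorphisms has dimension divisible by the
dimension of that subalgebra. -/
theorem finrank_dvd_of_stable {K U : Type*} [Field K] [AddCommGroup U] [Module K U]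
    [FiniteDimensional K U] (D : Submodule K (Module.End K U)) (h1 : (1 : Module.End K U) ∈ D)
    (hmul : ∀ S ∈ D, ∀ T ∈ D, S * T ∈ D) (hinv : ∀ T ∈ D, T ≠ 0 → ∃ S ∈ D, S * T = 1)
    (W : Submodule K U) (hW : ∀ T ∈ D, ∀ w ∈ W, T w ∈ W) : finrank K D ∣ finrank K W := by
  classical
  suffices H : ∀ k : ℕ, ∀ W₀ : Submodule K U, W₀ ≤ W → (∀ T ∈ D, ∀ w ∈ W₀, T w ∈ W₀) →
      finrank K D ∣ finrank K W₀ → finrank K W - finrank K W₀ = k → finrank K D ∣ finrank K W from
    H _ ⊥ bot_le (fun T _ w hw => by
      rw [Submodule.mem_bot] at hw ⊢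
      rw [hw, map_zero]) (by simp) rfl
  intro k
  induction k using Nat.strong_induction_on with
  | _ k ih =>
  intro W₀ hle hst hd hk
  by_cases heq : W₀ = W
  · rw [← heq]
    exact hd
  obtain ⟨w, hw, hw0⟩ := SetLike.exists_of_lt (lt_of_le_of_ne hle heq)
  let app : D →ₗ[K] U := (LinearMap.applyₗ w).comp D.subtype
  have happ : ∀ T : D, app T = (T : Module.End K U) w := fun T => rfl
  have hnz : ∀ T : D, (T : Module.End K U) w ∈ W₀ → T = 0 := by
    intro T hT
    by_contra hne
    obtain ⟨S, hS, hST⟩ := hinv T T.2 (fun h => hne (Subtype.ext h))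
    apply hw0
    have h2 : w = S ((T : Module.End K U) w) := by
      rw [← Module.End.mul_apply, hST]
      rfl
    rw [h2]
    exact hst S hS _ hT
  have hinj : Function.Injective app := by
    rw [← LinearMap.ker_eq_bot, LinearMap.ker_eq_bot']
    intro T hT
    apply hnz
    rw [← happ, hT]
    exact W₀.zero_mem
  let L : Submodule K U := LinearMap.range app
  have hLfin : finrank K L = finrank K D := LinearMap.finrank_range_of_inj hinj
  have hLW : L ≤ W := by
    rintro _ ⟨T, rfl⟩
    exact hW T T.2 w hw
  have hdisj : L ⊓ W₀ = ⊥ := by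
    rw [eq_bot_iff]
    rintro _ ⟨⟨T, rfl⟩, h2⟩
    have h3 := hnz T h2
    rw [Submodule.mem_bot, h3, map_zero]
  have hW1le : W₀ ⊔ L ≤ W := sup_le hle hLW
  have hW1st : ∀ T ∈ D, ∀ x ∈ W₀ ⊔ L, T x ∈ W₀ ⊔ L := by
    intro T hT x hx
    obtain ⟨a, ha, b, hb, rfl⟩ := Submodule.mem_sup.mp hx
    rw [map_add]
    refine Submodule.add_mem _ (Submodule.mem_sup_left (hst T hT a ha)) (Submodule.mem_sup_right ?_)
    obtain ⟨S, rfl⟩ := hb
    exact ⟨⟨T * S, hmul T hT S S.2⟩, rfl⟩
  have hfr := Submodule.finrank_sup_add_finrank_inf_eq W₀ L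
  rw [inf_comm, hdisj, finrank_bot, add_zero, hLfin] at hfr
  have hlt : W₀ < W₀ ⊔ L := by
    refine lt_of_le_of_ne le_sup_left fun h => hw0 ?_
    rw [h]
    apply Submodule.mem_sup_right
    exact ⟨⟨1, h1⟩, rfl⟩
  have hfr1 := Submodule.finrank_lt_finrank_of_lt hlt
  have hfr2 := Submodule.finrank_mono hW1le
  refine ih (finrank K W - finrank K (W₀ ⊔ L : Submodule K U)) (by omega) (W₀ ⊔ L) hW1le hW1st ?_ rfl
  rw [hfr]
  exact dvd_add hd dvd_rfl

end Generic

section Rep

variable {G : Type u} [Group G] {F : Subfield ℂ}

/-- The complex character of a representation over a subfield of `ℂ`. -/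
noncomputable def cc {U : Type v} [AddCommGroup U] [Module F U] (ρ : Representation F G U) : G → ℂ :=
  fun g => ((ρ.character g : F) : ℂ)

/-- Complexification, in a basis. -/
noncomputable def cplx {U : Type v} [AddCommGroup U] [Module F U] {N : ℕ} (b : Basis (Fin N) F U)
    (ρ : Representation F G U) : Representation ℂ G (Fin N → ℂ) where
  toFun g := Matrix.toLin' ((LinearMap.toMatrix b b (ρ g)).map F.subtype)
  map_one' := by
    rw [map_one, Module.End.one_eq_id, LinearMap.toMatrix_id]
    simp [Matrix.map_one]
    rfl
  map_mul' x y := by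
    rw [map_mul, LinearMap.toMatrix_mul, Matrix.map_mul, Matrix.toLin'_mul]
    rfl

theorem cplx_apply {U : Type v} [AddCommGroup U] [Module F U] {N : ℕ} (b : Basis (Fin N) F U)
    (ρ : Representation F G U) (g : G) :
    cplx b ρ g = Matrix.toLin' ((LinearMap.toMatrix b b (ρ g)).map F.subtype) := rfl

theorem character_cplx {U : Type v} [AddCommGroup U] [Module F U] {N : ℕ} (b : Basis (Fin N) F U)
    (ρ : Representation F G U) : (cplx b ρ).character = cc ρ := by
  funext g
  show LinearMap.trace ℂ _ (cplx b ρ g) = ((LinearMap.trace F U (ρ g) : F) : ℂ)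
  rw [LinearMap.trace_eq_matrix_trace ℂ (Pi.basisFun ℂ (Fin N)), cplx_apply,
    LinearMap.trace_eq_matrix_trace F b, LinearMap.toMatrix_eq_toMatrix', LinearMap.toMatrix'_toLin']
  exact (AddMonoidHom.map_trace F.subtype _).symm

theorem isCharacter_cc {U : Type v} [AddCommGroup U] [Module F U] [FiniteDimensional F U]
    (ρ : Representation F G U) : IsCharacter G (cc ρ) :=
  ⟨_, cplx (finBasis F U) ρ, character_cplx _ _⟩

@[simp] theorem cc_one {U : Type v} [AddCommGroup U] [Module F U] [FiniteDimensional F U]
    (ρ : Representation F G U) : cc ρ 1 = (finrank F U : ℂ) := by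
  simp [cc]

theorem cc_prod {U : Type v} {W : Type v} [AddCommGroup U] [Module F U] [FiniteDimensional F U]
    [AddCommGroup W] [Module F W] [FiniteDimensional F W] (ρ : Representation F G U)
    (σ : Representation F G W) : cc (ρ.prod σ) = cc ρ + cc σ := by
  funext g
  have h : (ρ.prod σ).character g = ρ.character g + σ.character g :=
    LinearMap.trace_prodMap' (ρ g) (σ g)
  simp [cc, h]

instance [Finite G] : NeZero ((Nat.card G : ℕ) : F) :=
  ⟨by exact_mod_cast Nat.card_pos.ne'⟩

/-- A representation is equivalent to the direct sum of complementary subrepresentations. -/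
noncomputable def prodEquivOfIsCompl' {V : Type v} [AddCommGroup V] [Module F V]
    {ρ : Representation F G V} (A B : Subrepresentation ρ)
    (h : IsCompl A.toSubmodule B.toSubmodule) :
    (A.toRepresentation.prod B.toRepresentation).Equiv ρ :=
  .mk (Submodule.prodEquivOfIsCompl A.toSubmodule B.toSubmodule h) (fun g => by
    ext x
    · simp [Subrepresentation.toRepresentation]
    · simp [Subrepresentation.toRepresentation])

theorem isCompl_toSubmodule' {V : Type v} [AddCommGroup V] [Module F V] {ρ : Representation F G V}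
    {A B : Subrepresentation ρ} (h : IsCompl A B) : IsCompl A.toSubmodule B.toSubmodule := by
  constructor
  · rw [disjoint_iff]
    have := h.inf_eq_bot
    exact congrArg Subrepresentation.toSubmodule this
  · rw [codisjoint_iff]
    have := h.sup_eq_top
    exact congrArg Subrepresentation.toSubmodule this

theorem cc_eq_add_of_isCompl {V : Type v} [AddCommGroup V] [Module F V] [FiniteDimensional F V]
    {ρ : Representation F G V} (A B : Subrepresentation ρ) (h : IsCompl A.toSubmodule B.toSubmodule) :
    cc ρ = cc A.toRepresentation + cc B.toRepresentation := by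
  funext g
  have h1 := Representation.char_iso (prodEquivOfIsCompl' A B h)
  have h2 : cc ρ g = cc (A.toRepresentation.prod B.toRepresentation) g := by
    simp only [cc, h1]
  rw [h2, cc_prod]

variable [Fintype G]

/-- Every representation with a constituent `ψ` contains an irreducible one with constituent `ψ`. -/
theorem exists_simple (ψ : G → ℂ) (U : Type v) [AddCommGroup U] [Module F U] [FiniteDimensional F U]
    (ρ : Representation F G U) (h : classInner (cc ρ) ψ ≠ 0) :
    ∃ (W : Type v) (_ : AddCommGroup W) (_ : Module F W) (_ : FiniteDimensional F W)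
      (σ : Representation F G W), σ.IsIrreducible ∧ classInner (cc σ) ψ ≠ 0 := by
  induction hn : finrank F U using Nat.strong_induction_on generalizing U with
  | _ n ih =>
    by_cases hW : Subsingleton U
    · exfalso
      apply h
      have h0 : cc ρ = 0 := by
        funext g
        have : ρ g = 0 := LinearMap.ext fun v => Subsingleton.elim _ _
        simp [cc, Representation.character, this]
      rw [h0, classInner_zero_left]
    rw [not_subsingleton_iff_nontrivial] at hW
    have hnon : Nontrivial (Subrepresentation ρ) :=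
      ⟨⟨⊥, ⊤, fun h => by
        have h2 := congrArg Subrepresentation.toSubmodule h
        exact bot_ne_top (α := Submodule F U) h2⟩⟩
    by_cases hI : ρ.IsIrreducible
    · exact ⟨U, inferInstance, inferInstance, inferInstance, ρ, hI, h⟩
    have hex : ∃ A : Subrepresentation ρ, A ≠ ⊥ ∧ A ≠ ⊤ := by
      by_contra hcon
      push Not at hcon
      have hsimple : ∀ a : Subrepresentation ρ, a = ⊥ ∨ a = ⊤ := fun a =>
        (em (a = ⊥)).imp_right (hcon a)
      exact hI ⟨hsimple⟩
    obtain ⟨A, hA, hA'⟩ := hex
    obtain ⟨B, hB⟩ := exists_isCompl A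
    have hc := isCompl_toSubmodule' hB
    have hrank := Submodule.finrank_add_eq_of_isCompl hc
    have hA0 : A.toSubmodule ≠ ⊥ := fun h => hA (Subrepresentation.toSubmodule_injective h)
    have hB0 : B.toSubmodule ≠ ⊥ := fun h => by
      have : B = ⊥ := Subrepresentation.toSubmodule_injective h
      subst this
      apply hA'
      simpa using hB.sup_eq_top
    have hApos : 0 < finrank F A.toSubmodule := by
      rw [Module.finrank_pos_iff, Submodule.nontrivial_iff_ne_bot]
      exact hA0
    have hBpos : 0 < finrank F B.toSubmodule := by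
      rw [Module.finrank_pos_iff, Submodule.nontrivial_iff_ne_bot]
      exact hB0
    rw [cc_eq_add_of_isCompl A B hc, classInner_add_left] at h
    by_cases h1 : classInner (cc A.toRepresentation) ψ = 0
    · rw [h1, zero_add] at h
      exact ih _ (by omega) B.toSubmodule B.toRepresentation h rfl
    · exact ih _ (by omega) A.toSubmodule A.toRepresentation h1 rfl

/-- The regular representation. -/
noncomputable def reg (F : Subfield ℂ) (G : Type u) [Group G] : Representation F G (G → F) where
  toFun g := LinearMap.funLeft F F (fun x => g⁻¹ * x)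
  map_one' := by
    refine LinearMap.ext fun f => funext fun x => ?_
    simp [LinearMap.funLeft_apply]
  map_mul' x y := by
    refine LinearMap.ext fun f => funext fun z => ?_
    simp [LinearMap.funLeft_apply, mul_assoc]

/-- The regular representation has every irreducible character as a constituent. -/
theorem classInner_regular_ne_zero {ψ : G → ℂ} (hψ : IsIrrCharacter G ψ) :
    classInner (cc (reg F G)) ψ ≠ 0 := by
  classical
  have hcc : ∀ g : G, cc (reg F G) g = if g = 1 then (Nat.card G : ℂ) else 0 := by
    intro g
    have h1 : (reg F G).character g = ∑ x : G, if g⁻¹ * x = x then (1 : F) else 0 := by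
      show LinearMap.trace F _ _ = _
      rw [LinearMap.trace_eq_matrix_trace F (Pi.basisFun F G)]
      refine Finset.sum_congr rfl fun x _ => ?_
      rw [Matrix.diag_apply, LinearMap.toMatrix_apply]
      show ((reg F G g) (Pi.basisFun F G x)) x = _
      have h2 : (reg F G g) (Pi.basisFun F G x) x = (Pi.single x (1 : F) : G → F) (g⁻¹ * x) := by
        show LinearMap.funLeft F F (fun x => g⁻¹ * x) (Pi.basisFun F G x) x = _
        rw [LinearMap.funLeft_apply]
        simp
      rw [h2, Pi.single_apply]
    simp only [cc, h1]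
    by_cases hg : g = 1
    · subst hg
      simp [Nat.card_eq_fintype_card]
    · have h2 : ∀ x : G, g⁻¹ * x ≠ x := fun x hx => hg (inv_eq_one.mp (mul_eq_right.mp hx))
      simp [h2, hg]
  intro h0
  have h1 : classInner (cc (reg F G)) ψ = conj (ψ 1) := by
    unfold classInner
    rw [Finset.sum_eq_single (1 : G)]
    · rw [hcc, if_pos rfl]
      have : (Nat.card G : ℂ) ≠ 0 := by exact_mod_cast Nat.card_pos.ne'
      field_simp
    · intro g _ hg
      rw [hcc, if_neg hg, zero_mul]
    · intro h
      exact absurd (Finset.mem_univ _) h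
  rw [h1] at h0
  have h2 : ψ 1 = 0 := by simpa using h0
  exact IsIrrCharacter.apply_one_ne_zero hψ h2

end Rep

end Cfsg.Agent.Lib.Char.Splitting
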