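import Cfsg.Agent.Lib.Char.Splitting

/-!
# Brauer's splitting field theorem: the Schur index
-/

set_option autoImplicit false
set_option linter.unusedSectionVars false

namespace Cfsg.Agent.Lib.Char.Splitting

open Cfsg Cfsg.Agent.Lib.Char Module
open scoped ComplexConjugate

universe u v

section Simple

variable {G : Type u} [Group G] [Fintype G] {F : Subfield ℂ}
variable {ψ : G → ℂ} {U : Type v} [AddCommGroup U] [Module F U] [FiniteDimensional F U]

/-- The coefficient function of the idempotent. -/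
noncomputable def coef (hF : ∀ g, ψ g ∈ F) (g : G) : F :=
  (⟨ψ 1, hF 1⟩ : F) / ((Nat.card G : ℕ) : F) * ⟨ψ g⁻¹, hF g⁻¹⟩

theorem coe_coef (hF : ∀ g, ψ g ∈ F) (g : G) :
    ((coef hF g : F) : ℂ) = ψ 1 / (Nat.card G : ℂ) * ψ g⁻¹ := by
  simp [coef]

/-- The idempotent attached to `ψ`. -/
noncomputable def ee (hF : ∀ g, ψ g ∈ F) (ρ : Representation F G U) : Module.End F U :=
  ∑ g : G, coef hF g • ρ g

theorem coef_conj (hψ : IsIrrCharacter G ψ) (hF : ∀ g, ψ g ∈ F) (g x : G) :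
    coef hF (x * g * x⁻¹) = coef hF g := by
  apply Subtype.ext
  rw [coe_coef, coe_coef]
  congr 1
  have h := IsCharacter.isClassFunction (IsIrrCharacter.isCharacter hψ) g⁻¹ x
  rw [← h]
  congr 1
  group

theorem ee_comm (hψ : IsIrrCharacter G ψ) (hF : ∀ g, ψ g ∈ F) (ρ : Representation F G U) (x : G) :
    ee hF ρ * ρ x = ρ x * ee hF ρ := by
  unfold ee
  rw [Finset.sum_mul, Finset.mul_sum]
  refine Fintype.sum_equiv (MulAut.conj x⁻¹).toEquiv _ _ fun g => ?_
  show coef hF g • ρ g * ρ x = ρ x * (coef hF (x⁻¹ * g * x⁻¹⁻¹) • ρ (x⁻¹ * g * x⁻¹⁻¹))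
  rw [coef_conj hψ, mul_smul_comm, smul_mul_assoc, ← map_mul, ← map_mul]
  congr 2
  group

theorem sum_inv_mul (hψ : IsIrrCharacter G ψ) (x : G) :
    ∑ h : G, ψ h⁻¹ * ψ (h * x) = (Nat.card G : ℂ) / ψ 1 * ψ x := by
  have hc := IsIrrCharacter.isCharacter hψ
  have hcl : IsClassFunction G (fun h => ψ h⁻¹) := by
    intro g h
    have := IsCharacter.isClassFunction hc g⁻¹ h
    show ψ (h * g * h⁻¹)⁻¹ = ψ g⁻¹
    rw [← this]
    congr 1
    group
  rw [sum_classFun_mul_irr _ hcl hψ x]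
  congr 2
  have h1 := classInner_irr_self hψ
  unfold classInner at h1
  have hn : (Nat.card G : ℂ) ≠ 0 := by exact_mod_cast Nat.card_pos.ne'
  have h2 : ∑ g : G, ψ g * conj (ψ g) = (Nat.card G : ℂ) := by
    field_simp at h1
    exact h1
  rw [← h2]
  refine Finset.sum_congr rfl fun g _ => ?_
  rw [IsCharacter.apply_inv hc, mul_comm]

theorem sum_coef (hψ : IsIrrCharacter G ψ) (hF : ∀ g, ψ g ∈ F) (x : G) :
    ∑ h : G, coef hF (x * h⁻¹) * coef hF h = coef hF x := by
  apply Subtype.ext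
  rw [AddSubmonoidClass.coe_finsetSum]
  simp only [Subfield.coe_mul, coe_coef]
  have h1 := sum_inv_mul hψ x⁻¹
  have hn : (Nat.card G : ℂ) ≠ 0 := by exact_mod_cast Nat.card_pos.ne'
  have hd : ψ 1 ≠ 0 := IsIrrCharacter.apply_one_ne_zero hψ
  calc ∑ h : G, ψ 1 / (Nat.card G : ℂ) * ψ (x * h⁻¹)⁻¹ * (ψ 1 / (Nat.card G : ℂ) * ψ h⁻¹)
      = (ψ 1 / (Nat.card G : ℂ)) ^ 2 * ∑ h : G, ψ h⁻¹ * ψ (h * x⁻¹) := by
        rw [Finset.mul_sum]
        refine Finset.sum_congr rfl fun h _ => ?_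
        have : (x * h⁻¹)⁻¹ = h * x⁻¹ := by group
        rw [this]
        ring
    _ = ψ 1 / (Nat.card G : ℂ) * ψ x⁻¹ := by
        rw [h1]
        field_simp

theorem ee_sq (hψ : IsIrrCharacter G ψ) (hF : ∀ g, ψ g ∈ F) (ρ : Representation F G U) :
    ee hF ρ * ee hF ρ = ee hF ρ := by
  have h1 : ∀ h : G, ee hF ρ * (coef hF h • ρ h) = ∑ x : G, (coef hF (x * h⁻¹) * coef hF h) • ρ x := by
    intro h
    unfold ee
    rw [Finset.sum_mul]
    refine Fintype.sum_equiv (Equiv.mulRight h) _ _ fun g => ?_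
    show coef hF g • ρ g * (coef hF h • ρ h) = (coef hF (g * h * h⁻¹) * coef hF h) • ρ (g * h)
    rw [mul_inv_cancel_right, map_mul, smul_mul_smul_comm]
  have h2 : ee hF ρ * ee hF ρ = ∑ h : G, ee hF ρ * (coef hF h • ρ h) := by
    rw [← Finset.mul_sum]
    rfl
  rw [h2]
  simp_rw [h1]
  rw [Finset.sum_comm]
  unfold ee
  refine Finset.sum_congr rfl fun x _ => ?_
  rw [← Finset.sum_smul, sum_coef hψ hF]

theorem ee_trace (hψ : IsIrrCharacter G ψ) (hF : ∀ g, ψ g ∈ F) (ρ : Representation F G U) :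
    ((LinearMap.trace F U (ee hF ρ) : F) : ℂ) = ψ 1 * classInner (cc ρ) ψ := by
  have hc := IsIrrCharacter.isCharacter hψ
  unfold ee classInner
  rw [map_sum, AddSubmonoidClass.coe_finsetSum, Finset.mul_sum, Finset.mul_sum]
  refine Finset.sum_congr rfl fun g _ => ?_
  rw [map_smul, smul_eq_mul, Subfield.coe_mul, coe_coef, IsCharacter.apply_inv hc]
  show _ * ((LinearMap.trace F U (ρ g) : F) : ℂ) = ψ 1 * (_ * (((ρ.character g : F) : ℂ) * _))
  show _ * ((ρ.character g : F) : ℂ) = _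
  ring

theorem ee_eq_one (hψ : IsIrrCharacter G ψ) (hF : ∀ g, ψ g ∈ F) (ρ : Representation F G U)
    [ρ.IsIrreducible] (h : classInner (cc ρ) ψ ≠ 0) : ee hF ρ = 1 := by
  have hcm : ∀ (g : G) (v : U), ee hF ρ (ρ g v) = ρ g (ee hF ρ v) := fun g v =>
    congrArg (fun T : Module.End F U => T v) (ee_comm hψ hF ρ g)
  let f : ρ.IntertwiningMap ρ := (ee hF ρ).intertwiningMap_of_isIntertwiningMap ρ ρ hcm
  have hf : ∀ v, f v = ee hF ρ v := fun v => rfl
  rcases Representation.IsIrreducible.bijective_or_eq_zero f with hb | h0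
  · refine LinearMap.ext fun v => hb.1 ?_
    rw [hf, hf, Module.End.one_apply]
    exact congrArg (fun T : Module.End F U => T v) (ee_sq hψ hF ρ)
  · exfalso
    have h1 : ee hF ρ = 0 := by
      refine LinearMap.ext fun v => ?_
      rw [← hf, h0]
      rfl
    have h2 := ee_trace hψ hF ρ
    rw [h1, map_zero] at h2
    have h3 : ψ 1 * classInner (cc ρ) ψ = 0 := by
      rw [← h2]
      rfl
    exact (mul_ne_zero (IsIrrCharacter.apply_one_ne_zero hψ) h) h3

theorem exists_mult (hψ : IsIrrCharacter G ψ) (hF : ∀ g, ψ g ∈ F) (ρ : Representation F G U)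
    [ρ.IsIrreducible] (h : classInner (cc ρ) ψ ≠ 0) :
    ∃ m : ℕ, m ≠ 0 ∧ cc ρ = (m : ℂ) • ψ := by
  classical
  have hfr : (finrank F U : ℂ) = ψ 1 * classInner (cc ρ) ψ := by
    rw [← ee_trace hψ hF ρ, ee_eq_one hψ hF ρ h, LinearMap.trace_one]
    simp
  obtain ⟨n, hn, hs⟩ := IsCharacter.exists_eq_sum (isCharacter_cc ρ)
  let ψ₀ : IrrCharacter G := ⟨ψ, hψ⟩
  have hm : classInner (cc ρ) ψ = n ψ₀ := hn ψ₀
  have hdeg : ∀ ν : IrrCharacter G, ∃ d : ℕ, d ≠ 0 ∧ (ν : G → ℂ) 1 = d := by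
    intro ν
    obtain ⟨d, hd⟩ := IsCharacter.apply_one (IsIrrCharacter.isCharacter ν.2)
    refine ⟨d, ?_, hd⟩
    rintro rfl
    apply IsIrrCharacter.apply_one_ne_zero ν.2
    rw [hd]
    simp
  choose d hd0 hd using hdeg
  have h1 : finrank F U = ∑ ν, n ν * d ν := by
    have h2 := congrFun hs 1
    rw [cc_one] at h2
    rw [Finset.sum_apply] at h2
    have h3 : (finrank F U : ℂ) = ((∑ ν, n ν * d ν : ℕ) : ℂ) := by
      rw [h2]
      push_cast
      refine Finset.sum_congr rfl fun ν _ => ?_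
      rw [Pi.smul_apply, hd, nsmul_eq_mul]
    exact_mod_cast h3
  have h2 : finrank F U = n ψ₀ * d ψ₀ := by
    have h3 : (finrank F U : ℂ) = ((n ψ₀ * d ψ₀ : ℕ) : ℂ) := by
      rw [hfr, hm]
      push_cast
      rw [show ψ 1 = (d ψ₀ : ℂ) from hd ψ₀]
      ring
    exact_mod_cast h3
  have hzero : ∀ ν, ν ≠ ψ₀ → n ν = 0 := by
    intro ν hν
    by_contra hne
    have h3 : n ψ₀ * d ψ₀ + n ν * d ν ≤ ∑ ν', n ν' * d ν' := by
      have h4 : ({ψ₀, ν} : Finset (IrrCharacter G)) ⊆ Finset.univ := Finset.subset_univ _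
      have h5 := Finset.sum_le_sum_of_subset (f := fun ν' => n ν' * d ν') h4
      rwa [Finset.sum_pair (Ne.symm hν)] at h5
    rw [← h1, h2] at h3
    have h6 : 0 < n ν * d ν := Nat.mul_pos (Nat.pos_of_ne_zero hne) (Nat.pos_of_ne_zero (hd0 ν))
    omega
  refine ⟨n ψ₀, ?_, ?_⟩
  · intro h0
    apply h
    rw [hm, h0]
    simp
  · rw [hs, Finset.sum_eq_single ψ₀]
    · funext g
      simp [ψ₀]
    · intro ν _ hν
      rw [hzero ν hν, zero_smul]
    · intro h
      exact absurd (Finset.mem_univ _) h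

/-- The commutant of a representation. -/
def commutant (ρ : Representation F G U) : Submodule F (Module.End F U) where
  carrier := {T | ∀ g, T * ρ g = ρ g * T}
  add_mem' := by
    intro a b ha hb g
    rw [add_mul, mul_add, ha g, hb g]
  zero_mem' := by
    intro g
    rw [zero_mul, mul_zero]
  smul_mem' := by
    intro c a ha g
    rw [smul_mul_assoc, mul_smul_comm, ha g]

theorem mem_commutant {ρ : Representation F G U} {T : Module.End F U} :
    T ∈ commutant ρ ↔ ∀ g, T * ρ g = ρ g * T := Iff.rfl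

/-- The commutant is the space of intertwining maps. -/
noncomputable def commutantEquiv (ρ : Representation F G U) :
    ρ.IntertwiningMap ρ ≃ₗ[F] commutant ρ where
  toFun f := ⟨f.toLinearMap, fun g => f.isIntertwining' g⟩
  map_add' _ _ := rfl
  map_smul' _ _ := rfl
  invFun T := ⟨T.1, fun g => T.2 g⟩
  left_inv _ := rfl
  right_inv _ := rfl

theorem finrank_commutant (hψ : IsIrrCharacter G ψ) (ρ : Representation F G U) {m : ℕ}
    (hc : cc ρ = (m : ℂ) • ψ) : finrank F (commutant ρ) = m ^ 2 := by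
  have hchar := IsIrrCharacter.isCharacter hψ
  haveI : Invertible ((Nat.card G : ℕ) : F) := invertibleOfNonzero (NeZero.ne _)
  have h := Representation.card_inv_mul_sum_char_mul_char_eq_finrank ρ ρ
  rw [(commutantEquiv ρ).finrank_eq] at h
  have h1 := congrArg (fun x : F => (x : ℂ)) h
  simp only [Subfield.coe_mul, AddSubmonoidClass.coe_finsetSum] at h1
  have h2 : ∀ g : G, (((ρ.character g : F) : ℂ)) = m * ψ g := by
    intro g
    exact congrFun hc g
  simp only [h2] at h1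
  have h3 := classInner_irr_self hψ
  unfold classInner at h3
  have h4 : ∀ g : G, (m : ℂ) * ψ g * ((m : ℂ) * ψ g⁻¹) = (m : ℂ) ^ 2 * (ψ g * conj (ψ g)) := by
    intro g
    rw [IsCharacter.apply_inv hchar]
    ring
  simp only [h4] at h1
  rw [← Finset.mul_sum] at h1
  have h5 : (((((Nat.card G : ℕ) : F)⁻¹ : F) : ℂ)) = (Nat.card G : ℂ)⁻¹ := by
    simp
  rw [h5] at h1
  have h6 : (Nat.card G : ℂ)⁻¹ * ((m : ℂ) ^ 2 * ∑ g : G, ψ g * conj (ψ g)) = (m : ℂ) ^ 2 := by
    calc _ = (m : ℂ) ^ 2 * ((Nat.card G : ℂ)⁻¹ * ∑ g : G, ψ g * conj (ψ g)) := by ring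
      _ = _ := by rw [h3, mul_one]
  rw [h6] at h1
  have h7 : (((finrank F (commutant ρ) : ℕ) : F) : ℂ) = (finrank F (commutant ρ) : ℂ) := by simp
  rw [h7] at h1
  exact_mod_cast h1.symm

theorem commutant_inv (ρ : Representation F G U) [ρ.IsIrreducible] {T : Module.End F U}
    (hT : T ∈ commutant ρ) (h0 : T ≠ 0) : ∃ S ∈ commutant ρ, S * T = 1 := by
  classical
  let f : ρ.IntertwiningMap ρ := ⟨T, hT⟩
  have hf : ∀ v, f v = T v := fun v => rfl
  rcases Representation.IsIrreducible.bijective_or_eq_zero f with hb | h1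
  · have hb' : Function.Bijective T := hb
    let e : U ≃ₗ[F] U := LinearEquiv.ofBijective T hb'
    have he : ∀ v, e v = T v := fun v => rfl
    let S : Module.End F U := e.symm.toLinearMap
    have hS : ∀ v, T (S v) = v := fun v => e.apply_symm_apply v
    have hS' : ∀ v, S (T v) = v := fun v => e.symm_apply_apply v
    refine ⟨S, fun g => ?_, LinearMap.ext hS'⟩
    refine LinearMap.ext fun v => hb'.1 ?_
    have h2 : ∀ w, T (ρ g w) = ρ g (T w) := fun w =>
      congrArg (fun A : Module.End F U => A w) (hT g)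
    rw [Module.End.mul_apply, Module.End.mul_apply, hS, h2, hS]
  · exfalso
    apply h0
    refine LinearMap.ext fun v => ?_
    rw [← hf, h1]
    rfl

/-- The eigenspace of a linear character of a subgroup. -/
def eigen (ρ : Representation F G U) (E : Subgroup G) (l : E → F) : Submodule F U where
  carrier := {u | ∀ e : E, ρ e u = l e • u}
  add_mem' := by
    intro a b ha hb e
    rw [map_add, ha e, hb e, smul_add]
  zero_mem' := by
    intro e
    simp
  smul_mem' := by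
    intro c a ha e
    rw [map_smul, ha e, smul_comm]

theorem finrank_eigen (ρ : Representation F G U) (E : Subgroup G) [Fintype E] (lam : E →* ℂˣ)
    (hlam : ∀ e, (lam e : ℂ) ∈ F) :
    (finrank F (eigen ρ E (fun e => ⟨lam e, hlam e⟩)) : ℂ)
      = (Nat.card E : ℂ)⁻¹ * ∑ e : E, cc ρ e * conj (lam e : ℂ) := by
  classical
  let l : E → F := fun e => ⟨lam e, hlam e⟩
  have hl1 : l 1 = 1 := by
    apply Subtype.ext
    simp [l]
  have hlm : ∀ a b, l (a * b) = l a * l b := by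
    intro a b
    apply Subtype.ext
    simp [l]
  have hE0 : ((Nat.card E : ℕ) : F) ≠ 0 := by exact_mod_cast Nat.card_pos.ne'
  have hll : ∀ e, l e⁻¹ * l e = 1 := by
    intro e
    rw [← hlm, inv_mul_cancel, hl1]
  let S : Module.End F U := ∑ e : E, l e⁻¹ • ρ e
  let P : Module.End F U := ((Nat.card E : ℕ) : F)⁻¹ • S
  have hP : LinearMap.IsProj (eigen ρ E l) P := by
    constructor
    · intro u e₀
      have h1 : ρ e₀ (S u) = l e₀ • S u := by
        show ρ e₀ ((∑ e : E, l e⁻¹ • ρ e) u) = l e₀ • (∑ e : E, l e⁻¹ • ρ e) u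
        simp only [LinearMap.sum_apply, LinearMap.smul_apply, map_sum, map_smul, Finset.smul_sum]
        refine Fintype.sum_equiv (Equiv.mulLeft e₀) _ _ fun e => ?_
        show l e⁻¹ • ρ e₀ (ρ e u) = l e₀ • l (e₀ * e)⁻¹ • ρ ((e₀ * e : E) : G) u
        have h2 : l (e₀ * e)⁻¹ = l e⁻¹ * l e₀⁻¹ := by
          rw [mul_inv_rev, hlm]
        have h3 : ρ ((e₀ * e : E) : G) = ρ e₀ * ρ e := by
          rw [Subgroup.coe_mul, map_mul]
        rw [h2, h3, smul_smul, Module.End.mul_apply]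
        congr 1
        calc l e⁻¹ = l e₀ * (l e₀⁻¹ * l e⁻¹) := by
              rw [← mul_assoc, mul_comm (l e₀) (l e₀⁻¹), hll, one_mul]
          _ = l e₀ * (l e⁻¹ * l e₀⁻¹) := by rw [mul_comm (l e₀⁻¹)]
      show ρ e₀ (((Nat.card E : ℕ) : F)⁻¹ • S u) = l e₀ • ((Nat.card E : ℕ) : F)⁻¹ • S u
      rw [map_smul, h1, smul_comm]
    · intro u hu
      show ((Nat.card E : ℕ) : F)⁻¹ • (∑ e : E, l e⁻¹ • ρ e) u = u
      simp only [LinearMap.sum_apply, LinearMap.smul_apply]
      have h1 : ∀ e : E, l e⁻¹ • ρ e u = u := by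
        intro e
        rw [hu e, smul_smul, hll, one_smul]
      simp only [h1]
      rw [Finset.sum_const, Finset.card_univ, ← Nat.card_eq_fintype_card, ← Nat.cast_smul_eq_nsmul F,
        smul_smul, inv_mul_cancel₀ hE0, one_smul]
  have htr := hP.trace
  have h1 : ((LinearMap.trace F U P : F) : ℂ) = (((finrank F (eigen ρ E l) : ℕ) : F) : ℂ) :=
    congrArg (fun x : F => (x : ℂ)) htr
  have h2 : (((finrank F (eigen ρ E l) : ℕ) : F) : ℂ) = (finrank F (eigen ρ E l) : ℂ) := by simp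
  rw [h2] at h1
  show (finrank F (eigen ρ E l) : ℂ) = _
  rw [← h1]
  show ((LinearMap.trace F U (((Nat.card E : ℕ) : F)⁻¹ • ∑ e : E, l e⁻¹ • ρ e) : F) : ℂ) = _
  rw [map_smul, map_sum, smul_eq_mul, Subfield.coe_mul, AddSubmonoidClass.coe_finsetSum]
  have h3 : (((((Nat.card E : ℕ) : F)⁻¹ : F) : ℂ)) = (Nat.card E : ℂ)⁻¹ := by
    simp
  rw [h3]
  congr 1
  refine Finset.sum_congr rfl fun e _ => ?_
  rw [map_smul, smul_eq_mul, Subfield.coe_mul]
  have h4 : ((l e⁻¹ : F) : ℂ) = conj (lam e : ℂ) := by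
    show ((lam e⁻¹ : ℂˣ) : ℂ) = _
    exact IsCharacter.apply_inv (IsIrrCharacter.isCharacter (isIrrCharacter_of_monoidHom lam)) e
  rw [h4, mul_comm]
  rfl

/-- The key divisibility: the multiplicity of a linear character of a subgroup in `ψ` is divisible by
the Schur index. -/
theorem mult_dvd (hψ : IsIrrCharacter G ψ) (ρ : Representation F G U) [ρ.IsIrreducible] {m : ℕ}
    (hm0 : m ≠ 0) (hc : cc ρ = (m : ℂ) • ψ) (E : Subgroup G) [Fintype E] (lam : E →* ℂˣ)
    (hlam : ∀ e, (lam e : ℂ) ∈ F) {k : ℕ}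
    (hk : classInner (fun e : E => ψ e) (fun e => (lam e : ℂ)) = k) : m ∣ k := by
  classical
  let l : E → F := fun e => ⟨lam e, hlam e⟩
  have h1 : finrank F (commutant ρ) ∣ finrank F (eigen ρ E l) := by
    refine finrank_dvd_of_stable (commutant ρ) ?_ ?_ ?_ _ ?_
    · intro g
      rw [one_mul, mul_one]
    · intro S hS T hT g
      rw [mul_assoc, hT g, ← mul_assoc, hS g, mul_assoc]
    · intro T hT h0
      exact commutant_inv ρ hT h0
    · intro T hT w hw e
      have h2 := congrArg (fun A : Module.End F U => A w) (hT e)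
      simp only [Module.End.mul_apply] at h2
      rw [← h2, hw e, map_smul]
  rw [finrank_commutant hψ ρ hc] at h1
  have h2 := finrank_eigen ρ E lam hlam
  have h3 : (finrank F (eigen ρ E l) : ℂ) = (m : ℂ) * k := by
    rw [← hk]
    show (finrank F (eigen ρ E (fun e => ⟨lam e, hlam e⟩)) : ℂ) = _
    rw [h2]
    unfold classInner
    rw [Finset.mul_sum, Finset.mul_sum, Finset.mul_sum]
    refine Finset.sum_congr rfl fun e _ => ?_
    have h4 : cc ρ e = m * ψ e := congrFun hc e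
    rw [h4]
    ring
  have h4 : finrank F (eigen ρ E l) = m * k := by
    exact_mod_cast h3
  rw [h4, pow_two] at h1
  exact Nat.dvd_of_mul_dvd_mul_left (Nat.pos_of_ne_zero hm0) h1

end Simple

section Final

variable {G : Type u} [Group G] [Fintype G] {F : Subfield ℂ}

theorem lam_mem (hroots : ∀ x : ℂ, x ^ Monoid.exponent G = 1 → x ∈ F) (E : Subgroup G)
    (lam : E →* ℂˣ) (e : E) : (lam e : ℂ) ∈ F := by
  apply hroots
  have h1 : e ^ Monoid.exponent G = 1 :=
    Subtype.ext (by simpa using Monoid.pow_exponent_eq_one (e : G))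
  have h2 : lam e ^ Monoid.exponent G = 1 := by rw [← map_pow, h1, map_one]
  have h3 := congrArg Units.val h2
  rwa [Units.val_pow_eq_pow_val, Units.val_one] at h3

theorem linClosure_mem_F (hroots : ∀ x : ℂ, x ^ Monoid.exponent G = 1 → x ∈ F) {f : G → ℂ}
    (hf : f ∈ linClosure G) (g : G) : f g ∈ F := by
  induction hf using AddSubgroup.closure_induction with
  | mem f hf =>
    obtain ⟨E, lam, p, hp, hE, rfl⟩ := hf
    rw [indFun_apply]
    apply F.mul_mem
    · apply F.inv_mem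
      exact natCast_mem F _
    · apply F.sum_mem
      intro x _
      by_cases h : x⁻¹ * g * x ∈ E
      · rw [extendByZero_of_mem E _ h]
        exact lam_mem hroots E lam _
      · rw [extendByZero_of_notMem E _ h]
        exact F.zero_mem
  | zero => exact F.zero_mem
  | add a b _ _ ha hb => exact F.add_mem ha hb
  | neg a _ ha => exact F.neg_mem ha

theorem linClosure_inner (hroots : ∀ x : ℂ, x ^ Monoid.exponent G = 1 → x ∈ F) {ψ : G → ℂ}
    (hψ : IsIrrCharacter G ψ) {U : Type v} [AddCommGroup U] [Module F U] [FiniteDimensional F U]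
    (ρ : Representation F G U) [ρ.IsIrreducible] {m : ℕ} (hm0 : m ≠ 0) (hc : cc ρ = (m : ℂ) • ψ)
    {f : G → ℂ} (hf : f ∈ linClosure G) : ∃ z : ℤ, classInner ψ f = (m : ℂ) * z := by
  classical
  have hψc := IsIrrCharacter.isCharacter hψ
  induction hf using AddSubgroup.closure_induction with
  | mem f hf =>
    obtain ⟨E, lam, p, hp, hE, rfl⟩ := hf
    letI : Fintype E := Fintype.ofFinite E
    rw [classInner_indFun_right E _ ψ (IsCharacter.isClassFunction hψc)]
    obtain ⟨k, hk⟩ := IsCharacter.classInner_irr_eq_nat (IsCharacter.comp hψc E.subtype)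
      (isIrrCharacter_of_monoidHom lam)
    have hk' : classInner (fun e : E => ψ e) (fun e => (lam e : ℂ)) = k := hk
    obtain ⟨c, rfl⟩ := mult_dvd hψ ρ hm0 hc E lam (lam_mem hroots E lam) hk'
    refine ⟨c, ?_⟩
    rw [hk']
    push_cast
    ring
  | zero =>
    exact ⟨0, by rw [classInner_zero_right]; simp⟩
  | add a b _ _ ha hb =>
    obtain ⟨x, hx⟩ := ha
    obtain ⟨y, hy⟩ := hb
    refine ⟨x + y, ?_⟩
    rw [classInner_add_right, hx, hy]
    push_cast
    ring
  | neg a _ ha =>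
    obtain ⟨x, hx⟩ := ha
    refine ⟨-x, ?_⟩
    rw [classInner_neg_right, hx]
    push_cast
    ring

/-- `F`-realizable characters. -/
def Rlz (F : Subfield ℂ) (χ : G → ℂ) : Prop :=
  ∃ (U : Type u) (_ : AddCommGroup U) (_ : Module F U) (_ : FiniteDimensional F U)
    (ρ : Representation F G U), cc ρ = χ

theorem rlz_irr (hroots : ∀ x : ℂ, x ^ Monoid.exponent G = 1 → x ∈ F) {ψ : G → ℂ}
    (hψ : IsIrrCharacter G ψ) : Rlz F ψ := by
  have hψc := IsIrrCharacter.isCharacter hψ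
  have hψl := character_mem_linClosure hψc
  have hF : ∀ g, ψ g ∈ F := linClosure_mem_F hroots hψl
  obtain ⟨W, _, _, _, σ, hσ, hne⟩ := exists_simple ψ (G → F) (reg F G) (classInner_regular_ne_zero hψ)
  haveI := hσ
  obtain ⟨m, hm0, hc⟩ := exists_mult hψ hF σ hne
  obtain ⟨z, hz⟩ := linClosure_inner hroots hψ σ hm0 hc hψl
  rw [classInner_irr_self hψ] at hz
  have h1 : (1 : ℤ) = (m : ℤ) * z := by exact_mod_cast hz
  have h2 : (m : ℤ) ∣ 1 := ⟨z, h1⟩
  have h3 : m ∣ 1 := by exact_mod_cast h2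
  have h4 : m = 1 := Nat.dvd_one.mp h3
  subst h4
  refine ⟨W, inferInstance, inferInstance, inferInstance, σ, ?_⟩
  rw [hc]
  simp

theorem rlz_zero (F : Subfield ℂ) : Rlz F (0 : G → ℂ) := by
  refine ⟨PUnit, inferInstance, inferInstance, inferInstance, 1, ?_⟩
  funext g
  have h : finrank F PUnit.{u + 1} = 0 := finrank_zero_of_subsingleton
  simp [cc, Representation.character, h]

theorem Rlz.add {χ χ' : G → ℂ} (h : Rlz F χ) (h' : Rlz F χ') : Rlz F (χ + χ') := by
  obtain ⟨U, _, _, _, ρ, rfl⟩ := h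
  obtain ⟨U', _, _, _, ρ', rfl⟩ := h'
  exact ⟨U × U', inferInstance, inferInstance, inferInstance, ρ.prod ρ', cc_prod ρ ρ'⟩

theorem Rlz.nsmul {χ : G → ℂ} (h : Rlz F χ) (n : ℕ) : Rlz F (n • χ) := by
  induction n with
  | zero =>
    rw [zero_smul]
    exact rlz_zero F
  | succ n ih =>
    rw [succ_nsmul]
    exact ih.add h

theorem rlz_char (hroots : ∀ x : ℂ, x ^ Monoid.exponent G = 1 → x ∈ F) {χ : G → ℂ}
    (hχ : IsCharacter G χ) : Rlz F χ := by
  classical
  obtain ⟨n, -, rfl⟩ := IsCharacter.exists_eq_sum hχ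
  refine Finset.sum_induction _ (Rlz F) (fun _ _ h h' => h.add h') (rlz_zero F) fun ν _ => ?_
  exact (rlz_irr hroots ν.2).nsmul _

theorem main_F (hroots : ∀ x : ℂ, x ^ Monoid.exponent G = 1 → x ∈ F) (n : ℕ)
    (ρ₀ : Representation ℂ G (Fin n → ℂ)) :
    ∃ σ : Representation ℂ G (Fin n → ℂ), Nonempty (ρ₀.Equiv σ) ∧
      ∀ (g : G) (i j : Fin n), LinearMap.toMatrix' (σ g) i j ∈ F := by
  classical
  obtain ⟨U, _, _, _, ρ, hρ⟩ := rlz_char hroots (χ := ρ₀.character) ⟨n, ρ₀, rfl⟩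
  obtain ⟨N, ⟨b⟩⟩ : ∃ N, Nonempty (Basis (Fin N) F U) := ⟨_, ⟨finBasis F U⟩⟩
  have hNn : N = n := by
    have h1 := congrFun hρ 1
    rw [cc_one, Representation.char_one, finrank_eq_card_basis b] at h1
    simp only [Fintype.card_fin, finrank_fin_fun] at h1
    exact_mod_cast h1
  subst hNn
  refine ⟨cplx b ρ, equiv_of_character_eq ρ₀ _ ?_, fun g i j => ?_⟩
  · rw [character_cplx, hρ]
  · rw [cplx_apply, LinearMap.toMatrix'_toLin', Matrix.map_apply]
    exact ((LinearMap.toMatrix b b) (ρ g) i j).2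

end Final

end Cfsg.Agent.Lib.Char.Splitting
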