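import Cfsg.Agent.Lib.Char.Degree
import Cfsg.Agent.Lib.Char.FTBound
import Cfsg.Agent.Lib.Char.Clifford
import Cfsg.Agent.Lib.Char.CliffordBij
import Cfsg.Agent.Lib.Char.MGroup
import Cfsg.Agent.Lib.Basic.MinNormal
import Cfsg.Agent.Lib.Basic.Misc2
import Cfsg.Agent.Lib.Basic.Solv1
import Cfsg.Agent.Lib.PGroups.EqualOrder

/-!
# Winter's theorem: the primitive case, part A
-/

set_option autoImplicit false
set_option linter.unusedSectionVars false

namespace Cfsg.Agent.Lib.Char.Winter

open Cfsg Cfsg.Agent.Lib.Char Cfsg.Agent.Lib.Char.FT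
open scoped ComplexConjugate

universe u

section Square

variable {G : Type u} [Group G] [Fintype G]

/-- The "square lemma": a constituent of a faithful irreducible character on a subgroup `Y`, all of
whose non-central elements have nontrivial central commutators in `Y`, has `θ(1)² = [Y : Z]`. -/
theorem card_eq_of_vanishing {χ : G → ℂ} (hχ : IsIrrCharacter G χ) (hf : ∀ g, χ g = χ 1 → g = 1)
    (Y : Subgroup G) [Fintype Y] (hZY : Subgroup.center G ≤ Y)
    (hY : ∀ x ∈ Y, x ∉ Subgroup.center G →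
      ∃ v ∈ Y, x * v * x⁻¹ * v⁻¹ ∈ Subgroup.center G ∧ x * v * x⁻¹ * v⁻¹ ≠ 1)
    {θ : Y → ℂ} (hθ : IsIrrCharacter Y θ) (hc : classInner (resFun Y χ) θ ≠ 0) {d : ℕ} (hd : θ 1 = d) :
    Nat.card Y = Nat.card (Subgroup.center G) * d ^ 2 := by
  classical
  have hχ1 : χ 1 ≠ 0 := IsIrrCharacter.apply_one_ne_zero hχ
  have hθ1 : θ 1 ≠ 0 := IsIrrCharacter.apply_one_ne_zero hθ
  have hcent : ∀ z : Y, (z : G) ∈ Subgroup.center G → z ∈ Subgroup.center Y := by
    intro z hz
    rw [Subgroup.mem_center_iff]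
    intro y
    exact Subtype.ext (Subgroup.mem_center_iff.mp hz y)
  -- the scalar
  have hχz : ∀ z : Y, (z : G) ∈ Subgroup.center G → ∀ y : Y,
      χ ((y : G) * z) = χ y * (χ z / χ 1) := by
    intro z hz y
    have h := apply_mul_of_mem_center hχ hz (y : G)
    field_simp
    linear_combination h
  have hθz : ∀ z : Y, (z : G) ∈ Subgroup.center G → ∀ y : Y,
      θ (y * z) = θ y * (χ z / χ 1) := by
    intro z hz y
    have h1 := apply_mul_of_mem_center hθ (hcent z hz)
    set ω := θ z / θ 1 with hω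
    have hθω : ∀ y, θ (y * z) = θ y * ω := by
      intro y
      have := h1 y
      rw [hω]
      field_simp
      linear_combination this
    have hnorm : ‖ω‖ = 1 := by
      rw [hω, norm_div, norm_of_mem_center hθ (hcent z hz), div_self]
      exact norm_ne_zero_iff.mpr hθ1
    have hsum : ∑ y : Y, χ y * conj (θ y) ≠ 0 := by
      intro h0
      apply hc
      show ((Nat.card Y : ℂ))⁻¹ * ∑ y : Y, resFun Y χ y * conj (θ y) = 0
      simp only [resFun]
      rw [h0, mul_zero]
    have hre : ∑ y : Y, χ y * conj (θ y) = (χ z / χ 1) * conj ω * ∑ y : Y, χ y * conj (θ y) := by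
      conv_lhs => rw [← Equiv.sum_comp (Equiv.mulRight z)]
      rw [Finset.mul_sum]
      refine Finset.sum_congr rfl fun y _ => ?_
      show χ ((y * z : Y) : G) * conj (θ (y * z)) = _
      rw [hθω, map_mul, Subgroup.coe_mul, hχz z hz y]
      ring
    have h2 : (χ z / χ 1) * conj ω = 1 := by
      have h3 : ((χ z / χ 1) * conj ω - 1) * ∑ y : Y, χ y * conj (θ y) = 0 := by
        rw [sub_mul, one_mul, ← hre, sub_self]
      rcases mul_eq_zero.mp h3 with h4 | h4
      · exact sub_eq_zero.mp h4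
      · exact absurd h4 hsum
    have h3 : ω * conj ω = 1 := by
      rw [Complex.mul_conj, Complex.normSq_eq_norm_sq, hnorm]
      simp
    have h4 : conj ω ≠ 0 := by
      intro h5
      rw [h5, mul_zero] at h3
      exact zero_ne_one h3
    have h5 : χ z / χ 1 = ω := mul_right_cancel₀ h4 (h2.trans h3.symm)
    rw [hθω, h5]
  -- vanishing
  have hzero : ∀ y : Y, (y : G) ∉ Subgroup.center G → θ y = 0 := by
    intro y hy
    obtain ⟨v, hv, hzc, hz1⟩ := hY y y.2 hy
    set z : G := (y : G) * v * (y : G)⁻¹ * v⁻¹ with hz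
    let Z' : Y := ⟨z⁻¹, Y.inv_mem (hZY hzc)⟩
    let V : Y := ⟨v, hv⟩
    have h1 : V * y * V⁻¹ = y * Z' := by
      apply Subtype.ext
      show v * (y : G) * v⁻¹ = (y : G) * z⁻¹
      have h0 : (y : G) * z⁻¹ = z⁻¹ * y := (Subgroup.mem_center_iff.mp (Subgroup.inv_mem _ hzc) y)
      rw [h0, hz]
      group
    have h2 := IsCharacter.isClassFunction (IsIrrCharacter.isCharacter hθ) y V
    rw [h1, hθz Z' (Subgroup.inv_mem _ hzc) y] at h2
    by_contra hne
    have h3 : χ z⁻¹ / χ 1 = 1 := mul_left_cancel₀ hne (by rw [mul_one]; exact h2)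
    have h4 : χ z⁻¹ = χ 1 := by
      field_simp at h3
      exact h3
    have h5 := hf _ h4
    exact hz1 (inv_eq_one.mp h5)
  -- the count
  have hsum : (Nat.card (Subgroup.center G) : ℝ) * (d : ℝ) ^ 2 = Nat.card Y := by
    rw [← sum_norm_sq_irr hθ]
    have h2 : ∀ y : Y, ‖θ y‖ ^ 2 = if (y : G) ∈ Subgroup.center G then (d : ℝ) ^ 2 else 0 := by
      intro y
      split_ifs with hy
      · rw [norm_of_mem_center hθ (hcent y hy), hd]
        simp
      · rw [hzero y hy]
        simp
    simp only [h2]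
    rw [Finset.sum_ite]
    simp only [Finset.sum_const_zero, add_zero, Finset.sum_const, nsmul_eq_mul]
    congr 2
    have h3 : Nat.card (Subgroup.center G) = Nat.card ((Subgroup.center G).subgroupOf Y) :=
      (Nat.card_congr (Subgroup.subgroupOfEquivOfLe hZY).toEquiv).symm
    rw [h3, Nat.card_eq_fintype_card, Fintype.card_subtype]
    congr 1
    ext y
    simp [Subgroup.mem_subgroupOf]
  have hsumN : Nat.card (Subgroup.center G) * d ^ 2 = Nat.card Y := by
    exact_mod_cast hsum
  exact hsumN.symm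

end Square

end Cfsg.Agent.Lib.Char.Winter
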