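import Cfsg.Agent.Lib.Char.WinterA
import Cfsg.Agent.Lib.Basic.Core

/-!
# Winter's theorem: the primitive case
-/

set_option autoImplicit false
set_option linter.unusedSectionVars false

namespace Cfsg.Agent.Lib.Char.Winter

open Cfsg Cfsg.Agent.Lib.Char Cfsg.Agent.Lib.Char.FT Cfsg.Agent.Lib.Basic
open scoped ComplexConjugate

universe u

/-- The conclusion of Winter's theorem. -/
def Concl (p n : ℕ) : Prop :=
  ∃ q : ℕ, IsPrimePow q ∧ q ∣ n ∧
    ((q : ℤ) ≡ -1 [ZMOD p] ∨ (q : ℤ) ≡ 0 [ZMOD p] ∨ (q : ℤ) ≡ 1 [ZMOD p])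

theorem Concl.of_dvd {p n d : ℕ} (h : Concl p d) (hd : d ∣ n) : Concl p n := by
  obtain ⟨q, h1, h2, h3⟩ := h
  exact ⟨q, h1, h2.trans hd, h3⟩

theorem concl_of_pow_self {p m n : ℕ} (hp : p.Prime) (hm : m ≠ 0) (hn : p ^ m ∣ n) : Concl p n := by
  refine ⟨p ^ m, hp.isPrimePow.pow hm, hn, Or.inr (Or.inl ?_)⟩
  rw [Int.modEq_zero_iff_dvd]
  have : p ∣ p ^ m := dvd_pow_self p hm
  exact_mod_cast this

theorem concl_of_modEq_one {p r k n : ℕ} (hr : r.Prime) (hk : k ≠ 0)
    (hmod : r ^ k ≡ 1 [MOD p]) (hn : r ^ k ∣ n) : Concl p n := by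
  refine ⟨r ^ k, hr.isPrimePow.pow hk, hn, Or.inr (Or.inr ?_)⟩
  have := (Int.natCast_modEq_iff).mpr hmod
  simpa using this

theorem concl_of_modEq {p r m m₀ n : ℕ} (hp : p.Prime) (hr : r.Prime) (hrp : r ≠ p) (hlt : m₀ < m)
    (hmod : r ^ (2 * m) ≡ r ^ (2 * m₀) [MOD p]) (hn : r ^ m ∣ n) : Concl p n := by
  have hcop : p.Coprime r := (Nat.coprime_primes hp hr).mpr (Ne.symm hrp)
  obtain ⟨k, hk⟩ : ∃ k, m = m₀ + k := ⟨m - m₀, by omega⟩
  have hk0 : k ≠ 0 := by omega
  have h1 : (r ^ k) ^ 2 * r ^ (2 * m₀) ≡ 1 * r ^ (2 * m₀) [MOD p] := by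
    have : (r ^ k) ^ 2 * r ^ (2 * m₀) = r ^ (2 * m) := by
      rw [hk, ← pow_mul, ← pow_add]
      congr 1
      ring
    rw [this, one_mul]
    exact hmod
  have h2 : (r ^ k) ^ 2 ≡ 1 [MOD p] :=
    Nat.ModEq.cancel_right_of_coprime (Nat.Coprime.pow_right _ hcop) h1
  have h3 : ((p : ℕ) : ℤ) ∣ ((1 : ℕ) : ℤ) - (((r ^ k) ^ 2 : ℕ) : ℤ) := Nat.modEq_iff_dvd.mp h2
  set q : ℕ := r ^ k with hq
  have h4 : ((p : ℕ) : ℤ) ∣ (1 - (q : ℤ)) * (1 + (q : ℤ)) := by
    have : (1 - (q : ℤ)) * (1 + (q : ℤ)) = ((1 : ℕ) : ℤ) - ((q ^ 2 : ℕ) : ℤ) := by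
      push_cast
      ring
    rw [this]
    exact h3
  have hdq : q ∣ n := by
    refine (Nat.pow_dvd_pow r ?_).trans hn
    omega
  refine ⟨q, hr.isPrimePow.pow hk0, hdq, ?_⟩
  rcases (Nat.prime_iff_prime_int.mp hp).dvd_or_dvd h4 with h5 | h5
  · right; right
    rw [Int.modEq_iff_dvd]
    exact h5
  · left
    rw [Int.modEq_iff_dvd]
    have : (-1 - (q : ℤ)) = -(1 + (q : ℤ)) := by ring
    rw [this]
    exact (dvd_neg).mpr h5

section Quot

variable {G : Type u} [Group G]

/-- The quotient map by the centre. -/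
abbrev piZ (G : Type u) [Group G] : G →* G ⧸ Subgroup.center G := QuotientGroup.mk' _

theorem piZ_surj : Function.Surjective (piZ G) := QuotientGroup.mk'_surjective _

theorem piZ_eq_one_iff {x : G} : piZ G x = 1 ↔ x ∈ Subgroup.center G :=
  QuotientGroup.eq_one_iff x

theorem piZ_comm_iff {a b : G} :
    piZ G a * piZ G b = piZ G b * piZ G a ↔ a * b * a⁻¹ * b⁻¹ ∈ Subgroup.center G := by
  rw [← piZ_eq_one_iff]
  simp only [map_mul, map_inv]
  constructor
  · intro h
    rw [h]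
    group
  · intro h
    have h2 : piZ G a * piZ G b = (piZ G a * piZ G b * (piZ G a)⁻¹ * (piZ G b)⁻¹) * (piZ G b * piZ G a) := by
      group
    rw [h, one_mul] at h2
    exact h2

theorem card_of_center_le [Finite G] {H : Subgroup G} (hZ : Subgroup.center G ≤ H) :
    Nat.card H = Nat.card (Subgroup.center G) * Nat.card (H.map (piZ G)) := by
  have h1 : H = (H.map (piZ G)).comap (piZ G) := by
    refine (Subgroup.comap_map_eq_self ?_).symm
    rw [QuotientGroup.ker_mk']
    exact hZ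
  have h2 : (H.map (piZ G)).comap (piZ G) = H := h1.symm
  have hi : H.index = (H.map (piZ G)).index := by
    conv_lhs => rw [h1]
    exact Subgroup.index_comap_of_surjective _ piZ_surj
  have h3 := Subgroup.card_mul_index H
  have h4 := Subgroup.card_mul_index (H.map (piZ G))
  have h5 := Subgroup.card_eq_card_quotient_mul_card_subgroup (Subgroup.center G)
  have hpos : 0 < H.index := Nat.pos_of_ne_zero (Subgroup.index_ne_zero_of_finite)
  apply Nat.eq_of_mul_eq_mul_right hpos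
  rw [h3, hi, mul_assoc, h4, h5, mul_comm]

end Quot

section Main

variable {G : Type u} [Group G] [Fintype G]

/-- The subgroups appearing in the primitive case. -/
structure Special (N : Subgroup G) (r : ℕ) : Prop where
  normal : N.Normal
  prime : r.Prime
  le : Subgroup.center G ≤ N
  ne : N ≠ Subgroup.center G
  pow : ∀ x ∈ N, x ^ r ∈ Subgroup.center G
  comm : ∀ a ∈ N, ∀ b ∈ N, a * b * a⁻¹ * b⁻¹ ∈ Subgroup.center G
  fit : ∀ a ∈ N, ∀ x ∈ fittingSubgroup G, x * a * x⁻¹ * a⁻¹ ∈ Subgroup.center G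

theorem exists_special [Group.IsSolvable G] {L : Subgroup G} (hL : L.Normal)
    (hZ : Subgroup.center G ≤ L) (hF : L ≤ fittingSubgroup G) (hne : L ≠ Subgroup.center G) :
    ∃ (N : Subgroup G) (r : ℕ), N ≤ L ∧ Special N r := by
  classical
  have hsurj : Function.Surjective (piZ G) := piZ_surj
  have hLn : (L.map (piZ G)).Normal := hL.map (piZ G) hsurj
  have hLne : L.map (piZ G) ≠ ⊥ := by
    intro h
    apply hne
    apply le_antisymm _ hZ
    intro x hx
    have : piZ G x ∈ L.map (piZ G) := Subgroup.mem_map_of_mem (piZ G) hx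
    rw [h, Subgroup.mem_bot] at this
    exact piZ_eq_one_iff.mp this
  obtain ⟨M, hM, hML⟩ := exists_isMinNormal_le hLn hLne
  obtain ⟨hcomm, r, hr, hpow⟩ := hM.elementary
  haveI hMn : M.Normal := hM.1
  have hcomm' : ∀ a ∈ M, ∀ b ∈ M, a * b = b * a := by
    intro a ha b hb
    have := hcomm.is_comm.comm (⟨a, ha⟩ : M) ⟨b, hb⟩
    exact congrArg Subtype.val this
  have hle : Subgroup.center G ≤ M.comap (piZ G) := by
    intro z hz
    rw [Subgroup.mem_comap, piZ_eq_one_iff.mpr hz]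
    exact M.one_mem
  refine ⟨M.comap (piZ G), r, ?_, ?_⟩
  · intro x hx
    obtain ⟨l, hl, hlx⟩ := hML hx
    have h1 : l⁻¹ * x ∈ Subgroup.center G := by
      rw [← piZ_eq_one_iff, map_mul, map_inv, hlx]
      simp
    have h2 := L.mul_mem hl (hZ h1)
    simpa using h2
  · refine ⟨hMn.comap _, hr, hle, ?_, ?_, ?_, ?_⟩
    · intro h
      apply hM.2.1
      have h3 := Subgroup.map_comap_eq_self_of_surjective hsurj M
      rw [← h3, h, eq_bot_iff]
      rintro _ ⟨z, hz, rfl⟩
      exact piZ_eq_one_iff.mpr hz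
    · intro x hx
      rw [← piZ_eq_one_iff, map_pow]
      exact hpow _ hx
    · intro a ha b hb
      rw [← piZ_comm_iff]
      exact hcomm' _ ha _ hb
    · intro a ha x hx
      rw [← piZ_comm_iff]
      have hFn : (fittingSubgroup G).Normal := fittingSubgroup_normal
      have hnil : Group.IsNilpotent (fittingSubgroup G) := fittingSubgroup_isNilpotent
      have h5 : ((fittingSubgroup G).map (piZ G)).Normal := hFn.map _ hsurj
      have h6 : Group.IsNilpotent ((fittingSubgroup G).map (piZ G)) :=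
        Group.nilpotent_of_surjective ((piZ G).subgroupMap (fittingSubgroup G))
          ((piZ G).subgroupMap_surjective _)
      have h7 := le_fittingSubgroup_of_nilpotent h5 h6
      have h8 := fittingSubgroup_le_centralizer_minNormal M hM.2.1 hM.2.2
      have h9 : piZ G x ∈ Subgroup.centralizer (M : Set (G ⧸ Subgroup.center G)) :=
        h8 (h7 (Subgroup.mem_map_of_mem _ hx))
      rw [Subgroup.mem_centralizer_iff] at h9
      exact (h9 _ ha).symm

theorem Special.card_map {N : Subgroup G} {r : ℕ} (h : Special N r) :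
    ∃ k, Nat.card (N.map (piZ G)) = r ^ k := by
  haveI := Fact.mk h.prime
  have hp : IsPGroup r (N.map (piZ G)) := by
    rintro ⟨_, x, hx, rfl⟩
    refine ⟨1, ?_⟩
    apply Subtype.ext
    simp only [pow_one, Subgroup.coe_pow, Subgroup.coe_one]
    rw [← map_pow]
    exact piZ_eq_one_iff.mpr (h.pow x hx)
  exact IsPGroup.iff_card.mp hp

theorem Special.exists_comm {N : Subgroup G} {r : ℕ}
    (hcent : ∀ A : Subgroup G, A.Normal → (∀ a ∈ A, ∀ b ∈ A, a * b = b * a) → A ≤ Subgroup.center G)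
    (h : Special N r) {x : G} (hx : x ∈ N) (hxZ : x ∉ Subgroup.center G) :
    ∃ v ∈ N, x * v * x⁻¹ * v⁻¹ ∈ Subgroup.center G ∧ x * v * x⁻¹ * v⁻¹ ≠ 1 := by
  by_contra hcon
  push Not at hcon
  haveI := h.normal
  let A : Subgroup G := N ⊓ Subgroup.centralizer (N : Set G)
  have hA : A.Normal := inferInstance
  have hAZ : A ≤ Subgroup.center G := by
    refine hcent A hA fun a ha b hb => ?_
    exact (Subgroup.mem_centralizer_iff.mp hb.2 a ha.1)
  apply hxZ
  apply hAZ
  refine ⟨hx, ?_⟩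
  show x ∈ Subgroup.centralizer (N : Set G)
  rw [Subgroup.mem_centralizer_iff]
  intro v hv
  have h1 := hcon v hv (h.comm x hx v hv)
  have h2 : x * v = (x * v * x⁻¹ * v⁻¹) * (v * x) := by group
  rw [h1, one_mul] at h2
  exact h2.symm

variable {χ : G → ℂ}

/-- The square lemma in the form used below. -/
theorem card_map_eq_sq (hχ : IsIrrCharacter G χ) (hf : ∀ g, χ g = χ 1 → g = 1)
    (Y : Subgroup G) (hZY : Subgroup.center G ≤ Y)
    (hY : ∀ x ∈ Y, x ∉ Subgroup.center G →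
      ∃ v ∈ Y, x * v * x⁻¹ * v⁻¹ ∈ Subgroup.center G ∧ x * v * x⁻¹ * v⁻¹ ≠ 1)
    {r k : ℕ} (hr : r.Prime) (hk : Nat.card (Y.map (piZ G)) ∣ r ^ k) {n : ℕ} (hn : χ 1 = n) :
    ∃ m, Nat.card (Y.map (piZ G)) = r ^ (2 * m) ∧ (Y.Normal → r ^ m ∣ n) := by
  classical
  letI : Fintype Y := Fintype.ofFinite Y
  obtain ⟨θ, hθ, hc⟩ := exists_under hχ Y
  obtain ⟨t, ht⟩ := IsCharacter.apply_one (IsIrrCharacter.isCharacter hθ)
  have h1 := card_eq_of_vanishing hχ hf Y hZY hY hθ hc ht
  have h2 := card_of_center_le hZY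
  have hZpos : 0 < Nat.card (Subgroup.center G) := Nat.card_pos
  have h3 : Nat.card (Y.map (piZ G)) = t ^ 2 := by
    apply Nat.eq_of_mul_eq_mul_left hZpos
    rw [← h2, h1]
  have ht2 : t ∣ r ^ k := by
    refine Dvd.dvd.trans ?_ hk
    rw [h3]
    exact dvd_pow_self t two_ne_zero
  obtain ⟨m, -, rfl⟩ := (Nat.dvd_prime_pow hr).mp ht2
  refine ⟨m, ?_, ?_⟩
  · rw [h3, ← pow_mul, mul_comm]
  · intro hYn
    obtain ⟨e, he⟩ := exists_multiplicity Y (IsIrrCharacter.isCharacter hχ) hθ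
    have := clifford_degree_nat Y hχ hθ hc hn ht he
    rw [this]
    exact dvd_mul_left _ _

theorem Special.square {N : Subgroup G} {r : ℕ} (h : Special N r)
    (hχ : IsIrrCharacter G χ) (hf : ∀ g, χ g = χ 1 → g = 1)
    (hcent : ∀ A : Subgroup G, A.Normal → (∀ a ∈ A, ∀ b ∈ A, a * b = b * a) → A ≤ Subgroup.center G)
    {n : ℕ} (hn : χ 1 = n) :
    ∃ m, m ≠ 0 ∧ Nat.card (N.map (piZ G)) = r ^ (2 * m) ∧ r ^ m ∣ n := by
  obtain ⟨k, hk⟩ := h.card_map
  obtain ⟨m, h1, h2⟩ := card_map_eq_sq hχ hf N h.le (fun x hx hxZ => h.exists_comm hcent hx hxZ)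
    h.prime (k := k) (by rw [hk]) hn
  refine ⟨m, ?_, h1, h2 h.normal⟩
  rintro rfl
  apply h.ne
  apply le_antisymm _ h.le
  rw [mul_zero, pow_zero] at h1
  have h3 : N.map (piZ G) = ⊥ := Subgroup.card_eq_one.mp h1
  intro x hx
  have : piZ G x ∈ N.map (piZ G) := Subgroup.mem_map_of_mem _ hx
  rw [h3, Subgroup.mem_bot] at this
  exact piZ_eq_one_iff.mp this

section Commutators

/-- Commutators with central values multiply in the second variable. -/
theorem comm_mul_right {x a b : G} (hb : x * b * x⁻¹ * b⁻¹ ∈ Subgroup.center G) :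
    x * (a * b) * x⁻¹ * (a * b)⁻¹ = (x * a * x⁻¹ * a⁻¹) * (x * b * x⁻¹ * b⁻¹) := by
  set c := x * b * x⁻¹ * b⁻¹ with hc
  have h1 : x * b * x⁻¹ = c * b := by rw [hc]; group
  have h2 : x * (a * b) * x⁻¹ * (a * b)⁻¹ = x * a * x⁻¹ * (x * b * x⁻¹) * b⁻¹ * a⁻¹ := by group
  rw [h2, h1]
  have h3 : a⁻¹ * c = c * a⁻¹ := (Subgroup.mem_center_iff.mp hb a⁻¹)
  have h4 : x * a * x⁻¹ * (c * b) * b⁻¹ * a⁻¹ = x * a * x⁻¹ * c * a⁻¹ := by group
  rw [h4]
  have h5 : x * a * x⁻¹ * c * a⁻¹ = x * a * x⁻¹ * (c * a⁻¹) := by group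
  rw [h5, ← h3]
  group

theorem pow_comm_eq {x v c : G} (hc : c ∈ Subgroup.center G) (h : x * v * x⁻¹ = c * v) (j : ℕ) :
    x ^ j * v * (x ^ j)⁻¹ = c ^ j * v := by
  induction j with
  | zero => simp
  | succ j ih =>
    have h1 : x ^ (j + 1) * v * (x ^ (j + 1))⁻¹ = x * (x ^ j * v * (x ^ j)⁻¹) * x⁻¹ := by
      rw [pow_succ']
      group
    rw [h1, ih]
    have h2 : x * c ^ j = c ^ j * x := (Subgroup.mem_center_iff.mp (Subgroup.pow_mem _ hc j) x)
    have h3 : x * (c ^ j * v) * x⁻¹ = c ^ j * (x * v * x⁻¹) := by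
      rw [← mul_assoc x, h2]
      group
    rw [h3, h, pow_succ, mul_assoc]

/-- If `c = [x, v]` is central and `x ^ r` is central then `c ^ r = 1`. -/
theorem comm_pow_eq_one {x v : G} {r : ℕ} (hc : x * v * x⁻¹ * v⁻¹ ∈ Subgroup.center G)
    (hr : x ^ r ∈ Subgroup.center G) : (x * v * x⁻¹ * v⁻¹) ^ r = 1 := by
  set c := x * v * x⁻¹ * v⁻¹ with hcdef
  have h1 : x * v * x⁻¹ = c * v := by rw [hcdef]; group
  have h2 := pow_comm_eq hc h1 r
  have h3 : x ^ r * v = v * x ^ r := (Subgroup.mem_center_iff.mp hr v).symm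
  rw [h3] at h2
  have h4 : v * x ^ r * (x ^ r)⁻¹ = v := by group
  rw [h4] at h2
  have h5 : c ^ r * v * v⁻¹ = v * v⁻¹ := by rw [← h2]
  simpa using h5

end Commutators

section TypeB

theorem Special.typeB {N : Subgroup G} {r : ℕ} (h : Special N r)
    (hχ : IsIrrCharacter G χ) (hf : ∀ g, χ g = χ 1 → g = 1)
    (hcent : ∀ A : Subgroup G, A.Normal → (∀ a ∈ A, ∀ b ∈ A, a * b = b * a) → A ≤ Subgroup.center G)
    {n : ℕ} (hn : χ 1 = n) {p : ℕ} [hpf : Fact p.Prime] (hrp : r ≠ p) {y : G}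
    (hyp : ∀ x ∈ N, y ^ p * x * (y ^ p)⁻¹ * x⁻¹ ∈ Subgroup.center G) {x₀ : G} (hx₀ : x₀ ∈ N)
    (hy : y * x₀ * y⁻¹ * x₀⁻¹ ∉ Subgroup.center G) : Concl p n := by
  classical
  have hNn := h.normal
  haveI := hNn
  have hp : p.Prime := hpf.out
  obtain ⟨m, hm0, hcard, hdvd⟩ := h.square hχ hf hcent hn
  -- the fixed subgroup
  let N₀ : Subgroup G := N ⊓ (Subgroup.centralizer {piZ G y}).comap (piZ G)
  have hmem : ∀ x, x ∈ N₀ ↔ x ∈ N ∧ y * x * y⁻¹ * x⁻¹ ∈ Subgroup.center G := by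
    intro x
    rw [← piZ_comm_iff]
    show x ∈ N ∧ piZ G x ∈ Subgroup.centralizer {piZ G y} ↔ _
    rw [Subgroup.mem_centralizer_singleton_iff]
    constructor
    · rintro ⟨h1, h2⟩
      exact ⟨h1, h2.symm⟩
    · rintro ⟨h1, h2⟩
      exact ⟨h1, h2.symm⟩
  have hZN₀ : Subgroup.center G ≤ N₀ := by
    intro z hz
    rw [hmem]
    refine ⟨h.le hz, ?_⟩
    rw [← piZ_comm_iff, piZ_eq_one_iff.mpr hz]
    simp
  have hN₀le : N₀ ≤ N := inf_le_left
  -- the norm
  have hnondeg : ∀ x ∈ N₀, x ∉ Subgroup.center G →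
      ∃ v ∈ N₀, x * v * x⁻¹ * v⁻¹ ∈ Subgroup.center G ∧ x * v * x⁻¹ * v⁻¹ ≠ 1 := by
    intro x hx hxZ
    obtain ⟨hxN, hxy⟩ := (hmem x).mp hx
    obtain ⟨v, hv, hcz, hc1⟩ := h.exists_comm hcent hxN hxZ
    set c := x * v * x⁻¹ * v⁻¹ with hcdef
    let V : ℕ → G := fun j => y ^ j * v * (y ^ j)⁻¹
    have hV : ∀ j, V j ∈ N := fun j => hNn.conj_mem v hv _
    have hVs : ∀ j, V (j + 1) = y * V j * y⁻¹ := by
      intro j
      simp only [V]
      rw [pow_succ']
      group
    -- commutator with `V j`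
    have hxV : ∀ j, x * V j * x⁻¹ * (V j)⁻¹ = c := by
      intro j
      induction j with
      | zero => simp [V, hcdef]
      | succ j ih =>
        have h1 : x * V j * x⁻¹ * (V j)⁻¹ ∈ Subgroup.center G := h.comm x hxN _ (hV j)
        set z := y * x * y⁻¹ * x⁻¹ with hz
        have h2 : y * x * y⁻¹ = z * x := by rw [hz]; group
        have h3 : y * (x * V j * x⁻¹ * (V j)⁻¹) * y⁻¹ = x * V (j + 1) * x⁻¹ * (V (j + 1))⁻¹ := by
          have h4 : y * (x * V j * x⁻¹ * (V j)⁻¹) * y⁻¹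
              = (y * x * y⁻¹) * (y * V j * y⁻¹) * (y * x * y⁻¹)⁻¹ * (y * V j * y⁻¹)⁻¹ := by group
          rw [h4, ← hVs, h2]
          have h5 : z * x * V (j + 1) * (z * x)⁻¹ = z * (x * V (j + 1) * x⁻¹) * z⁻¹ := by group
          rw [h5]
          have h6 : z * (x * V (j + 1) * x⁻¹) * z⁻¹ = x * V (j + 1) * x⁻¹ := by
            rw [(Subgroup.mem_center_iff.mp hxy (x * V (j + 1) * x⁻¹)).symm]
            group
          rw [h6]
        have h7 : y * (x * V j * x⁻¹ * (V j)⁻¹) * y⁻¹ = x * V j * x⁻¹ * (V j)⁻¹ := by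
          rw [(Subgroup.mem_center_iff.mp h1 y)]
          group
        rw [← h3, h7, ih]
    let W : ℕ → G := fun j => Nat.rec 1 (fun j w => w * V j) j
    have hW0 : W 0 = 1 := rfl
    have hWs : ∀ j, W (j + 1) = W j * V j := fun j => rfl
    have hWN : ∀ j, W j ∈ N := by
      intro j
      induction j with
      | zero => exact N.one_mem
      | succ j ih =>
        rw [hWs]
        exact N.mul_mem ih (hV j)
    have hxW : ∀ j, x * W j * x⁻¹ * (W j)⁻¹ = c ^ j := by
      intro j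
      induction j with
      | zero => simp [hW0]
      | succ j ih =>
        rw [hWs, comm_mul_right (h.comm x hxN _ (hV j)), ih, hxV j, pow_succ]
    -- `W p` lies in `N₀`
    have hWfix : ∀ j, piZ G y * piZ G (W j) * (piZ G y)⁻¹ * piZ G v = piZ G (W j) * piZ G (V j) := by
      intro j
      induction j with
      | zero =>
        simp [hW0, V]
      | succ j ih =>
        have h1 : piZ G (V (j + 1)) * piZ G v = piZ G v * piZ G (V (j + 1)) := by
          exact piZ_comm_iff.mpr (h.comm _ (hV (j + 1)) v hv)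
        have h2 : piZ G (V (j + 1)) = piZ G y * piZ G (V j) * (piZ G y)⁻¹ := by
          rw [hVs]
          simp
        calc piZ G y * piZ G (W (j + 1)) * (piZ G y)⁻¹ * piZ G v
            = (piZ G y * piZ G (W j) * (piZ G y)⁻¹) * (piZ G y * piZ G (V j) * (piZ G y)⁻¹) * piZ G v := by
              rw [hWs, map_mul]
              group
          _ = (piZ G y * piZ G (W j) * (piZ G y)⁻¹) * (piZ G (V (j + 1)) * piZ G v) := by
              rw [← h2, mul_assoc]
          _ = (piZ G y * piZ G (W j) * (piZ G y)⁻¹ * piZ G v) * piZ G (V (j + 1)) := by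
              rw [h1]
              group
          _ = piZ G (W (j + 1)) * piZ G (V (j + 1)) := by
              rw [ih, hWs j, map_mul (piZ G) (W j) (V j)]
    have hWp : W p ∈ N₀ := by
      rw [hmem]
      refine ⟨hWN p, ?_⟩
      rw [← piZ_comm_iff]
      have h1 := hWfix p
      have h2 : piZ G (V p) = piZ G v := by
        have h3 := piZ_comm_iff.mpr (hyp v hv)
        simp only [V, map_mul, map_inv]
        rw [h3]
        group
      rw [h2] at h1
      have h3 := mul_right_cancel h1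
      calc piZ G y * piZ G (W p)
          = (piZ G y * piZ G (W p) * (piZ G y)⁻¹) * piZ G y := by group
        _ = piZ G (W p) * piZ G y := by rw [h3]
    refine ⟨W p, hWp, h.comm x hxN _ (hWN p), ?_⟩
    rw [hxW p]
    intro hcp
    have hcr : c ^ r = 1 := comm_pow_eq_one hcz (h.pow x hxN)
    have hcop : Nat.Coprime r p := (Nat.coprime_primes h.prime hp).mpr hrp
    have h1 : orderOf c ∣ r := orderOf_dvd_of_pow_eq_one hcr
    have h2 : orderOf c ∣ p := orderOf_dvd_of_pow_eq_one hcp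
    have h3 : orderOf c = 1 := Nat.eq_one_of_dvd_coprimes hcop h1 h2
    exact hc1 (orderOf_eq_one_iff.mp h3)
  -- the count
  have hle : N₀.map (piZ G) ≤ N.map (piZ G) := Subgroup.map_mono hN₀le
  have hdiv : Nat.card (N₀.map (piZ G)) ∣ r ^ (2 * m) := by
    rw [← hcard]
    exact Subgroup.card_dvd_of_le hle
  obtain ⟨m₀, hm₀, -⟩ := card_map_eq_sq hχ hf N₀ hZN₀ hnondeg h.prime hdiv hn
  -- the permutation
  have hNb : (N.map (piZ G)).Normal := hNn.map _ piZ_surj
  let f : Function.End (N.map (piZ G)) := fun a =>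
    ⟨piZ G y * a * (piZ G y)⁻¹, hNb.conj_mem a a.2 _⟩
  have hfj : ∀ (j : ℕ) (a : N.map (piZ G)), (((f ^ j) a : N.map (piZ G)) : G ⧸ Subgroup.center G)
      = piZ G y ^ j * a * (piZ G y ^ j)⁻¹ := by
    intro j a
    induction j with
    | zero =>
      simp only [pow_zero, inv_one, one_mul, mul_one]
      rfl
    | succ j ih =>
      rw [pow_succ', Function.End.mul_def]
      show piZ G y * (((f ^ j) a : N.map (piZ G)) : G ⧸ Subgroup.center G) * (piZ G y)⁻¹ = _
      rw [ih, pow_succ']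
      group
  have hfp : f ^ p ^ 1 = 1 := by
    rw [pow_one]
    funext a
    apply Subtype.ext
    rw [hfj]
    obtain ⟨_, x, hx, rfl⟩ := a
    show piZ G y ^ p * piZ G x * (piZ G y ^ p)⁻¹ = piZ G x
    have h3 := piZ_comm_iff.mpr (hyp x hx)
    rw [map_pow] at h3
    rw [h3]
    group
  have hmod := Equiv.Perm.card_fixedPoints_modEq (f := f) (p := p) (n := 1) hfp
  have hfix : Fintype.card (Function.fixedPoints f) = Nat.card (N₀.map (piZ G)) := by
    rw [← Nat.card_eq_fintype_card]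
    refine Nat.card_congr
      { toFun := fun a => ⟨a.1.1, ?_⟩
        invFun := fun b => ⟨⟨b.1, hle b.2⟩, ?_⟩
        left_inv := fun a => rfl
        right_inv := fun b => rfl }
    · obtain ⟨⟨_, x, hx, rfl⟩, ha⟩ := a
      refine Subgroup.mem_map_of_mem _ (?_ : x ∈ N₀)
      rw [hmem]
      refine ⟨hx, ?_⟩
      rw [← piZ_comm_iff]
      have h3 : piZ G y * piZ G x * (piZ G y)⁻¹ = piZ G x := congrArg Subtype.val ha
      calc piZ G y * piZ G x = (piZ G y * piZ G x * (piZ G y)⁻¹) * piZ G y := by group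
        _ = piZ G x * piZ G y := by rw [h3]
    · obtain ⟨_, x, hx, rfl⟩ := b
      apply Subtype.ext
      obtain ⟨-, hx2⟩ := (hmem x).mp hx
      have h3 := piZ_comm_iff.mpr hx2
      show piZ G y * piZ G x * (piZ G y)⁻¹ = piZ G x
      rw [h3]
      group
  rw [hfix, hm₀, ← Nat.card_eq_fintype_card, hcard] at hmod
  have hlt : m₀ < m := by
    by_contra hge
    push Not at hge
    -- then `N₀ = N`
    have hc1 : Nat.card (N.map (piZ G)) ≤ Nat.card (N₀.map (piZ G)) := by
      rw [hcard, hm₀]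
      exact Nat.pow_le_pow_right h.prime.pos (by omega)
    have h2 := Subgroup.eq_of_le_of_card_ge hle hc1
    apply hy
    have h3 : x₀ ∈ N₀ := by
      have : piZ G x₀ ∈ N₀.map (piZ G) := by
        rw [h2]
        exact Subgroup.mem_map_of_mem _ hx₀
      obtain ⟨x₁, hx₁, hx₁e⟩ := this
      have h4 : x₁⁻¹ * x₀ ∈ Subgroup.center G := by
        rw [← piZ_eq_one_iff, map_mul, map_inv, hx₁e]
        simp
      have h5 := N₀.mul_mem hx₁ (hZN₀ h4)
      simpa using h5
    exact ((hmem x₀).mp h3).2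
  exact concl_of_modEq hp h.prime hrp hlt hmod hdvd

end TypeB

section TypeC

theorem case_two [Group.IsSolvable G] (hχ : IsIrrCharacter G χ) (hf : ∀ g, χ g = χ 1 → g = 1)
    (hcent : ∀ A : Subgroup G, A.Normal → (∀ a ∈ A, ∀ b ∈ A, a * b = b * a) → A ≤ Subgroup.center G)
    {n : ℕ} (hn : χ 1 = n) {p : ℕ} [hpf : Fact p.Prime] (P : Sylow p G)
    (hP : ¬ (P : Subgroup G).Normal) : Concl p n := by
  classical
  by_contra hno
  have hp : p.Prime := hpf.out
  have h1 : ∀ (N : Subgroup G) (r : ℕ), Special N r → r ≠ p := by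
    rintro N r hs rfl
    obtain ⟨m, hm0, -, hd⟩ := hs.square hχ hf hcent hn
    exact hno (concl_of_pow_self hp hm0 hd)
  have hPel : ∀ y ∈ (P : Subgroup G), ∃ b, y ^ (p ^ b) = 1 := by
    intro y hy
    obtain ⟨b, hb⟩ := (P.isPGroup') ⟨y, hy⟩
    exact ⟨b, by simpa using congrArg Subtype.val hb⟩
  have h2 : ∀ (N : Subgroup G) (r : ℕ), Special N r → ∀ y ∈ (P : Subgroup G), ∀ x ∈ N,
      y * x * y⁻¹ * x⁻¹ ∈ Subgroup.center G := by
    intro N r hs y hy x hx
    by_contra hyx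
    obtain ⟨b, hb⟩ := hPel y hy
    have hex : ∃ i, ∀ x ∈ N, y ^ (p ^ i) * x * (y ^ (p ^ i))⁻¹ * x⁻¹ ∈ Subgroup.center G :=
      ⟨b, fun x hx => by
        rw [hb]
        simp only [one_mul, inv_one, mul_one, mul_inv_cancel]
        exact Subgroup.one_mem _⟩
    have hi0 : Nat.find hex ≠ 0 := by
      intro h0
      have h3 := Nat.find_spec hex x hx
      rw [h0, pow_zero, pow_one] at h3
      exact hyx h3
    obtain ⟨j, hj⟩ := Nat.exists_eq_succ_of_ne_zero hi0
    have hnot := Nat.find_min hex (m := j) (by omega)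
    push Not at hnot
    obtain ⟨x₀, hx₀, hy₀⟩ := hnot
    apply hno
    refine hs.typeB hχ hf hcent hn (h1 N r hs) (y := y ^ (p ^ j)) ?_ hx₀ hy₀
    intro a ha
    have h3 := Nat.find_spec hex a ha
    rw [hj] at h3
    rw [← pow_mul, ← pow_succ]
    exact h3
  have hc1 : ∀ (N : Subgroup G) (r : ℕ), Special N r → ∀ y ∈ (P : Subgroup G), ∀ x ∈ N, y * x = x * y := by
    intro N r hs y hy x hx
    have hz := h2 N r hs y hy x hx
    set z := y * x * y⁻¹ * x⁻¹ with hzdef
    obtain ⟨b, hb⟩ := hPel y hy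
    have h3 : z ^ (p ^ b) = 1 := by
      have h4 := pow_comm_eq hz (x := y) (v := x) (by rw [hzdef]; group) (p ^ b)
      rw [hb] at h4
      simp only [one_mul, inv_one, mul_one] at h4
      exact (mul_eq_right.mp h4.symm)
    have h4 : z ^ r = 1 := by
      have h5 := comm_pow_eq_one (x := x) (v := y) (r := r) (by
        have : x * y * x⁻¹ * y⁻¹ = z⁻¹ := by rw [hzdef]; group
        rw [this]
        exact Subgroup.inv_mem _ hz) (hs.pow x hx)
      have : x * y * x⁻¹ * y⁻¹ = z⁻¹ := by rw [hzdef]; group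
      rw [this, inv_pow] at h5
      exact inv_eq_one.mp h5
    have hcop : Nat.Coprime r (p ^ b) :=
      Nat.Coprime.pow_right _ ((Nat.coprime_primes hs.prime hp).mpr (h1 N r hs))
    have h5 : orderOf z = 1 :=
      Nat.eq_one_of_dvd_coprimes hcop (orderOf_dvd_of_pow_eq_one h4) (orderOf_dvd_of_pow_eq_one h3)
    have h6 : z = 1 := orderOf_eq_one_iff.mp h5
    calc y * x = (y * x * y⁻¹ * x⁻¹) * (x * y) := by group
      _ = x * y := by rw [← hzdef, h6, one_mul]
  have hFn : (fittingSubgroup G).Normal := fittingSubgroup_normal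
  have hZF : Subgroup.center G ≤ fittingSubgroup G :=
    le_fittingSubgroup_of_nilpotent (N := Subgroup.center G) inferInstance (by
      letI : CommGroup (Subgroup.center G) :=
        { (inferInstance : Group (Subgroup.center G)) with
          mul_comm := fun a b => Subtype.ext (Subgroup.mem_center_iff.mp a.2 b).symm }
      exact CommGroup.isNilpotent)
  let C : Subgroup G :=
    { carrier := {x | x ∈ fittingSubgroup G ∧ ∀ (N : Subgroup G) (r : ℕ), Special N r → ∀ a ∈ N, x * a = a * x}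
      one_mem' := ⟨Subgroup.one_mem _, fun N r hs a ha => by simp⟩
      mul_mem' := by
        rintro a b ⟨ha1, ha2⟩ ⟨hb1, hb2⟩
        refine ⟨Subgroup.mul_mem _ ha1 hb1, fun N r hs v hv => ?_⟩
        have h3 : Commute a v := ha2 N r hs v hv
        have h4 : Commute b v := hb2 N r hs v hv
        exact h3.mul_left h4
      inv_mem' := by
        rintro a ⟨ha1, ha2⟩
        refine ⟨Subgroup.inv_mem _ ha1, fun N r hs v hv => ?_⟩
        have h3 : Commute a v := ha2 N r hs v hv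
        exact h3.inv_left }
  have hCn : C.Normal := by
    refine ⟨fun x hx g => ⟨hFn.conj_mem x hx.1 g, fun N r hs a ha => ?_⟩⟩
    have hb := hx.2 N r hs (g⁻¹ * a * g) (hs.normal.conj_mem' a ha g)
    calc g * x * g⁻¹ * a = g * (x * (g⁻¹ * a * g)) * g⁻¹ := by group
      _ = g * ((g⁻¹ * a * g) * x) * g⁻¹ := by rw [hb]
      _ = a * (g * x * g⁻¹) := by group
  have hZC : Subgroup.center G ≤ C := by
    intro z hz
    exact ⟨hZF hz, fun N r hs a ha => (Subgroup.mem_center_iff.mp hz a).symm⟩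
  have hCZ : C ≤ Subgroup.center G := by
    by_contra hnot
    have hne : C ≠ Subgroup.center G := fun h => hnot h.le
    obtain ⟨N, r, hNC, hs⟩ := exists_special hCn hZC (fun x hx => hx.1) hne
    have h3 : N ≤ Subgroup.center G :=
      hcent N hs.normal fun a ha b hb => (hNC ha).2 N r hs b hb
    exact hs.ne (le_antisymm h3 hs.le)
  have hc4 : ∀ x ∈ fittingSubgroup G, ∀ y ∈ (P : Subgroup G),
      x⁻¹ * y * x * y⁻¹ ∈ Subgroup.center G := by
    intro x hx y hy
    apply hCZ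
    refine ⟨?_, fun N r hs a ha => ?_⟩
    · have h3 : x⁻¹ * y * x * y⁻¹ = x⁻¹ * (y * x * y⁻¹) := by group
      rw [h3]
      exact Subgroup.mul_mem _ (Subgroup.inv_mem _ hx) (hFn.conj_mem x hx y)
    · have hya : y * a = a * y := hc1 N r hs y hy a ha
      have hy'a : y⁻¹ * a = a * y⁻¹ := (show Commute y a from hya).inv_left
      have hz := hs.fit a ha x hx
      set z := x * a * x⁻¹ * a⁻¹ with hzdef
      have e1 : x * a = z * a * x := by rw [hzdef]; group
      have e2 : x⁻¹ * (z * a) = a * x⁻¹ := by rw [hzdef]; group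
      have e3 : y * z = z * y := (Subgroup.mem_center_iff.mp hz y)
      calc x⁻¹ * y * x * y⁻¹ * a = x⁻¹ * y * x * (y⁻¹ * a) := by group
        _ = x⁻¹ * y * (x * a) * y⁻¹ := by rw [hy'a]; group
        _ = x⁻¹ * y * (z * a * x) * y⁻¹ := by rw [e1]
        _ = x⁻¹ * (y * z) * a * x * y⁻¹ := by group
        _ = x⁻¹ * (z * y) * a * x * y⁻¹ := by rw [e3]
        _ = x⁻¹ * z * (y * a) * x * y⁻¹ := by group
        _ = x⁻¹ * z * (a * y) * x * y⁻¹ := by rw [hya]
        _ = (x⁻¹ * (z * a)) * y * x * y⁻¹ := by group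
        _ = (a * x⁻¹) * y * x * y⁻¹ := by rw [e2]
        _ = a * (x⁻¹ * y * x * y⁻¹) := by group
  have hc5 : pCore p G ≤ Subgroup.center G := by
    by_contra hnot
    have hne : pCore p G ⊔ Subgroup.center G ≠ Subgroup.center G := by
      intro h
      apply hnot
      rw [← h]
      exact le_sup_left
    have hLn : (pCore p G ⊔ Subgroup.center G).Normal := by
      haveI : (pCore p G).Normal := pCore_normal p G
      infer_instance
    obtain ⟨N, r, hNL, hs⟩ := exists_special hLn le_sup_right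
      (sup_le (pCore_le_fittingSubgroup p) hZF) hne
    obtain ⟨x, hx, hxZ⟩ := SetLike.exists_of_lt (lt_of_le_of_ne hs.le (Ne.symm hs.ne))
    apply hxZ
    obtain ⟨c, hc, z, hz, hcz⟩ := Subgroup.mem_sup_of_normal_right.mp (hNL hx)
    obtain ⟨a, ha⟩ := (pCore_isPGroup (G := G) p) ⟨c, hc⟩
    have hca : c ^ (p ^ a) = 1 := by simpa using congrArg Subtype.val ha
    have h3 : piZ G x = piZ G c := by
      rw [← hcz, map_mul, piZ_eq_one_iff.mpr hz, mul_one]
    have h4 : piZ G x ^ (p ^ a) = 1 := by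
      rw [h3, ← map_pow, hca, map_one]
    have h5 : piZ G x ^ r = 1 := by
      rw [← map_pow]
      exact piZ_eq_one_iff.mpr (hs.pow x hx)
    have hcop : Nat.Coprime r (p ^ a) :=
      Nat.Coprime.pow_right _ ((Nat.coprime_primes hs.prime hp).mpr (h1 N r hs))
    have h6 : orderOf (piZ G x) = 1 :=
      Nat.eq_one_of_dvd_coprimes hcop (orderOf_dvd_of_pow_eq_one h5) (orderOf_dvd_of_pow_eq_one h4)
    exact piZ_eq_one_iff.mp (orderOf_eq_one_iff.mp h6)
  have hc6 : ∀ x ∈ fittingSubgroup G, ∀ y ∈ (P : Subgroup G), Commute y x := by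
    intro x hx y hy
    obtain ⟨b, hb⟩ := hPel y hy
    have ho0 : orderOf x ≠ 0 := (orderOf_pos x).ne'
    set o := orderOf x with ho
    set a := o.factorization p with ha
    set o' := o / p ^ a with ho'
    have hfac : p ^ a * o' = o := Nat.ordProj_mul_ordCompl_eq_self o p
    have hcop' : Nat.Coprime p o' := Nat.coprime_ordCompl hp ho0
    have hxo : x ^ o = 1 := by rw [ho]; exact pow_orderOf_eq_one x
    -- the `p`-part
    have hx1 : Commute y (x ^ o') := by
      have h3 : (x ^ o') ^ (p ^ a) = 1 := by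
        rw [← pow_mul, mul_comm, hfac, hxo]
      obtain ⟨i, -, hi⟩ := (Nat.dvd_prime_pow hp).mp (orderOf_dvd_of_pow_eq_one h3)
      have h4 : x ^ o' ∈ pCore p G :=
        Cfsg.Agent.Lib.PGroups.mem_pCore_of_mem_fitting (Subgroup.pow_mem _ hx _) hi
      exact (Subgroup.mem_center_iff.mp (hc5 h4) y)
    -- the `p'`-part
    have hx2 : Commute y (x ^ (p ^ a)) := by
      set x₂ := x ^ (p ^ a) with hx₂
      have hx₂F : x₂ ∈ fittingSubgroup G := Subgroup.pow_mem _ hx _
      have h3 : x₂ ^ o' = 1 := by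
        rw [hx₂, ← pow_mul, hfac, hxo]
      have hu := hc4 x₂ hx₂F y hy
      set u := x₂⁻¹ * y * x₂ * y⁻¹ with hudef
      have h4 : y * x₂ * y⁻¹ = u * x₂ := by
        have h5 : y * x₂ * y⁻¹ = x₂ * u := by rw [hudef]; group
        rw [h5]
        exact (Subgroup.mem_center_iff.mp hu x₂)
      have h5 : u ^ o' = 1 := by
        have h6 : (y * x₂ * y⁻¹) ^ o' = 1 := by
          rw [conj_pow, h3]
          group
        rw [h4, (show Commute u x₂ from (Subgroup.mem_center_iff.mp hu x₂).symm).mul_pow, h3,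
          mul_one] at h6
        exact h6
      have h6 : u ^ (p ^ b) = 1 := by
        have h7 := pow_comm_eq hu h4 (p ^ b)
        rw [hb] at h7
        simp only [one_mul, inv_one, mul_one] at h7
        exact (mul_eq_right.mp h7.symm)
      have hcop : Nat.Coprime o' (p ^ b) := Nat.Coprime.pow_right _ hcop'.symm
      have h7 : orderOf u = 1 :=
        Nat.eq_one_of_dvd_coprimes hcop (orderOf_dvd_of_pow_eq_one h5) (orderOf_dvd_of_pow_eq_one h6)
      have h8 : u = 1 := orderOf_eq_one_iff.mp h7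
      rw [h8, one_mul] at h4
      show y * x₂ = x₂ * y
      calc y * x₂ = (y * x₂ * y⁻¹) * y := by group
        _ = x₂ * y := by rw [h4]
    -- Bezout
    have hgcd : Nat.gcd (p ^ a) o' = 1 := Nat.Coprime.pow_left _ hcop'
    have hbez := Nat.gcd_eq_gcd_ab (p ^ a) o'
    rw [hgcd] at hbez
    have hxx : x = (x ^ (p ^ a)) ^ (Nat.gcdA (p ^ a) o') * (x ^ o') ^ (Nat.gcdB (p ^ a) o') := by
      rw [← zpow_natCast x (p ^ a), ← zpow_natCast x o', ← zpow_mul, ← zpow_mul, ← zpow_add,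
        ← hbez]
      simp
    rw [hxx]
    exact (hx2.zpow_right _).mul_right (hx1.zpow_right _)
  have hPZ : (P : Subgroup G) ≤ Subgroup.center G := by
    intro y hy
    have h3 : y ∈ Subgroup.centralizer (fittingSubgroup G : Set G) := by
      rw [Subgroup.mem_centralizer_iff]
      intro x hx
      exact (hc6 x hx y hy).symm
    have h4 : y ∈ fittingSubgroup G := centralizer_fittingSubgroup_le h3
    obtain ⟨b, hb⟩ := hPel y hy
    obtain ⟨i, -, hi⟩ := (Nat.dvd_prime_pow hp).mp (orderOf_dvd_of_pow_eq_one hb)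
    exact hc5 (Cfsg.Agent.Lib.PGroups.mem_pCore_of_mem_fitting h4 hi)
  apply hP
  refine ⟨fun y hy g => ?_⟩
  have h3 := Subgroup.mem_center_iff.mp (hPZ hy) g
  rw [h3]
  simpa using hy

end TypeC

end Main

end Cfsg.Agent.Lib.Char.Winter
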