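import Cfsg.Agent.Lib.Char.WinterB

/-!
# Winter's theorem: the imprimitive case and the main induction
-/

set_option autoImplicit false
set_option linter.unusedSectionVars false

namespace Cfsg.Agent.Lib.Char.Winter

open Cfsg Cfsg.Agent.Lib.Char Cfsg.Agent.Lib.Char.FT Cfsg.Agent.Lib.Basic
open scoped ComplexConjugate

universe u

section Irr

variable {G : Type u} [Group G] [Fintype G]

/-- If a character induces to an irreducible character, it is irreducible. -/
theorem irr_of_indFun_irr {M : Subgroup G} [Fintype M] {τ : M → ℂ} (hτ : IsCharacter M τ)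
    (hχ : IsIrrCharacter G (indFun M τ)) : IsIrrCharacter M τ := by
  classical
  set χ := indFun M τ with hχdef
  obtain ⟨m, hm, hsum⟩ := IsCharacter.exists_eq_sum hτ
  have hcc : IsClassFunction G χ := IsCharacter.isClassFunction (IsIrrCharacter.isCharacter hχ)
  have hind : χ = ∑ ν : IrrCharacter M, ((m ν : ℕ) : ℂ) • indFun M (ν : M → ℂ) := by
    rw [hχdef]
    conv_lhs => rw [hsum]
    rw [indFun_sum]
    refine Finset.sum_congr rfl fun ν _ => ?_
    rw [← indFun_smul]
    congr 1
    funext x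
    simp
  have hφ : ∀ ν : IrrCharacter M, IsCharacter G (indFun M (ν : M → ℂ)) := fun ν =>
    isCharacter_indFun M (IsIrrCharacter.isCharacter ν.2)
  have hφ1 : ∀ ν : IrrCharacter M, indFun M (ν : M → ℂ) 1 ≠ 0 := by
    intro ν
    rw [indFun_one]
    have h1 : (M.index : ℂ) ≠ 0 := by
      exact_mod_cast (Subgroup.index_ne_zero_of_finite (H := M))
    exact mul_ne_zero h1 (IsIrrCharacter.apply_one_ne_zero ν.2)
  -- integer inner products
  have hexnat : ∀ (ν : IrrCharacter M) (η : IrrCharacter G),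
      ∃ b : ℕ, classInner (indFun M (ν : M → ℂ)) (η : G → ℂ) = b := fun ν η =>
    IsCharacter.classInner_irr_eq_nat (hφ ν) η.2
  choose b hb using hexnat
  have hinner : ∀ η : IrrCharacter G, classInner χ (η : G → ℂ) = ((∑ ν, m ν * b ν η : ℕ) : ℂ) := by
    intro η
    conv_lhs => rw [hind]
    rw [classInner_sum_left]
    push_cast
    refine Finset.sum_congr rfl fun ν _ => ?_
    rw [classInner_smul_left, hb]
  let χ₀ : IrrCharacter G := ⟨χ, hχ⟩
  have hone : (∑ ν, m ν * b ν χ₀ : ℕ) = 1 := by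
    have h1 := hinner χ₀
    have h2 : classInner χ χ = 1 := classInner_irr_self hχ
    have h3 : (((∑ ν, m ν * b ν χ₀ : ℕ)) : ℂ) = 1 := by
      rw [← hinner χ₀]
      exact h2
    exact_mod_cast h3
  have hpos : ∀ ν : IrrCharacter M, m ν ≠ 0 → b ν χ₀ ≠ 0 := by
    intro ν hν
    obtain ⟨η, hη, hne⟩ := exists_constituent (hφ ν) (hφ1 ν)
    have h1 : b ν ⟨η, hη⟩ ≠ 0 := by
      intro h0
      apply hne
      have := hb ν ⟨η, hη⟩
      rw [h0] at this
      simpa using this
    have h2 : classInner χ η ≠ 0 := by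
      have h3 := hinner ⟨η, hη⟩
      simp only at h3
      rw [h3]
      have h4 : 0 < m ν * b ν ⟨η, hη⟩ := Nat.mul_pos (Nat.pos_of_ne_zero hν) (Nat.pos_of_ne_zero h1)
      have h5 : m ν * b ν ⟨η, hη⟩ ≤ ∑ ν', m ν' * b ν' ⟨η, hη⟩ :=
        Finset.single_le_sum (f := fun ν' => m ν' * b ν' ⟨η, hη⟩) (fun _ _ => Nat.zero_le _)
          (Finset.mem_univ ν)
      have h6 : (∑ ν', m ν' * b ν' ⟨η, hη⟩ : ℕ) ≠ 0 := by omega
      exact_mod_cast h6
    have h3 : χ = η := by
      by_contra hne'
      exact h2 (classInner_irr_of_ne hχ hη hne')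
    have h4 : (⟨η, hη⟩ : IrrCharacter G) = χ₀ := Subtype.ext h3.symm
    rw [← h4]
    exact h1
  -- a constituent
  have hτ0 : τ 1 ≠ 0 := by
    intro h0
    apply IsIrrCharacter.apply_one_ne_zero hχ
    rw [hχdef, indFun_one, h0, mul_zero]
  obtain ⟨ν₀, hν₀, hνne⟩ := exists_constituent hτ hτ0
  let ν₁ : IrrCharacter M := ⟨ν₀, hν₀⟩
  have hm1 : m ν₁ ≠ 0 := by
    intro h0
    apply hνne
    have := hm ν₁
    rw [h0] at this
    simpa using this
  have hb1 := hpos ν₁ hm1
  have hle : m ν₁ * b ν₁ χ₀ ≤ 1 := by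
    rw [← hone]
    exact Finset.single_le_sum (f := fun ν' => m ν' * b ν' χ₀) (fun _ _ => Nat.zero_le _)
      (Finset.mem_univ ν₁)
  have hm1' : m ν₁ = 1 := by
    have h2 : 1 ≤ b ν₁ χ₀ := Nat.pos_of_ne_zero hb1
    have h3 : 1 ≤ m ν₁ := Nat.pos_of_ne_zero hm1
    nlinarith
  have hb1' : b ν₁ χ₀ = 1 := by
    have h2 : 1 ≤ b ν₁ χ₀ := Nat.pos_of_ne_zero hb1
    rw [hm1', one_mul] at hle
    omega
  have hothers : ∀ ν, ν ≠ ν₁ → m ν = 0 := by
    intro ν hne
    by_contra hν
    have h2 := hpos ν hν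
    have h3 : m ν₁ * b ν₁ χ₀ + m ν * b ν χ₀ ≤ ∑ ν', m ν' * b ν' χ₀ := by
      have h4 : ({ν₁, ν} : Finset (IrrCharacter M)) ⊆ Finset.univ := Finset.subset_univ _
      have h5 := Finset.sum_le_sum_of_subset (f := fun ν' => m ν' * b ν' χ₀) h4
      rwa [Finset.sum_pair (Ne.symm hne)] at h5
    rw [hone, hm1', hb1'] at h3
    have h6 : 0 < m ν * b ν χ₀ := Nat.mul_pos (Nat.pos_of_ne_zero hν) (Nat.pos_of_ne_zero h2)
    omega
  have hfinal : τ = ν₀ := by
    rw [hsum, Finset.sum_eq_single ν₁]
    · rw [hm1', one_smul]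
    · intro ν _ hne
      rw [hothers ν hne, zero_smul]
    · intro h
      exact absurd (Finset.mem_univ _) h
  rw [hfinal]
  exact hν₀

end Irr

section Prim

variable {A : Type u} [Group A] [Finite A]

/-- Fixed points of an element of order `p` acting on a normal subgroup. -/
theorem card_conj_modEq {p : ℕ} [hpf : Fact p.Prime] (V : Subgroup A) (hV : V.Normal) (y : A)
    (hy : y ^ p = 1) :
    Nat.card V ≡ Nat.card (V ⊓ Subgroup.centralizer {y} : Subgroup A) [MOD p] := by
  classical
  letI : Fintype V := Fintype.ofFinite V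
  let f : Function.End V := fun a => ⟨y * a * y⁻¹, hV.conj_mem a a.2 y⟩
  have hfj : ∀ (j : ℕ) (a : V), (((f ^ j) a : V) : A) = y ^ j * a * (y ^ j)⁻¹ := by
    intro j a
    induction j with
    | zero =>
      simp only [pow_zero, inv_one, one_mul, mul_one]
      rfl
    | succ j ih =>
      rw [pow_succ', Function.End.mul_def]
      show y * (((f ^ j) a : V) : A) * y⁻¹ = _
      rw [ih, pow_succ']
      group
  have hfp : f ^ p ^ 1 = 1 := by
    rw [pow_one]
    funext a
    apply Subtype.ext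
    rw [hfj, hy]
    simp only [one_mul, inv_one, mul_one]
    rfl
  have hmod := Equiv.Perm.card_fixedPoints_modEq (f := f) (p := p) (n := 1) hfp
  rw [← Nat.card_eq_fintype_card] at hmod
  have hfix : Fintype.card (Function.fixedPoints f)
      = Nat.card (V ⊓ Subgroup.centralizer {y} : Subgroup A) := by
    rw [← Nat.card_eq_fintype_card]
    refine Nat.card_congr
      { toFun := fun a => ⟨a.1.1, a.1.2, ?_⟩
        invFun := fun b => ⟨⟨b.1, b.2.1⟩, ?_⟩
        left_inv := fun a => rfl
        right_inv := fun b => rfl }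
    · obtain ⟨a, ha⟩ := a
      have h3 : y * (a : A) * y⁻¹ = a := congrArg Subtype.val ha
      show (a : A) ∈ Subgroup.centralizer {y}
      rw [Subgroup.mem_centralizer_singleton_iff]
      calc (a : A) * y = (y * a * y⁻¹) * y := by rw [h3]
        _ = y * a := by group
    · obtain ⟨b, hb1, hb2⟩ := b
      apply Subtype.ext
      have hb3 : b ∈ Subgroup.centralizer {y} := hb2
      rw [Subgroup.mem_centralizer_singleton_iff] at hb3
      show y * b * y⁻¹ = b
      rw [← hb3]
      group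
  rw [hfix] at hmod
  exact hmod

/-- The structure of a primitive permutation group of a solvable group. -/
theorem primitive_data [Group.IsSolvable A] (B : Subgroup A) (hB : IsCoatom B)
    (hcf : ∀ X : Subgroup A, X.Normal → X ≤ B → X = ⊥) (p : ℕ) [hpf : Fact p.Prime] :
    ∃ r k, r.Prime ∧ k ≠ 0 ∧ B.index = r ^ k ∧
      (r = p ∨ (∃ s, s < k ∧ r ^ k ≡ r ^ s [MOD p]) ∨ Nat.Coprime p (Nat.card A)) := by
  classical
  have hp : p.Prime := hpf.out
  have hnt : Nontrivial A := by
    by_contra hn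
    rw [not_nontrivial_iff_subsingleton] at hn
    exact hB.1 (Subsingleton.elim _ _)
  obtain ⟨V, hV⟩ := exists_isMinNormal (G := A)
  obtain ⟨hVc, r, hr, hVr⟩ := hV.elementary
  haveI hVn : V.Normal := hV.1
  have hcomm : ∀ a ∈ V, ∀ b ∈ V, a * b = b * a := by
    intro a ha b hb
    exact congrArg Subtype.val (hVc.is_comm.comm (⟨a, ha⟩ : V) ⟨b, hb⟩)
  have hVB : ¬ V ≤ B := fun h => hV.2.1 (hcf V hVn h)
  have hsup : B ⊔ V = ⊤ := hB.2 _ (lt_of_le_of_ne le_sup_left (fun h => hVB (by
    rw [h]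
    exact le_sup_right)))
  have hnormal : ∀ X : Subgroup A, (∀ m ∈ B, ∀ x ∈ X, m * x * m⁻¹ ∈ X) →
      (∀ v ∈ V, ∀ x ∈ X, v * x * v⁻¹ ∈ X) → X.Normal := by
    intro X h1 h2
    refine ⟨fun x hx g => ?_⟩
    have hg : g ∈ B ⊔ V := by rw [hsup]; exact Subgroup.mem_top g
    obtain ⟨m, hm, v, hv, rfl⟩ := Subgroup.mem_sup_of_normal_right.mp hg
    have h3 := h1 m hm _ (h2 v hv x hx)
    have h4 : m * v * x * (m * v)⁻¹ = m * (v * x * v⁻¹) * m⁻¹ := by group
    rw [h4]
    exact h3
  have hdisj : V ⊓ B = ⊥ := by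
    refine hcf _ (hnormal _ ?_ ?_) inf_le_right
    · intro m hm x hx
      exact ⟨hVn.conj_mem x hx.1 m, B.mul_mem (B.mul_mem hm hx.2) (B.inv_mem hm)⟩
    · intro v hv x hx
      have h3 : v * x * v⁻¹ = x := by
        rw [hcomm v hv x hx.1]
        group
      rw [h3]
      exact hx
  have hcompl : B.IsComplement' V := by
    apply Subgroup.isComplement'_of_disjoint_and_mul_eq_univ
    · rw [Subgroup.disjoint_def]
      intro x hx1 hx2
      have : x ∈ V ⊓ B := ⟨hx2, hx1⟩
      rwa [hdisj, Subgroup.mem_bot] at this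
    · rw [← Subgroup.mul_normal, hsup]
      rfl
  have hcard := hcompl.card_mul_card
  have hidx : B.index = Nat.card V := by
    have h3 := Subgroup.card_mul_index B
    have h4 : 0 < Nat.card B := Nat.card_pos
    apply Nat.eq_of_mul_eq_mul_left h4
    rw [h3, hcard]
  haveI hrf : Fact r.Prime := ⟨hr⟩
  have hVp : IsPGroup r V := by
    intro v
    refine ⟨1, ?_⟩
    apply Subtype.ext
    simpa using hVr v v.2
  obtain ⟨k, hk⟩ := IsPGroup.iff_card.mp hVp
  have hk0 : k ≠ 0 := by
    rintro rfl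
    rw [pow_zero] at hk
    exact hV.2.1 (Subgroup.card_eq_one.mp hk)
  refine ⟨r, k, hr, hk0, by rw [hidx, hk], ?_⟩
  by_cases hrp : r = p
  · exact Or.inl hrp
  right
  by_cases hcop : Nat.Coprime p (Nat.card A)
  · exact Or.inr hcop
  left
  have hpA : p ∣ Nat.card A := (Nat.Prime.dvd_iff_not_coprime hp).mpr hcop
  rw [← hcard, hk] at hpA
  have hpB : p ∣ Nat.card B := by
    rcases (Nat.Prime.dvd_mul hp).mp hpA with h3 | h3
    · exact h3
    · exact absurd ((Nat.prime_dvd_prime_iff_eq hp hr).mp (hp.dvd_of_dvd_pow h3)).symm hrp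
  obtain ⟨y, hy⟩ := exists_prime_orderOf_dvd_card' (G := B) p hpB
  have hy1 : ((y : B) : A) ^ p = 1 := by
    have : y ^ p = 1 := by rw [← hy]; exact pow_orderOf_eq_one y
    exact_mod_cast congrArg Subtype.val this
  have hmod := card_conj_modEq (p := p) V hVn (y : A) hy1
  have hdvd : Nat.card (V ⊓ Subgroup.centralizer {(y : A)} : Subgroup A) ∣ r ^ k := by
    rw [← hk]
    exact Subgroup.card_dvd_of_le inf_le_left
  obtain ⟨s, hs, hs2⟩ := (Nat.dvd_prime_pow hr).mp hdvd
  refine ⟨s, lt_of_le_of_ne hs ?_, ?_⟩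
  · rintro rfl
    -- `y` centralises `V`
    have h3 : (V ⊓ Subgroup.centralizer {(y : A)} : Subgroup A) = V :=
      Subgroup.eq_of_le_of_card_ge inf_le_left (by rw [hk, hs2])
    have h4 : ∀ v ∈ V, v * (y : A) = y * v := by
      intro v hv
      have h5 : v ∈ (V ⊓ Subgroup.centralizer {(y : A)} : Subgroup A) := by rw [h3]; exact hv
      exact Subgroup.mem_centralizer_singleton_iff.mp h5.2
    have h5 : (B ⊓ Subgroup.centralizer (V : Set A) : Subgroup A) = ⊥ := by
      refine hcf _ (hnormal _ ?_ ?_) inf_le_left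
      · intro m hm x hx
        refine ⟨B.mul_mem (B.mul_mem hm hx.1) (B.inv_mem hm), ?_⟩
        have hx2 : x ∈ Subgroup.centralizer (V : Set A) := hx.2
        show m * x * m⁻¹ ∈ Subgroup.centralizer (V : Set A)
        rw [Subgroup.mem_centralizer_iff] at hx2 ⊢
        intro w hw
        have h6 := hx2 (m⁻¹ * w * m) (by
          have := hVn.conj_mem w hw m⁻¹
          simpa using this)
        calc w * (m * x * m⁻¹) = m * ((m⁻¹ * w * m) * x) * m⁻¹ := by group
          _ = m * (x * (m⁻¹ * w * m)) * m⁻¹ := by rw [h6]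
          _ = m * x * m⁻¹ * w := by group
      · intro v hv x hx
        have hx2 : x ∈ Subgroup.centralizer (V : Set A) := hx.2
        have h6 : v * x = x * v := (Subgroup.mem_centralizer_iff.mp hx2 v hv)
        rw [h6]
        simpa using hx
    have h6 : (y : A) ∈ (B ⊓ Subgroup.centralizer (V : Set A) : Subgroup A) := by
      refine ⟨y.2, ?_⟩
      show (y : A) ∈ Subgroup.centralizer (V : Set A)
      rw [Subgroup.mem_centralizer_iff]
      intro v hv
      exact h4 v hv
    rw [h5, Subgroup.mem_bot] at h6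
    have h7 : y = 1 := Subtype.ext h6
    rw [h7, orderOf_one] at hy
    exact hp.one_lt.ne hy
  · rw [hk, hs2] at hmod
    exact hmod

end Prim

section Imprim

variable {G : Type u} [Group G] [Fintype G]

theorem indFun_eq_of_conj_ker {M : Subgroup G} {τ : M → ℂ} (hτ : IsCharacter M τ) {u : G}
    (U : Subgroup M) (hU : ∀ m : M, m ∈ U → τ m = τ 1)
    (hu : ∀ g : G, ∃ h : g⁻¹ * u * g ∈ M, (⟨g⁻¹ * u * g, h⟩ : M) ∈ U) :
    indFun M τ u = indFun M τ 1 := by
  rw [indFun_apply, indFun_apply]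
  congr 1
  apply Finset.sum_congr rfl
  intro g _
  obtain ⟨h, hk⟩ := hu g
  rw [extendByZero_of_mem M τ h, hU _ hk]
  have h1 : g⁻¹ * 1 * g ∈ M := by simp [M.one_mem]
  rw [extendByZero_of_mem M τ h1]
  congr 1
  apply Subtype.ext
  simp

theorem normal_of_case_C {M : Subgroup G} {τ : M → ℂ} (hτc : IsCharacter M τ)
    (hf : ∀ g, indFun M τ g = indFun M τ 1 → g = 1) (U : Subgroup M) [U.Normal]
    (hU : ∀ m : M, m ∈ U → τ m = τ 1) {p : ℕ} [hpf : Fact p.Prime] (P : Sylow p G)
    (hPK : (P : Subgroup G) ≤ M.normalCore) (Q : Subgroup (M ⧸ U)) (hQ : Q.Normal)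
    (hQp : IsPGroup p Q)
    (hPQ : ∀ y (hy : y ∈ (P : Subgroup G)),
      ((⟨y, Subgroup.normalCore_le M (hPK hy)⟩ : M) : M ⧸ U) ∈ Q) :
    (P : Subgroup G).Normal := by
  classical
  have hKM : M.normalCore ≤ M := Subgroup.normalCore_le M
  let T : Subgroup G := (Q.comap (QuotientGroup.mk' U)).map M.subtype
  have hTM : T ≤ M := Subgroup.map_subtype_le _
  have hmemT : ∀ (t : G) (ht : t ∈ M), t ∈ T ↔ ((⟨t, ht⟩ : M) : M ⧸ U) ∈ Q := by
    intro t ht
    constructor
    · rintro ⟨m, hm, rfl⟩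
      exact hm
    · intro h
      exact ⟨⟨t, ht⟩, h, rfl⟩
  have hTnorm : ∀ k ∈ M, ∀ t ∈ T, k * t * k⁻¹ ∈ T := by
    rintro k hk _ ⟨m, hm, rfl⟩
    have h1 : ((⟨k, hk⟩ : M) * m * (⟨k, hk⟩ : M)⁻¹) ∈ Q.comap (QuotientGroup.mk' U) :=
      (hQ.comap (QuotientGroup.mk' U)).conj_mem m hm _
    exact ⟨_, h1, rfl⟩
  have hPT : (P : Subgroup G) ≤ T := by
    intro y hy
    exact (hmemT y (hKM (hPK hy))).mpr (hPQ y hy)
  haveI hCn : T.normalCore.Normal := Subgroup.normalCore_normal T
  haveI hKn : M.normalCore.Normal := Subgroup.normalCore_normal M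
  have hPC : (P : Subgroup G) ≤ T.normalCore := by
    intro y hy g
    let P₁ : Sylow p M.normalCore := P.subtype hPK
    have h1 := Sylow.normalizer_sup_eq_top P₁
    have h2 : ((P₁ : Subgroup M.normalCore)).map M.normalCore.subtype = P := by
      rw [Sylow.coe_subtype]
      exact Subgroup.map_subgroupOf_eq_of_le hPK
    rw [h2, sup_comm] at h1
    have hg : g ∈ M.normalCore ⊔ Subgroup.normalizer ((P : Subgroup G) : Set G) := by
      rw [h1]
      exact Subgroup.mem_top g
    obtain ⟨k, hk, n, hn, rfl⟩ := Subgroup.mem_sup_of_normal_left.mp hg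
    have h3 : n * y * n⁻¹ ∈ (P : Subgroup G) := (Subgroup.mem_normalizer_iff.mp hn y).mp hy
    have h4 := hTnorm k (hKM hk) _ (hPT h3)
    have h5 : k * n * y * (k * n)⁻¹ = k * (n * y * n⁻¹) * k⁻¹ := by group
    rw [h5]
    exact h4
  obtain ⟨a, ha⟩ := IsPGroup.iff_card.mp hQp
  have hCp : IsPGroup p T.normalCore := by
    rintro ⟨x, hx⟩
    refine ⟨a, Subtype.ext ?_⟩
    show x ^ p ^ a = 1
    apply hf
    apply indFun_eq_of_conj_ker hτc U hU
    intro g
    have hc : g⁻¹ * x * g ∈ T := by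
      have := hx g⁻¹
      simpa using this
    have hcM : g⁻¹ * x * g ∈ M := hTM hc
    have h1 : g⁻¹ * x ^ p ^ a * g = (g⁻¹ * x * g) ^ p ^ a := by
      have h2 := conj_pow (a := g⁻¹) (b := x) (i := p ^ a)
      simpa using h2.symm
    have h2 : g⁻¹ * x ^ p ^ a * g ∈ M := by
      rw [h1]
      exact M.pow_mem hcM _
    refine ⟨h2, ?_⟩
    have h3 := (hmemT _ hcM).mp hc
    have h4 : (((⟨g⁻¹ * x * g, hcM⟩ : M) : M ⧸ U)) ^ p ^ a = 1 := by
      have h5 : (⟨_, h3⟩ : Q) ^ Nat.card Q = 1 := pow_card_eq_one'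
      rw [ha] at h5
      exact congrArg Subtype.val h5
    have h5 : ((((⟨g⁻¹ * x * g, hcM⟩ : M) ^ p ^ a : M)) : M ⧸ U) = 1 := by
      rw [QuotientGroup.mk_pow]
      exact h4
    rw [QuotientGroup.eq_one_iff] at h5
    convert h5 using 1
    apply Subtype.ext
    simpa using h1
  have hCP := normal_pGroup_le_sylow hCn hCp P
  have heq : (P : Subgroup G) = T.normalCore := le_antisymm hPC hCP
  rw [heq]
  exact hCn

end Imprim

section Main

theorem main_ind : ∀ (N : ℕ) (G : Type u) [Group G] [Fintype G], Nat.card G = N →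
    ∀ χ : G → ℂ, IsIrrCharacter G χ → (∀ g, χ g = χ 1 → g = 1) → Group.IsSolvable G →
    ∀ (p : ℕ) [Fact p.Prime] (P : Sylow p G), ¬ (P : Subgroup G).Normal →
    ∀ n : ℕ, χ 1 = n → Concl p n := by
  intro N
  induction N using Nat.strong_induction_on with
  | _ N ih =>
  intro G _ _ hcard χ hχ hf hsolv p hpf P hP n hn
  haveI := hsolv
  classical
  have hp : p.Prime := hpf.out
  by_cases hind : ∃ (H : Subgroup G) (μ : H → ℂ), H ≠ ⊤ ∧ IsIrrCharacter H μ ∧ indFun H μ = χ
  · obtain ⟨H, μ, hne, hμ, hμχ⟩ := hind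
    obtain ⟨M, hM, hHM⟩ := (eq_top_or_exists_le_coatom H).resolve_left hne
    letI : Fintype M := Fintype.ofFinite M
    letI : Fintype (H.subgroupOf M) := Fintype.ofFinite _
    let μ' : H.subgroupOf M → ℂ := fun x => μ ⟨x, Subgroup.mem_subgroupOf.mp x.2⟩
    let τ : M → ℂ := indFun (H.subgroupOf M) μ'
    have hμ'c : IsCharacter (H.subgroupOf M) μ' :=
      IsCharacter.comp (IsIrrCharacter.isCharacter hμ) (Subgroup.subgroupOfEquivOfLe hHM).toMonoidHom
    have hτc : IsCharacter M τ := isCharacter_indFun _ hμ'c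
    have hτχ : indFun M τ = χ := (indFun_indFun H M hHM μ).trans hμχ
    have hτ : IsIrrCharacter M τ := irr_of_indFun_irr hτc (by rw [hτχ]; exact hχ)
    obtain ⟨t, ht⟩ := IsCharacter.apply_one hτc
    have hnt : n = M.index * t := by
      have h1 : (n : ℂ) = (M.index : ℂ) * t := by
        rw [← hn, ← hτχ, indFun_one, ht]
      exact_mod_cast h1
    -- the quotient by the core
    haveI hKn : M.normalCore.Normal := Subgroup.normalCore_normal M
    have hKM : M.normalCore ≤ M := Subgroup.normalCore_le M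
    let π : G →* G ⧸ M.normalCore := QuotientGroup.mk' _
    have hπ : Function.Surjective π := QuotientGroup.mk'_surjective _
    have hπker : π.ker = M.normalCore := QuotientGroup.ker_mk' _
    let B : Subgroup (G ⧸ M.normalCore) := M.map π
    have hB : B.comap π = M := Subgroup.comap_map_eq_self (by rw [hπker]; exact hKM)
    have hBco : IsCoatom B := by
      refine ⟨fun h => hM.1 ?_, fun B' hlt => ?_⟩
      · rw [← hB, h, Subgroup.comap_top]
      · have h1 : M < B'.comap π := by
          refine lt_of_le_of_ne ?_ ?_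
          · exact hB.symm.le.trans (Subgroup.comap_mono hlt.le)
          · intro h2
            apply hlt.ne
            have h3 := Subgroup.map_comap_eq_self_of_surjective hπ B'
            rw [← h3, ← h2]
        have h2 := hM.2 _ h1
        have h3 := Subgroup.map_comap_eq_self_of_surjective hπ B'
        rw [← h3, h2, Subgroup.map_top_of_surjective _ hπ]
    have hcf : ∀ X : Subgroup (G ⧸ M.normalCore), X.Normal → X ≤ B → X = ⊥ := by
      intro X hX hXB
      haveI : (X.comap π).Normal := hX.comap π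
      have h1 : X.comap π ≤ M := (Subgroup.comap_mono hXB).trans hB.le
      have h2 : X.comap π ≤ M.normalCore := Subgroup.normal_le_normalCore.mpr h1
      rw [eq_bot_iff]
      intro x hx
      obtain ⟨g, rfl⟩ := hπ x
      have h3 := h2 (show g ∈ X.comap π from hx)
      rw [Subgroup.mem_bot]
      exact (QuotientGroup.eq_one_iff g).mpr h3
    have hidx0 : B.index = M.index := by
      conv_rhs => rw [← hB]
      exact (Subgroup.index_comap_of_surjective B hπ).symm
    obtain ⟨r, k, hr, hk0, hidx, hcase⟩ := primitive_data B hBco hcf p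
    have hdr : r ^ k ∣ n := by
      rw [hnt, ← hidx0, hidx]
      exact dvd_mul_right _ _
    by_cases hrp : r = p
    · subst hrp
      exact concl_of_pow_self hp hk0 hdr
    rcases hcase with h0 | ⟨s, hs, hmod⟩ | hcop
    · exact absurd h0 hrp
    · have hcop : p.Coprime r := (Nat.coprime_primes hp hr).mpr (Ne.symm hrp)
      obtain ⟨e, he⟩ : ∃ e, k = s + e := ⟨k - s, by omega⟩
      have he0 : e ≠ 0 := by omega
      have h1 : r ^ e * r ^ s ≡ 1 * r ^ s [MOD p] := by
        rw [one_mul, ← pow_add, add_comm, ← he]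
        exact hmod
      have h2 : r ^ e ≡ 1 [MOD p] :=
        Nat.ModEq.cancel_right_of_coprime (Nat.Coprime.pow_right _ hcop) h1
      refine concl_of_modEq_one hr he0 h2 ((Nat.pow_dvd_pow r ?_).trans hdr)
      omega
    · -- `P` lies in the core
      have hPK : (P : Subgroup G) ≤ M.normalCore := by
        intro y hy
        obtain ⟨b, hb⟩ := (P.isPGroup') ⟨y, hy⟩
        have hyb : y ^ p ^ b = 1 := by simpa using congrArg Subtype.val hb
        have h1 : π y ^ p ^ b = 1 := by rw [← map_pow, hyb, map_one]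
        have h2 : π y ^ Nat.card (G ⧸ M.normalCore) = 1 := pow_card_eq_one'
        have hcop' : Nat.Coprime (p ^ b) (Nat.card (G ⧸ M.normalCore)) :=
          Nat.Coprime.pow_left _ hcop
        have h3 : orderOf (π y) = 1 := Nat.eq_one_of_dvd_coprimes hcop'
          (orderOf_dvd_of_pow_eq_one h1) (orderOf_dvd_of_pow_eq_one h2)
        exact (QuotientGroup.eq_one_iff y).mp (orderOf_eq_one_iff.mp h3)
      have hPM : (P : Subgroup G) ≤ M := hPK.trans hKM
      haveI hUn : (charKer τ).Normal := charKer_normal hτc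
      letI : Fintype (charKer τ) := Fintype.ofFinite _
      letI : Fintype (M ⧸ charKer τ) := Fintype.ofFinite _
      obtain ⟨β, hβ, hβτ⟩ := exists_deflate (charKer τ) hτ le_rfl
      let P₁ : Sylow p M := P.subtype hPM
      let P₂ : Sylow p (M ⧸ charKer τ) :=
        Sylow.mapSurjective (QuotientGroup.mk'_surjective (charKer τ)) P₁
      by_cases hQ : (P₂ : Subgroup (M ⧸ charKer τ)).Normal
      · exfalso
        apply hP
        refine normal_of_case_C hτc (by rw [hτχ]; exact hf) (charKer τ)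
          (fun m hm => (mem_charKer hτc).mp hm) P hPK _ hQ P₂.isPGroup' ?_
        intro y hy
        rw [Sylow.coe_mapSurjective]
        refine ⟨⟨y, hPM hy⟩, ?_, rfl⟩
        rw [Sylow.coe_subtype]
        exact Subgroup.mem_subgroupOf.mpr hy
      · have hfβ : ∀ a, β a = β 1 → a = 1 := by
          intro a ha
          obtain ⟨m, rfl⟩ := QuotientGroup.mk_surjective a
          have h1 : τ m = τ 1 := (congrFun hβτ m).trans (ha.trans (congrFun hβτ 1).symm)
          exact (QuotientGroup.eq_one_iff m).mpr ((mem_charKer hτc).mpr h1)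
        have hβ1 : β 1 = t := by
          have h2 : τ 1 = β 1 := congrFun hβτ 1
          rw [← h2, ht]
        have hlt : Nat.card (M ⧸ charKer τ) < N := by
          have h1 : Nat.card (M ⧸ charKer τ) ≤ Nat.card M := by
            have h2 := Subgroup.card_eq_card_quotient_mul_card_subgroup (charKer τ)
            rw [h2]
            exact Nat.le_mul_of_pos_right _ Nat.card_pos
          have h2 : Nat.card M < Nat.card G := by
            apply Nat.lt_of_le_of_ne (Subgroup.card_le_card_group M)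
            intro h3
            exact hM.1 (Subgroup.eq_top_of_card_eq M h3)
          omega
        have hc := ih _ hlt (M ⧸ charKer τ) rfl β hβ hfβ inferInstance p P₂ hQ t hβ1
        exact hc.of_dvd (by rw [hnt]; exact dvd_mul_left _ _)
  · have hker : charKer χ = ⊥ := by
      rw [eq_bot_iff]
      intro g hg
      rw [mem_charKer (IsIrrCharacter.isCharacter hχ)] at hg
      rw [Subgroup.mem_bot]
      exact hf g hg
    have hcent : ∀ A : Subgroup G, A.Normal → (∀ a ∈ A, ∀ b ∈ A, a * b = b * a) →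
        A ≤ Subgroup.center G := by
      intro A hA hab
      by_contra hnot
      haveI := hA
      obtain ⟨T, ψ, h1, h2, h3⟩ := exists_proper_induced hχ hker A hab hnot
      exact hind ⟨T, ψ, h1, h2, h3⟩
    exact case_two hχ hf hcent hn P hP

end Main

end Cfsg.Agent.Lib.Char.Winter
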