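import Cfsg.Agent.Lib.Char.ZassProd

/-!
# Zassenhaus groups with odd two-point stabilizers: classes avoiding the kernel.
-/

set_option autoImplicit false

namespace Cfsg.Agent.Lib.Char.Zass

open Cfsg Cfsg.Agent.Lib.Char

section General

variable {G : Type*} [Group G] [Fintype G]

theorem card_centralizer_of_isConj {x y : G} (h : IsConj x y) :
    Nat.card (Subgroup.centralizer ({x} : Set G)) = Nat.card (Subgroup.centralizer ({y} : Set G)) := by
  have h1 := card_conj_mul_card_centralizer x
  have h2 := card_conj_mul_card_centralizer y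
  have h3 : Nat.card {z : G // IsConj x z} = Nat.card {z : G // IsConj y z} :=
    Nat.card_congr (Equiv.subtypeEquivRight fun z =>
      ⟨fun hz => h.symm.trans hz, fun hz => h.trans hz⟩)
  rw [h3] at h1
  have h4 : 0 < Nat.card {z : G // IsConj y z} := Nat.card_pos_iff.mpr ⟨⟨⟨y, IsConj.refl y⟩⟩, inferInstance⟩
  exact Nat.eq_of_mul_eq_mul_left h4 (h1.trans h2.symm)

open scoped Classical in
/-- The class equation, weighted by centralizers. -/
theorem sum_centralizer [Fintype (ConjClasses G)] (𝒞 : Finset (ConjClasses G)) :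
    ∑ g ∈ Finset.univ.filter (fun g : G => ConjClasses.mk g ∈ 𝒞),
      Nat.card (Subgroup.centralizer ({g} : Set G)) = 𝒞.card * Nat.card G := by
  rw [← Finset.sum_fiberwise_of_maps_to (s := Finset.univ.filter (fun g : G => ConjClasses.mk g ∈ 𝒞))
    (t := 𝒞) (g := fun g => ConjClasses.mk g)
    (fun x hx => (Finset.mem_filter.mp hx).2)]
  rw [Finset.sum_congr rfl (g := fun _ => Nat.card G), Finset.sum_const, smul_eq_mul]
  intro C hC
  obtain ⟨g₀, rfl⟩ := ConjClasses.mk_surjective C
  have h1 : ∀ x ∈ (Finset.univ.filter (fun g : G => ConjClasses.mk g ∈ 𝒞)).filter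
      (fun x => ConjClasses.mk x = ConjClasses.mk g₀),
      Nat.card (Subgroup.centralizer ({x} : Set G)) = Nat.card (Subgroup.centralizer ({g₀} : Set G)) := by
    intro x hx
    have := (Finset.mem_filter.mp hx).2
    exact card_centralizer_of_isConj (ConjClasses.mk_eq_mk_iff_isConj.mp this)
  rw [Finset.sum_congr rfl h1, Finset.sum_const, smul_eq_mul]
  rw [← card_conj_mul_card_centralizer g₀]
  congr 1
  rw [Nat.card_eq_fintype_card, Fintype.card_subtype]
  congr 1
  ext x
  simp only [Finset.mem_filter, Finset.mem_univ, true_and]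
  constructor
  · rintro ⟨-, h⟩
    exact (ConjClasses.mk_eq_mk_iff_isConj.mp h).symm
  · intro h
    have h2 : ConjClasses.mk x = ConjClasses.mk g₀ := ConjClasses.mk_eq_mk_iff_isConj.mpr h.symm
    exact ⟨by rw [h2]; exact hC, h2⟩

open scoped Classical in
/-- The number of ways to write an element as a product of two involutions is bounded by the order of its
centralizer. -/
theorem pairs_fiber_le (g : G) :
    (((Finset.univ.filter fun x : G => orderOf x = 2) ×ˢ (Finset.univ.filter fun x : G => orderOf x = 2)).filter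
      fun p : G × G => p.1 * p.2 = g).card ≤ Nat.card (Subgroup.centralizer ({g} : Set G)) := by
  have hinv : ∀ {x : G}, orderOf x = 2 → x * x = 1 := by
    intro x hx
    rw [← pow_two, ← hx]
    exact pow_orderOf_eq_one x
  set F := ((Finset.univ.filter fun x : G => orderOf x = 2) ×ˢ (Finset.univ.filter fun x : G => orderOf x = 2)).filter
      fun p : G × G => p.1 * p.2 = g with hF
  have hmem : ∀ p ∈ F, p.1 * p.1 = 1 ∧ p.2 * p.2 = 1 ∧ p.1 * p.2 = g := by
    intro p hp
    obtain ⟨h1, h2⟩ := Finset.mem_filter.mp hp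
    obtain ⟨h3, h4⟩ := Finset.mem_product.mp h1
    exact ⟨hinv (Finset.mem_filter.mp h3).2, hinv (Finset.mem_filter.mp h4).2, h2⟩
  rcases F.eq_empty_or_nonempty with h0 | ⟨p₀, hp₀⟩
  · rw [h0]
    simp
  · obtain ⟨hi₀, hj₀, hg₀⟩ := hmem p₀ hp₀
    rw [Nat.card_eq_fintype_card, Fintype.card_subtype]
    apply Finset.card_le_card_of_injOn (fun p => p₀.1 * p.1)
    · intro p hp
      obtain ⟨hi, hj, hg⟩ := hmem p hp
      have hp' : p₀.1 * p.1 ∈ Subgroup.centralizer ({g} : Set G) := by
        rw [Subgroup.mem_centralizer_singleton_iff]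
        have h1 : p₀.1 * p₀.2 = p.1 * p.2 := hg₀.trans hg.symm
        have hinv2 : ∀ {u v : G}, u * u = 1 → v * v = 1 → (u * v)⁻¹ = v * u := by
          intro u v hu hv
          rw [mul_inv_rev, inv_eq_of_mul_eq_one_left hu, inv_eq_of_mul_eq_one_left hv]
        have h2 : p₀.2 * p₀.1 = p.2 * p.1 := by
          rw [← hinv2 hi₀ hj₀, ← hinv2 hi hj, h1]
        rw [← hg₀]
        symm
        calc p₀.1 * p₀.2 * (p₀.1 * p.1) = p₀.1 * (p₀.2 * p₀.1) * p.1 := by group
          _ = p₀.1 * (p.2 * p.1) * p.1 := by rw [h2]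
          _ = p₀.1 * p.2 * (p.1 * p.1) := by group
          _ = p₀.1 * (p.1 * p.1) * p.2 := by rw [hi]; group
          _ = p₀.1 * p.1 * (p.1 * p.2) := by group
          _ = p₀.1 * p.1 * (p₀.1 * p₀.2) := by rw [h1]
      simpa using hp'
    · intro p hp q hq h
      have hpq : p.1 = q.1 := mul_left_cancel h
      obtain ⟨hi, hj, hg⟩ := hmem p hp
      obtain ⟨hi', hj', hg'⟩ := hmem q hq
      have h2 : p.2 = q.2 := by
        have : p.1 * p.2 = p.1 * q.2 := by rw [hg, hpq, hg']
        exact mul_left_cancel this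
      exact Prod.ext hpq h2

end General

namespace KData

variable {G Ω : Type*} [Group G] [Fintype G] [MulAction G Ω] [Fintype Ω] (D : KData G Ω)

include D

open scoped Classical in
/-- Pairs of involutions whose product is conjugate into the kernel. -/
theorem common_fix {i j : G} (hi : i * i = 1) (hj : j * j = 1) {w : G} (hw : w * (i * j) * w⁻¹ ∈ D.H) :
    i = j ∨ ∃ c : Ω, i • c = c ∧ j • c = c := by
  by_cases h1 : w * (i * j) * w⁻¹ = 1
  · left
    have h2 : i * j = 1 := by
      have : i * j = w⁻¹ * (w * (i * j) * w⁻¹) * w := by group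
      rw [this, h1]
      group
    exact (inv_eq_of_mul_eq_one_left hi).symm.trans (inv_eq_of_mul_eq_one_right h2)
  · right
    have hx : (w * i * w⁻¹) * (w * i * w⁻¹) = 1 := by
      calc (w * i * w⁻¹) * (w * i * w⁻¹) = w * (i * i) * w⁻¹ := by group
        _ = 1 := by rw [hi]; group
    have hy : (w * j * w⁻¹) * (w * j * w⁻¹) = 1 := by
      calc (w * j * w⁻¹) * (w * j * w⁻¹) = w * (j * j) * w⁻¹ := by group
        _ = 1 := by rw [hj]; group
    have hxy : (w * i * w⁻¹) * (w * j * w⁻¹) = w * (i * j) * w⁻¹ := by group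
    obtain ⟨h3, h4⟩ := D.inv_prod_fix hx hy hxy hw h1
    refine ⟨w⁻¹ • D.a, ?_, ?_⟩
    · rw [mul_smul, mul_smul] at h3
      rw [eq_inv_smul_iff.mpr h3]
    · rw [mul_smul, mul_smul] at h4
      rw [eq_inv_smul_iff.mpr h4]

open scoped Classical in
/-- The number of involutions fixing a given point. -/
theorem card_inv_fix [IsSimpleGroup G] {h : ℕ} (hh : Fintype.card Ω = h + 1) (he : Even h) (c : Ω) :
    ((Finset.univ.filter fun x : G => orderOf x = 2).filter fun x => x • c = c).card = Nat.card D.E := by
  have hinv : ∀ {x : G}, orderOf x = 2 → x * x = 1 := by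
    intro x hx
    rw [← pow_two, ← hx]
    exact pow_orderOf_eq_one x
  have hne1 : ∀ {x : G}, orderOf x = 2 → x ≠ 1 := by
    rintro x hx rfl
    simp at hx
  -- constancy
  have hconst : ∀ c : Ω, ((Finset.univ.filter fun x : G => orderOf x = 2).filter fun x => x • c = c).card =
      ((Finset.univ.filter fun x : G => orderOf x = 2).filter fun x => x • D.a = D.a).card := by
    intro c
    obtain ⟨w, hw⟩ := exists_smul_eq D.hZ D.hab c
    apply Finset.card_nbij' (fun x => w⁻¹ * x * w) (fun x => w * x * w⁻¹)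
    · intro x hx
      simp only [Finset.coe_filter, Finset.mem_filter, Finset.mem_univ, true_and, Set.mem_ofPred_eq] at hx ⊢
      refine ⟨?_, ?_⟩
      · have : w⁻¹ * x * w = MulAut.conj w⁻¹ x := by simp
        rw [this, MulEquiv.orderOf_eq]
        exact hx.1
      · rw [mul_smul, mul_smul, hw, hx.2, ← hw, inv_smul_smul]
    · intro x hx
      simp only [Finset.coe_filter, Finset.mem_filter, Finset.mem_univ, true_and, Set.mem_ofPred_eq] at hx ⊢
      refine ⟨?_, ?_⟩
      · rw [← MulAut.conj_apply, MulEquiv.orderOf_eq]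
        exact hx.1
      · rw [mul_smul, mul_smul, ← hw, inv_smul_smul, hx.2]
    · intro x _
      simp [mul_assoc]
    · intro x _
      simp [mul_assoc]
  -- double counting
  have hsum : ∑ c : Ω, ((Finset.univ.filter fun x : G => orderOf x = 2).filter fun x => x • c = c).card =
      ∑ x ∈ (Finset.univ.filter fun x : G => orderOf x = 2), fix x Ω := by
    simp only [Finset.card_filter]
    rw [Finset.sum_comm]
    refine Finset.sum_congr rfl fun x _ => ?_
    rw [fix, Finset.card_filter]
  have hfix : ∀ x ∈ (Finset.univ.filter fun x : G => orderOf x = 2), fix x Ω = 1 := by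
    intro x hx
    have hx' := (Finset.mem_filter.mp hx).2
    rw [fix_inv_eq D.hZ D.hab D.hodd (hne1 hx') (hinv hx') hh, if_pos he]
  rw [Finset.sum_congr rfl hfix, Finset.sum_congr rfl fun c _ => hconst c, Finset.sum_const, Finset.sum_const,
    Finset.card_univ, hh, smul_eq_mul, smul_eq_mul, mul_one] at hsum
  have hI : (Finset.univ.filter fun x : G => orderOf x = 2).card = Nat.card D.E * (h + 1) := by
    have h3 := card_inv D.hZ D.hab D.hodd D.ht3 D.hta D.htb D.hfree hh rfl
    rw [if_pos he, Nat.card_eq_fintype_card, Fintype.card_subtype] at h3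
    exact h3
  rw [hI] at hsum
  rw [hconst c]
  apply Nat.eq_of_mul_eq_mul_left (show 0 < h + 1 by omega)
  rw [hsum]
  ring

open scoped Classical in
/-- At least `e` conjugacy classes avoid the kernel. -/
theorem classes_avoiding [IsSimpleGroup G] {h : ℕ} (hh : Fintype.card Ω = h + 1)
    (hlt : 2 * Nat.card D.E < h - 1) :
    Nat.card D.E ≤ Nat.card {C : ConjClasses G // ∀ g : G, ConjClasses.mk g = C → g ∉ D.H} := by
  letI : Fintype (ConjClasses G) := Fintype.ofFinite _
  have hinv : ∀ {x : G}, orderOf x = 2 → x * x = 1 := by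
    intro x hx
    rw [← pow_two, ← hx]
    exact pow_orderOf_eq_one x
  have hne1 : ∀ {x : G}, orderOf x = 2 → x ≠ 1 := by
    rintro x hx rfl
    simp at hx
  set Inv := Finset.univ.filter fun x : G => orderOf x = 2 with hInv
  set 𝒞 := Finset.univ.filter (fun C : ConjClasses G => ∀ g : G, ConjClasses.mk g = C → g ∉ D.H) with h𝒞
  have hcard : Nat.card {C : ConjClasses G // ∀ g : G, ConjClasses.mk g = C → g ∉ D.H} = 𝒞.card := by
    rw [Nat.card_eq_fintype_card, Fintype.card_subtype]
  rw [hcard]
  set P := Inv ×ˢ Inv with hP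
  set Av : G × G → Prop := fun p => ConjClasses.mk (p.1 * p.2) ∈ 𝒞 with hAvdef
  have hsplit : (P.filter Av).card + (P.filter fun p => ¬ Av p).card = P.card :=
    Finset.card_filter_add_card_filter_not _
  have hAv : (P.filter Av).card ≤ 𝒞.card * Nat.card G := by
    calc (P.filter Av).card = ∑ g ∈ Finset.univ.filter (fun g : G => ConjClasses.mk g ∈ 𝒞),
        ((P.filter Av).filter fun p => p.1 * p.2 = g).card := by
          apply Finset.card_eq_sum_card_fiberwise
          intro p hp
          have hp2 := (Finset.mem_filter.mp (Finset.mem_coe.mp hp)).2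
          exact Finset.mem_coe.mpr (Finset.mem_filter.mpr ⟨Finset.mem_univ _, hp2⟩)
      _ ≤ ∑ g ∈ Finset.univ.filter (fun g : G => ConjClasses.mk g ∈ 𝒞),
          Nat.card (Subgroup.centralizer ({g} : Set G)) := by
          apply Finset.sum_le_sum
          intro g _
          refine le_trans (Finset.card_le_card ?_) (pairs_fiber_le g)
          intro p hp
          obtain ⟨h1, h2⟩ := Finset.mem_filter.mp hp
          exact Finset.mem_filter.mpr ⟨(Finset.mem_filter.mp h1).1, h2⟩
      _ = _ := sum_centralizer 𝒞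
  have hnot : ∀ p ∈ P, ¬ Av p → p.1 = p.2 ∨ ∃ c : Ω, p.1 • c = c ∧ p.2 • c = c := by
    intro p hp hav
    have hp1 := (Finset.mem_filter.mp (Finset.mem_product.mp hp).1).2
    have hp2 := (Finset.mem_filter.mp (Finset.mem_product.mp hp).2).2
    have h3 : ∃ g : G, ConjClasses.mk g = ConjClasses.mk (p.1 * p.2) ∧ g ∈ D.H := by
      by_contra hcon
      push Not at hcon
      exact hav (Finset.mem_filter.mpr ⟨Finset.mem_univ _, hcon⟩)
    obtain ⟨g, hg1, hg2⟩ := h3
    obtain ⟨w, rfl⟩ := isConj_iff.mp (ConjClasses.mk_eq_mk_iff_isConj.mp hg1).symm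
    exact D.common_fix (hinv hp1) (hinv hp2) hg2
  have hPcard : P.card = Inv.card * Inv.card := Finset.card_product _ _
  have hIcard : Nat.card {x : G // orderOf x = 2} = Inv.card := by
    rw [Nat.card_eq_fintype_card, Fintype.card_subtype]
  have hIv := card_inv D.hZ D.hab D.hodd D.ht3 D.hta D.htb D.hfree hh rfl
  rw [hIcard] at hIv
  have hHc : Nat.card D.H = h := by
    have := D.hHcard
    omega
  have hG := D.card_G
  rw [hHc, hh] at hG
  set e := Nat.card D.E with he'
  have he0 : 0 < e := Nat.card_pos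
  have hh0 : 0 < h := by omega
  set c₀ := 𝒞.card with hc₀
  by_cases he : Even h
  · rw [if_pos he] at hIv
    have hQ : (P.filter fun p => ¬ Av p).card ≤ (h + 1) * (e * e) := by
      have hsub : (P.filter fun p => ¬ Av p) ⊆ Finset.univ.biUnion fun c : Ω =>
          (Inv.filter fun x => x • c = c) ×ˢ (Inv.filter fun x => x • c = c) := by
        intro p hp
        obtain ⟨hpP, hpA⟩ := Finset.mem_filter.mp hp
        have hp1 := Finset.mem_product.mp hpP
        have hex : ∃ c : Ω, p.1 • c = c ∧ p.2 • c = c := by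
          rcases hnot p hpP hpA with h1 | h1
          · have hord := (Finset.mem_filter.mp hp1.1).2
            have h2 := fix_inv_eq D.hZ D.hab D.hodd (hne1 hord) (hinv hord) hh
            rw [if_pos he] at h2
            have h3 : 0 < fix p.1 Ω := by omega
            obtain ⟨c, hc⟩ := Finset.card_pos.mp h3
            have hc' := (Finset.mem_filter.mp hc).2
            exact ⟨c, hc', by rw [← h1]; exact hc'⟩
          · exact h1
        obtain ⟨c, hc1, hc2⟩ := hex
        refine Finset.mem_biUnion.mpr ⟨c, Finset.mem_univ _, Finset.mem_product.mpr ⟨?_, ?_⟩⟩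
        · exact Finset.mem_filter.mpr ⟨hp1.1, hc1⟩
        · exact Finset.mem_filter.mpr ⟨hp1.2, hc2⟩
      refine (Finset.card_le_card hsub).trans (Finset.card_biUnion_le.trans ?_)
      have h4 : ∀ c : Ω, ((Inv.filter fun x => x • c = c) ×ˢ (Inv.filter fun x => x • c = c)).card = e * e := by
        intro c
        rw [Finset.card_product, D.card_inv_fix hh he c]
      simp only [h4, Finset.sum_const, Finset.card_univ, hh, smul_eq_mul, le_refl]
    rw [hPcard, hIv] at hsplit
    rw [hG] at hAv
    by_contra hlt2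
    have hlt3 : c₀ + 1 ≤ e := by omega
    have h5 : (e * (h + 1)) * (e * (h + 1)) ≤ c₀ * ((h + 1) * (h * e)) + (h + 1) * (e * e) := by
      rw [← hsplit]
      exact Nat.add_le_add hAv hQ
    have h6 : 0 < (h + 1) * e := by positivity
    have h7 : e * (h + 1) ≤ c₀ * h + e := by
      apply Nat.le_of_mul_le_mul_left _ h6
      calc (h + 1) * e * (e * (h + 1)) = (e * (h + 1)) * (e * (h + 1)) := by ring
        _ ≤ c₀ * ((h + 1) * (h * e)) + (h + 1) * (e * e) := h5
        _ = (h + 1) * e * (c₀ * h + e) := by ring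
    have h8 : (c₀ + 1) * h ≤ e * h := Nat.mul_le_mul_right h hlt3
    nlinarith
  · rw [if_neg he] at hIv
    have hQ : (P.filter fun p => ¬ Av p).card ≤ Inv.card := by
      apply Finset.card_le_card_of_injOn Prod.fst
      · intro p hp
        have h1 := Finset.mem_coe.mp hp
        exact Finset.mem_coe.mpr (Finset.mem_product.mp (Finset.mem_filter.mp h1).1).1
      · intro p hp q hq hpq
        have hp' := Finset.mem_coe.mp hp
        have hq' := Finset.mem_coe.mp hq
        have key : ∀ r ∈ (P.filter fun p => ¬ Av p), r.1 = r.2 := by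
          intro r hr
          obtain ⟨hrP, hrA⟩ := Finset.mem_filter.mp hr
          rcases hnot r hrP hrA with h1 | ⟨c, hc1, -⟩
          · exact h1
          · exfalso
            have hord := (Finset.mem_filter.mp (Finset.mem_product.mp hrP).1).2
            exact he (D.even_of_fix (hne1 hord) (hinv hord) hh hc1)
        apply Prod.ext hpq
        rw [← key p hp', ← key q hq']
        exact hpq
    rw [hPcard, hIv] at hsplit
    rw [hG] at hAv
    rw [hIv] at hQ
    by_contra hlt2
    have hlt3 : c₀ + 1 ≤ e := by omega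
    have h5 : (e * h) * (e * h) ≤ c₀ * ((h + 1) * (h * e)) + e * h := by
      rw [← hsplit]
      exact Nat.add_le_add hAv hQ
    have h6 : 0 < e * h := by positivity
    have h7 : e * h ≤ c₀ * (h + 1) + 1 := by
      apply Nat.le_of_mul_le_mul_left _ h6
      calc e * h * (e * h) ≤ c₀ * ((h + 1) * (h * e)) + e * h := h5
        _ = e * h * (c₀ * (h + 1) + 1) := by ring
    have h8 : (c₀ + 1) * (h + 1) ≤ e * (h + 1) := Nat.mul_le_mul_right _ hlt3
    have h9 : e < h := by omega
    nlinarith

end KData

end Cfsg.Agent.Lib.Char.Zass
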