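import Cfsg.Agent.Lib.Char.ZassClasses
import Cfsg.Agent.Lib.Char.Coherent
import Cfsg.Agent.Lib.Char.Galois

/-!
# Feit's theorem on Zassenhaus groups: the coherent case.
-/

set_option autoImplicit false

namespace Cfsg.Agent.Lib.Char.Zass

open Cfsg Cfsg.Agent.Lib.Char
open scoped ComplexConjugate

namespace KData

variable {G Ω : Type*} [Group G] [Fintype G] [MulAction G Ω] [Fintype Ω] (D : KData G Ω)

/-- The kernel as a subgroup of the stabilizer. -/
abbrev KK : Subgroup D.S := D.H.subgroupOf D.S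

noncomputable instance instFintypeKK : Fintype D.KK := Fintype.ofFinite _
noncomputable instance instFintypeH : Fintype D.H := Fintype.ofFinite _

instance instNormalKK : D.KK.Normal := by
  constructor
  intro n hn g
  rw [Subgroup.mem_subgroupOf] at hn ⊢
  exact conj_mem_kernel D.hZ D.hHcard D.hHa D.hHfix g.2 hn

theorem mem_H_of_commute {u x : G} (hu : u ∈ D.H) (hu1 : u ≠ 1) (hc : x * u = u * x) : x ∈ D.H := by
  by_cases hx1 : x = 1
  · rw [hx1]; exact D.H.one_mem
  have hua : u • D.a = D.a := D.hHa hu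
  have hxa : x • D.a = D.a := by
    have : u • (x • D.a) = x • D.a := by
      rw [← mul_smul, ← hc, mul_smul, hua]
    exact D.hHfix u hu hu1 _ this
  apply mem_kernel_of_fpf D.hZ D.hHcard D.hHa D.hHfix hxa
  intro c hc'
  by_contra hca
  have huc : u • c ≠ c := fun h => hca (D.hHfix u hu hu1 _ h)
  have huca : u • c ≠ D.a := by
    intro h
    apply hca
    have : u • c = u • D.a := by rw [h, hua]
    exact smul_left_cancel _ this
  have hxuc : x • (u • c) = u • c := by
    rw [← mul_smul, hc, mul_smul, hc']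
  exact hx1 (eq_one_of_three D.hZ (Ne.symm hca) huc.symm huca.symm hxa hc' hxuc)

theorem hfpf_KK : ∀ x : D.S, x ∉ D.KK → ∀ k ∈ D.KK, x * k = k * x → k = 1 := by
  intro x hx k hk hc
  by_contra hk1
  apply hx
  rw [Subgroup.mem_subgroupOf]
  exact D.mem_H_of_commute (Subgroup.mem_subgroupOf.mp hk) (fun h => hk1 (Subtype.ext h))
    (congrArg Subtype.val hc)

/-- The value of an induced class function at a nonidentity element of the kernel. -/
theorem ind_of_kernel' {θ : D.S → ℂ} (hθ : IsClassFunction D.S θ) {u : D.S} (hu : (u : G) ∈ D.H)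
    (hu1 : (u : G) ≠ 1) : indFun D.S θ u = θ u := by
  classical
  rw [indFun_apply]
  have h1 : ∀ x : G, extendByZero D.S θ (x⁻¹ * u * x) = if x ∈ D.S then θ u else 0 := by
    intro x
    split_ifs with hx
    · have h3 : x⁻¹ * (u : G) * x =
          ((⟨x⁻¹, D.S.inv_mem hx⟩ : D.S) : G) * (u : G) * ((⟨x⁻¹, D.S.inv_mem hx⟩ : D.S) : G)⁻¹ := by
        simp
      rw [h3, extendByZero_conj D.S hθ, extendByZero_coe]
    · apply extendByZero_of_notMem
      intro h
      apply hx
      have h2 : (x⁻¹ * u * x) • D.a = D.a := h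
      rw [mul_smul, mul_smul, inv_smul_eq_iff] at h2
      have h3 := D.hHfix u hu hu1 _ h2
      exact h3
  simp only [h1, Finset.sum_ite, Finset.sum_const_zero, add_zero, Finset.sum_const, smul_eq_mul,
    nsmul_eq_mul]
  have h4 : ((Finset.univ.filter fun x : G => x ∈ D.S).card : ℂ) = (Nat.card D.S : ℂ) := by
    congr 1
    rw [Nat.card_eq_fintype_card, ← Fintype.card_subtype]
  rw [h4]
  have hS : (Nat.card D.S : ℂ) ≠ 0 := by exact_mod_cast Nat.card_pos.ne'
  field_simp

open scoped Classical in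
/-- The number of relevant characters is at most the number of conjugacy classes meeting the
kernel outside the identity. -/
theorem card_rel_le [Fintype (ConjClasses G)] :
    (Finset.univ.filter fun a : IrrCharacter D.S => (a : D.S → ℂ) ∈ relChars D.KK).card ≤
      (Finset.univ.filter fun C : ConjClasses G => ∃ g ∈ D.H, g ≠ 1 ∧ ConjClasses.mk g = C).card := by
  set T := Finset.univ.filter fun a : IrrCharacter D.S => (a : D.S → ℂ) ∈ relChars D.KK with hT
  set B := Finset.univ.filter fun C : ConjClasses G => ∃ g ∈ D.H, g ≠ 1 ∧ ConjClasses.mk g = C with hB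
  choose rep hrep using ConjClasses.exists_rep (α := G)
  let row : T → B → ℂ := fun a C => indFun D.S (a.1 : D.S → ℂ) (rep C)
  have hrel : ∀ a : T, (a.1 : D.S → ℂ) ∈ relChars D.KK := fun a => (Finset.mem_filter.mp a.2).2
  have hli : LinearIndependent ℂ row := by
    rw [Fintype.linearIndependent_iff]
    intro c hc a
    let f : D.S → ℂ := ∑ b : T, c b • (b.1 : D.S → ℂ)
    have hfv : ∀ s, f s = ∑ b : T, c b * (b.1 : D.S → ℂ) s := by
      intro s
      simp [f, Finset.sum_apply]
    have hoff : ∀ s : D.S, s ∉ D.KK → f s = 0 := by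
      intro s hs
      rw [hfv]
      refine Finset.sum_eq_zero fun b _ => ?_
      rw [(relChars_induced D.hfpf_KK (hrel b)).1 s hs, mul_zero]
    have hker : ∀ s : D.S, s ∈ D.KK → s ≠ 1 → f s = 0 := by
      intro s hs hs1
      have hsH : (s : G) ∈ D.H := Subgroup.mem_subgroupOf.mp hs
      have hs1' : (s : G) ≠ 1 := fun h => hs1 (Subtype.ext h)
      have hmem : ConjClasses.mk (s : G) ∈ B :=
        Finset.mem_filter.mpr ⟨Finset.mem_univ _, s, hsH, hs1', rfl⟩
      have h1 := congrFun hc ⟨_, hmem⟩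
      simp only [Finset.sum_apply, Pi.smul_apply, smul_eq_mul, Pi.zero_apply] at h1
      rw [hfv, ← h1]
      refine Finset.sum_congr rfl fun b _ => ?_
      congr 1
      have hcl := isClassFunction_indFun D.S (b.1 : D.S → ℂ)
      have hconj : IsConj (s : G) (rep (ConjClasses.mk (s : G))) :=
        ConjClasses.mk_eq_mk_iff_isConj.mp (hrep (ConjClasses.mk (s : G))).symm
      show _ = indFun D.S (b.1 : D.S → ℂ) (rep (ConjClasses.mk (s : G)))
      rw [← IsClassFunction.congr_isConj hcl hconj,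
        D.ind_of_kernel' (IsCharacter.isClassFunction (IsIrrCharacter.isCharacter b.1.2)) hsH hs1']
    have hone : f 1 = 0 := by
      have h2 : classInner f (fun _ => 1) = 0 := by
        have hf' : f = ∑ b : T, c b • (b.1 : D.S → ℂ) := rfl
        rw [hf', classInner_sum_left]
        refine Finset.sum_eq_zero fun b _ => ?_
        rw [classInner_smul_left, classInner_irr_of_ne (hrel b).1 isIrrCharacter_one, mul_zero]
        intro h
        obtain ⟨k, -, hk⟩ := (hrel b).2
        apply hk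
        rw [h]
      have h3 : ∑ s : D.S, f s * conj ((fun _ : D.S => (1 : ℂ)) s) = f 1 := by
        rw [Finset.sum_eq_single 1]
        · simp
        · intro s _ hs
          by_cases hsK : s ∈ D.KK
          · rw [hker s hsK hs, zero_mul]
          · rw [hoff s hsK, zero_mul]
        · intro h
          exact absurd (Finset.mem_univ _) h
      have h4 : classInner f (fun _ => 1) = (Nat.card D.S : ℂ)⁻¹ * f 1 := by
        rw [← h3]
        rfl
      rw [h4] at h2
      have hS : (Nat.card D.S : ℂ)⁻¹ ≠ 0 := inv_ne_zero (by exact_mod_cast Nat.card_pos.ne')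
      exact (mul_eq_zero.mp h2).resolve_left hS
    have hf0 : f = 0 := by
      funext s
      by_cases hs1 : s = 1
      · rw [hs1, hone]; rfl
      · by_cases hsK : s ∈ D.KK
        · exact hker s hsK hs1
        · exact hoff s hsK
    have hLI : LinearIndependent ℂ (fun b : T => (b.1 : D.S → ℂ)) :=
      (linearIndependent_irr (G := D.S)).comp (fun b : T => b.1) Subtype.val_injective
    exact Fintype.linearIndependent_iff.mp hLI c hf0 a
  have h5 := hli.fintype_card_le_finrank
  rw [Module.finrank_fintype_fun_eq_card] at h5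
  simpa using h5

section Hom

variable [IsSimpleGroup G]

theorem inv_of_E {x : G} (hx : x ∈ D.E) : D.t * x * D.t = x⁻¹ :=
  inverts_of_free D.ht3 D.hta D.htb D.hfree hx.1 hx.2

theorem E_comm (x y : D.E) : x * y = y * x := by
  apply Subtype.ext
  have h1 := D.inv_of_E (D.E.mul_mem x.2 y.2)
  have h2 := D.inv_of_E x.2
  have h3 := D.inv_of_E y.2
  have h4 : D.t * ((x : G) * y) * D.t = (D.t * x * D.t) * (D.t * y * D.t) := by
    calc D.t * ((x : G) * y) * D.t = D.t * x * 1 * y * D.t := by group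
      _ = D.t * x * (D.t * D.t) * y * D.t := by rw [D.ht3]
      _ = _ := by group
  rw [h1, h2, h3, mul_inv_rev] at h4
  have h5 := congrArg (·⁻¹) h4
  simpa using h5

theorem hom_card : Nat.card (D.E →* ℂˣ) = Nat.card D.E := by
  letI : CommGroup D.E := { (inferInstance : Group D.E) with mul_comm := D.E_comm }
  haveI : NeZero (Monoid.exponent D.E) := ⟨Monoid.exponent_ne_zero_of_finite⟩
  exact CommGroup.card_monoidHom_of_hasEnoughRootsOfUnity D.E ℂ

theorem hom_sep {y : D.E} (hy : y ≠ 1) : ∃ ω : D.E →* ℂˣ, ω y ≠ 1 := by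
  letI : CommGroup D.E := { (inferInstance : Group D.E) with mul_comm := D.E_comm }
  haveI : NeZero (Monoid.exponent D.E) := ⟨Monoid.exponent_ne_zero_of_finite⟩
  exact CommGroup.exists_apply_ne_one_of_hasEnoughRootsOfUnity D.E ℂ hy

theorem hom_finite : Finite (D.E →* ℂˣ) := by
  apply Nat.finite_of_card_ne_zero
  rw [D.hom_card]
  exact Nat.card_pos.ne'

open scoped Classical in
theorem sum_hom [Fintype (D.E →* ℂˣ)] (y : D.E) :
    ∑ ω : D.E →* ℂˣ, ((ω y : ℂˣ) : ℂ) = if y = 1 then (Nat.card D.E : ℂ) else 0 := by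
  split_ifs with hy
  · subst hy
    simp only [map_one, Units.val_one, Finset.sum_const, Finset.card_univ, nsmul_eq_mul, mul_one]
    rw [← Nat.card_eq_fintype_card, D.hom_card]
  · obtain ⟨ω₀, h₀⟩ := D.hom_sep hy
    have h1 : ∑ ω : D.E →* ℂˣ, ((ω y : ℂˣ) : ℂ) = ∑ ω : D.E →* ℂˣ, (((ω₀ * ω) y : ℂˣ) : ℂ) :=
      (Equiv.sum_comp (Equiv.mulLeft ω₀) (fun ω : D.E →* ℂˣ => ((ω y : ℂˣ) : ℂ))).symm
    have h2 : ∑ ω : D.E →* ℂˣ, (((ω₀ * ω) y : ℂˣ) : ℂ) =
        ((ω₀ y : ℂˣ) : ℂ) * ∑ ω : D.E →* ℂˣ, ((ω y : ℂˣ) : ℂ) := by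
      rw [Finset.mul_sum]
      refine Finset.sum_congr rfl fun ω _ => ?_
      simp [MonoidHom.mul_apply]
    rw [h2] at h1
    have h3 : (1 - ((ω₀ y : ℂˣ) : ℂ)) * ∑ ω : D.E →* ℂˣ, ((ω y : ℂˣ) : ℂ) = 0 := by
      rw [sub_mul, one_mul, ← h1, sub_self]
    have h4 : (1 - ((ω₀ y : ℂˣ) : ℂ)) ≠ 0 := by
      intro h
      apply h₀
      apply Units.ext
      rw [Units.val_one]
      linear_combination -h
    exact (mul_eq_zero.mp h3).resolve_left h4

theorem rho_eq_one_iff (s : D.S) : D.rho s = 1 ↔ (s : G) ∈ D.H := by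
  constructor
  · intro h
    obtain ⟨u, hu, hs⟩ := (D.exists_decomp s).choose_spec
    have h1 : (D.exists_decomp s).choose = D.rho s := rfl
    rw [h1, h] at hs
    simp only [OneMemClass.coe_one, mul_one] at hs
    rw [hs]
    exact hu
  · exact D.rho_of_kernel s

/-- A class function orthogonal to all the characters induced from `E` has zero sum on the kernel. -/
theorem sum_H_eq_zero {χ : G → ℂ} (hχ : IsClassFunction G χ)
    (h : ∀ ω : D.E →* ℂˣ, classInner (indFun D.S (D.mu (D.lift ω))) χ = 0) :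
    ∑ x : D.H, χ x = 0 := by
  classical
  haveI := D.hom_finite
  letI : Fintype (D.E →* ℂˣ) := Fintype.ofFinite _
  have hS : (Nat.card D.S : ℂ)⁻¹ ≠ 0 := inv_ne_zero (by exact_mod_cast Nat.card_pos.ne')
  have h1 : ∀ ω : D.E →* ℂˣ, ∑ s : D.S, ((ω (D.rho s) : ℂˣ) : ℂ) * conj (χ s) = 0 := by
    intro ω
    have h2 := h ω
    rw [classInner_indFun_left D.S _ χ hχ] at h2
    exact (mul_eq_zero.mp h2).resolve_left hS
  have h3 : ∑ ω : D.E →* ℂˣ, ∑ s : D.S, ((ω (D.rho s) : ℂˣ) : ℂ) * conj (χ s) = 0 :=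
    Finset.sum_eq_zero fun ω _ => h1 ω
  rw [Finset.sum_comm] at h3
  have h4 : ∀ s : D.S, ∑ ω : D.E →* ℂˣ, ((ω (D.rho s) : ℂˣ) : ℂ) * conj (χ s) =
      (Nat.card D.E : ℂ) * (if (s : G) ∈ D.H then conj (χ s) else 0) := by
    intro s
    rw [← Finset.sum_mul, D.sum_hom]
    by_cases hs : (s : G) ∈ D.H
    · rw [if_pos ((D.rho_eq_one_iff s).mpr hs), if_pos hs]
    · rw [if_neg (fun h' => hs ((D.rho_eq_one_iff s).mp h')), if_neg hs]
      simp
  rw [Finset.sum_congr rfl fun s _ => h4 s, ← Finset.mul_sum] at h3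
  have h5 := (mul_eq_zero.mp h3).resolve_left (by exact_mod_cast Nat.card_pos.ne')
  have h6 := sum_subgroup_of_support D.hHa (fun g => if g ∈ D.H then conj (χ g) else 0)
    (by intro g _ hg; simp [hg])
  rw [h6] at h5
  have h7 : ∑ x : D.H, conj (χ x) = 0 := by
    rw [← h5]
    refine Finset.sum_congr rfl fun x _ => ?_
    simp
  have h8 : conj (∑ x : D.H, χ x) = 0 := by
    rw [map_sum]
    exact h7
  rw [← Complex.conj_conj (∑ x : D.H, χ x), h8, map_zero]

omit [IsSimpleGroup G] in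
theorem hom_inv_ne_one {ω : D.E →* ℂˣ} (hω : ω ≠ 1) : ω⁻¹ ≠ 1 := by
  intro h
  apply hω
  ext x
  have h2 := DFunLike.congr_fun h x
  simp only [MonoidHom.inv_apply, MonoidHom.one_apply, inv_eq_one] at h2
  rw [h2]
  rfl

theorem irr_ind_of_ne {ω : D.E →* ℂˣ} (hω : ω ≠ 1) :
    IsIrrCharacter G (indFun D.S (D.mu (D.lift ω))) := by
  apply D.isIrr_ind (D.lift ω) (D.lift_kernel ω)
  by_contra hcon
  push Not at hcon
  apply hω
  ext x
  have h1 := hcon x
  rw [D.ff_lift] at h1
  simpa using h1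

theorem ind_inv_eq {ω : D.E →* ℂˣ} (hω : ω ≠ 1) :
    indFun D.S (D.mu (D.lift ω⁻¹)) = indFun D.S (D.mu (D.lift ω)) := by
  have hω' : ω⁻¹ ≠ 1 := hom_inv_ne_one D hω
  by_contra hne
  have h0 := classInner_irr_of_ne (D.irr_ind_of_ne hω) (D.irr_ind_of_ne hω') (Ne.symm hne)
  rw [D.inner_ind _ _ (IsCharacter.isClassFunction (IsIrrCharacter.isCharacter (D.isIrr_mu _)))
    (IsCharacter.isClassFunction (IsIrrCharacter.isCharacter (D.isIrr_mu _)))] at h0
  have hne' : D.mu (D.lift ω) ≠ D.mu (D.lift ω⁻¹) := by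
    intro heq
    apply hω
    ext x
    have h1 : D.ff (D.lift ω) x = D.ff (D.lift ω⁻¹) x := by
      show extendByZero D.S (D.mu (D.lift ω)) x = extendByZero D.S (D.mu (D.lift ω⁻¹)) x
      rw [heq]
    rw [D.ff_lift, D.ff_lift] at h1
    have h2 : D.ff (D.lift ω) x ^ 2 = 1 := by
      rw [D.ff_lift, sq]
      nth_rewrite 2 [h1]
      simp
    have h3 := D.ff_eq_one_of_sq (D.lift ω) x.2 h2
    rw [D.ff_lift] at h3
    simpa using h3
  rw [classInner_irr_of_ne (D.isIrr_mu _) (D.isIrr_mu _) hne', zero_add] at h0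
  have h1 : ∀ x : D.E, extendByZero D.S (D.mu (D.lift ω)) x *
      conj (extendByZero D.S (D.mu (D.lift ω⁻¹)) (D.t * (x : G) * D.t)) = 1 := by
    intro x
    have h2 : D.t * (x : G) * D.t = ((x⁻¹ : D.E) : G) := by
      rw [D.inv_of_E x.2]
      rfl
    have h3 : extendByZero D.S (D.mu (D.lift ω⁻¹)) (D.t * (x : G) * D.t) =
        extendByZero D.S (D.mu (D.lift ω)) x := by
      rw [h2]
      show D.ff (D.lift ω⁻¹) (x⁻¹ : D.E) = D.ff (D.lift ω) x
      rw [D.ff_lift, D.ff_lift]
      simp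
    rw [h3]
    exact D.ff_mul_conj (D.lift ω) (D.E_le_S x.2)
  rw [Finset.sum_congr rfl fun x _ => h1 x] at h0
  simp only [Finset.sum_const, Finset.card_univ, nsmul_eq_mul, mul_one] at h0
  rw [← Nat.card_eq_fintype_card] at h0
  have hE := D.card_pos_E
  rw [inv_mul_cancel₀ hE] at h0
  exact one_ne_zero h0

open scoped Classical in
/-- At most `e` irreducible characters have a nonzero sum on the kernel. -/
theorem card_P_le :
    (Finset.univ.filter fun χ : IrrCharacter G => ∑ x : D.H, (χ : G → ℂ) x ≠ 0).card ≤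
      Nat.card D.E := by
  haveI := D.hom_finite
  letI : Fintype (D.E →* ℂˣ) := Fintype.ofFinite _
  obtain ⟨α, β, hα, hβ, -, hab⟩ := exists_add_of_norm_two D.isChar_perm D.inner_pi_pi
  obtain ⟨y, hy1, hya, hyb⟩ := exists_ne_one_fix D.hZ D.hab
  have hy : (⟨y, hya, hyb⟩ : D.E) ≠ 1 := fun h => hy1 (congrArg Subtype.val h)
  obtain ⟨ω₀, hω₀⟩ := D.hom_sep hy
  have hω₀1 : ω₀ ≠ 1 := by
    rintro rfl
    exact hω₀ rfl
  have hω₀i : ω₀⁻¹ ≠ 1 := hom_inv_ne_one D hω₀1
  have hω₀ne : ω₀ ≠ ω₀⁻¹ := by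
    intro heq
    apply hω₀1
    ext x
    have h1 : D.ff (D.lift ω₀) x ^ 2 = 1 := by
      rw [D.ff_lift, sq]
      have h2 : ω₀ x = ω₀⁻¹ x := by rw [← heq]
      nth_rewrite 2 [h2]
      simp
    have h3 := D.ff_eq_one_of_sq (D.lift ω₀) x.2 h1
    rw [D.ff_lift] at h3
    simpa using h3
  let F : (D.E →* ℂˣ) → IrrCharacter G := fun ω =>
    if h : ω = 1 then ⟨α, hα⟩ else ⟨indFun D.S (D.mu (D.lift ω)), D.irr_ind_of_ne h⟩
  have hF : ∀ {ω : D.E →* ℂˣ}, ω ≠ 1 → (F ω : G → ℂ) = indFun D.S (D.mu (D.lift ω)) := by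
    intro ω h
    simp only [F, dif_neg h]
  let Ω' : Finset (D.E →* ℂˣ) := (Finset.univ.erase 1).erase ω₀⁻¹
  have hcardΩ' : Ω'.card = Nat.card D.E - 2 := by
    rw [Finset.card_erase_of_mem (Finset.mem_erase.mpr ⟨hω₀i, Finset.mem_univ _⟩),
      Finset.card_erase_of_mem (Finset.mem_univ _), Finset.card_univ, ← Nat.card_eq_fintype_card,
      D.hom_card]
    omega
  have hsub : (Finset.univ.filter fun χ : IrrCharacter G => ∑ x : D.H, (χ : G → ℂ) x ≠ 0) ⊆
      insert (⟨α, hα⟩ : IrrCharacter G) (insert (⟨β, hβ⟩ : IrrCharacter G) (Ω'.image F)) := by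
    intro χ hχ
    have hχ' := (Finset.mem_filter.mp hχ).2
    have hex : ∃ ω : D.E →* ℂˣ, classInner (indFun D.S (D.mu (D.lift ω))) (χ : G → ℂ) ≠ 0 := by
      by_contra hcon
      push Not at hcon
      exact hχ' (D.sum_H_eq_zero (IsCharacter.isClassFunction (IsIrrCharacter.isCharacter χ.2)) hcon)
    obtain ⟨ω, hω⟩ := hex
    by_cases hω1 : ω = 1
    · subst hω1
      have h1 : D.mu (D.lift (1 : D.E →* ℂˣ)) = fun _ => 1 := by
        funext s
        show ((D.lift 1 s : ℂˣ) : ℂ) = 1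
        show (((1 : D.E →* ℂˣ) (D.rho s) : ℂˣ) : ℂ) = 1
        simp
      rw [h1] at hω
      have h2 : indFun D.S (fun _ : D.S => (1 : ℂ)) = α + β := hab
      rw [h2, classInner_add_left] at hω
      by_cases h3 : (χ : G → ℂ) = α
      · rw [Finset.mem_insert]
        left
        exact Subtype.ext h3
      · by_cases h4 : (χ : G → ℂ) = β
        · rw [Finset.mem_insert, Finset.mem_insert]
          right
          left
          exact Subtype.ext h4
        · exfalso
          apply hω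
          rw [classInner_irr_of_ne hα χ.2 (Ne.symm h3), classInner_irr_of_ne hβ χ.2 (Ne.symm h4),
            add_zero]
    · rw [Finset.mem_insert, Finset.mem_insert]
      right
      right
      have h1 : (χ : G → ℂ) = indFun D.S (D.mu (D.lift ω)) := by
        by_contra hne
        exact hω (classInner_irr_of_ne (D.irr_ind_of_ne hω1) χ.2 (Ne.symm hne))
      by_cases h2 : ω = ω₀⁻¹
      · rw [Finset.mem_image]
        refine ⟨ω₀, Finset.mem_erase.mpr ⟨hω₀ne, Finset.mem_erase.mpr ⟨hω₀1, Finset.mem_univ _⟩⟩, ?_⟩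
        apply Subtype.ext
        rw [hF hω₀1, h1, h2, D.ind_inv_eq hω₀1]
      · rw [Finset.mem_image]
        refine ⟨ω, Finset.mem_erase.mpr ⟨h2, Finset.mem_erase.mpr ⟨hω1, Finset.mem_univ _⟩⟩, ?_⟩
        apply Subtype.ext
        rw [hF hω1, h1]
  have he2 : 2 ≤ Nat.card D.E := by
    have h1 : Nontrivial D.E := ⟨⟨⟨y, hya, hyb⟩, 1, hy⟩⟩
    exact Finite.one_lt_card_iff_nontrivial.mpr h1
  calc _ ≤ _ := Finset.card_le_card hsub
    _ ≤ (insert (⟨β, hβ⟩ : IrrCharacter G) (Ω'.image F)).card + 1 := Finset.card_insert_le _ _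
    _ ≤ (Ω'.image F).card + 1 + 1 := by gcongr; exact Finset.card_insert_le _ _
    _ ≤ Ω'.card + 1 + 1 := by gcongr; exact Finset.card_image_le
    _ = Nat.card D.E := by omega

end Hom

/-- Coherence forces the kernel to be small: there is an irreducible character of degree divisible
by `h - 1`, hence `h - 1` divides `2 e`. -/
theorem false_of_coherent [IsSimpleGroup G] {h : ℕ} (hh : Fintype.card Ω = h + 1)
    (hlt : 2 * Nat.card D.E < h - 1)
    (hcoh : IsCoherent (relChars D.KK) ({1}ᶜ : Set D.S) (fun α => indFun D.S α)) : False := by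
  classical
  letI : Fintype (ConjClasses G) := Fintype.ofFinite _
  obtain ⟨⟨α₀, hα₀, hα₀ne⟩, star, hstar, hext⟩ := hcoh
  -- a relevant character exists
  have hne : (relChars D.KK).Nonempty := by
    by_contra hcon
    rw [Set.not_nonempty_iff_eq_empty] at hcon
    have h1 : α₀ ∈ zspan (relChars D.KK) := hα₀.1
    rw [hcon] at h1
    have h2 : α₀ ∈ Submodule.span ℤ (∅ : Set (D.S → ℂ)) := h1
    rw [Submodule.span_empty, Submodule.mem_bot] at h2
    exact hα₀ne h2
  obtain ⟨ξ₀, hξ₀⟩ := hne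
  set T := Finset.univ.filter fun a : IrrCharacter D.S => (a : D.S → ℂ) ∈ relChars D.KK with hT
  set B := Finset.univ.filter fun C : ConjClasses G => ∃ g ∈ D.H, g ≠ 1 ∧ ConjClasses.mk g = C with hB
  set A := Finset.univ.filter fun C : ConjClasses G => ∀ g : G, ConjClasses.mk g = C → g ∉ D.H with hA
  set P := Finset.univ.filter fun χ : IrrCharacter G => ∑ x : D.H, (χ : G → ℂ) x ≠ 0 with hP
  set U := Finset.univ.filter fun χ : IrrCharacter G => ∃ a ∈ T, (χ : G → ℂ) = star (a : D.S → ℂ) ∨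
    (χ : G → ℂ) = -star (a : D.S → ℂ) with hU
  have hTB : T.card ≤ B.card := D.card_rel_le
  have hPc : P.card ≤ Nat.card D.E := D.card_P_le
  have hAc : Nat.card D.E ≤ A.card := by
    have h1 := D.classes_avoiding hh hlt
    have h2 : Nat.card {C : ConjClasses G // ∀ g : G, ConjClasses.mk g = C → g ∉ D.H} = A.card := by
      rw [Nat.card_eq_fintype_card]
      apply Fintype.card_of_subtype
      intro C
      simp [hA]
    rwa [h2] at h1
  have hUc : U.card ≤ T.card := by
    apply Finset.card_le_card_of_forall_subsingleton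
      (fun (χ : IrrCharacter G) (a : IrrCharacter D.S) =>
        (χ : G → ℂ) = star (a : D.S → ℂ) ∨ (χ : G → ℂ) = -star (a : D.S → ℂ))
    · intro χ hχ
      obtain ⟨a, ha, hb⟩ := (Finset.mem_filter.mp hχ).2
      exact ⟨a, ha, hb⟩
    · intro a _ χ hχ χ' hχ'
      have hχ1 := hχ.2
      have hχ'1 := hχ'.2
      have hpos : ∀ ψ : IrrCharacter G, 0 < ((ψ : G → ℂ) 1).re := by
        intro ψ
        obtain ⟨n, hn, h1⟩ := IsIrrCharacter.apply_one ψ.2
        rw [h1]
        simpa using hn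
      apply Subtype.ext
      rcases hχ1 with h1 | h1 <;> rcases hχ'1 with h2 | h2
      · rw [h1, h2]
      · exfalso
        have h3 : (χ : G → ℂ) 1 = -(χ' : G → ℂ) 1 := by
          rw [h1, h2]
          simp
        have h4 := congrArg Complex.re h3
        have h5 := hpos χ
        have h6 := hpos χ'
        simp only [Complex.neg_re] at h4
        linarith
      · exfalso
        have h3 : (χ : G → ℂ) 1 = -(χ' : G → ℂ) 1 := by
          rw [h1, h2]
          simp
        have h4 := congrArg Complex.re h3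
        have h5 := hpos χ
        have h6 := hpos χ'
        simp only [Complex.neg_re] at h4
        linarith
      · rw [h1, h2]
  -- the count of classes
  have hk : A.card + 1 + B.card ≤ Fintype.card (IrrCharacter G) := by
    have h1 : Fintype.card (IrrCharacter G) = Fintype.card (ConjClasses G) := by
      rw [← Nat.card_eq_fintype_card, ← Nat.card_eq_fintype_card, card_irr_eq_card_conjClasses]
    rw [h1]
    have hdisj : Disjoint A B := by
      rw [Finset.disjoint_left]
      intro C hCA hCB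
      obtain ⟨g, hg, -, hgC⟩ := (Finset.mem_filter.mp hCB).2
      exact (Finset.mem_filter.mp hCA).2 g hgC hg
    have hnot : ConjClasses.mk (1 : G) ∉ A ∪ B := by
      intro hmem
      rcases Finset.mem_union.mp hmem with h2 | h2
      · exact (Finset.mem_filter.mp h2).2 1 rfl D.H.one_mem
      · obtain ⟨g, -, hg1, hgC⟩ := (Finset.mem_filter.mp h2).2
        apply hg1
        have h3 : IsConj g 1 := ConjClasses.mk_eq_mk_iff_isConj.mp hgC
        exact isConj_one_right.mp h3.symm
    have h2 : (insert (ConjClasses.mk (1 : G)) (A ∪ B)).card = A.card + 1 + B.card := by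
      rw [Finset.card_insert_of_notMem hnot, Finset.card_union_of_disjoint hdisj]
      omega
    rw [← h2]
    exact Finset.card_le_univ _
  -- a character outside `P` and `U`
  have hex : ∃ χ : IrrCharacter G, χ ∉ P ∧ χ ∉ U := by
    by_contra hcon
    push Not at hcon
    have h1 : (Finset.univ : Finset (IrrCharacter G)) ⊆ P ∪ U := by
      intro χ _
      by_cases h2 : χ ∈ P
      · exact Finset.mem_union_left _ h2
      · exact Finset.mem_union_right _ (hcon χ h2)
    have h3 := Finset.card_le_card h1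
    have h4 := Finset.card_union_le P U
    rw [Finset.card_univ] at h3
    omega
  obtain ⟨χ, hχP, hχU⟩ := hex
  have hsum : ∑ x : D.H, (χ : G → ℂ) x = 0 := by
    by_contra hcon
    exact hχP (Finset.mem_filter.mpr ⟨Finset.mem_univ _, hcon⟩)
  have hχcl := IsCharacter.isClassFunction (IsIrrCharacter.isCharacter χ.2)
  have horth : ∀ φ ∈ relChars D.KK, classInner (star φ) (χ : G → ℂ) = 0 := by
    intro φ hφ
    have hgen := hstar.2.2.2 φ (mem_zspan_of_mem hφ)
    have hn : classInner (star φ) (star φ) = 1 := by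
      rw [hstar.2.2.1 φ (mem_zspan_of_mem hφ) φ (mem_zspan_of_mem hφ)]
      exact classInner_irr_self hφ.1
    have hmem : (⟨φ, hφ.1⟩ : IrrCharacter D.S) ∈ T := Finset.mem_filter.mpr ⟨Finset.mem_univ _, hφ⟩
    apply classInner_eq_zero_of_norm_one hgen hn χ.2
    · intro h1
      exact hχU (Finset.mem_filter.mpr ⟨Finset.mem_univ _, _, hmem, Or.inl h1⟩)
    · intro h1
      exact hχU (Finset.mem_filter.mpr ⟨Finset.mem_univ _, _, hmem, Or.inr h1⟩)
  have hconst : ∀ k₁ k₂ : D.S, k₁ ∈ D.KK → k₂ ∈ D.KK → k₁ ≠ 1 → k₂ ≠ 1 →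
      (χ : G → ℂ) k₁ = (χ : G → ℂ) k₂ := fun k₁ k₂ h1 h2 h3 h4 =>
    const_of_orth_star D.S D.KK star hstar hext hξ₀ hχcl horth h1 h2 h3 h4
  -- the kernel is nontrivial
  have hHc : Nat.card D.H = h := by
    have := D.hHcard
    omega
  have hh2 : 1 < Nat.card D.H := by
    rw [hHc]
    omega
  haveI hnt : Nontrivial D.H := Finite.one_lt_card_iff_nontrivial.mp hh2
  obtain ⟨x₀, hx₀⟩ := exists_ne (1 : D.H)
  set c := (χ : G → ℂ) x₀ with hc
  have hvals : ∀ x : D.H, x ≠ 1 → (χ : G → ℂ) x = c := by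
    intro x hx
    have h1 := hconst ⟨x, D.hHa x.2⟩ ⟨x₀, D.hHa x₀.2⟩ (Subgroup.mem_subgroupOf.mpr x.2)
      (Subgroup.mem_subgroupOf.mpr x₀.2)
      (fun h2 => hx (Subtype.ext (show (x : G) = 1 from congrArg Subtype.val h2)))
      (fun h2 => hx₀ (Subtype.ext (show (x₀ : G) = 1 from congrArg Subtype.val h2)))
    exact h1
  have hsum2 : (χ : G → ℂ) 1 + ((h - 1 : ℕ) : ℂ) * c = 0 := by
    rw [← hsum, ← Finset.add_sum_erase Finset.univ _ (Finset.mem_univ (1 : D.H))]
    congr 1
    rw [Finset.sum_congr rfl fun x hx => hvals x (Finset.ne_of_mem_erase hx), Finset.sum_const,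
      Finset.card_erase_of_mem (Finset.mem_univ _), Finset.card_univ, ← Nat.card_eq_fintype_card, hHc,
      nsmul_eq_mul]
  -- integrality
  have hdeg := apply_one_eq_charDegree (IsIrrCharacter.isCharacter χ.2)
  set n := charDegree (χ : G → ℂ) with hn
  have hh1 : ((h - 1 : ℕ) : ℂ) ≠ 0 := by
    have : h - 1 ≠ 0 := by omega
    exact_mod_cast this
  have hcval : c = ((-(n : ℚ) / ((h - 1 : ℕ) : ℚ) : ℚ) : ℂ) := by
    push_cast
    rw [hdeg] at hsum2
    field_simp
    linear_combination hsum2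
  have hcint : IsIntegral ℤ c := IsCharacter.isIntegral (IsIrrCharacter.isCharacter χ.2) _
  obtain ⟨m, hm⟩ := int_of_isIntegral_of_rat hcint ⟨_, hcval⟩
  have hdvd : ((h - 1 : ℕ) : ℤ) ∣ (n : ℤ) := by
    refine ⟨-m, ?_⟩
    have h1 : ((n : ℤ) : ℂ) = (((h - 1 : ℕ) : ℤ) * (-m) : ℤ) := by
      push_cast
      rw [hdeg, hm] at hsum2
      push_cast at hsum2
      linear_combination hsum2
    exact_mod_cast h1
  have hdvd' : h - 1 ∣ n := by exact_mod_cast hdvd
  have hdvd2 : h - 1 ∣ Nat.card G := hdvd'.trans (charDegree_dvd_card χ.2)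
  have hG := D.card_G
  rw [hh, hHc] at hG
  rw [hG] at hdvd2
  set e := Nat.card D.E with he
  have he0 : 0 < e := Nat.card_pos
  have hident : (h + 1) * (h * e) = (h - 1) * (h * e + 2 * e) + 2 * e := by
    obtain ⟨k, hk⟩ : ∃ k, h = k + 1 := ⟨h - 1, by omega⟩
    subst hk
    simp only [Nat.add_sub_cancel]
    ring
  rw [hident] at hdvd2
  have h2e : h - 1 ∣ 2 * e := (Nat.dvd_add_right (Dvd.intro _ rfl)).mp hdvd2
  have := Nat.le_of_dvd (by omega) h2e
  omega

end KData

end Cfsg.Agent.Lib.Char.Zass
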