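import Cfsg.Agent.Lib.Char.ZassFree

/-!
# Zassenhaus groups with odd two-point stabilizers: products of involutions.
-/

set_option autoImplicit false

namespace Cfsg.Agent.Lib.Char.Zass

open Cfsg Cfsg.Agent.Lib.Char

namespace KData

variable {G Ω : Type*} [Group G] [Fintype G] [MulAction G Ω] [Fintype Ω] (D : KData G Ω)

include D

/-- Involutions whose product is a nonidentity element of the kernel fix the point. -/
theorem inv_prod_fix {x y u : G} (hx : x * x = 1) (hy : y * y = 1) (hxy : x * y = u) (hu : u ∈ D.H)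
    (hu1 : u ≠ 1) : x • D.a = D.a ∧ y • D.a = D.a := by
  have hxi : x⁻¹ = x := inv_eq_of_mul_eq_one_left hx
  have hyi : y⁻¹ = y := inv_eq_of_mul_eq_one_left hy
  have hua : u • D.a = D.a := D.hHa hu
  have h1 : x * u = y := by
    rw [← hxy, ← mul_assoc, hx, one_mul]
  have h2 : u⁻¹ = y * x := by
    rw [← hxy, mul_inv_rev, hxi, hyi]
  have h3 : u⁻¹ • (x • D.a) = x • D.a := by
    have : x • x • D.a = D.a := by rw [← mul_smul, hx, one_smul]
    rw [h2, mul_smul, this, ← h1, mul_smul, hua]
  have h4 : u • (x • D.a) = x • D.a := by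
    have := congrArg (u • ·) h3
    simp only [smul_inv_smul] at this
    exact this.symm
  have h5 : x • D.a = D.a := D.hHfix u hu hu1 _ h4
  refine ⟨h5, ?_⟩
  rw [← h1, mul_smul, hua, h5]

theorem even_of_fix {x : G} (hx1 : x ≠ 1) (hx : x * x = 1) {h : ℕ} (hh : Fintype.card Ω = h + 1) {c : Ω}
    (hc : x • c = c) : Even h := by
  by_contra hne
  have h1 := fix_inv_eq D.hZ D.hab D.hodd hx1 hx hh
  rw [if_neg hne] at h1
  exact (fix_eq_zero_iff.mp h1) c hc

theorem unique_fix {x : G} (hx1 : x ≠ 1) (hx : x * x = 1) {h : ℕ} (hh : Fintype.card Ω = h + 1) {c d : Ω}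
    (hc : x • c = c) (hd : x • d = d) : d = c := by
  classical
  have h1 := fix_inv_eq D.hZ D.hab D.hodd hx1 hx hh
  rw [if_pos (D.even_of_fix hx1 hx hh hc)] at h1
  obtain ⟨m, hm⟩ := Finset.card_eq_one.mp h1
  have h2 : c ∈ (Finset.univ.filter fun c : Ω => x • c = c) := Finset.mem_filter.mpr ⟨Finset.mem_univ _, hc⟩
  have h3 : d ∈ (Finset.univ.filter fun c : Ω => x • c = c) := Finset.mem_filter.mpr ⟨Finset.mem_univ _, hd⟩
  rw [hm, Finset.mem_singleton] at h2 h3
  rw [h2, h3]

/-- The order of the centralizer of an involution fixing a point. -/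
theorem card_centralizer_inv [IsSimpleGroup G] {x : G} (hx1 : x ≠ 1) (hx : x * x = 1) {h : ℕ}
    (hh : Fintype.card Ω = h + 1) (he : Even h) :
    Nat.card (Subgroup.centralizer ({x} : Set G)) = h := by
  classical
  have h1 := card_conj_mul_card_centralizer x
  have hconj : ∀ y : G, IsConj x y ↔ orderOf y = 2 := by
    intro y
    constructor
    · intro hxy
      have hox : orderOf x = 2 := orderOf_eq_prime (by rw [pow_two]; exact hx) hx1
      obtain ⟨c, rfl⟩ := isConj_iff.mp hxy
      rw [← MulAut.conj_apply, MulEquiv.orderOf_eq, hox]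
    · intro hy
      have hyy : y * y = 1 := by
        rw [← pow_two, ← hy]
        exact pow_orderOf_eq_one y
      have hy1 : y ≠ 1 := by
        rintro rfl
        simp at hy
      exact (inv_isConj D.hZ D.hab D.hodd D.ht3 D.hta D.htb hx hx1).trans
        (inv_isConj D.hZ D.hab D.hodd D.ht3 D.hta D.htb hyy hy1).symm
  have h2 : Nat.card {y : G // IsConj x y} = Nat.card {y : G // orderOf y = 2} :=
    Nat.card_congr (Equiv.subtypeEquivRight hconj)
  have h3 := card_inv D.hZ D.hab D.hodd D.ht3 D.hta D.htb D.hfree hh rfl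
  rw [if_pos he] at h3
  rw [h2, h3, D.card_G] at h1
  have h4 : Nat.card D.H = h := by
    have := D.hHcard
    omega
  rw [h4, hh] at h1
  have hE : 0 < Nat.card D.E := Nat.card_pos
  have h5 : 0 < Nat.card D.E * (h + 1) := by positivity
  apply Nat.eq_of_mul_eq_mul_left h5
  rw [h1]
  ring

/-- The centralizer of an involution fixing `a` lies in the kernel. -/
theorem centralizer_le_kernel {x : G} (hx1 : x ≠ 1) (hx : x * x = 1) {h : ℕ}
    (hh : Fintype.card Ω = h + 1) (hxa : x • D.a = D.a) {g : G} (hg : g * x = x * g) : g ∈ D.H := by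
  have hga : g • D.a = D.a := by
    apply D.unique_fix hx1 hx hh hxa
    rw [← mul_smul, ← hg, mul_smul, hxa]
  by_contra hgH
  have : ∃ c : Ω, g • c = c ∧ c ≠ D.a := by
    by_contra hcon
    push Not at hcon
    exact hgH (mem_kernel_of_fpf D.hZ D.hHcard D.hHa D.hHfix hga hcon)
  obtain ⟨c, hc, hca⟩ := this
  have h1 : x • c ≠ c := fun h2 => hca (D.unique_fix hx1 hx hh hxa h2)
  have h2 : x • c ≠ D.a := by
    intro h3
    apply hca
    have : x • c = x • D.a := by rw [h3, hxa]
    exact smul_left_cancel _ this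
  have h3 : g • (x • c) = x • c := by
    rw [← mul_smul, hg, mul_smul, hc]
  have hg1 : g = 1 := eq_one_of_three D.hZ hca.symm h1.symm h2.symm hga hc h3
  rw [hg1] at hgH
  exact hgH D.H.one_mem

/-- An element of the kernel which is a product of two involutions is an involution. -/
theorem order_two [IsSimpleGroup G] {h : ℕ} (hh : Fintype.card Ω = h + 1) {x y u : G}
    (hx : orderOf x = 2) (hy : orderOf y = 2) (hxy : x * y = u) (hu : u ∈ D.H) (hu1 : u ≠ 1) :
    orderOf u = 2 := by
  have hxx : x * x = 1 := by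
    rw [← pow_two, ← hx]
    exact pow_orderOf_eq_one x
  have hyy : y * y = 1 := by
    rw [← pow_two, ← hy]
    exact pow_orderOf_eq_one y
  have hx1 : x ≠ 1 := by
    rintro rfl
    simp at hx
  have hy1 : y ≠ 1 := by
    rintro rfl
    simp at hy
  obtain ⟨hxa, hya⟩ := D.inv_prod_fix hxx hyy hxy hu hu1
  have he := D.even_of_fix hx1 hxx hh hxa
  have hyH : y ∈ D.H := mem_kernel_of_fpf D.hZ D.hHcard D.hHa D.hHfix hya
    (fun c hc => D.unique_fix hy1 hyy hh hya hc)
  have hcard := D.card_centralizer_inv hx1 hxx hh he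
  have hle : Subgroup.centralizer ({x} : Set G) ≤ D.H := by
    intro g hg
    rw [Subgroup.mem_centralizer_singleton_iff] at hg
    exact D.centralizer_le_kernel hx1 hxx hh hxa hg
  have heq : Subgroup.centralizer ({x} : Set G) = D.H := by
    apply Subgroup.eq_of_le_of_card_ge hle
    rw [hcard]
    have := D.hHcard
    omega
  have hc : y ∈ Subgroup.centralizer ({x} : Set G) := by rw [heq]; exact hyH
  rw [Subgroup.mem_centralizer_singleton_iff] at hc
  have huu : u * u = 1 := by
    rw [← hxy]
    calc x * y * (x * y) = x * (y * x) * y := by group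
      _ = x * (x * y) * y := by rw [hc]
      _ = (x * x) * (y * y) := by group
      _ = 1 := by rw [hxx, hyy, one_mul]
  exact orderOf_eq_prime (by rw [pow_two]; exact huu) hu1

end KData

end Cfsg.Agent.Lib.Char.Zass
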